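/-
Aschbacher's theorem, file 15: orthogonal frames, self-adjoint fields, and the odd-dimensional orthogonal groups.
-/
import Cfsg.Agent.Cls.AschCase

set_option autoImplicit false

namespace CL.Asch

open Matrix Cfsg Cfsg.Geo
open scoped MatrixGroups Kronecker

variable {ι : Type} [Fintype ι] [DecidableEq ι] {F : Type*} [Field F]

theorem trace_idem {e : Matrix ι ι F} (he : e * e = e) : e.trace = Module.finrank F (rng e) := by
  rw [← Matrix.trace_toLin'_eq]
  exact LinearMap.IsProj.trace ⟨fun v => mulVec_mem_rng e v, fun v hv => (mem_rng_idem he).mp hv⟩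

theorem exists_smul_of_rank_one {e x : Matrix ι ι F} (hrk : Module.finrank F (rng e) = 1) (hx : x * e = e * x) :
    ∃ c : F, x * e = c • e := by
  obtain ⟨v, -, hv⟩ := finrank_eq_one_iff'.mp hrk
  obtain ⟨u, hu⟩ := v.2
  obtain ⟨c, hc⟩ := hv ⟨x *ᵥ v, x *ᵥ u, by
    rw [← hu, toLin'_apply, toLin'_apply, mulVec_mulVec, mulVec_mulVec, hx]⟩
  refine ⟨c, matrix_ext_mulVec fun w => ?_⟩
  obtain ⟨d, hd⟩ := hv ⟨_, mulVec_mem_rng e w⟩
  have h1 : c • (v : ι → F) = x *ᵥ v := congrArg Subtype.val hc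
  have h2 : d • (v : ι → F) = e *ᵥ w := congrArg Subtype.val hd
  rw [← mulVec_mulVec, smul_mulVec, ← h2, mulVec_smul, ← h1, smul_comm]

theorem subfield_bot_ne_top [Fintype F] (h : ¬ (Fintype.card F).Prime) : (⊥ : Subfield F) ≠ ⊤ := fun e => by
  obtain ⟨p, hp', -, hp, -⟩ := FiniteField.card' F
  have := Fact.mk hp
  have h1 := Subfield.card_bot F p
  rw [e, Nat.card_congr Subfield.topEquiv.toEquiv, Nat.card_eq_fintype_card] at h1
  exact h (h1 ▸ hp)

namespace IsSesq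

variable {ε : F} {b : (ι → F) → (ι → F) → F} {H : Subgroup (GL ι F)}

/-- The stabiliser of an orthogonal frame is absolutely irreducible with traces in the prime field. -/
theorem exists_frame_group [Finite F] (hb : IsSesq (RingHom.id F) ε b) (h2 : (2 : F) ≠ 0) (hH : Irr H)
    (hI : ∀ h ∈ H, Isom b h) {E : Finset (Matrix ι ι F)} (hE : IdemSys H E)
    (hτ : ∀ e ∈ E, adj (RingHom.id F) b e = e) (hrk : ∀ e ∈ E, Module.finrank F (rng e) = 1) :
    ∃ L : Subgroup (GL ι F), spanAlg L = ⊤ ∧ (∀ l ∈ L, Isom b l) ∧ H ≤ L ∧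
      ∀ l ∈ L, (l : Matrix ι ι F).trace ∈ (⊥ : Subfield F) := by
  let L : Subgroup (GL ι F) :=
    { carrier := {g | Isom b g ∧ ∀ x, x ∈ E ↔ conjAlg g x ∈ E}
      one_mem' := ⟨Isom.one b, fun x => by rw [conjAlg_one]⟩
      mul_mem' := fun {g h} hg hh => ⟨hg.1.mul hh.1, fun x => by rw [conjAlg_mul, ← hg.2, ← hh.2]⟩
      inv_mem' := fun {g} hg => ⟨hg.1.inv, fun x => by rw [hg.2 (conjAlg g⁻¹ x), conjAlg_conjAlg_inv]⟩ }
  have hHL : H ≤ L := fun h hh => ⟨hI h hh, fun x => ⟨hE.conj h hh x, fun hx => by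
    simpa only [conjAlg_inv_conjAlg] using hE.conj _ (H.inv_mem hh) _ hx⟩⟩
  have hcomm : ∀ e ∈ E, ∀ x ∈ E, e * x = x * e := fun e he x hx => by
    by_cases h : e = x
    · rw [h]
    · rw [hE.orth e he x hx h, hE.orth x hx e he (Ne.symm h)]
  refine ⟨L, spanAlg_eq_top_of_absIrr ⟨hH.mono hHL, fun M hM => ?_⟩, fun l hl => hl.1, hHL, fun l hl => ?_⟩
  · obtain ⟨e, he⟩ := hE.nonempty
    have hsq : (1 - (2 : F) • e) * (1 - (2 : F) • e) = 1 := by
      simp only [Matrix.sub_mul, Matrix.mul_sub, Matrix.one_mul, Matrix.mul_one, Matrix.smul_mul, Matrix.mul_smul,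
        hE.idem e he]
      module
    let r : GL ι F := ⟨_, _, hsq, hsq⟩
    have hr : ∀ x ∈ E, conjAlg r x = x := fun x hx => by
      change (1 - (2 : F) • e) * x * (1 - (2 : F) • e) = x
      rw [show (1 - (2 : F) • e) * x = x * (1 - (2 : F) • e) by
        rw [Matrix.sub_mul, Matrix.mul_sub, Matrix.smul_mul, Matrix.mul_smul, hcomm e he x hx]; simp,
        Matrix.mul_assoc, hsq, Matrix.mul_one]
    have hrL : r ∈ L := ⟨hb.isom_of_adj (by
      change adj _ b (1 - (2 : F) • e) = 1 - (2 : F) • e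
      rw [hb.adj_sub, hb.adj_one, hb.adj_smul, hτ e he, RingHom.id_apply]), fun x => ⟨fun hx => (hr x hx).symm ▸ hx,
        fun hx => by rwa [← conjAlg_inv_conjAlg r x, show r⁻¹ = r from rfl, hr _ hx]⟩⟩
    have h1 : M * (1 - (2 : F) • e) = (1 - (2 : F) • e) * M := hM _ (coe_mem_matrixSet hrL)
    rw [Matrix.sub_mul, Matrix.mul_sub, Matrix.smul_mul, Matrix.mul_smul, Matrix.mul_one, Matrix.one_mul,
      sub_right_inj] at h1
    obtain ⟨c, hc⟩ := exists_smul_of_rank_one (hrk e he) (smul_right_injective _ h2 h1)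
    obtain ⟨u, hu⟩ := exists_mulVec_ne_zero (hE.ne_zero e he)
    refine ⟨c, sub_eq_zero.mp (hH.eq_zero_of_kills (J := {M - c • 1}) ?_ hu ?_ _ rfl)⟩
    · rintro h hh _ rfl
      rw [map_sub, map_smul, map_one, conjAlg_apply, ← hM _ (coe_mem_matrixSet (hHL hh)), Matrix.mul_assoc,
        gl_mul_inv, Matrix.mul_one]
      rfl
    · rintro _ rfl
      rw [mulVec_mulVec, Matrix.sub_mul, hc, Matrix.smul_mul, Matrix.one_mul, sub_self, zero_mulVec]
  · rw [← Matrix.mul_one (l : Matrix ι ι F), ← hE.sum_eq_one hH, Finset.mul_sum, trace_sum]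
    refine sum_mem fun e he => ?_
    have h1 : (l : Matrix ι ι F) * e = conjAlg l e * l := by
      rw [conjAlg_apply, Matrix.mul_assoc, gl_inv_mul, Matrix.mul_one]
    by_cases h : conjAlg l e = e
    · obtain ⟨c, hc⟩ := exists_smul_of_rank_one (hrk e he) (h1.trans (by rw [h]))
      have h3 : adj (RingHom.id F) b ((l : Matrix ι ι F) * e) * ((l : Matrix ι ι F) * e) = e := by
        rw [hb.adj_mul, hb.adj_isom hl.1, hτ e he, Matrix.mul_assoc, ← Matrix.mul_assoc _ (l : Matrix ι ι F),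
          gl_inv_mul, Matrix.one_mul, hE.idem e he]
      rw [hc, hb.adj_smul, hτ e he, RingHom.id_apply, Matrix.smul_mul, Matrix.mul_smul, smul_smul, hE.idem e he] at h3
      have h4 : c * c = 1 := smul_left_injective F (hE.ne_zero e he) (h3.trans (one_smul F e).symm)
      rw [hc, trace_smul, trace_idem (hE.idem e he), smul_eq_mul]
      refine mul_mem ?_ (natCast_mem _ _)
      rcases mul_self_eq_one_iff.mp h4 with rfl | rfl
      · exact one_mem _
      · exact neg_mem (one_mem _)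
    · rw [← hE.idem e he, ← Matrix.mul_assoc, h1, trace_mul_comm, ← Matrix.mul_assoc,
        hE.orth e he _ ((hl.2 e).mp he) (Ne.symm h), Matrix.zero_mul, trace_zero]
      exact zero_mem _

/-- An adjoint-closed field of odd degree is self-adjoint. -/
theorem adj_eq_of_odd [Finite F] [Nonempty ι] (hb : IsSesq (RingHom.id F) ε b) {K : Subalgebra F (Matrix ι ι F)}
    (hK : IsFld K) (hτ : ∀ x ∈ K, adj (RingHom.id F) b x ∈ K) (hodd : Odd (Module.finrank F K)) :
    ∀ x ∈ K, adj (RingHom.id F) b x = x := by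
  let _ : Field K := hK.isField.toField
  have : Finite K := Module.finite_of_finite F
  let τ : K →ₐ[F] K :=
    { toFun := fun x => ⟨adj (RingHom.id F) b x, hτ x x.2⟩
      map_one' := Subtype.ext hb.adj_one
      map_mul' := fun x y => Subtype.ext ((hb.adj_mul _ _).trans (hK.comm _ (hτ y y.2) _ (hτ x x.2)))
      map_zero' := Subtype.ext hb.adj_zero
      map_add' := fun x y => Subtype.ext (hb.adj_add _ _)
      commutes' := fun c => Subtype.ext (by
        change adj _ b (algebraMap F _ c) = algebraMap F _ c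
        rw [Algebra.algebraMap_eq_smul_one, hb.adj_smul_one, RingHom.id_apply]) }
  have hττ : τ.comp τ = AlgHom.id F K := AlgHom.ext fun x => Subtype.ext (hb.adj_adj x)
  let τ' : K ≃ₐ[F] K := AlgEquiv.ofAlgHom τ τ hττ hττ
  have h1 : τ' ^ 2 = 1 := AlgEquiv.ext fun x => Subtype.ext (hb.adj_adj x)
  have h2 : τ' ^ Module.finrank F K = 1 := by rw [← IsGalois.card_aut_eq_finrank, pow_card_eq_one']
  obtain ⟨k, hk⟩ := hodd
  rw [hk, pow_succ, pow_mul, h1, one_pow, one_mul] at h2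
  exact fun x hx => congrArg Subtype.val (AlgEquiv.congr_fun h2 ⟨x, hx⟩)

/-- An abelian group of isometries in odd dimension is reducible. -/
theorem not_irr_of_comm [Finite F] (hb : IsSesq (RingHom.id F) ε b) (hodd : Odd (Fintype.card ι))
    (hn : 2 ≤ Fintype.card ι) (hI : ∀ h ∈ H, Isom b h) (hc : ∀ x ∈ H, ∀ y ∈ H, x * y = y * x) : ¬ Irr H := by
  intro hH
  have : Nonempty ι := Fintype.card_pos_iff.mp (by omega)
  have hcomm := spanAlg_comm hc
  rcases hH.comm_dichotomy (normalizes_spanAlg fun h hh l hl => mul_mem (mul_mem hh hl) (inv_mem hh)) hcomm with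
    h | ⟨E, hE, h2, hmem⟩
  · have hK : IsFld (spanAlg H) := ⟨hcomm, h⟩
    refine hH.not_le_scalars hn fun g hg => ?_
    have h1 := hb.adj_eq_of_odd hK (fun x => hb.adj_mem_spanAlg hI) (hodd.of_dvd_nat hK.finrank_dvd) _
      (coe_mem_spanAlg hg)
    rw [hb.adj_isom (hI g hg)] at h1
    have h3 : ((g : Matrix ι ι F) - 1) * ((g : Matrix ι ι F) + 1) = 0 := by
      rw [Matrix.sub_mul, Matrix.mul_add, Matrix.one_mul, Matrix.mul_one]
      nth_rewrite 2 [← h1]
      rw [gl_mul_inv, add_comm, sub_self]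
    rcases hK.eq_zero_or (sub_mem (coe_mem_spanAlg hg) (one_mem _)) h3 with h | h
    · exact mem_scalars_of_eq_smul (c := 1) (by rw [one_smul]; exact sub_eq_zero.mp h)
    · exact mem_scalars_of_eq_smul (c := -1) (by rw [neg_smul, one_smul]; exact eq_neg_of_add_eq_zero_left h)
  · have h1 : ∀ e ∈ E, e = 1 := fun e he => hH.idem_eq_one (hE.idem e he) (hE.ne_zero e he) fun h hh => by
      rw [conjAlg_apply, hcomm _ (coe_mem_spanAlg hh) _ ((hmem e).mp he).1, Matrix.mul_assoc, gl_mul_inv,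
        Matrix.mul_one]
    have := Finset.card_le_one.mpr fun a ha c hc => (h1 a ha).trans (h1 c hc).symm
    omega

/-- In odd dimension a normalised self-adjoint field does not have full degree. -/
theorem finrank_ne_card [Finite F] (hb : IsSesq (RingHom.id F) ε b) (h2 : (2 : F) ≠ 0) (hodd : Odd (Fintype.card ι))
    (hn : 2 ≤ Fintype.card ι) (hH : Irr H) (hI : ∀ h ∈ H, Isom b h) {K : Subalgebra F (Matrix ι ι F)} (hK : IsFld K)
    (hN : H ≤ subalgebraNormalizer K) (hfix : ∀ x ∈ K, adj (RingHom.id F) b x = x) :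
    Module.finrank F K ≠ Fintype.card ι := by
  intro hd
  have hne : Nonempty ι := Fintype.card_pos_iff.mp (by omega)
  obtain ⟨i⟩ := hne
  have hne : Nonempty ι := ⟨i⟩
  have hcen : ∀ x : Matrix ι ι F, (∀ k ∈ K, x * k = k * x) → x ∈ K := by
    intro x hx
    let T : K →ₗ[F] (ι → F) :=
      { toFun := fun k => (k : Matrix ι ι F) *ᵥ Pi.single i 1
        map_add' := fun _ _ => add_mulVec _ _ _
        map_smul' := fun _ _ => smul_mulVec _ _ _ }
    have hT : Function.Surjective T :=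
      (LinearMap.injective_iff_surjective_of_finrank_eq_finrank (by simpa using hd)).mp
        ((injective_iff_map_eq_zero T).mpr fun k hk =>
          Subtype.ext ((hK.mulVec_eq_zero k.2 hk).resolve_right (by simp)))
    obtain ⟨k, hk⟩ := hT (x *ᵥ Pi.single i 1)
    rw [show x = k from matrix_ext_mulVec fun v => by
      obtain ⟨k', rfl⟩ := hT v
      change x *ᵥ ((k' : Matrix ι ι F) *ᵥ _) = (k : Matrix ι ι F) *ᵥ ((k' : Matrix ι ι F) *ᵥ _)
      rw [mulVec_mulVec, mulVec_mulVec, hx _ k'.2, hK.comm _ k.2 _ k'.2, ← mulVec_mulVec, ← mulVec_mulVec, ← hk]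
      rfl]
    exact k.2
  have hgen : ∃ g : Matrix ι ι F, g ∈ K ∧ g ≠ 0 ∧ ∀ x ∈ K, x ≠ 0 → ∃ j : ℕ, g ^ j = x := by
    let _ : Field K := hK.isField.toField
    have : Finite K := Module.finite_of_finite F
    obtain ⟨g, hg⟩ := IsCyclic.exists_monoid_generator (α := Kˣ)
    refine ⟨(g : K), (g : K).2, fun h => g.ne_zero (Subtype.ext h), fun x hx h0 => ?_⟩
    obtain ⟨j, hj⟩ := hg (Units.mk0 ⟨x, hx⟩ fun h => h0 (congrArg Subtype.val h))
    exact ⟨j, congrArg (fun u : Kˣ => ((u : K) : Matrix ι ι F)) hj⟩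
  obtain ⟨g, hgK, hg0, hg⟩ := hgen
  refine hb.not_irr_of_comm hodd hn hI (fun x hx y hy => ?_) hH
  have hxy : ∀ k ∈ K, conjAlg (x * y) k = conjAlg (y * x) k := fun k hk => by
    by_cases h0 : k = 0
    · rw [h0, map_zero, map_zero]
    obtain ⟨j, rfl⟩ := hg k hk h0
    obtain ⟨a, ha⟩ := hg (conjAlg x g) (conj_mem_of_normalizes hN hx hgK) (by simpa using hg0)
    obtain ⟨c, hc⟩ := hg (conjAlg y g) (conj_mem_of_normalizes hN hy hgK) (by simpa using hg0)
    rw [map_pow, map_pow, conjAlg_mul, conjAlg_mul, ← ha, ← hc, map_pow, map_pow, ← ha, ← hc, ← pow_mul g a, ← pow_mul g c,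
      mul_comm a]
  have hcH : (y * x)⁻¹ * (x * y) ∈ H := mul_mem (inv_mem (mul_mem hy hx)) (mul_mem hx hy)
  have hdet : (((y * x)⁻¹ * (x * y) : GL ι F) : Matrix ι ι F).det = 1 := by
    rw [← Matrix.GeneralLinearGroup.val_det_apply, map_mul, map_inv, map_mul, map_mul, mul_comm (Matrix.GeneralLinearGroup.det y),
      inv_mul_cancel, Units.val_one]
  rw [eq_comm, ← inv_mul_eq_one]
  generalize hc : (y * x)⁻¹ * (x * y) = c at hcH hdet
  have hcK : (c : Matrix ι ι F) ∈ K := hcen _ fun k hk =>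
    (comm_of_conjAlg_eq (by rw [← hc, conjAlg_mul, hxy k hk, conjAlg_inv_conjAlg])).symm
  have h1 := hfix _ hcK
  rw [hb.adj_isom (hI c hcH)] at h1
  have h3 : ((c : Matrix ι ι F) - 1) * ((c : Matrix ι ι F) + 1) = 0 := by
    rw [Matrix.sub_mul, Matrix.mul_add, Matrix.one_mul, Matrix.mul_one]
    nth_rewrite 2 [← h1]
    rw [gl_mul_inv, add_comm, sub_self]
  rcases hK.eq_zero_or (sub_mem hcK (one_mem _)) h3 with h | h
  · exact Units.ext (sub_eq_zero.mp h)
  · rw [eq_neg_of_add_eq_zero_left h, det_neg, hodd.neg_one_pow, det_one] at hdet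
    exact absurd (by linear_combination -hdet) h2

omit [DecidableEq ι] in
theorem eps_eq_one_of_odd (hb : IsSesq (RingHom.id F) ε b) (h2 : (2 : F) ≠ 0) (hodd : Odd (Fintype.card ι))
    (hε : ε = 1 ∨ (ε = -1 ∧ RingHom.id F = RingHom.id F)) : ε = 1 := by
  rcases hε with rfl | ⟨rfl, -⟩
  · rfl
  · exact absurd (hb.even_card (hb.alt_of_skew h2)) (Nat.not_even_iff_odd.mpr hodd)

end IsSesq

theorem det_mem_subfield {F₀ : Subfield F} {M : Matrix ι ι F} (h : ∀ i j, M i j ∈ F₀) : M.det ∈ F₀ := by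
  rw [det_apply']
  exact sum_mem fun σ _ => mul_mem (intCast_mem _ _) (prod_mem fun i _ => h _ _)

section Odd

variable [Fintype F] {m : ℕ} {H : Subgroup (GL (Unit ⊕ (Fin m ⊕ Fin m)) F)}

/-- The standing assumptions in the odd-dimensional orthogonal case. -/
structure OddData (m : ℕ) (H : Subgroup (GL (Unit ⊕ (Fin m ⊕ Fin m)) F)) : Prop where
  two_ne : (2 : F) ≠ 0
  pos : 0 < m
  le : H ≤ isometryGroup F (quadFormOdd m F)

namespace OddData

omit [Fintype F] in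
theorem quad (h : OddData m H) : IsNondegenerateQuadraticForm (quadFormOdd m F) := isQuad_quadFormOdd m h.two_ne

omit [Fintype F] in
theorem sesq (h : OddData m H) : IsSesq (RingHom.id F) 1 (QuadraticMap.polar (quadFormOdd m F)) := isSesq_polar h.quad

omit [Fintype F] in
theorem isom (h : OddData m H) : ∀ g ∈ H, Isom (QuadraticMap.polar (quadFormOdd m F)) g := fun _ hg =>
  isom_polar_of_quad (mem_isometryGroup_iff.mp (h.le hg))

theorem card_eq (m : ℕ) : Fintype.card (Unit ⊕ (Fin m ⊕ Fin m)) = 2 * m + 1 := by simp; omega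

theorem odd_card (m : ℕ) : Odd (Fintype.card (Unit ⊕ (Fin m ⊕ Fin m))) := ⟨m, card_eq m⟩

omit [Fintype F] in
theorem two_le (h : OddData m H) : 2 ≤ Fintype.card (Unit ⊕ (Fin m ⊕ Fin m)) := by
  have := h.pos
  rw [card_eq]; omega

theorem of_subfield (h : OddData m H) {L : Subgroup (GL (Unit ⊕ (Fin m ⊕ Fin m)) F)} (hL : spanAlg L = ⊤)
    (hI : ∀ l ∈ L, Isom (QuadraticMap.polar (quadFormOdd m F)) l) (hN : ∀ h ∈ H, ∀ l ∈ L, h * l * h⁻¹ ∈ L)
    {F₁ : Subfield F} (h1 : F₁ ≠ ⊤)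
    (htr : ∀ l ∈ L, (l : Matrix (Unit ⊕ (Fin m ⊕ Fin m)) (Unit ⊕ (Fin m ⊕ Fin m)) F).trace ∈ F₁) :
    ∃ M, InOrthogonalOddClass m F M ∧ H ≤ M := by
  obtain ⟨F₀, r, P, ζ, hr, hc, -, hrat, hle, hζ⟩ := exists_subfield_quad h.quad h.two_le hL
    (fun l hl => quad_of_isom_polar h.quad h.two_ne (hI l hl)) h1 htr hN
  have hs : ∀ a c : Unit ⊕ (Fin m ⊕ Fin m), (Pi.single a (1 : F) : Unit ⊕ (Fin m ⊕ Fin m) → F) c ∈ F₀ := fun a c => by
    rw [Pi.single_apply]
    split_ifs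
    exacts [one_mem _, zero_mem _]
  obtain rfl := hζ (odd_card m) (det_mem_subfield fun a c => by
    rw [gramMatrix, polar_quadFormOdd]
    exact add_mem (mul_mem (mul_mem (ofNat_mem _ 2) (hs _ _)) (hs _ _))
      (sum_mem fun i _ => add_mem (mul_mem (hs _ _) (hs _ _)) (mul_mem (hs _ _) (hs _ _))))
  refine ⟨_, ?_, le_inf hle h.le⟩
  iterate 6 right
  exact Or.inl ⟨F₀, r, P, hr, hc, fun u hu => by simpa using hrat u hu, rfl⟩

theorem of_idem (h : OddData m H) (hirr : Irr H)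
    {E : Finset (Matrix (Unit ⊕ (Fin m ⊕ Fin m)) (Unit ⊕ (Fin m ⊕ Fin m)) F)} (hE : IdemSys H E) (h2 : 2 ≤ E.card)
    (hτ : ∀ e ∈ E, adj (RingHom.id F) (QuadraticMap.polar (quadFormOdd m F)) e = e) :
    ∃ M, InOrthogonalOddClass m F M ∧ H ≤ M := by
  obtain ⟨k, D, hD, hle, -, htr, -, hmem⟩ := h.sesq.exists_nondegDecomp hirr hE h2 hτ
  have hO : IsOrthogonalMDecomposition (quadFormOdd m F) k D := ⟨hD, fun i j => by
    obtain ⟨g, hg, e⟩ := htr i j
    exact areIsometricFor_of_map (mem_isometryGroup_iff.mp (h.le hg)) e⟩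
  by_cases hk : 1 < k
  · exact ⟨_, Or.inr (Or.inr (Or.inl ⟨_, k, D, hk, hO, rfl⟩)), le_inf hle h.le⟩
  obtain rfl : k = 1 := by have := hD.decomp.pos; omega
  by_cases hp : (Fintype.card F).Prime
  · exact ⟨_, Or.inr (Or.inr (Or.inr (Or.inl ⟨_, D, hp, hO, rfl⟩))), le_inf hle h.le⟩
  obtain ⟨L, h1, h3, h4, h5⟩ := h.sesq.exists_frame_group h.two_ne hirr h.isom hE hτ fun e he => by
    obtain ⟨i, hi⟩ := hmem e he
    rw [← hi, hD.decomp.finrank_eq]
  exact h.of_subfield h1 h3 (fun g hg l hl => mul_mem (mul_mem (h4 hg) hl) (inv_mem (h4 hg)))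
    (subfield_bot_ne_top hp) h5

theorem of_comm (h : OddData m H) (hirr : Irr H)
    {C : Subalgebra F (Matrix (Unit ⊕ (Fin m ⊕ Fin m)) (Unit ⊕ (Fin m ⊕ Fin m)) F)}
    (hC : H ≤ subalgebraNormalizer C) (hcomm : ∀ x ∈ C, ∀ y ∈ C, x * y = y * x) (hne : ¬ C ≤ ⊥)
    (hτ : ∀ x ∈ C, adj (RingHom.id F) (QuadraticMap.polar (quadFormOdd m F)) x ∈ C) :
    ∃ M, InOrthogonalOddClass m F M ∧ H ≤ M := by
  have hS := le_sim_of_isom h.isom
  rcases h.sesq.comm_cases hirr hS hC hcomm hτ with hK | ⟨E, hE, h2, hE'⟩ | ⟨E, hE, h2, -, hE'⟩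
  · rcases h.sesq.field_cases hS hK hne hC hτ with ⟨r, K, hr, hK₀, -, hN, hfix⟩ | ⟨hK2, -⟩
    · refine ⟨_, ?_, le_inf hN h.le⟩
      iterate 4 right
      refine Or.inl ⟨r, K, hr, ?_, hK₀, h.sesq.isSelfAdjointFor.mpr hfix, rfl⟩
      rw [← card_eq, ← hK₀.finrank_eq]
      exact (h.sesq.finrank_ne_card h.two_ne (odd_card m) h.two_le hirr h.isom (isFld_of hK₀) hN hfix).symm
    · have := hK.finrank_dvd
      rw [hK2.finrank_eq, card_eq] at this
      omega
  · exact h.of_idem hirr hE h2 hE'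
  · obtain ⟨k, D, -, hk, -⟩ := h.sesq.exists_singularPair hirr hE h2 hE'
    rw [card_eq] at hk
    omega

theorem main (h : OddData m H) : (∃ M, InOrthogonalOddClass m F M ∧ H ≤ M) ∨ InOrthogonalResidualClass H := by
  have hb := h.sesq
  have hS := le_sim_of_isom h.isom
  by_cases hirr : Irr H
  swap
  · obtain ⟨W, h0, h1, hW, -, h2 | h2⟩ := hb.reducible_cases hS hirr
    · refine Or.inl ⟨_, Or.inl ⟨W, h0, fun w hw => ?_, rfl⟩, le_inf hW h.le⟩
      exact (mul_eq_zero.mp ((quad_polar_self h.quad w).symm.trans (h2 w hw w hw))).resolve_left h.two_ne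
    · exact Or.inl ⟨_, Or.inr (Or.inl ⟨W, h0, h1, h2, rfl⟩), le_inf hW h.le⟩
  rcases hb.form_cases h.two_le hirr h.isom with ⟨C, hC, hcomm, hne, hτ⟩ |
    ⟨k, l, e, P, φ, ψ, ε₁, ε₂, f₁, f₂, hk, hl, hT⟩ | ⟨r, R, hI, hR⟩ | ⟨t, k, P, φ, ht, hk, hT⟩ | ⟨P, hP⟩
  · exact Or.inl (h.of_comm hirr hC hcomm hne hτ)
  · left
    obtain ⟨hk', hl'⟩ := Nat.odd_mul.mp (TensorPair.card_eq e ▸ odd_card m)
    obtain rfl := hT.sesqL.eps_eq_one_of_odd h.two_ne (by simpa using hk') hT.epsL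
    obtain rfl := hT.sesqR.eps_eq_one_of_odd h.two_ne (by simpa using hl') hT.epsR
    have hk3 : 3 ≤ k := by obtain ⟨s, hs⟩ := hk'; omega
    have hl3 : 3 ≤ l := by obtain ⟨s, hs⟩ := hl'; omega
    rcases lt_trichotomy k l with hkl | rfl | hkl
    · refine ⟨_, ?_, le_inf hT.le h.le⟩
      iterate 5 right
      exact Or.inl ⟨k, l, e, P, f₁, f₂, hk3, hkl, hT.sesqL.isSymmetricForm, hT.sesqR.isSymmetricForm, hT.form, rfl⟩
    · by_cases h3 : Fintype.card F = 3 ∧ k = 3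
      · obtain ⟨h3, rfl⟩ := h3
        obtain ⟨E, hE, hc, hτ⟩ := exists_frame_O3_three (by rw [Nat.card_eq_fintype_card, h3]) hT.sesqL
        refine h.of_idem hirr ((hE.mono (indGrp_le_similarityGroup hb hT.sesqL hT.adjL hS)).map hT.normL)
          (by rw [Finset.card_map, hc]; omega) fun x hx => ?_
        obtain ⟨y, hy, rfl⟩ := Finset.mem_map.mp hx
        exact (hT.adjL y).trans (congrArg φ (hτ y hy))
      · obtain ⟨g, c, hc, hg⟩ := similar_of_symm_odd h.two_ne (by simpa using hk') hT.sesqL hT.sesqR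
        obtain ⟨e', P', h4, h5⟩ := exists_tensorSquare hT.sesqL hT.sesqR e P hT.form g c hc hg
        refine ⟨_, ?_, le_inf (hT.le.trans h5) h.le⟩
        iterate 7 right
        exact ⟨k, 2, e', P', f₁, hk3, le_rfl, h3, hT.sesqL.isSymmetricForm, h4, rfl⟩
    · refine ⟨_, ?_, le_inf hT.swap.le h.le⟩
      iterate 5 right
      exact Or.inl ⟨l, k, _, P, f₂, f₁, hl3, hkl, hT.sesqR.isSymmetricForm, hT.sesqL.isSymmetricForm, hT.swap.form, rfl⟩
  · obtain ⟨rfl, -⟩ := hR.two_of_bilinear hb hI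
    obtain ⟨k, hk, hd, -⟩ := hR.dim
    have := (Nat.odd_pow_iff (by omega)).mp (hd ▸ odd_card m)
    contradiction
  · left
    have hk' : Odd k := (Nat.odd_pow_iff (by omega)).mp (hT.card_eq (by omega) ▸ odd_card m)
    obtain ⟨e, Q, ε₁, f₁, h1, h3, -, h5, hle⟩ := hT.exists_power hb h.isom (by omega) (by omega)
    obtain rfl := h1.eps_eq_one_of_odd h.two_ne (by simpa using hk') h3
    refine ⟨_, ?_, le_inf hle h.le⟩
    iterate 7 right
    refine ⟨k, t, e, Q, f₁, by obtain ⟨s, hs⟩ := hk'; omega, ht, ?_, h1.isSymmetricForm, h5, rfl⟩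
    rintro ⟨h4, rfl⟩
    obtain ⟨ε, f₂, L, h6, h7, hL, hL1, hL2⟩ := hT.exists_factor hb h.isom (by omega) hk
    obtain rfl := h6.eps_eq_one_of_odd h.two_ne (by simpa using hk') h7
    exact hL2 (perfect_eq_bot_O3_three (by rw [Nat.card_eq_fintype_card, h4]) h6 L hL hL1)
  · have hPI := fun l hl => h.isom l (hP.le hl)
    by_cases hgeo : ∃ M, InOrthogonalOddClass m F M ∧ H ≤ M
    · exact Or.inl hgeo
    refine Or.inr ⟨P, hP.isResidualCore fun F₀ h0 htr => hgeo (h.of_subfield hP.span hPI hP.normal h0 htr), ?_⟩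
    rintro ⟨σ, f, hf, hfix⟩
    exact hgeo (h.of_subfield hP.span hPI hP.normal (fixSub_ne_top (ne_id_of_unitary hf)) fun l hl =>
      trace_mem_fixSub (isSesq_of_unitary hf) hb (fixesForm_iff.mp hfix l hl) (hPI l hl))

end OddData

/-- Aschbacher's theorem for the odd-dimensional orthogonal groups. -/
theorem aschbacher_orthogonal_odd (hodd : Odd (Fintype.card F)) (hm : 0 < m)
    (H : Subgroup (GL (Unit ⊕ (Fin m ⊕ Fin m)) F)) (hH : H ≤ isometryGroup F (quadFormOdd m F)) :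
    (∃ M, InOrthogonalOddClass m F M ∧ H ≤ M) ∨ InOrthogonalResidualClass H :=
  OddData.main ⟨two_ne_zero_of_odd hodd, hm, hH⟩

end Odd

end CL.Asch
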