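/-
Fixed spaces of elements of primitive soluble linear groups.
-/
import Cfsg.Agent.Cls.AschCase

set_option autoImplicit false

namespace CL.Asch

open Matrix Cfsg Cfsg.Geo
open scoped MatrixGroups commutatorElement

/-- In a finite soluble group a short commutator in a non-trivial element lies in an abelian normal subgroup. -/
theorem exists_abelian_normal_commutator {G : Type*} [Group G] [Finite G] [Group.IsSolvable G] {g : G} (hg : g ≠ 1) :
    ∃ A : Subgroup G, A.Normal ∧ (∀ x ∈ A, ∀ y ∈ A, x * y = y * x) ∧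
      (g ∈ A ∨ (∃ x : G, ⁅x, g⁆ ∈ A ∧ ⁅x, g⁆ ≠ 1) ∨ ∃ x z : G, ⁅z, ⁅x, g⁆⁆ ∈ A ∧ ⁅z, ⁅x, g⁆⁆ ≠ 1) := by
  obtain ⟨A, ⟨hA, hAc⟩, hAm⟩ := exists_maximal_of_wellFoundedGT
    (fun A : Subgroup G => A.Normal ∧ ∀ x ∈ A, ∀ y ∈ A, x * y = y * x) ⟨⊥, inferInstance, by simp⟩
  obtain ⟨E, ⟨hE, hAE, hEC, hEE⟩, hEm⟩ := exists_maximal_of_wellFoundedGT
    (fun E : Subgroup G => E.Normal ∧ A ≤ E ∧ E ≤ Subgroup.centralizer A ∧ ⁅E, E⁆ ≤ A)
    ⟨A, hA, le_rfl, fun x hx y hy => hAc y hy x hx, Subgroup.commutator_le_left A A⟩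
  refine ⟨A, hA, hAc, ?_⟩
  by_contra hne
  push Not at hne
  obtain ⟨h1, h2, h3⟩ := hne
  have hZ : E ⊓ Subgroup.centralizer E ≤ A := hAm ⟨inferInstance, fun x hx y hy => hy.2 x hx.1⟩
    (le_inf hAE fun a ha x hx => (hEC hx a ha).symm)
  have hgD : g ∈ Subgroup.centralizer (E : Set G) := fun x hx => by
    have hy : ⁅x, g⁆ ∈ E := Subgroup.commutator_le_left E ⊤ (Subgroup.commutator_mem_commutator hx trivial)
    exact commutatorElement_eq_one_iff_mul_comm.mp (h2 x (hZ ⟨hy, fun z hz =>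
      commutatorElement_eq_one_iff_mul_comm.mp (h3 x z (hEE (Subgroup.commutator_mem_commutator hz hy)))⟩))
  obtain ⟨M, ⟨hM, hMD, hMA⟩, hMm⟩ := exists_minimal_of_wellFoundedLT
    (fun M : Subgroup G => M.Normal ∧ M ≤ Subgroup.centralizer E ∧ ¬ M ≤ A) ⟨_, inferInstance, le_rfl, fun h => h1 (h hgD)⟩
  have hMM : ⁅M, M⁆ ≤ A := by
    by_contra h
    exact (Group.IsSolvable.commutator_lt_of_ne_bot fun e : M = ⊥ => hMA (e.le.trans bot_le)).not_ge
      (hMm ⟨inferInstance, (Subgroup.commutator_le_left M M).trans hMD, h⟩ (Subgroup.commutator_le_left M M))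
  have hc : ∀ a ∈ E, ∀ b ∈ M, a * b = b * a := fun a ha b hb => hMD hb a ha
  refine hMA fun m hm => hZ ⟨hEm ⟨inferInstance, hAE.trans le_sup_left, sup_le hEC
    (hMD.trans (Subgroup.centralizer_le hAE)), Subgroup.commutator_le.mpr fun x hx y hy => ?_⟩ le_sup_left
    (Subgroup.mem_sup_right hm), hMD hm⟩
  obtain ⟨a, ha, b, hb, rfl⟩ := (mem_sup_of_comm hc).mp hx
  obtain ⟨c, hc', d, hd, rfl⟩ := (mem_sup_of_comm hc).mp hy
  let φ : E × M →* G := MonoidHom.noncommCoprod E.subtype M.subtype fun a b => hc a a.2 b b.2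
  have := map_commutatorElement φ (⟨a, ha⟩, ⟨b, hb⟩) (⟨c, hc'⟩, ⟨d, hd⟩)
  change ⁅a, c⁆ * ⁅b, d⁆ = ⁅a * b, c * d⁆ at this
  rw [← this]
  exact mul_mem (hEE (Subgroup.commutator_mem_commutator ha hc')) (hMM (Subgroup.commutator_mem_commutator hb hd))

variable {ι : Type} [Fintype ι] [DecidableEq ι] {F : Type*} [Field F]

/-- The fixed space of an invertible matrix. -/
abbrev fixSp (g : GL ι F) : Submodule F (ι → F) := Module.End.eigenspace (toLin' (g : Matrix ι ι F)) 1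

theorem mem_fixSp {g : GL ι F} {v : ι → F} : v ∈ fixSp g ↔ (g : Matrix ι ι F) *ᵥ v = v := by
  rw [Module.End.mem_eigenspace_iff, one_smul, toLin'_apply]

theorem finrank_fixSp_commutator (x g : GL ι F) :
    2 * Module.finrank F (fixSp g) ≤ Module.finrank F (fixSp ⁅x, g⁆) + Fintype.card ι := by
  have h1 : Module.finrank F ((fixSp g).map (toLin' (x : Matrix ι ι F))) = Module.finrank F (fixSp g) :=
    (Submodule.equivMapOfInjective _ (toLin'_gl_injective x) _).finrank_eq.symm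
  have h2 := Submodule.finrank_sup_add_finrank_inf_eq (fixSp g) ((fixSp g).map (toLin' (x : Matrix ι ι F)))
  have h3 : fixSp g ⊓ (fixSp g).map (toLin' (x : Matrix ι ι F)) ≤ fixSp ⁅x, g⁆ := by
    rintro _ ⟨hv, u, hu, rfl⟩
    rw [SetLike.mem_coe, mem_fixSp, toLin'_apply] at hv
    rw [SetLike.mem_coe, mem_fixSp] at hu
    rw [mem_fixSp, toLin'_apply, commutatorElement_def, Units.val_mul, Units.val_mul, Units.val_mul, ← mulVec_mulVec,
      ← mulVec_mulVec, ← mulVec_mulVec]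
    nth_rewrite 1 [← hv]
    rw [gl_inv_mulVec, gl_inv_mulVec, hu]
  have h4 := Submodule.finrank_mono h3
  have h5 := Submodule.finrank_le (fixSp g ⊔ (fixSp g).map (toLin' (x : Matrix ι ι F)))
  rw [Module.finrank_fintype_fun_eq_card] at h5
  omega

theorem finrank_fixSp_le [Finite F] {G : Subgroup (GL ι F)} [Group.IsSolvable G] (hirr : Irr G)
    (hprim : ∀ (m t : ℕ) (D : Fin t → Submodule F (ι → F)), 2 ≤ t → IsMDecomposition m D →
      ¬ G ≤ decompositionStabilizer D) {g : GL ι F} (hg : g ∈ G) (hg1 : g ≠ 1) :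
    4 * Module.finrank F (fixSp g) ≤ 3 * Fintype.card ι := by
  have : Nonempty ι := by
    by_contra h
    have := not_nonempty_iff.mp h
    exact hg1 (Subsingleton.elim _ _)
  obtain ⟨A, hA, hAc, h⟩ := exists_abelian_normal_commutator (g := (⟨g, hg⟩ : G)) fun e => hg1 (congrArg Subtype.val e)
  have hcomm := spanAlg_comm (P := A.map G.subtype) (Q := A.map G.subtype) (by
    rintro _ ⟨x, hx, rfl⟩ _ ⟨y, hy, rfl⟩
    exact congrArg Subtype.val (hAc x hx y hy))
  have h0 : ∀ a ∈ A, a ≠ 1 → Module.finrank F (fixSp (a : GL ι F)) = 0 := by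
    rcases hirr.comm_dichotomy (normalizes_spanAlg (by
      rintro h hh _ ⟨x, hx, rfl⟩
      exact ⟨_, hA.conj_mem x hx ⟨h, hh⟩, rfl⟩)) hcomm with hK | ⟨E, hE, h2, -⟩
    · intro a ha ha1
      rw [Submodule.finrank_eq_zero, eq_bot_iff]
      intro v hv
      refine ((IsFld.mk hcomm hK).mulVec_eq_zero (sub_mem (coe_mem_spanAlg ⟨a, ha, rfl⟩) (one_mem _))
        (by rw [sub_mulVec, one_mulVec]; exact sub_eq_zero.mpr (mem_fixSp.mp hv))).resolve_left fun e => ha1 ?_
      exact Subtype.ext (Units.ext (sub_eq_zero.mp e))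
    · obtain ⟨e, m, -, -, -, hD, hle, -⟩ := hE.exists_decomp hirr rfl h2
      exact absurd hle (hprim m _ _ h2 hD)
  rcases h with h | ⟨x, h1, h2⟩ | ⟨x, z, h1, h2⟩
  · have := h0 _ h fun e => hg1 (congrArg Subtype.val e)
    change Module.finrank F (fixSp g) = 0 at this
    omega
  · have h3 := h0 _ h1 h2
    have h4 := finrank_fixSp_commutator (x : GL ι F) g
    change Module.finrank F (fixSp ⁅(x : GL ι F), g⁆) = 0 at h3
    omega
  · have h3 := h0 _ h1 h2
    have h4 := finrank_fixSp_commutator (x : GL ι F) g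
    have h5 := finrank_fixSp_commutator (z : GL ι F) ⁅(x : GL ι F), g⁆
    change Module.finrank F (fixSp ⁅(z : GL ι F), ⁅(x : GL ι F), g⁆⁆) = 0 at h3
    omega

end CL.Asch
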