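/-
Aschbacher's theorem, file 13: the symplectic groups.
-/
import Cfsg.Agent.Cls.AschCase

set_option autoImplicit false

namespace CL.Asch

open Matrix Cfsg Cfsg.Geo
open scoped MatrixGroups Kronecker

variable {F : Type*} [Field F] [Fintype F] {m : ℕ} {H : Subgroup (GL (Fin m ⊕ Fin m) F)}

theorem sp_of_quad (hH : H ≤ spGL m F) (h2 : (2 : F) = 0)
    (h : ∃ Q : (Fin m ⊕ Fin m → F) → F, IsNondegenerateQuadraticForm Q ∧
      (∀ u v, QuadraticMap.polar Q u v = sympForm m F u v) ∧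
      ∀ h ∈ H, ∀ v, Q ((h : Matrix (Fin m ⊕ Fin m) (Fin m ⊕ Fin m) F) *ᵥ v) = Q v) :
    ∃ M, InSymplecticClass m F M ∧ H ≤ M := by
  obtain ⟨Q, hQ, hp, hfix⟩ := h
  refine ⟨quadSimilarityGroup Q ⊓ spGL m F, Or.inl ?_, le_inf (fun h hh => ⟨1, fun v => by simp [hfix h hh]⟩) hH⟩
  iterate 6 right
  exact ⟨Q, fun h => two_ne_zero_of_odd h h2, hQ, hp, rfl⟩

theorem sp_of_subfield (hm : 0 < m) (hH : H ≤ spGL m F) {L : Subgroup (GL (Fin m ⊕ Fin m) F)} (hL : spanAlg L = ⊤)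
    (hI : ∀ l ∈ L, Isom (sympForm m F) l) (hN : ∀ h ∈ H, ∀ l ∈ L, h * l * h⁻¹ ∈ L) {F₁ : Subfield F} (h1 : F₁ ≠ ⊤)
    (htr : ∀ l ∈ L, (l : Matrix (Fin m ⊕ Fin m) (Fin m ⊕ Fin m) F).trace ∈ F₁) :
    ∃ M, InSymplecticClass m F M ∧ H ≤ M := by
  have : Nonempty (Fin m ⊕ Fin m) := ⟨.inl ⟨0, hm⟩⟩
  obtain ⟨F₀, r, P, ζ, hr, hc, hζ, hrat, hle⟩ := (isSesq_sympForm m).exists_subfield hL hI h1 htr hN
  refine ⟨_, Or.inl ?_, le_inf hle hH⟩
  iterate 4 right
  exact Or.inl ⟨F₀, r, P, ζ, hr, hc, hζ, hrat, rfl⟩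

theorem sp_of_comm (hm : 0 < m) (hirr : Irr H) (hH : H ≤ spGL m F)
    {C : Subalgebra F (Matrix (Fin m ⊕ Fin m) (Fin m ⊕ Fin m) F)} (hC : H ≤ subalgebraNormalizer C)
    (hcomm : ∀ x ∈ C, ∀ y ∈ C, x * y = y * x) (hne : ¬ C ≤ ⊥)
    (hτ : ∀ x ∈ C, adj (RingHom.id F) (sympForm m F) x ∈ C) : ∃ M, InSymplecticClass m F M ∧ H ≤ M := by
  have : Nonempty (Fin m ⊕ Fin m) := ⟨.inl ⟨0, hm⟩⟩
  have hb := isSesq_sympForm (F := F) m
  have hS : H ≤ similarityGroup (sympForm m F) := le_sim_of_isom hH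
  rcases hb.comm_cases hirr hS hC hcomm hτ with hK | ⟨E, hE, h2, hE'⟩ | ⟨E, hE, h2, hEC, hE'⟩
  · rcases hb.field_cases hS hK hne hC hτ with ⟨r, K, hr, hK, -, hN, hfix⟩ | ⟨hK2, x, hx, hx', hfix⟩
    · refine ⟨_, Or.inr (Or.inl ⟨r, K, hr, hK, hb.isSelfAdjointFor.mpr hfix, fun k hk v => ?_, rfl⟩), le_inf hN hH⟩
      by_cases h2 : (2 : F) = 0
      · obtain ⟨y, hy, rfl⟩ := (isFld_of hK).exists_sq h2 hk
        rw [← mulVec_mulVec, hb.adj_spec, hfix y hy, sympForm_alt]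
      · have h3 := hb.adj_spec k v v
        rw [hfix k hk, hb.symm (k *ᵥ v) v, RingHom.id_apply] at h3
        exact (mul_eq_zero.mp (show (2 : F) * _ = 0 by linear_combination h3)).resolve_left h2
    · by_cases hodd : Odd (Fintype.card F)
      · exact ⟨_, Or.inr (Or.inr (Or.inl ⟨C, hodd, hK2, hb.isAdjointClosedFor.mpr hτ,
          fun h => hx' (hb.isSelfAdjointFor.mp h x hx), rfl⟩)), le_inf hC hH⟩
      · have h2 := two_eq_zero_of_not_odd hodd
        obtain ⟨k, hk, hk'⟩ := hb.exists_half_of_ne h2 hτ hx hx' hfix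
        exact sp_of_quad hH h2 (hb.exists_quad_of_field h2 (sympForm_alt m) hH hC hcomm hk hk')
  · obtain ⟨k, D, hD, hle, -⟩ := hb.exists_nondegDecomp hirr hE h2 hE'
    exact ⟨_, Or.inl (Or.inr (Or.inr (Or.inl ⟨_, k, D, hD, rfl⟩))), le_inf hle hH⟩
  · by_cases hodd : Odd (Fintype.card F)
    · obtain ⟨k, D, hD, hk, hs, hle, -⟩ := hb.exists_singularPair hirr hE h2 hE'
      obtain rfl : k = m := by simp at hk; omega
      exact ⟨_, Or.inl (Or.inr (Or.inr (Or.inr (Or.inl ⟨D, hodd, hD, hs, rfl⟩)))), le_inf hle hH⟩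
    · have h2 := two_eq_zero_of_not_odd hodd
      obtain ⟨e, he⟩ := hE.nonempty
      exact sp_of_quad hH h2 (hb.exists_quad_of_field h2 (sympForm_alt m) hH hC hcomm (hEC e he) (hE' e he))

theorem sp_of_tensorPair (hirr : Irr H) (hH : H ≤ spGL m F) (hodd : Odd (Fintype.card F)) {k l : ℕ}
    {e : Fin m ⊕ Fin m ≃ Fin k × Fin l} {P : GL (Fin m ⊕ Fin m) F}
    {φ : Matrix (Fin k) (Fin k) F →ₐ[F] Matrix (Fin m ⊕ Fin m) (Fin m ⊕ Fin m) F}
    {ψ : Matrix (Fin l) (Fin l) F →ₐ[F] Matrix (Fin m ⊕ Fin m) (Fin m ⊕ Fin m) F}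
    {f₁ : (Fin k → F) → (Fin k → F) → F} {f₂ : (Fin l → F) → (Fin l → F) → F} (hm : 0 < m) (hl : 2 ≤ l)
    (h : TensorPair (RingHom.id F) (-1) (sympForm m F) H e P φ ψ (-1) 1 f₁ f₂) :
    ∃ M, InSymplecticClass m F M ∧ H ≤ M := by
  have : Nonempty (Fin m ⊕ Fin m) := ⟨.inl ⟨0, hm⟩⟩
  have h2 := two_ne_zero_of_odd hodd
  by_cases hl2 : l = 2
  · subst hl2
    obtain ⟨C, hcomm, hne, hN, hτ⟩ := h.sesqR.exists_comm_two h2
    refine sp_of_comm hm hirr hH (normalizes_map h.normR ((indGrp_le_similarityGroup (isSesq_sympForm m) h.sesqR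
      h.adjR (le_sim_of_isom hH)).trans hN)) (map_comm ψ hcomm) (map_not_le_bot ψ hne) ?_
    rintro _ ⟨x, hx, rfl⟩
    exact ⟨_, hτ x hx, (h.adjR x).symm⟩
  · refine ⟨_, ?_, le_inf h.le hH⟩
    iterate 3 right
    exact Or.inl ⟨k, l, e, P, f₁, f₂, hodd, by omega, h.sesqL.isSymplecticForm (h.sesqL.alt_of_skew h2),
      h.sesqR.isSymmetricForm, h.form, rfl⟩

/-- Aschbacher's theorem for the symplectic groups. -/
theorem aschbacher_symplectic (hm : 0 < m) (H : Subgroup (GL (Fin m ⊕ Fin m) F)) (hH : H ≤ spGL m F) :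
    (∃ M, InSymplecticClass m F M ∧ H ≤ M) ∨ InSymplecticResidualClass H := by
  have : Nonempty (Fin m ⊕ Fin m) := ⟨.inl ⟨0, hm⟩⟩
  have hb := isSesq_sympForm (F := F) m
  have hS : H ≤ similarityGroup (sympForm m F) := le_sim_of_isom hH
  have hn : 2 ≤ Fintype.card (Fin m ⊕ Fin m) := by simp; omega
  have hne : (2 : F) ≠ 0 → (-1 : F) ≠ 1 := fun h2 h => h2 (by linear_combination -h)
  by_cases hirr : Irr H
  swap
  · obtain ⟨W, h0, h1, hW, -, h | h⟩ := hb.reducible_cases hS hirr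
    · exact Or.inl ⟨_, Or.inl (Or.inl ⟨W, h0, h, rfl⟩), le_inf hW hH⟩
    · rcases hb.nondeg_cases hS h0 h1 hW h with ⟨W', h0', h', hd, hW'⟩ | ⟨k, D, hD, hle⟩
      · exact Or.inl ⟨_, Or.inl (Or.inr (Or.inl ⟨W', h0', h', by simp at hd; omega, rfl⟩)), le_inf hW' hH⟩
      · exact Or.inl ⟨_, Or.inl (Or.inr (Or.inr (Or.inl ⟨2, k, D, hD, rfl⟩))), le_inf hle hH⟩
  rcases hb.form_cases hn hirr hH with ⟨C, hC, hcomm, hne, hτ⟩ | ⟨k, l, e, P, φ, ψ, ε₁, ε₂, f₁, f₂, hk, hl, h⟩ |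
    ⟨r, R, hI, h⟩ | ⟨t, k, P, φ, ht, hk, hT⟩ | ⟨P, hP⟩
  · exact Or.inl (sp_of_comm hm hirr hH hC hcomm hne hτ)
  · left
    by_cases hodd : Odd (Fintype.card F)
    · have h1 := h.eps rfl
      have h2 := hne (two_ne_zero_of_odd hodd)
      rcases h.epsL with rfl | ⟨rfl, -⟩ <;> rcases h.epsR with rfl | ⟨rfl, -⟩
      · exact absurd (by simpa using h1) h2
      · exact sp_of_tensorPair hirr hH hodd hm hk h.swap
      · exact sp_of_tensorPair hirr hH hodd hm hl h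
      · exact absurd (by simpa using h1) h2
    · have h2 := two_eq_zero_of_not_odd hodd
      exact sp_of_quad hH h2 (h.exists_quad h2 hb (sympForm_alt m) hirr hH hk hl)
  · left
    obtain ⟨rfl, hz⟩ := h.two_of_bilinear hb hI
    rcases minimalField_or_subfield h.dvd with ⟨p, e, he, hmin⟩ | ⟨F₁, h1, hF₁⟩
    · obtain ⟨hp, hodd, hc⟩ := prime_of_minimal_two (hz ▸ hmin) he
      obtain ⟨k, -, -, hcard⟩ := h.dim
      rw [hz, ← pow_succ', add_comm] at hcard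
      refine ⟨_, Or.inl ?_, le_inf h.le_normalizer hH⟩
      iterate 5 right
      exact Or.inl ⟨R, p, k, h.symp, absIrr_of_spanAlg_eq_top h.heis.span, le_sim_of_isom hI, hp, hodd, hc, hcard, hz,
        h.heis.isOfMinusType hb (sympForm_alt m) hI hcard, rfl⟩
    · exact sp_of_subfield hm hH h.heis.span hI h.norm h1 (h.trace_mem hF₁)
  · left
    by_cases hodd : Odd (Fintype.card F)
    · have h2 := two_ne_zero_of_odd hodd
      obtain ⟨e, Q, ε₁, f₁, h1, h3, h4, h5, hle⟩ := hT.exists_power hb hH (by omega) (by omega)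
      rcases h3 with rfl | ⟨rfl, -⟩
      · exact absurd (by simpa using h4 rfl) (hne h2)
      have hto : Odd t := (Nat.even_or_odd t).resolve_left fun h => hne h2 (by rw [h4 rfl, h.neg_one_pow])
      refine ⟨_, ?_, le_inf hle hH⟩
      iterate 4 right
      refine ⟨k, t, e, Q, f₁, hodd, hto, by obtain ⟨s, hs⟩ := hto; omega, ?_,
        h1.isSymplecticForm (h1.alt_of_skew h2), h5, rfl⟩
      rintro ⟨h3, rfl⟩
      obtain ⟨-, -, L, -, -, -, hL, hL'⟩ := hT.exists_factor hb hH (by omega) hk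
      exact hL' (perfect_eq_bot_GL2_three (by rw [Nat.card_eq_fintype_card, h3]) L hL)
    · have h2 := two_eq_zero_of_not_odd hodd
      exact sp_of_quad hH h2 (hT.exists_quad h2 hb (sympForm_alt m) hH ht hk)
  · have hPI : ∀ l ∈ P, Isom (sympForm m F) l := fun l hl => hH (hP.le hl)
    by_cases hgeo : ∃ M, InSymplecticClass m F M ∧ H ≤ M
    · exact Or.inl hgeo
    refine Or.inr ⟨P, hP.isResidualCore fun F₀ h0 htr => hgeo (sp_of_subfield hm hH hP.span hPI hP.normal h0 htr),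
      ?_, ?_⟩
    · rintro ⟨Q, hQ, hfix⟩
      rw [fixesQuadForm_iff] at hfix
      obtain ⟨c, hc, hcb⟩ := (isSesq_polar hQ).proportional_of_isom hb hP.span
        (fun l hl => isom_polar_of_quad (hfix l hl)) hPI
      have h1 := (isSesq_polar hQ).eps_of_proportional hb hcb
      have h2 : (2 : F) = 0 := (mul_eq_zero.mp (show c * 2 = 0 by
        rw [RingHom.id_apply] at h1; linear_combination h1)).resolve_left hc
      obtain ⟨h3, h4⟩ := isQuad_smul hQ hc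
      refine hgeo (sp_of_quad hH h2 ⟨_, h3, fun u v => by rw [h4, hcb], fun h hh v => ?_⟩)
      rw [quad_inv_of_normalizes h2 hQ (irr_of_spanAlg_eq_top hP.span) hn hfix (hP.normal h hh) (c := 1)
        (fun u v => mul_left_cancel₀ hc (by rw [one_mul, ← hcb, ← hcb]; exact hH hh u v)), one_mul]
    · rintro ⟨σ, f, hf, hfix⟩
      exact hgeo (sp_of_subfield hm hH hP.span hPI hP.normal (fixSub_ne_top (ne_id_of_unitary hf)) fun l hl =>
        trace_mem_fixSub (isSesq_of_unitary hf) hb (fixesForm_iff.mp hfix l hl) (hPI l hl))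

end CL.Asch
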