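/-
Aschbacher's theorem, file 14: the unitary groups.
-/
import Cfsg.Agent.Cls.AschCase

set_option autoImplicit false

namespace CL.Asch

open Matrix Cfsg Cfsg.Geo
open scoped MatrixGroups Kronecker

variable {F : Type*} [Field F] [Fintype F] {n q : ℕ} {H : Subgroup (GL (Fin n) F)} {σ : F →+* F}

/-- The standing assumptions in the unitary case. -/
structure UniData (n q : ℕ) (σ : F →+* F) (H : Subgroup (GL (Fin n) F)) : Prop where
  card : Fintype.card F = q ^ 2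
  invol : ∀ a, σ (σ a) = a
  ne : σ ≠ RingHom.id F
  pow : ∀ x, σ x = x ^ q
  two_le : 2 ≤ n
  le : H ≤ GU n F q

namespace UniData

theorem sesq (h : UniData n q σ H) : IsSesq σ 1 (hermForm n F q) := isSesq_hermForm n h.invol h.pow

theorem sim (h : UniData n q σ H) : H ≤ similarityGroup (hermForm n F q) := le_sim_of_isom h.le

theorem nonempty (h : UniData n q σ H) : Nonempty (Fin n) := ⟨⟨0, by have := h.two_le; omega⟩⟩

theorem coe_eq (h : UniData n q σ H) : (σ : F → F) = fun x => x ^ q := funext h.pow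

theorem of_subfield (h : UniData n q σ H) {L : Subgroup (GL (Fin n) F)} (hL : spanAlg L = ⊤)
    (hI : ∀ l ∈ L, Isom (hermForm n F q) l) (hN : ∀ h ∈ H, ∀ l ∈ L, h * l * h⁻¹ ∈ L) {F₁ : Subfield F} (h1 : F₁ ≠ ⊤)
    (htr : ∀ l ∈ L, (l : Matrix (Fin n) (Fin n) F).trace ∈ F₁) : ∃ M, InUnitaryClass n F q M ∧ H ≤ M := by
  rcases h.sesq.exists_subfield_unitary h.card h.pow (by simpa using h.two_le) hL hI h1 htr hN with
    ⟨F₀, r, P, h1, h2, h3, h4, hle⟩ | ⟨F₀, P, h1, h2, h3, hle⟩ | ⟨F₀, P, ζ, h1, h2, h3, h4, h5, h6, hle⟩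
  · refine ⟨_, Or.inl ?_, le_inf hle h.le⟩
    iterate 4 right
    exact Or.inl ⟨F₀, r, P, h1, h2, h3, h4, rfl⟩
  · refine ⟨_, Or.inl ?_, le_inf hle h.le⟩
    iterate 5 right
    exact Or.inl ⟨F₀, P, h1, h2, h3, rfl⟩
  · refine ⟨_, Or.inl ?_, le_inf hle h.le⟩
    iterate 6 right
    exact Or.inl ⟨F₀, P, ζ, by simpa using h1, h2, h3, h4, h5, h6, rfl⟩

theorem of_real (h : UniData n q σ H) {L : Subgroup (GL (Fin n) F)} (hL : spanAlg L = ⊤)
    (hI : ∀ l ∈ L, Isom (hermForm n F q) l) (hN : ∀ h ∈ H, ∀ l ∈ L, h * l * h⁻¹ ∈ L)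
    (htr : ∀ l ∈ L, ((l⁻¹ : GL (Fin n) F) : Matrix (Fin n) (Fin n) F).trace = (l : Matrix (Fin n) (Fin n) F).trace) :
    ∃ M, InUnitaryClass n F q M ∧ H ≤ M :=
  h.of_subfield hL hI hN (fixSub_ne_top h.ne) fun l hl => by
    rw [mem_fixSub, ← h.sesq.trace_inv (hI l hl), htr l hl]

theorem of_comm (h : UniData n q σ H) (hirr : Irr H) {C : Subalgebra F (Matrix (Fin n) (Fin n) F)}
    (hC : H ≤ subalgebraNormalizer C) (hcomm : ∀ x ∈ C, ∀ y ∈ C, x * y = y * x) (hne : ¬ C ≤ ⊥)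
    (hτ : ∀ x ∈ C, adj σ (hermForm n F q) x ∈ C) : ∃ M, InUnitaryClass n F q M ∧ H ≤ M := by
  have := h.nonempty
  rcases h.sesq.comm_cases hirr h.sim hC hcomm hτ with hK | ⟨E, hE, h2, hE'⟩ | ⟨E, hE, h2, -, hE'⟩
  · obtain ⟨r, K, hr, hd, hK₀, hN, hmem⟩ := hK.exists_prime hC hne
    exact ⟨_, Or.inr (Or.inl ⟨r, K, hr, (h.sesq.odd_finrank h.ne hK hτ).of_dvd_nat hd, hK₀,
      h.sesq.isAdjointClosedFor.mpr (h.sesq.adj_mem_of_pow hτ hmem), rfl⟩), le_inf hN h.le⟩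
  · obtain ⟨k, D, hD, hle, -⟩ := h.sesq.exists_nondegDecomp hirr hE h2 hE'
    exact ⟨_, Or.inl (Or.inr (Or.inr (Or.inl ⟨_, k, D, hD, rfl⟩))), le_inf hle h.le⟩
  · obtain ⟨k, D, hD, hk, hs, hle, -⟩ := h.sesq.exists_singularPair hirr hE h2 hE'
    exact ⟨_, Or.inl (Or.inr (Or.inr (Or.inr (Or.inl ⟨k, D, by simpa using hk, hD, hs, rfl⟩)))), le_inf hle h.le⟩

theorem of_c6 (h : UniData n q σ H) {r : ℕ} {R : Subgroup (GL (Fin n) F)} (hI : ∀ x ∈ R, Isom (hermForm n F q) x)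
    (hR : C6Data r H R) : ∃ M, InUnitaryClass n F q M ∧ H ≤ M := by
  rcases minimalField_or_subfield hR.dvd with ⟨p, e, he, hmin⟩ | ⟨F₁, h1, hF₁⟩
  swap
  · exact h.of_subfield hR.heis.span hI hR.norm h1 (hR.trace_mem hF₁)
  have he1 : e ≠ 1 := by
    rintro rfl
    have h1 := hmin.1
    rw [← pow_one p, ← hmin.2.2.1, h.card] at h1
    exact absurd h1.eq_one_of_pow (by omega)
  obtain ⟨k, hk1, -, hcard⟩ := hR.dim
  refine ⟨_, Or.inl ?_, le_inf hR.le_normalizer h.le⟩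
  iterate 7 right
  refine ⟨r, R, p, e, k, hR.symp, absIrr_of_spanAlg_eq_top hR.heis.span, le_sim_of_isom hI,
    @ne_of_charP F _ r p hmin.2.1 hR.ne_zero, hmin, ?_, rfl⟩
  rcases hR.center with ⟨hodd, hz⟩ | ⟨rfl, hz | hz⟩
  · exact Or.inl ⟨hodd, hz, hk1, by rw [hcard, hz, pow_add, pow_one]⟩
  · obtain ⟨hp, -, hc⟩ := prime_of_minimal_two (hz ▸ hmin) he
    rw [← hc, h.card] at hp
    exact absurd hp.eq_one_of_pow (by omega)
  · exact Or.inr ⟨rfl, (eq_one_or_two_of_minimal_four (hz ▸ hmin) he).resolve_left he1, hz, by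
      rw [hcard, hz, pow_add]; rfl⟩

section Pair

variable {k l : ℕ} {e : Fin n ≃ Fin k × Fin l} {P : GL (Fin n) F}
  {φ : Matrix (Fin k) (Fin k) F →ₐ[F] Matrix (Fin n) (Fin n) F}
  {ψ : Matrix (Fin l) (Fin l) F →ₐ[F] Matrix (Fin n) (Fin n) F}
  {f₁ : (Fin k → F) → (Fin k → F) → F} {f₂ : (Fin l → F) → (Fin l → F) → F}

theorem of_lt (h : UniData n q σ H) (hT : TensorPair σ 1 (hermForm n F q) H e P φ ψ 1 1 f₁ f₂) (hk : 2 ≤ k)
    (hkl : k < l) : ∃ M, InUnitaryClass n F q M ∧ H ≤ M :=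
  ⟨_, Or.inr (Or.inr (Or.inl ⟨k, l, e, P, f₁, f₂, hk, hkl, hT.sesqL.isUnitaryFormPow h.pow,
    hT.sesqR.isUnitaryFormPow h.pow, h.coe_eq ▸ hT.form, rfl⟩)), le_inf hT.le h.le⟩

/-- The product of subgroups of the two tensor factors. -/
theorem pair_sup (h : UniData n q σ H) (hT : TensorPair σ 1 (hermForm n F q) H e P φ ψ 1 1 f₁ f₂) (hk : 0 < k)
    (hl : 0 < l) {A : Subgroup (GL (Fin k) F)} {B : Subgroup (GL (Fin l) F)} (hA : spanAlg A = ⊤)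
    (hB : spanAlg B = ⊤) (hAI : ∀ a ∈ A, Isom f₁ a) (hBI : ∀ b ∈ B, Isom f₂ b)
    (hAN : ∀ g ∈ similarityGroup f₁, ∀ a ∈ A, g * a * g⁻¹ ∈ A)
    (hBN : ∀ g ∈ similarityGroup f₂, ∀ b ∈ B, g * b * g⁻¹ ∈ B) :
    spanAlg (A.map (glMap φ) ⊔ B.map (glMap ψ)) = ⊤ ∧
      (∀ x ∈ A.map (glMap φ) ⊔ B.map (glMap ψ), Isom (hermForm n F q) x) ∧
      ∀ g ∈ H, ∀ x ∈ A.map (glMap φ) ⊔ B.map (glMap ψ), g * x * g⁻¹ ∈ A.map (glMap φ) ⊔ B.map (glMap ψ) := by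
  have := h.nonempty
  have : Nonempty (Fin k) := ⟨⟨0, hk⟩⟩
  have : Nonempty (Fin l) := ⟨⟨0, hl⟩⟩
  refine ⟨by rw [spanAlg_sup, spanAlg_map, spanAlg_map, hA, hB, Algebra.map_top, Algebra.map_top, hT.sup],
    sup_le (b := B.map (glMap ψ)) (c := isoGrp (hermForm n F q)) ?_ ?_, fun g hg => inv_sup
      (inv_map_glMap hT.normL (fun a ha => hAN a (indGrp_le_similarityGroup h.sesq hT.sesqL hT.adjL h.sim ha)) g hg)
      (inv_map_glMap hT.normR (fun a ha => hBN a (indGrp_le_similarityGroup h.sesq hT.sesqR hT.adjR h.sim ha)) g hg)⟩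
  · rintro _ ⟨a, ha, rfl⟩
    exact (isom_glMap h.sesq hT.sesqL hT.adjL).mpr (hAI a ha)
  · rintro _ ⟨a, ha, rfl⟩
    exact (isom_glMap h.sesq hT.sesqR hT.adjR).mpr (hBI a ha)

end Pair

theorem of_tensorSquare (h : UniData n q σ H) (hirr : Irr H) {k : ℕ} {e : Fin n ≃ Fin k × Fin k} {P : GL (Fin n) F}
    {φ ψ : Matrix (Fin k) (Fin k) F →ₐ[F] Matrix (Fin n) (Fin n) F} {f₁ f₂ : (Fin k → F) → (Fin k → F) → F}
    (hT : TensorPair σ 1 (hermForm n F q) H e P φ ψ 1 1 f₁ f₂) (hk : 2 ≤ k) :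
    ∃ M, InUnitaryClass n F q M ∧ H ≤ M := by
  have := h.nonempty
  by_cases h2 : k = 2
  · subst h2
    obtain ⟨A, hA, hA'⟩ := exists_span_SU2 h.ne hT.sesqL
    obtain ⟨B, hB, hB'⟩ := exists_span_SU2 h.ne hT.sesqR
    obtain ⟨h1, h2, h3⟩ := h.pair_sup hT two_pos two_pos hA hB (fun a ha => ((hA' a).mp ha).1)
      (fun a ha => ((hB' a).mp ha).1)
      (fun g hg a ha => (hA' _).mpr ⟨((hA' a).mp ha).1.conj_of_sim hg, by rw [det_conj, ((hA' a).mp ha).2]⟩)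
      (fun g hg a ha => (hB' _).mpr ⟨((hB' a).mp ha).1.conj_of_sim hg, by rw [det_conj, ((hB' a).mp ha).2]⟩)
    exact h.of_real h1 h2 h3 fun l hl => trace_inv_kron_two hT.left hT.right l (sup_le_sup
      (Subgroup.map_mono fun a ha => mem_specialLinear_iff.mpr ((hA' a).mp ha).2)
      (Subgroup.map_mono fun a ha => mem_specialLinear_iff.mpr ((hB' a).mp ha).2) hl)
  by_cases h3 : q = 2 ∧ k = 3
  · obtain ⟨rfl, rfl⟩ := h3
    have hF : Nat.card F = 4 := by rw [Nat.card_eq_fintype_card, h.card]; rfl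
    obtain ⟨A, hA, hA1, hA2, -, hA3⟩ := exists_extraspecial_GU3_two hF h.ne hT.sesqL
    obtain ⟨B, hB, hB1, hB2, -, hB3⟩ := exists_extraspecial_GU3_two hF h.ne hT.sesqR
    obtain ⟨h1, h2, h3⟩ := h.pair_sup hT three_pos three_pos hA hB (fun a ha => (hA1 a ha).2)
      (fun a ha => (hB1 a ha).2) hA3 hB3
    have hc : ∀ a b, glMap φ a * glMap ψ b = glMap ψ b * glMap φ a := fun a b => Units.ext (hT.comm _ _)
    have hmem : ∀ x ∈ A.map (glMap φ) ⊔ B.map (glMap ψ), ∃ a ∈ A, ∃ b ∈ B, x = glMap φ a * glMap ψ b := by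
      intro x hx
      obtain ⟨_, ⟨a, ha, rfl⟩, _, ⟨b, hb, rfl⟩, rfl⟩ := (mem_sup_of_comm (by
        rintro _ ⟨a, -, rfl⟩ _ ⟨b, -, rfl⟩; exact hc a b)).mp hx
      exact ⟨a, ha, b, hb, rfl⟩
    have hs : ∀ (θ : Matrix (Fin 3) (Fin 3) F →ₐ[F] Matrix (Fin n) (Fin n) F) (u : Fˣ),
        glMap θ (scal _ u) = scal _ u := fun θ u => Units.ext (by rw [coe_glMap, coe_scal, coe_scal, map_smul, map_one])
    have hR : IsHeis (A.map (glMap φ) ⊔ B.map (glMap ψ)) := ⟨h1, fun x hx y hy => by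
      obtain ⟨a, ha, b, hb, rfl⟩ := hmem x hx
      obtain ⟨c, hc', d, hd, rfl⟩ := hmem y hy
      obtain ⟨u, hu⟩ := (isHeis_of_commutator hA hA2).comm a ha c hc'
      obtain ⟨w, hw⟩ := (isHeis_of_commutator hB hB2).comm b hb d hd
      refine ⟨u * w, ?_⟩
      rw [mul_assoc, ← mul_assoc (glMap ψ d), ← hc, mul_assoc, ← mul_assoc, ← map_mul, ← map_mul, hu, hw,
        mul_assoc (glMap φ a), ← mul_assoc (glMap ψ b), ← hc]
      simp only [map_mul, hs, mul_assoc]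
      rw [← mul_assoc (scal _ u), scal_comm, mul_assoc, ← mul_assoc (scal _ u), scal_comm, mul_assoc]⟩
    by_cases hab : ∀ T : Subgroup (GL (Fin n) F), T ≤ A.map (glMap φ) ⊔ B.map (glMap ψ) →
        (∀ h ∈ H, ∀ x ∈ T, h * x * h⁻¹ ∈ T) → (∀ x ∈ T, ∀ y ∈ T, x * y = y * x) → T ≤ scalars _ F
    · refine h.of_c6 h2 (hR.c6Data (by simpa using h.two_le) Nat.prime_three h3 (fun x hx => ⟨1, one_mem _, ?_⟩) hab)
      obtain ⟨a, ha, b, hb, rfl⟩ := hmem x hx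
      rw [Commute.mul_pow (hc a b), ← map_pow, ← map_pow, (hA1 a ha).1, (hB1 b hb).1]
      simp
    · push Not at hab
      obtain ⟨T, hT1, hT2, hT3, hT4⟩ := hab
      exact h.of_comm hirr (normalizes_spanAlg hT2) (spanAlg_comm hT3)
        (fun h => hT4 (le_scalars_of_spanAlg_le_bot h)) fun x hx =>
          h.sesq.adj_mem_spanAlg (fun l hl => h2 l (hT1 hl)) hx
  obtain ⟨g, hg⟩ := similar_of_herm h.ne hT.sesqL hT.sesqR
  obtain ⟨e', P', h4, h5⟩ := exists_tensorSquare hT.sesqL hT.sesqR e P hT.form g 1 one_ne_zero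
    (by simpa only [one_mul] using hg)
  exact ⟨_, Or.inr (Or.inr (Or.inr ⟨k, 2, e', P', f₁, by omega, le_rfl, h3, hT.sesqL.isUnitaryFormPow h.pow,
    h.coe_eq ▸ h4, rfl⟩)), le_inf (hT.le.trans h5) h.le⟩

theorem main (h : UniData n q σ H) : (∃ M, InUnitaryClass n F q M ∧ H ≤ M) ∨ InUnitaryResidualClass H := by
  have := h.nonempty
  have hf := h.sesq
  have hε : ∀ {ε : F}, (ε = 1 ∨ (ε = -1 ∧ σ = RingHom.id F)) → ε = 1 := fun h' =>
    h'.resolve_right fun h' => h.ne h'.2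
  by_cases hirr : Irr H
  swap
  · obtain ⟨W, h0, h1, hW, -, h2 | h2⟩ := hf.reducible_cases h.sim hirr
    · exact Or.inl ⟨_, Or.inl (Or.inl ⟨W, h0, h2, rfl⟩), le_inf hW h.le⟩
    · rcases hf.nondeg_cases h.sim h0 h1 hW h2 with ⟨W', h0', h', hd, hW'⟩ | ⟨k, D, hD, hle⟩
      · exact Or.inl ⟨_, Or.inl (Or.inr (Or.inl ⟨W', h0', h', by simpa using hd, rfl⟩)), le_inf hW' h.le⟩
      · exact Or.inl ⟨_, Or.inl (Or.inr (Or.inr (Or.inl ⟨2, k, D, hD, rfl⟩))), le_inf hle h.le⟩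
  rcases hf.form_cases (by simpa using h.two_le) hirr h.le with ⟨C, hC, hcomm, hne, hτ⟩ |
    ⟨k, l, e, P, φ, ψ, ε₁, ε₂, f₁, f₂, hk, hl, hT⟩ | ⟨r, R, hI, hR⟩ | ⟨t, k, P, φ, ht, hk, hT⟩ | ⟨P, hP⟩
  · exact Or.inl (h.of_comm hirr hC hcomm hne hτ)
  · left
    obtain rfl := hε hT.epsL
    obtain rfl := hε hT.epsR
    rcases lt_trichotomy k l with hkl | rfl | hkl
    · exact h.of_lt hT hk hkl
    · exact h.of_tensorSquare hirr hT hk
    · exact h.of_lt hT.swap hl hkl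
  · exact Or.inl (h.of_c6 hI hR)
  · left
    by_cases h2 : k = 2
    · subst h2
      exact h.of_real hT.span (fun l hl => h.le (hT.iSup_le hl)) hT.inv hT.trace_inv_two
    obtain ⟨e, Q, ε₁, f₁, h1, h3, -, h5, hle⟩ := hT.exists_power hf h.le (by omega) (by omega)
    obtain rfl := hε h3
    refine ⟨_, Or.inr (Or.inr (Or.inr ⟨k, t, e, Q, f₁, by omega, ht, ?_, h1.isUnitaryFormPow h.pow,
      h.coe_eq ▸ h5, rfl⟩)), le_inf hle h.le⟩
    rintro ⟨rfl, rfl⟩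
    obtain ⟨ε, f₂, L, h6, h7, hL, hL1, hL2⟩ := hT.exists_factor hf h.le (by omega) hk
    obtain rfl := hε h7
    exact hL2 (perfect_eq_bot_GU3_two (by rw [Nat.card_eq_fintype_card, h.card]; rfl) h.ne h6 L hL hL1)
  · have hPI : ∀ l ∈ P, Isom (hermForm n F q) l := fun l hl => h.le (hP.le hl)
    by_cases hgeo : ∃ M, InUnitaryClass n F q M ∧ H ≤ M
    · exact Or.inl hgeo
    have hform : ∀ {ε : F} {b : (Fin n → F) → (Fin n → F) → F}, IsSesq (RingHom.id F) ε b →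
        ¬ ∀ l ∈ P, Isom b l := fun hb hfix => hgeo (h.of_subfield hP.span hPI hP.normal (fixSub_ne_top h.ne)
          fun l hl => trace_mem_fixSub hf hb (hPI l hl) (hfix l hl))
    refine Or.inr ⟨P, hP.isResidualCore fun F₀ h0 htr => hgeo (h.of_subfield hP.span hPI hP.normal h0 htr), ?_, ?_⟩
    · rintro ⟨Q, hQ, hfix⟩
      exact hform (isSesq_polar hQ) fun l hl => isom_polar_of_quad (fixesQuadForm_iff.mp hfix l hl)
    · rintro ⟨b, hb, hfix⟩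
      exact hform (isSesq_of_symplectic hb) (fixesForm_iff.mp hfix)

end UniData

/-- Aschbacher's theorem for the unitary groups. -/
theorem aschbacher_unitary (hF : Fintype.card F = q ^ 2) (hn : 2 ≤ n) (H : Subgroup (GL (Fin n) F))
    (hH : H ≤ GU n F q) : (∃ M, InUnitaryClass n F q M ∧ H ≤ M) ∨ InUnitaryResidualClass H := by
  obtain ⟨σ, h1, h2, h3⟩ := exists_invol_of_card (F := F) (q := q) (by rw [Nat.card_eq_fintype_card, hF])
  exact UniData.main ⟨hF, h1, h2, h3, hn, hH⟩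

end CL.Asch
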