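/-
Groups with many root elements lie in no member of the geometric classes: a uniform treatment for the symplectic
groups and the groups `Ω`.
-/
import Cfsg.Agent.Cls.GeoProper
import Cfsg.Agent.Cls.AschRaw
import Cfsg.Agent.Cls.AschSubfield
import Cfsg.Agent.Cls.OrthSimple
import Cfsg.Agent.Cls.SpSimple

set_option autoImplicit false

namespace CL.Asch

open Matrix Cfsg Cfsg.Geo Module QuadraticMap
open scoped MatrixGroups Kronecker commutatorElement

variable {ι : Type} [Fintype ι] [DecidableEq ι] {F : Type*} [Field F]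

theorem eq_inf_of_max {Γ : Type*} [Group Γ] {G H M : Subgroup Γ} (hH : IsMaximalIn G H) (hM : H ≤ M)
    (hG : ¬ G ≤ M) : H = M ⊓ G :=
  ((hH.2 (M ⊓ G) (le_inf hM hH.1.le) inf_le_right).resolve_right fun h => hG (h ▸ inf_le_left)).symm

omit [DecidableEq ι] in
theorem exists_ne_zero_ker {k : ℕ} (φ : Fin k → Dual F (ι → F)) {d : ℕ} (h : k + d ≤ Fintype.card ι) :
    ∃ W : Submodule F (ι → F), d ≤ finrank F W ∧ ∀ w ∈ W, ∀ i, φ i w = 0 := by
  refine ⟨LinearMap.ker (LinearMap.pi φ), ?_, fun w hw i => congrFun (LinearMap.mem_ker.mp hw) i⟩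
  have h1 := LinearMap.finrank_range_add_finrank_ker (LinearMap.pi φ)
  have h2 := Submodule.finrank_le (LinearMap.range (LinearMap.pi φ))
  simp only [Module.finrank_fintype_fun_eq_card, Fintype.card_fin] at h1 h2
  omega

omit [DecidableEq ι] in
theorem exists_sing_ker [Finite F] (q : QuadraticForm F (ι → F)) {k : ℕ} (φ : Fin k → Dual F (ι → F))
    (h : k + 3 ≤ Fintype.card ι) : ∃ u, u ≠ 0 ∧ q u = 0 ∧ ∀ i, φ i u = 0 := by
  obtain ⟨W, hW, h⟩ := exists_ne_zero_ker φ h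
  obtain ⟨u, hu, h0, hq⟩ := CL.Cls.exists_singular_in_of_three_le q W hW
  exact ⟨u, h0, hq, h u hu⟩

omit [DecidableEq ι] in
theorem exists_common_ker {k : ℕ} (φ : Fin k → Dual F (ι → F)) (h : k < Fintype.card ι) :
    ∃ u, u ≠ 0 ∧ ∀ i, φ i u = 0 := by
  obtain ⟨W, hW, h⟩ := exists_ne_zero_ker φ (d := 1) h
  obtain ⟨u, hu, h0⟩ := CL.Cls.exists_mem_ne_zero_of_finrank_pos (W := W) hW
  exact ⟨u, h0, h u hu⟩

section Pure

variable {κ μ : Type}

/-- A pure tensor in coordinates. -/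
def tens (a : κ → F) (b : μ → F) : κ × μ → F := fun p => a p.1 * b p.2

theorem tens_apply (a : κ → F) (b : μ → F) (p : κ × μ) : tens a b p = a p.1 * b p.2 := rfl

theorem tens_smul_left (c : F) (a : κ → F) (b : μ → F) : tens (c • a) b = c • tens a b :=
  funext fun _ => mul_assoc _ _ _

theorem tens_smul_right (c : F) (a : κ → F) (b : μ → F) : tens a (c • b) = c • tens a b :=
  funext fun _ => mul_left_comm _ _ _

theorem tens_add_left (a a' : κ → F) (b : μ → F) : tens (a + a') b = tens a b + tens a' b :=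
  funext fun _ => add_mul _ _ _

theorem tens_add_right (a : κ → F) (b b' : μ → F) : tens a (b + b') = tens a b + tens a b' :=
  funext fun _ => mul_add _ _ _

theorem tens_zero_left (b : μ → F) : tens (0 : κ → F) b = 0 := funext fun _ => zero_mul _

theorem tens_zero_right (a : κ → F) : tens a (0 : μ → F) = 0 := funext fun _ => mul_zero _

theorem tens_ne_zero {a : κ → F} {b : μ → F} (ha : a ≠ 0) (hb : b ≠ 0) : tens a b ≠ 0 := by
  obtain ⟨i, hi⟩ := Function.ne_iff.mp ha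
  obtain ⟨j, hj⟩ := Function.ne_iff.mp hb
  exact fun h => mul_ne_zero hi hj (congrFun h (i, j))

/-- Contraction of the second factor. -/
def evR (κ : Type) (β : Dual F (μ → F)) : (κ × μ → F) →ₗ[F] (κ → F) :=
  LinearMap.pi fun i => β ∘ₗ LinearMap.funLeft F F fun j => (i, j)

/-- Contraction of the first factor. -/
def evL (μ : Type) (α : Dual F (κ → F)) : (κ × μ → F) →ₗ[F] (μ → F) :=
  LinearMap.pi fun j => α ∘ₗ LinearMap.funLeft F F fun i => (i, j)

theorem evR_tens (β : Dual F (μ → F)) (a : κ → F) (b : μ → F) : evR κ β (tens a b) = β b • a := by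
  ext i
  change β (a i • b) = _
  rw [map_smul, Pi.smul_apply, smul_eq_mul, smul_eq_mul, mul_comm]

theorem evL_tens (α : Dual F (κ → F)) (a : κ → F) (b : μ → F) : evL μ α (tens a b) = α a • b := by
  ext j
  change α (fun i => a i * b j) = _
  rw [show (fun i => a i * b j) = b j • a from funext fun _ => mul_comm _ _, map_smul, Pi.smul_apply, smul_eq_mul,
    smul_eq_mul, mul_comm]

theorem ev_tens (α : Dual F (κ → F)) (β : Dual F (μ → F)) (a : κ → F) (b : μ → F) :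
    α (evR κ β (tens a b)) = α a * β b := by rw [evR_tens, map_smul, smul_eq_mul, mul_comm]

theorem exists_dual_kill [Fintype κ] [Nontrivial κ] (a : κ → F) :
    ∃ (α : Dual F (κ → F)) (c : κ → F), α a = 0 ∧ α c = 1 := by
  have hk : LinearMap.ker (Dual.eval F (κ → F) a) ≠ ⊥ := by
    apply LinearMap.ker_ne_bot_of_finrank_lt
    rw [Subspace.dual_finrank_eq, finrank_self, Module.finrank_fintype_fun_eq_card]
    exact Fintype.one_lt_card
  obtain ⟨φ, hφ, h0⟩ := (Submodule.ne_bot_iff _).mp hk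
  obtain ⟨c, hc⟩ := CL.SLn.exists_apply_eq_one h0
  exact ⟨φ, c, hφ, hc⟩

end Pure

/-- A non-degenerate quadratic form given as a function, bundled. -/
def toQF {Q : (ι → F) → F} (hQ : IsNondegenerateQuadraticForm Q) : QuadraticForm F (ι → F) where
  toFun := Q
  toFun_smul a x := by rw [hQ.smul, smul_eq_mul, pow_two]
  exists_companion' := ⟨LinearMap.mk₂ F (polar Q) hQ.polar_bilinear.add_left hQ.polar_bilinear.smul_left
    hQ.polar_bilinear.add_right fun c x y => hQ.polar_bilinear.smul_right c x y, fun x y => quad_add Q x y⟩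

omit [Fintype ι] [DecidableEq ι] in
theorem coe_toQF {Q : (ι → F) → F} (hQ : IsNondegenerateQuadraticForm Q) : ⇑(toQF hQ) = Q := rfl

omit [Fintype ι] [DecidableEq ι] in
theorem nondeg_toQF {Q : (ι → F) → F} (hQ : IsNondegenerateQuadraticForm Q) :
    (polarBilin (toQF hQ)).Nondegenerate :=
  CL.Cls.nondeg_iff.mpr fun x hx => (isSesq_polar hQ).nondeg' x hx

omit [Fintype ι] [DecidableEq ι] in
theorem isQuad_of_nondeg {Q : QuadraticForm F (ι → F)} (hQ : (polarBilin Q).Nondegenerate) :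
    IsNondegenerateQuadraticForm ⇑Q where
  smul c v := CL.Cls.map_smul' Q c v
  polar_bilinear := ⟨polar_add_left Q, polar_smul_left Q, polar_add_right Q, fun c v x => polar_smul_right Q c v x⟩
  nondegenerate v hv :=
    let ⟨y, hy⟩ := CL.Cls.exists_polar_ne_zero hQ hv
    ⟨⟨y, by rwa [polar_comm]⟩, y, hy⟩

/-- Many singular vectors. -/
def SingBig (q : QuadraticForm F (ι → F)) : Prop :=
  ∀ (x y : ι → F) (φ ψ χ : Dual F (ι → F)), ∃ u, u ≠ 0 ∧ q u = 0 ∧ polar q x u = 0 ∧ polar q y u = 0 ∧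
    φ u = 0 ∧ ψ u = 0 ∧ χ u = 0

/-- The properties of `Sp` (with `q = 0`) and `Ω(q)` that are used to show that these groups lie in no
geometric subgroup. -/
structure Rich (G : Subgroup (GL ι F)) (q : QuadraticForm F (ι → F)) : Prop where
  trans : ∀ u v, u ≠ 0 → v ≠ 0 → q u = q v → ∃ g ∈ G, (g : Matrix ι ι F) *ᵥ u = v
  sing : ∀ (x y : ι → F) (φ : Dual F (ι → F)), ∃ u, u ≠ 0 ∧ q u = 0 ∧ polar q x u = 0 ∧ polar q y u = 0 ∧ φ u = 0
  span : ∀ W : Submodule F (ι → F), (∀ u, q u = 0 → u ∈ W) → W = ⊤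
  fix : ∀ u w, u ≠ 0 → q u = 0 → (∀ c : F, w ≠ c • u) → ∃ g ∈ G, (g : Matrix ι ι F) *ᵥ u = u ∧
    (g : Matrix ι ι F) *ᵥ w ≠ w ∧
    ∀ k : Matrix ι ι F, ∃ x, x ≠ 0 ∧ (g : Matrix ι ι F) *ᵥ x = x ∧ (g : Matrix ι ι F) *ᵥ (k *ᵥ x) = k *ᵥ x
  perfect : ⁅G, G⁆ = G
  normal : ∀ N : Subgroup (GL ι F), N ≤ G → (∀ g ∈ G, ∀ x ∈ N, g * x * g⁻¹ ∈ N) → N ≤ scalars ι F ∨ G ≤ N

namespace Rich

variable {G : Subgroup (GL ι F)} {q : QuadraticForm F (ι → F)}

theorem two_le_card (hG : Rich G q) : 2 ≤ Fintype.card ι := by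
  obtain ⟨u, hu, -⟩ := hG.sing 0 0 0
  obtain ⟨i, -⟩ := Function.ne_iff.mp hu
  obtain ⟨v, hv, -, -, -, h⟩ := hG.sing 0 0 (LinearMap.proj i)
  obtain ⟨j, hj⟩ := Function.ne_iff.mp hv
  exact Fintype.one_lt_card_iff.mpr ⟨i, j, fun e => hj (e ▸ h)⟩

/-- An invariant set containing `x` contains `x + u` for singular `u` orthogonal to `x`. -/
theorem exists_eq_add (hG : Rich G q) {x u : ι → F} (hx : x ≠ 0) (hu : q u = 0) (hxu : polar q x u = 0) :
    x + u = 0 ∨ ∃ g ∈ G, (g : Matrix ι ι F) *ᵥ x = x + u := by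
  by_cases h : x + u = 0
  · exact Or.inl h
  · exact Or.inr (hG.trans x _ hx h (by rw [CL.Cls.map_add', hu, hxu, add_zero, add_zero]))

theorem irr (hG : Rich G q) : Irr G := by
  refine irr_iff.mpr fun W hW => ?_
  by_cases h0 : W = ⊥
  · exact Or.inl h0
  obtain ⟨w, hw, hw0⟩ := (Submodule.ne_bot_iff W).mp h0
  obtain ⟨u, hu0, hu, hwu, -⟩ := hG.sing w 0 0
  have huW : u ∈ W := by
    rcases hG.exists_eq_add hw0 hu hwu with h | ⟨g, hg, h⟩
    · rw [eq_neg_of_add_eq_zero_right h]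
      exact W.neg_mem hw
    · have := W.sub_mem (hW g hg w hw) hw
      rwa [h, add_sub_cancel_left] at this
  refine Or.inr (hG.span W fun v hv => ?_)
  by_cases hv0 : v = 0
  · exact hv0 ▸ W.zero_mem
  obtain ⟨g, hg, h⟩ := hG.trans u v hu0 hv0 (hu.trans hv.symm)
  exact h ▸ hW g hg u huW

theorem not_le_scalars (hG : Rich G q) : ¬ G ≤ scalars ι F := hG.irr.not_le_scalars hG.two_le_card

theorem scalar_of_comm (hG : Rich G q) {k : Matrix ι ι F} (hk : ∀ g ∈ G, (g : Matrix ι ι F) * k = k * g) :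
    ∃ c : F, k = c • (1 : Matrix ι ι F) := by
  obtain ⟨u, hu0, hu, -⟩ := hG.sing 0 0 0
  obtain ⟨c, hc⟩ : ∃ c : F, k *ᵥ u = c • u := by
    by_contra h
    push Not at h
    obtain ⟨g, hg, h1, h2, -⟩ := hG.fix u _ hu0 hu h
    exact h2 (by rw [mulVec_mulVec, hk g hg, ← mulVec_mulVec, h1])
  refine ⟨c, ?_⟩
  rcases irr_iff.mp hG.irr (LinearMap.ker (toLin' (k - c • 1))) (fun g hg w hw => by
    rw [LinearMap.mem_ker, toLin'_apply] at hw ⊢
    rw [mulVec_mulVec, sub_mul, ← hk g hg, smul_mul_assoc, one_mul, ← mul_one (g : Matrix ι ι F), ← mul_smul_comm,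
      mul_one, ← mul_sub, ← mulVec_mulVec, hw, mulVec_zero]) with h | h
  · refine absurd ?_ hu0
    rw [← Submodule.mem_bot F, ← h, LinearMap.mem_ker, toLin'_apply, sub_mulVec, hc, smul_mulVec, one_mulVec,
      sub_self]
  · rw [LinearMap.ker_eq_top, ← toLin'.map_zero, toLin'.injective.eq_iff, sub_eq_zero] at h
    exact h

theorem absIrr (hG : Rich G q) : ActsAbsolutelyIrreducibly (matrixSet G) :=
  ⟨hG.irr, fun _ hM => hG.scalar_of_comm fun _ hg => (hM _ (coe_mem_matrixSet hg)).symm⟩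

/-- A maximal subgroup does not cover the group modulo scalars. -/
theorem sup_ne (hG : Rich G q) {H : Subgroup (GL ι F)} (hH : IsMaximalIn G H) : H ⊔ (scalars ι F ⊓ G) ≠ G := by
  intro h
  have h1 := commutator_sup_central (A := H) (B := H) (Z := scalars ι F ⊓ G) (inf_le_left.trans scalars_le_center)
  rw [h, hG.perfect] at h1
  exact hH.1.not_ge (h1.le.trans (Subgroup.commutator_le.mpr fun a ha b hb =>
    H.mul_mem (H.mul_mem (H.mul_mem ha hb) (H.inv_mem ha)) (H.inv_mem hb)))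

theorem not_le_subspaceStabilizer (hG : Rich G q) {W : Submodule F (ι → F)} (h0 : W ≠ ⊥) (h1 : W ≠ ⊤) :
    ¬ G ≤ subspaceStabilizer W := fun h =>
  (irr_iff.mp hG.irr W fun _ hg w hw => (h hg w).mp hw).elim h0 h1

theorem not_le_decompositionStabilizer (hG : Rich G q) {t m : ℕ} {D : Fin t → Submodule F (ι → F)}
    (hD : IsMDecomposition m D) : ¬ G ≤ decompositionStabilizer D := by
  intro h
  have h2 := hD.two_le
  set i₀ : Fin t := ⟨0, by omega⟩
  set i₁ : Fin t := ⟨1, by omega⟩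
  have hij : i₀ ≠ i₁ := by simp [i₀, i₁]
  obtain ⟨v, hv, hv0⟩ := CL.SLn.IsMDecomposition.exists_ne_zero hD i₀
  obtain ⟨w, hw, hw0⟩ := CL.SLn.IsMDecomposition.exists_ne_zero hD i₁
  have hvw : v + w ≠ 0 := fun e => CL.SLn.add_notMem_of_indep hD.indep hij hv hw hv0 hw0 i₀ (e ▸ (D i₀).zero_mem)
  obtain ⟨i, hi⟩ := Function.ne_iff.mp hvw
  obtain ⟨u, hu0, hu, hvu, hwu, hφ⟩ := hG.sing v w (LinearMap.proj i)
  have key : ∀ j, ∀ x ∈ D j, x ≠ 0 → polar q x u = 0 → ∃ l, x + u ∈ D l := fun j x hx hx0 hxu => by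
    rcases hG.exists_eq_add hx0 hu hxu with e | ⟨g, hg, e⟩
    · exact ⟨j, e ▸ (D j).zero_mem⟩
    · obtain ⟨σ, hσ⟩ := CL.SLn.exists_perm_of_mem (h hg)
      exact ⟨σ j, e ▸ hσ j x hx⟩
  obtain ⟨j, hj⟩ := key i₀ v hv hv0 hvu
  obtain ⟨l, hl⟩ := key i₁ w hw hw0 hwu
  have hj0 : j ≠ i₀ := by
    rintro rfl
    exact CL.SLn.add_notMem_of_indep hD.indep hij.symm hw (by simpa using (D i₀).sub_mem hj hv) hw0 hu0 l hl
  have hl1 : l ≠ i₁ := by
    rintro rfl
    exact CL.SLn.add_notMem_of_indep hD.indep hij hv (by simpa using (D i₁).sub_mem hl hw) hv0 hu0 j hj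
  have hj1 : j = i₁ := by
    by_contra hj1
    refine hw0 (Submodule.disjoint_def.mp (hD.indep i₁) w hw ?_)
    have e : w = (w + u) - (v + u) + v := by abel
    rw [e]
    exact add_mem (sub_mem (le_iSup₂_of_le (f := fun k (_ : k ≠ i₁) => D k) l hl1 le_rfl hl)
      (le_iSup₂_of_le (f := fun k (_ : k ≠ i₁) => D k) j hj1 le_rfl hj))
      (le_iSup₂_of_le (f := fun k (_ : k ≠ i₁) => D k) i₀ hij le_rfl hv)
  subst hj1
  have : v + u + w = 0 := by
    refine Submodule.disjoint_def.mp (hD.indep i₁) _ (add_mem hj hw) ?_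
    have e : v + u + w = (w + u) + v := by abel
    rw [e]
    exact add_mem (le_iSup₂_of_le (f := fun k (_ : k ≠ i₁) => D k) l hl1 le_rfl hl)
      (le_iSup₂_of_le (f := fun k (_ : k ≠ i₁) => D k) i₀ hij le_rfl hv)
  have h3 := congrFun this i
  simp only [LinearMap.proj_apply] at hφ
  simp only [Pi.add_apply, hφ, add_zero, Pi.zero_apply] at h3 hi
  exact hi h3

theorem not_le_subalgebraNormalizer (hG : Rich G q) {r : ℕ} (hr : r ≠ 1) {K : Subalgebra F (Matrix ι ι F)}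
    (hK : IsFieldSubalgebra r K) : ¬ G ≤ subalgebraNormalizer K := by
  intro h
  have : Nonempty ι := Fintype.card_pos_iff.mp (by have := hG.two_le_card; omega)
  apply hr
  rw [← hK.finrank_eq]
  have hb : K = ⊥ := by
    refine le_bot_iff.mp fun k hk => mem_bot_iff.mpr ?_
    obtain ⟨u, hu0, hu, -⟩ := hG.sing 0 0 0
    obtain ⟨c, hc⟩ : ∃ c : F, k *ᵥ u = c • u := by
      by_contra hc
      push Not at hc
      obtain ⟨g, hg, h1, h2, h3⟩ := hG.fix u _ hu0 hu hc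
      obtain ⟨x, hx0, hx1, hx2⟩ := h3 k
      have h4 := ((isFld_of hK).mulVec_eq_zero (K.sub_mem (conj_mem_of_normalizes h hg hk) hk) (v := x) (by
        rw [sub_mulVec, ← conjAlg_apply]
        nth_rewrite 1 [← hx1]
        rw [conjAlg_mulVec, hx2, sub_self])).resolve_right hx0
      rw [sub_eq_zero, ← conjAlg_apply] at h4
      exact h2 (by rw [← conjAlg_mulVec, h4, h1])
    refine ⟨c, sub_eq_zero.mp (((isFld_of hK).mulVec_eq_zero (K.sub_mem hk (K.smul_mem K.one_mem c)) (v := u) ?_).resolve_right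
      hu0)⟩
    rw [sub_mulVec, hc, smul_mulVec, one_mulVec, sub_self]
  rw [hb, Subalgebra.finrank_bot]

theorem not_le_subfieldSubgroup (hG : Rich G q) {F₀ : Subfield F} (h0 : F₀ ≠ ⊤) (P : GL ι F) :
    ¬ G ≤ subfieldSubgroup F₀ P := by
  intro h
  obtain ⟨i⟩ : Nonempty ι := Fintype.card_pos_iff.mp (by have := hG.two_le_card; omega)
  set x : ι → F := (P : Matrix ι ι F) *ᵥ fun j => ((Pi.single i 1 : ι → F₀) j : F) with hx
  have hxi : (((P⁻¹ : GL ι F) : Matrix ι ι F) *ᵥ x) i = 1 := by rw [hx, gl_inv_mulVec]; simp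
  have hx0 : x ≠ 0 := fun e => by simp [e] at hxi
  obtain ⟨u, hu0, hu, hxu, -, hφ⟩ :=
    hG.sing x 0 ((LinearMap.proj i).comp (toLin' ((P⁻¹ : GL ι F) : Matrix ι ι F)))
  simp only [LinearMap.comp_apply, toLin'_apply, LinearMap.proj_apply] at hφ
  obtain ⟨j, hj⟩ : ∃ j, (((P⁻¹ : GL ι F) : Matrix ι ι F) *ᵥ u) j ≠ 0 := by
    by_contra hc
    push Not at hc
    exact hu0 (by rw [← gl_mulVec_inv P u, show _ *ᵥ u = 0 from funext hc, mulVec_zero])
  refine h0 (eq_top_iff.mpr fun a _ => ?_)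
  set b := a * ((((P⁻¹ : GL ι F) : Matrix ι ι F) *ᵥ u) j)⁻¹ with hb
  rcases hG.exists_eq_add (u := b • u) hx0 (by rw [CL.Cls.map_smul', hu, mul_zero])
    (by rw [polar_smul_right, hxu, smul_zero]) with e | ⟨g, hg, e⟩
  · have := congrArg (fun y => (((P⁻¹ : GL ι F) : Matrix ι ι F) *ᵥ y) i) e
    simp only [mulVec_add, mulVec_smul, Pi.add_apply, Pi.smul_apply, hxi, hφ, smul_zero, add_zero, mulVec_zero,
      Pi.zero_apply, one_ne_zero] at this
  obtain ⟨A, c, rfl⟩ := mem_subfieldSubgroup.mp (h hg)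
  rw [Units.val_mul, ← mulVec_mulVec, coe_scal, smul_mulVec, one_mulVec, mulVec_smul, hx, descGL_mulVec] at e
  have e' := congrArg (fun y => ((P⁻¹ : GL ι F) : Matrix ι ι F) *ᵥ y) e
  simp only [mulVec_smul, mulVec_add, gl_inv_mulVec] at e'
  have e1 := congrFun e' i
  have e2 := congrFun e' j
  have hij : j ≠ i := fun e => hj (e ▸ hφ)
  simp only [Pi.smul_apply, smul_eq_mul, Pi.add_apply, hφ, mul_zero, add_zero, Pi.single_eq_same,
    Pi.single_eq_of_ne hij, OneMemClass.coe_one, ZeroMemClass.coe_zero, zero_add, hb,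
    inv_mul_cancel_right₀ hj] at e1 e2
  rw [← e2, eq_inv_of_mul_eq_one_left e1]
  exact F₀.mul_mem (F₀.inv_mem (Subtype.coe_prop _)) (Subtype.coe_prop _)

/-- The orbit of a non-zero vector does not consist of pure tensors. -/
theorem not_pure (hG : Rich G q) (hq : SingBig q) {κ μ : Type} [Fintype κ] [Fintype μ] [Nontrivial κ] [Nontrivial μ]
    (θ : (ι → F) ≃ₗ[F] (κ × μ → F)) {x : ι → F} (hx : x ≠ 0)
    (h : ∀ g ∈ G, ∃ (a : κ → F) (b : μ → F), θ ((g : Matrix ι ι F) *ᵥ x) = tens a b) : False := by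
  obtain ⟨a, b, hab⟩ := h 1 G.one_mem
  rw [Units.val_one, one_mulVec] at hab
  have ha : a ≠ 0 := by
    rintro rfl
    exact hx (θ.map_eq_zero_iff.mp (hab.trans (tens_zero_left b)))
  have hb : b ≠ 0 := by
    rintro rfl
    exact hx (θ.map_eq_zero_iff.mp (hab.trans (tens_zero_right a)))
  obtain ⟨α₁, a₁, hα, hα'⟩ := exists_dual_kill a
  obtain ⟨β₁, b₁, hβ, hβ'⟩ := exists_dual_kill b
  obtain ⟨g, hg, hne⟩ : ∃ g ∈ G, α₁ (evR κ β₁ (θ ((g : Matrix ι ι F) *ᵥ x))) ≠ 0 := by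
    by_contra hc
    push Not at hc
    let W : Submodule F (ι → F) := ⨅ g ∈ G, LinearMap.ker (α₁ ∘ₗ evR κ β₁ ∘ₗ θ.toLinearMap ∘ₗ toLin' (g : Matrix ι ι F))
    have hW : ∀ w, w ∈ W ↔ ∀ g ∈ G, α₁ (evR κ β₁ (θ ((g : Matrix ι ι F) *ᵥ w))) = 0 := fun w => by
      simp only [W, Submodule.mem_iInf, LinearMap.mem_ker]
      rfl
    rcases irr_iff.mp hG.irr W (fun g hg w hw => (hW _).mpr fun g' hg' => by
      rw [mulVec_mulVec, ← Units.val_mul]
      exact (hW w).mp hw _ (G.mul_mem hg' hg)) with e | e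
    · exact hx ((Submodule.mem_bot F).mp (e ▸ (hW x).mpr hc))
    · have := (hW (θ.symm (tens a₁ b₁))).mp (e ▸ Submodule.mem_top) 1 G.one_mem
      rw [Units.val_one, one_mulVec, θ.apply_symm_apply, ev_tens, hα', hβ', one_mul] at this
      exact one_ne_zero this
  obtain ⟨a', b', hab'⟩ := h g hg
  set y := (g : Matrix ι ι F) *ᵥ x with hy
  rw [hab', ev_tens] at hne
  have hy0 : y ≠ 0 := fun e => hx (by rw [← gl_inv_mulVec g x, ← hy, e, mulVec_zero])
  obtain ⟨α₀, h1, h2⟩ := CL.SLn.exists_dual_pair (F := F) (u := a') (v := a) fun c hc => by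
    have hc0 : c ≠ 0 := fun e => ha (by rw [← hc, e, zero_smul])
    rw [← hc, map_smul, smul_eq_mul] at hα
    exact left_ne_zero_of_mul hne ((mul_eq_zero.mp hα).resolve_left hc0)
  obtain ⟨β₀, h3, h4⟩ := CL.SLn.exists_dual_pair (F := F) (u := b') (v := b) fun c hc => by
    have hc0 : c ≠ 0 := fun e => hb (by rw [← hc, e, zero_smul])
    rw [← hc, map_smul, smul_eq_mul] at hβ
    exact right_ne_zero_of_mul hne ((mul_eq_zero.mp hβ).resolve_left hc0)
  obtain ⟨u, hu0, hu, hxu, hyu, e1, e2, e3⟩ := hq x y (α₀ ∘ₗ evR κ β₀ ∘ₗ θ.toLinearMap)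
    (α₀ ∘ₗ evR κ β₁ ∘ₗ θ.toLinearMap) (α₁ ∘ₗ evR κ β₀ ∘ₗ θ.toLinearMap)
  simp only [LinearMap.comp_apply, LinearEquiv.coe_coe] at e1 e2 e3
  obtain ⟨c, d, hcd⟩ : ∃ c d, tens a b + θ u = tens c d := by
    rcases hG.exists_eq_add hx hu hxu with e | ⟨g', hg', e⟩
    · exact ⟨0, 0, by rw [← hab, ← map_add, e, map_zero, tens_zero_left]⟩
    · obtain ⟨c, d, hcd⟩ := h g' hg'
      exact ⟨c, d, by rw [← hab, ← map_add, ← e, hcd]⟩
  obtain ⟨c', d', hcd'⟩ : ∃ c d, tens a' b' + θ u = tens c d := by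
    rcases hG.exists_eq_add hy0 hu hyu with e | ⟨g', hg', e⟩
    · exact ⟨0, 0, by rw [← hab', ← map_add, e, map_zero, tens_zero_left]⟩
    · obtain ⟨c, d, hcd⟩ := h _ (G.mul_mem hg' hg)
      exact ⟨c, d, by rw [← hab', ← map_add, ← e, ← hcd, hy, mulVec_mulVec, Units.val_mul]⟩
  have ev : ∀ (α : Dual F (κ → F)) (β : Dual F (μ → F)), α a * β b + α (evR κ β (θ u)) = α c * β d ∧
      α a' * β b' + α (evR κ β (θ u)) = α c' * β d' := fun α β => by
    simp only [← ev_tens, ← hcd, ← hcd', map_add, and_self]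
  have f1 := (ev α₀ β₀).1
  have f2 := (ev α₀ β₁).1
  have f3 := (ev α₁ β₀).1
  have f4 := (ev α₁ β₁).1
  have f5 := (ev α₁ β₁).2
  have f6 := (ev α₀ β₁).2
  have f7 := (ev α₁ β₀).2
  simp only [h1, h2, h3, h4, hα, hβ, e1, e2, e3, mul_one, add_zero, mul_zero, zero_mul, zero_add] at f1 f2 f3 f4 f6 f7
  have g1 : α₁ c = 0 := (mul_eq_zero.mp f3.symm).resolve_right (right_ne_zero_of_mul_eq_one f1.symm)
  rw [g1, zero_mul] at f4
  rw [f4, add_zero] at f5
  rw [f5] at hne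
  have g2 : α₀ c' = 0 := (mul_eq_zero.mp f6.symm).resolve_right (right_ne_zero_of_mul hne)
  have g3 : β₀ d' = 0 := (mul_eq_zero.mp f7.symm).resolve_left (left_ne_zero_of_mul hne)
  have k1 := congrArg (evR κ β₀) hcd
  have k2 := congrArg (evR κ β₀) hcd'
  have k3 := congrArg (evL μ α₀) hcd
  have k4 := congrArg (evL μ α₀) hcd'
  simp only [map_add, evR_tens, evL_tens, h1, h2, h3, h4, g2, g3, zero_smul, zero_add, one_smul] at k1 k2 k3 k4
  rw [k2, add_zero] at k1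
  rw [k4, add_zero] at k3
  rw [k1, k3, tens_smul_left, tens_smul_right, smul_smul, mul_comm, ← f1, one_smul, add_eq_left] at hcd
  exact hu0 (θ.map_eq_zero_iff.mp hcd)

/-- The coordinates attached to a change of basis and a reindexing. -/
noncomputable def _root_.CL.Asch.coordEquiv {κ : Type} (e : ι ≃ κ) (P : GL ι F) : (ι → F) ≃ₗ[F] (κ → F) :=
  (CL.Cls.glEquiv ι F P⁻¹).trans (LinearEquiv.funCongrLeft F F e.symm)

theorem _root_.CL.Asch.coordEquiv_trans {κ : Type} (e : ι ≃ κ) (P : GL ι F) (x : κ → F) :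
    coordEquiv e P ((P : Matrix ι ι F) *ᵥ (x ∘ e)) = x := by
  ext k
  change (((P⁻¹ : GL ι F) : Matrix ι ι F) *ᵥ ((P : Matrix ι ι F) *ᵥ (x ∘ e))) (e.symm k) = _
  rw [gl_inv_mulVec, Function.comp_apply, e.apply_symm_apply]

theorem _root_.CL.Asch.coordEquiv_symm {κ : Type} (e : ι ≃ κ) (P : GL ι F) (x : κ → F) :
    (coordEquiv e P).symm x = (P : Matrix ι ι F) *ᵥ (x ∘ e) :=
  (coordEquiv e P).symm_apply_eq.mpr (coordEquiv_trans e P x).symm

theorem not_le_tensorProductSubgroup (hG : Rich G q) (hq : SingBig q) {n₁ n₂ : ℕ} (h1 : 2 ≤ n₁) (h2 : 2 ≤ n₂)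
    (e : ι ≃ Fin n₁ × Fin n₂) (P : GL ι F) : ¬ G ≤ tensorProductSubgroup n₁ n₂ e P := by
  intro h
  have : Nontrivial (Fin n₁) := Fin.nontrivial_iff_two_le.mpr h1
  have : Nontrivial (Fin n₂) := Fin.nontrivial_iff_two_le.mpr h2
  refine hG.not_pure hq (coordEquiv e P) (x := (coordEquiv e P).symm (tens 1 1))
    ((coordEquiv e P).symm.map_ne_zero_iff.mpr (tens_ne_zero one_ne_zero one_ne_zero)) fun g hg => ?_
  obtain ⟨a, b, hab⟩ := (mem_tensorProductSubgroup e P g).mp (h hg)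
  rw [hab, coordEquiv_symm, transAlg_mulVec, coordEquiv_trans]
  exact ⟨_, _, CL.SLn.kronecker_mulVec _ _ 1 1⟩

theorem not_le_tensorWreathSubgroup [Finite F] (hG : Rich G q) (hq : SingBig q) {k t : ℕ} (hk : 2 ≤ k) (ht : 2 ≤ t)
    (e : ι ≃ (Fin t → Fin k)) (P : GL ι F) : ¬ G ≤ tensorWreathSubgroup k t e P := by
  intro h
  obtain ⟨t, rfl⟩ : ∃ s, t = s + 1 := ⟨t - 1, by omega⟩
  have : Nontrivial (Fin k) := Fin.nontrivial_iff_two_le.mpr hk
  have : Nonempty (Fin t) := ⟨⟨0, by omega⟩⟩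
  refine hG.not_pure hq ((coordEquiv e P).trans (LinearEquiv.funCongrLeft F F (Fin.consEquiv fun _ => Fin k)))
    (x := (coordEquiv e P).symm 1) ((coordEquiv e P).symm.map_ne_zero_iff.mpr one_ne_zero) fun g hg => ?_
  obtain ⟨g, rfl⟩ := (transGL e P).surjective g
  obtain ⟨w, hw⟩ := CL.SLn.pure_of_mem_tensorWreathStandard ((mem_tensorWreathSubgroup_iff_transGL e P g).mp (h hg))
    fun _ => 1
  refine ⟨w 0, fun y => ∏ i, w (Fin.succ i) (y i), ?_⟩
  rw [coe_transGL, coordEquiv_symm, transAlg_mulVec, LinearEquiv.trans_apply, coordEquiv_trans]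
  simp only [Pi.one_apply, Finset.prod_const_one] at hw
  ext ⟨i, y⟩
  have := congrFun hw (Fin.cons i y)
  rw [Fin.prod_univ_succ] at this
  exact this

theorem not_le_quadSimilarityGroup [Finite F] (hG : Rich G 0) (h3 : 3 ≤ Fintype.card ι) {Q : (ι → F) → F}
    (hQ : IsNondegenerateQuadraticForm Q) : ¬ G ≤ quadSimilarityGroup Q := by
  intro h
  obtain ⟨u, hu0, hu, -⟩ := exists_sing_ker (toQF hQ) (k := 0) Fin.elim0 (by omega)
  obtain ⟨w, -, hw⟩ := (CL.Cls.ndon_top (nondeg_toQF hQ)).exists_nonsingular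
    ((Submodule.ne_bot_iff _).mpr ⟨u, Submodule.mem_top, hu0⟩)
  obtain ⟨g, hg, e⟩ := hG.trans u w hu0 (fun e => hw (by rw [e, map_zero])) rfl
  obtain ⟨c, hc⟩ := h hg
  exact hw (by rw [← e]; exact (hc u).trans (by rw [show Q u = 0 from hu, mul_zero]))

theorem not_le_subgroupNormalizer [Finite F] (hG : Rich G q) {r : ℕ} (hr : r.Prime) {R : Subgroup (GL ι F)}
    (hR : IsPGroup r R) (hns : ¬ R ≤ scalars ι F) (hRG : ∀ x ∈ R, ∀ g ∈ G, x * g * x⁻¹ ∈ G) :
    ¬ G ≤ subgroupNormalizer R := by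
  intro h
  have hGR : ∀ g ∈ G, ∀ x ∈ R, g * x * g⁻¹ ∈ R := fun g hg x hx => (Subgroup.mem_normalizer_iff.mp (h hg) x).mp hx
  rcases hG.normal (G ⊓ R) inf_le_left (fun g hg x hx => ⟨G.mul_mem (G.mul_mem hg hx.1) (G.inv_mem hg), hGR g hg x hx.2⟩)
    with h1 | h1
  · refine hns fun x hx => ?_
    have hc := commute_of_perfect (Q := R) hG.perfect (Subgroup.commutator_le.mpr fun g hg y hy =>
      scalars_le_center (h1 ⟨?_, ?_⟩))
    · exact mem_scalars_iff'.mpr (hG.scalar_of_comm fun g hg => congrArg Units.val (hc g hg x hx))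
    · simpa [commutatorElement_def, mul_assoc] using mul_mem hg (hRG y hy _ (inv_mem hg))
    · exact R.mul_mem (hGR g hg y hy) (R.inv_mem hy)
  · have := Fact.mk hr
    have := hR.isNilpotent
    exact hG.not_le_scalars (eq_bot_of_perfect_of_le (K := R) inferInstance (h1.trans inf_le_right) hG.perfect ▸ bot_le)

end Rich

/-! ### The symplectic groups -/

omit [DecidableEq ι] in
theorem singBig_zero (h : 4 ≤ Fintype.card ι) : SingBig (0 : QuadraticForm F (ι → F)) := fun x y φ ψ χ => by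
  obtain ⟨u, hu, h⟩ := exists_common_ker ![φ, ψ, χ] (by omega)
  exact ⟨u, hu, rfl, by simp [polar], by simp [polar], h 0, h 1, h 2⟩

theorem rich_spGL [Fintype F] {m : ℕ} (hm : 2 ≤ m) (hex : ¬ (m = 2 ∧ Fintype.card F = 2)) : Rich (spGL m F) 0 := by
  have hc : Fintype.card (Fin m ⊕ Fin m) = 2 * m := by simp [two_mul]
  have hA := CL.Sp.stdForm_isAlt (Fin m) F
  have hN := CL.Sp.stdForm_nondegenerate (Fin m) F
  have hmem : ∀ g ∈ CL.Sp.Isom (CL.Sp.stdForm (Fin m) F), (CL.Sp.glEquiv _ F).symm g ∈ spGL m F := fun g hg =>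
    (CL.Sp.mem_spGL_iff _).mpr (by rwa [MulEquiv.apply_symm_apply])
  have hp : commutator (CL.Sp.Isom (CL.Sp.stdForm (Fin m) F)) = ⊤ := CL.Sp.commutator_isom_eq_top hA hN (by
    have := Fintype.one_lt_card (α := F)
    rw [CL.Sp.finrank_std, Nat.card_eq_fintype_card]
    omega)
  let θ : CL.Sp.Isom (CL.Sp.stdForm (Fin m) F) →* GL (Fin m ⊕ Fin m) F :=
    (CL.Sp.glEquiv _ F).symm.toMonoidHom.comp (Subgroup.subtype _)
  have hθ : θ.range = spGL m F := by
    ext g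
    exact ⟨by rintro ⟨g, rfl⟩; exact hmem _ g.2, fun hg =>
      ⟨⟨_, (CL.Sp.mem_spGL_iff g).mp hg⟩, (CL.Sp.glEquiv _ F).symm_apply_apply g⟩⟩
  refine ⟨fun u v hu hv _ => ?_, fun x y φ => ?_, fun W hW => eq_top_iff.mpr fun u _ => hW u rfl,
    fun u w hu _ hw => ?_, ?_, fun N hN' hinv => ?_⟩
  · obtain ⟨t, ht, e⟩ := CL.Sp.exists_isom_apply_eq hA hN hu hv
    exact ⟨_, hmem t ht, by rw [CL.Sp.glEquiv_symm_mulVec, e]⟩
  · obtain ⟨u, hu, h1, h2, h3, h4, -⟩ := singBig_zero (F := F) (ι := Fin m ⊕ Fin m) (by omega) x y φ 0 0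
    exact ⟨u, hu, h1, h2, h3, h4⟩
  · obtain ⟨v, hv, hwv⟩ := CL.Sp.exists_orth_ne_zero hA hN (W := Submodule.span F {u}) (x := w) fun h =>
      let ⟨c, hc⟩ := Submodule.mem_span_singleton.mp h
      hw c hc.symm
    have hv0 : v ≠ 0 := fun e => hwv (by rw [e, map_zero])
    refine ⟨_, hmem _ (CL.Sp.tv_mem_isom hA v 1), ?_, ?_, fun k => ?_⟩
    · rw [CL.Sp.glEquiv_symm_mulVec, CL.Sp.tv_apply_of_ortho hA _ (hv u (Submodule.mem_span_singleton_self u))]
    · rw [CL.Sp.glEquiv_symm_mulVec, CL.Sp.tv_apply, one_mul, Ne, add_eq_left]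
      exact smul_ne_zero hwv hv0
    · obtain ⟨x, hx, h⟩ := exists_common_ker ![(CL.Sp.stdForm (Fin m) F).flip v,
        (CL.Sp.stdForm (Fin m) F).flip v ∘ₗ toLin' k] (by omega)
      exact ⟨x, hx, by rw [CL.Sp.glEquiv_symm_mulVec]; exact CL.Sp.tv_apply_of_ortho hA _ (h 0),
        by rw [CL.Sp.glEquiv_symm_mulVec]; exact CL.Sp.tv_apply_of_ortho hA _ (h 1)⟩
  · rw [← hθ, MonoidHom.range_eq_map, ← Subgroup.map_commutator, ← commutator_def, hp]
  · have : (N.comap θ).Normal := ⟨fun x hx g => by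
      rw [Subgroup.mem_comap, map_mul, map_mul, map_inv]
      exact hinv _ (hmem _ g.2) _ hx⟩
    rcases CL.Sp.normal_le_center_or_eq_top hA hN hp (N.comap θ) with h | h
    · refine Or.inl fun x hx => ?_
      obtain ⟨y, rfl⟩ := hθ.ge (hN' hx)
      rcases (CL.Sp.mem_center_isom_iff hA hN y).mp (h hx) with e | e
      · exact mem_scalars_of_eq_smul (c := 1) (matrix_ext_mulVec fun v => by
          change ((CL.Sp.glEquiv _ F).symm y.1 : GL _ F).1 *ᵥ v = _
          rw [CL.Sp.glEquiv_symm_mulVec, e, one_smul, one_mulVec]; rfl)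
      · exact mem_scalars_of_eq_smul (c := -1) (matrix_ext_mulVec fun v => by
          change ((CL.Sp.glEquiv _ F).symm y.1 : GL _ F).1 *ᵥ v = _
          rw [CL.Sp.glEquiv_symm_mulVec, e, smul_mulVec, one_mulVec, neg_one_smul]; rfl)
    · rw [← hθ]
      exact Or.inr (by rintro _ ⟨y, rfl⟩; exact h.ge (Subgroup.mem_top y))

/-! ### The groups `Ω` -/

/-- An abstract isometry as a matrix. -/
noncomputable def ogGL (Q : QuadraticForm F (ι → F)) : CL.Cls.OG Q →* GL ι F :=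
  (isometryGroup F ⇑Q).subtype.comp (CL.Cls.isomEquiv Q).symm.toMonoidHom

theorem ogGL_mulVec (Q : QuadraticForm F (ι → F)) (g : CL.Cls.OG Q) (v : ι → F) :
    ((ogGL Q g : GL ι F) : Matrix ι ι F) *ᵥ v = g.1 v := CL.Cls.isomEquiv_symm_mulVec Q g v

theorem ogGL_injective (Q : QuadraticForm F (ι → F)) : Function.Injective (ogGL Q) :=
  Subtype.val_injective.comp (CL.Cls.isomEquiv Q).symm.injective

theorem ogGL_range (Q : QuadraticForm F (ι → F)) : (ogGL Q).range = isometryGroup F ⇑Q := by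
  rw [ogGL, ← MonoidHom.map_range, MonoidHom.range_eq_top.mpr (CL.Cls.isomEquiv Q).symm.surjective,
    ← MonoidHom.range_eq_map, Subgroup.range_subtype]

theorem omegaGL_eq_commutator (Q : (ι → F) → F) : omegaGL Q = ⁅isometryGroup F Q, isometryGroup F Q⁆ := by
  rw [omegaGL, Omega, commutator_def, Subgroup.map_commutator, ← MonoidHom.range_eq_map, Subgroup.range_subtype]

theorem omegaGL_eq_map (Q : QuadraticForm F (ι → F)) : omegaGL ⇑Q = (commutator (CL.Cls.OG Q)).map (ogGL Q) := by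
  rw [omegaGL_eq_commutator, commutator_def, Subgroup.map_commutator, ← MonoidHom.range_eq_map, ogGL_range]

theorem ogGL_mem_omegaGL {Q : QuadraticForm F (ι → F)} {g : CL.Cls.OG Q} :
    ogGL Q g ∈ omegaGL ⇑Q ↔ g ∈ commutator (CL.Cls.OG Q) := by
  rw [omegaGL_eq_map, Subgroup.mem_map_iff_mem (ogGL_injective Q)]

theorem conj_mem_omegaGL {Q : (ι → F) → F} {h : GL ι F} (hh : h ∈ quadSimilarityGroup Q) :
    ∀ g ∈ omegaGL Q, h * g * h⁻¹ ∈ omegaGL Q := by
  have h1 : (isometryGroup F Q).map (MulAut.conj h).toMonoidHom ≤ isometryGroup F Q := by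
    rintro _ ⟨g, hg, rfl⟩
    obtain ⟨c, hc⟩ := hh
    refine mem_isometryGroup_iff.mpr fun v => ?_
    change Q ((h * g * h⁻¹ : GL ι F).1 *ᵥ v) = _
    rw [Units.val_mul, Units.val_mul, ← mulVec_mulVec, ← mulVec_mulVec, hc, mem_isometryGroup_iff.mp hg, ← hc,
      gl_mulVec_inv]
  intro g hg
  rw [omegaGL_eq_commutator] at hg ⊢
  have := Subgroup.mem_map_of_mem (MulAut.conj h).toMonoidHom hg
  rw [Subgroup.map_commutator] at this
  exact Subgroup.commutator_mono h1 h1 this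

omit [DecidableEq ι] in
theorem singBig_of_card [Finite F] (q : QuadraticForm F (ι → F)) (h : 8 ≤ Fintype.card ι) : SingBig q :=
  fun x y φ ψ χ =>
    let ⟨u, hu, hq, h⟩ := exists_sing_ker q ![polarBilin q x, polarBilin q y, φ, ψ, χ] (by omega)
    ⟨u, hu, hq, h 0, h 1, h 2, h 3, h 4⟩

theorem rich_omegaGL [Finite F] {Q : QuadraticForm F (ι → F)} (hQ : (polarBilin Q).Nondegenerate)
    (h6 : 6 ≤ Fintype.card ι) : Rich (omegaGL ⇑Q) Q := by
  have h5 : 5 ≤ finrank F (ι → F) := by rw [Module.finrank_fintype_fun_eq_card]; omega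
  refine ⟨fun u v hu hv e => ?_, fun x y φ => ?_, fun W hW => eq_top_iff.mpr fun u _ => ?_,
    fun u w hu0 hu hw => ?_, ?_, fun N hN hinv => ?_⟩
  · obtain ⟨g, hg, e⟩ := CL.Cls.exists_commutator_app_eq hQ h5 hu hv e
    exact ⟨_, ogGL_mem_omegaGL.mpr hg, by rw [ogGL_mulVec, e]⟩
  · obtain ⟨u, hu, hq, h⟩ := exists_sing_ker Q ![polarBilin Q x, polarBilin Q y, φ] (by omega)
    exact ⟨u, hu, hq, h 0, h 1, h 2⟩
  · obtain ⟨e, f, hef⟩ := CL.Cls.exists_isHyp hQ (by omega)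
    exact CL.Cls.singular_induction (W := ⊤) hef Submodule.mem_top Submodule.mem_top (P := (· ∈ W))
      (fun x _ hx => hW x hx) (fun _ _ _ _ => W.add_mem) Submodule.mem_top
  · obtain ⟨v, huv, hv⟩ : ∃ v, polar Q u v = 0 ∧ (CL.Cls.eich Q u v).1 w ≠ w := by
      by_contra hc
      push Not at hc
      obtain ⟨c, hc⟩ := CL.Cls.exists_smul_of_eich_fix hQ (by omega) hu hu0 hc
      exact hw c hc
    refine ⟨_, ogGL_mem_omegaGL.mpr (CL.Cls.eich_mem_commutator hQ h5 u v), by rw [ogGL_mulVec, CL.Cls.eich_app_self],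
      by rwa [ogGL_mulVec], fun k => ?_⟩
    obtain ⟨x, hx, h⟩ := exists_common_ker ![polarBilin Q u, polarBilin Q v, polarBilin Q u ∘ₗ toLin' k,
      polarBilin Q v ∘ₗ toLin' k] (by omega)
    exact ⟨x, hx, by rw [ogGL_mulVec]; exact CL.Cls.eich_app_of_polar (h 0) (h 1),
      by rw [ogGL_mulVec]; exact CL.Cls.eich_app_of_polar (h 2) (h 3)⟩
  · rw [omegaGL_eq_map, ← Subgroup.map_commutator, CL.Cls.commutator_commutator_OG hQ h5]
  · by_cases h : N ≤ scalars ι F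
    · exact Or.inl h
    obtain ⟨x, hx, hxs⟩ := SetLike.not_le_iff_exists.mp h
    obtain ⟨y, -, rfl⟩ := (omegaGL_eq_map Q).le (hN hx)
    have := CL.Cls.commutator_le_of_normalized hQ h5 (N := N.comap (ogGL Q)) (fun n hn k hk => by
      rw [Subgroup.mem_comap, map_mul, map_mul, map_inv]
      exact hinv _ (ogGL_mem_omegaGL.mpr hk) _ hn) (g := y) hx (by
        rintro rfl
        exact hxs (by rw [map_one]; exact Subgroup.one_mem _)) (by
        rintro rfl
        exact hxs (mem_scalars_of_eq_smul (c := -1) (matrix_ext_mulVec fun v => by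
          rw [ogGL_mulVec, CL.Cls.negOG_app, smul_mulVec, one_mulVec, neg_one_smul])))
    exact Or.inr (by rw [omegaGL_eq_map]; exact Subgroup.map_le_iff_le_comap.mpr this)

theorem rich_omegaGL' [Finite F] {Q : (ι → F) → F} (hQ : IsNondegenerateQuadraticForm Q)
    (h6 : 6 ≤ Fintype.card ι) : Rich (omegaGL Q) (toQF hQ) := rich_omegaGL (nondeg_toQF hQ) h6

end CL.Asch
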