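/-
The similarity group of a symplectic form is maximal in `SL_n(F)` for `n ≥ 3`.
-/
import Cfsg.Agent.Cls.GeoProper

set_option autoImplicit false

namespace CL.SLn

open Module Matrix Cfsg Cfsg.Geo

section General

variable {F V G : Type*} [Field F] [AddCommGroup V] [Module F V] [Group G]
  [DistribMulAction G V] [SMulCommClass G F V]

/-- A subspace holding every vector outside a hyperplane of a subspace `U` holds `U`. -/
theorem le_of_forall_ne_zero {S U : Submodule F V} {φ : Dual F V} {u₀ : V} (h0 : u₀ ∈ U)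
    (h1 : φ u₀ ≠ 0) (h : ∀ u ∈ U, φ u ≠ 0 → u ∈ S) : U ≤ S := by
  intro u hu
  by_cases h2 : φ u = 0
  · simpa using S.sub_mem (h _ (U.add_mem hu h0) (by simpa [h2] using h1)) (h _ h0 h1)
  · exact h u hu h2

/-- If `H` holds all transvections of a symplectic form `B` and a further group of transvections
`(v, c φ)`, then it holds all transvections. -/
theorem centers_eq_top_of_symplectic [FiniteDimensional F V] {B : LinearMap.BilinForm F V}
    (hB : B.IsAlt) (hN : B.Nondegenerate) {H : Subgroup G}
    (hH : ∀ (u : V) (c : F), Tv H u (c • B u)) {v : V} (hv : v ≠ 0) {φ : Dual F V}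
    (hφ : ∀ c : F, Tv H v (c • φ)) (hne : ∀ c : F, φ ≠ c • B v) : centers F V H = ⊤ := by
  obtain ⟨u₀, h0, h1⟩ : ∃ u, B v u = 0 ∧ φ u ≠ 0 := by
    by_contra hc
    push Not at hc
    obtain ⟨c, hc⟩ := exists_smul_of_ker_le hc
    exact hne c hc
  let S : Submodule F V :=
    { carrier := {w | ∀ c : F, Tv H v (c • B w)}
      zero_mem' := fun c ↦ by simpa using Tv.zero_right
      add_mem' := fun {a b} ha hb c ↦ by
        rw [map_add, smul_add]; exact (ha c).add_right (hb c)
      smul_mem' := fun d a ha c ↦ by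
        rw [map_smul, smul_smul]; exact ha _ }
  have hS : LinearMap.ker (B v) ≤ S := by
    refine le_of_forall_ne_zero (φ := φ) h0 h1 fun u hu h2 c ↦ ?_
    have h3 : B u v = 0 := hB.isRefl _ _ hu
    have h4 := (hφ 1).sub_right (by simpa [h3] using (hH u (c / φ u)).conj_tv (hφ 1))
    convert h4 using 1
    simp [smul_smul, mul_div_cancel₀ _ h2]
  have hvc : v ∈ centers F V H := fun ψ hψ ↦ by
    obtain ⟨w, rfl⟩ := (B.toDual hN).surjective ψ
    have h3 : B.toDual hN w = (1 : F) • B w := by ext x; simp [LinearMap.BilinForm.toDual_def]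
    rw [h3] at hψ ⊢
    exact hS (show B v w = 0 from hB.isRefl _ _ (by simpa using hψ)) 1
  obtain ⟨x, hx⟩ : ∃ x, B v x ≠ 0 := by
    by_contra hc
    push Not at hc
    exact hv (hN.1 v hc)
  refine eq_top_iff.2 (le_of_forall_ne_zero (φ := B v) Submodule.mem_top hx fun u _ hu ↦ ?_)
  obtain ⟨-, t, ht, htx⟩ := hH u 1
  have h2 := (centers F V H).sub_mem (smul_mem_centers ht hvc) hvc
  rw [htx, add_sub_cancel_left, one_smul] at h2
  exact ((centers F V H).smul_mem_iff fun h ↦ hu (hB.isRefl _ _ h)).1 h2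

end General

variable {ι : Type} [Fintype ι] [DecidableEq ι] {F : Type*} [Field F]

/-- The bilinear map of a bilinear form given as a function. -/
def bilinOf {f : (ι → F) → (ι → F) → F} (hf : IsBilinearForm f) : LinearMap.BilinForm F (ι → F) :=
  LinearMap.mk₂ F f hf.add_left hf.smul_left hf.add_right fun c x y ↦ hf.smul_right c x y

omit [Fintype ι] [DecidableEq ι] in
@[simp] theorem bilinOf_apply {f : (ι → F) → (ι → F) → F} (hf : IsBilinearForm f) (x y : ι → F) :
    bilinOf hf x y = f x y := rfl

omit [Fintype ι] [DecidableEq ι] in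
theorem bilinOf_nondegenerate {f : (ι → F) → (ι → F) → F} (hf : IsBilinearForm f)
    (hN : IsNondegenerateForm f) : (bilinOf hf).Nondegenerate := by
  constructor
  · intro v hv
    by_contra h0
    obtain ⟨x, hx⟩ := (hN v h0).2
    exact hx (hv x)
  · intro v hv
    by_contra h0
    obtain ⟨x, hx⟩ := (hN v h0).1
    exact hx (hv x)

theorem tv_similarity_symplectic {f : (ι → F) → (ι → F) → F} (hf : IsSymplecticForm f)
    (u : ι → F) (c : F) :
    Tv (similarityGroup f ⊓ specialLinear ι F) u (c • bilinOf hf.bilinear u) := by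
  have h0 : (c • bilinOf hf.bilinear u) u = 0 := by simp [hf.alternating]
  refine (Tv.of_mem h0 (mem_similarityGroup.2 ⟨1, fun x y ↦ ?_⟩)).inf_sl
  simp only [tv_smul, hf.bilinear.add_left, hf.bilinear.add_right, hf.bilinear.smul_left,
    hf.bilinear.smul_right, hf.alternating, LinearMap.smul_apply, bilinOf_apply, smul_eq_mul,
    hf.skew x u, Units.val_one]
  ring

/-- An overgroup of the special similarity group of a symplectic form that is not made of
similarities contains `SL`. -/
theorem specialLinear_le_of_symplectic {f : (ι → F) → (ι → F) → F} (hf : IsSymplecticForm f)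
    {H : Subgroup (GL ι F)} (hH : similarityGroup f ⊓ specialLinear ι F ≤ H) {g : GL ι F}
    (hg : g ∈ H) (hgM : g ∉ similarityGroup f) : specialLinear ι F ≤ H := by
  set B := bilinOf hf.bilinear with hBdef
  have hB : B.IsAlt := hf.alternating
  have hN : B.Nondegenerate := bilinOf_nondegenerate _ hf.nondegenerate
  have h1 : ∀ u c, Tv H u (c • B u) := fun u c ↦ (tv_similarity_symplectic hf u c).mono hH
  by_cases hc : ∀ v : ι → F, ∃ c : F, dact g (B (g⁻¹ • v)) = c • B v
  · exfalso
    let T : (ι → F) →ₗ[F] (ι → F) := (B.toDual hN).symm.toLinearMap ∘ₗ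
      (DistribSMul.toLinearMap F (ι → F) g⁻¹).dualMap ∘ₗ B ∘ₗ DistribSMul.toLinearMap F (ι → F) g⁻¹
    have hT : ∀ v x, B (T v) x = B (g⁻¹ • v) (g⁻¹ • x) := fun v x ↦ by
      simp [T, LinearMap.BilinForm.apply_toDual_symm_apply]
    obtain ⟨c, hc⟩ := exists_smul_of_forall (f := T) fun v ↦ by
      obtain ⟨c, hc⟩ := hc v
      refine ⟨c, sub_eq_zero.1 (hN.1 _ fun x ↦ ?_)⟩
      have := LinearMap.congr_fun hc x
      simp only [dact_apply, LinearMap.smul_apply] at this
      rw [map_sub, LinearMap.sub_apply, hT, this, map_smul, LinearMap.smul_apply, sub_self]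
    have h2 : ∀ v x, f (g⁻¹ • v) (g⁻¹ • x) = c * f v x := fun v x ↦ by
      have := hT v x
      rw [hc, map_smul] at this
      exact this.symm
    by_cases h0 : c = 0
    · refine hgM (mem_similarityGroup.2 ⟨1, fun u v ↦ ?_⟩)
      have h3 : ∀ u v, f u v = 0 := fun u v ↦ by simpa [h0] using h2 (g • u) (g • v)
      simp [h3]
    · exact hgM ((Subgroup.inv_mem_iff _).1 (mem_similarityGroup.2 ⟨Units.mk0 c h0, h2⟩))
  · push Not at hc
    obtain ⟨v, hv⟩ := hc
    refine specialLinear_le_of_centers (centers_eq_top_of_symplectic hB hN h1 (v := v)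
      (fun h0 ↦ hv 0 (by ext; simp [h0])) (fun c ↦ ?_) hv)
    have := (h1 (g⁻¹ • v) c).conj hg
    rw [smul_inv_smul] at this
    exact this

theorem isMaximalIn_symplectic (hn : 3 ≤ Fintype.card ι) {f : (ι → F) → (ι → F) → F}
    (hf : IsSymplecticForm f) :
    IsMaximalIn (specialLinear ι F) (similarityGroup f ⊓ specialLinear ι F) :=
  isMaximalIn_of (not_sl_le_similarityGroup hn hf.bilinear.add_left hf.bilinear.smul_left
    hf.nondegenerate) fun _ hH _ _ hg hgM ↦ specialLinear_le_of_symplectic hf hH hg hgM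

end CL.SLn
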