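import Cfsg.Agent.Cls.SpMatrix
import Cfsg.Agent.Cls.AschTensor
import Cfsg.Agent.Cls.MaxSp

set_option autoImplicit false

/-!
The tensor decomposition of `F^ι` given by a bijection `ι ≃ Fin n₁ × Fin n₂` and a change of basis `P`, as a linear
equivalence `F^n₁ ⊗ F^n₂ ≃ F^ι`; membership in `tensorProductSubgroup` and tensor products of bilinear forms.
-/

namespace CL.Sp

open Module TensorProduct Matrix Kronecker

variable {F : Type*} [Field F] {ι : Type} [Fintype ι] [DecidableEq ι] {n₁ n₂ : ℕ}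

/-- The tensor decomposition attached to `e` and `P`. -/
noncomputable def tenE (e : ι ≃ Fin n₁ × Fin n₂) (P : GL ι F) : (Fin n₁ → F) ⊗[F] (Fin n₂ → F) ≃ₗ[F] (ι → F) :=
  ((Pi.basisFun F (Fin n₁)).tensorProduct (Pi.basisFun F (Fin n₂))).equivFun.trans
    ((LinearEquiv.funCongrLeft F F e).trans (glEquiv ι F P))

theorem tenE_tmul (e : ι ≃ Fin n₁ × Fin n₂) (P : GL ι F) (x : Fin n₁ → F) (y : Fin n₂ → F) :
    tenE e P (x ⊗ₜ y) = (P : Matrix ι ι F) *ᵥ ((fun p : Fin n₁ × Fin n₂ => x p.1 * y p.2) ∘ e) := by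
  simp only [tenE, LinearEquiv.trans_apply, glEquiv_apply]
  congr 1
  ext i
  exact (Basis.tensorProduct_repr_tmul_apply _ _ x y (e i).1 (e i).2).trans (by simp [mul_comm])

theorem kronecker_mulVec_pure (a : Matrix (Fin n₁) (Fin n₁) F) (b : Matrix (Fin n₂) (Fin n₂) F) (x : Fin n₁ → F)
    (y : Fin n₂ → F) :
    (a ⊗ₖ b) *ᵥ (fun p : Fin n₁ × Fin n₂ => x p.1 * y p.2) = fun p => (a *ᵥ x) p.1 * (b *ᵥ y) p.2 := by
  ext p
  simp [mulVec, dotProduct, Fintype.sum_prod_type, Finset.sum_mul_sum, mul_mul_mul_comm]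

theorem mem_tensorProductSubgroup_symm_iff (e : ι ≃ Fin n₁ × Fin n₂) (P : GL ι F) (g : (ι → F) ≃ₗ[F] (ι → F)) :
    (glEquiv ι F).symm g ∈ Cfsg.Geo.tensorProductSubgroup n₁ n₂ e P ↔
      ∃ (a : (Fin n₁ → F) ≃ₗ[F] (Fin n₁ → F)) (t : (Fin n₂ → F) ≃ₗ[F] (Fin n₂ → F)),
        ∀ x y, g (tenE e P (x ⊗ₜ y)) = tenE e P (a x ⊗ₜ t y) := by
  rw [CL.Asch.mem_tensorProductSubgroup]
  constructor
  · rintro ⟨a, b, h⟩
    refine ⟨glEquiv _ F a, glEquiv _ F b, fun x y => ?_⟩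
    rw [← glEquiv_symm_mulVec, h, tenE_tmul, tenE_tmul, CL.Asch.transAlg_mulVec, kronecker_mulVec_pure]
    rfl
  · rintro ⟨a, t, h⟩
    refine ⟨(glEquiv _ F).symm a, (glEquiv _ F).symm t, matrix_ext_mulVec fun v => ?_⟩
    obtain ⟨v, rfl⟩ := (tenE e P).surjective v
    induction v using TensorProduct.induction_on with
    | zero => simp
    | tmul x y =>
      rw [glEquiv_symm_mulVec, h, tenE_tmul, tenE_tmul, CL.Asch.transAlg_mulVec, kronecker_mulVec_pure,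
        glEquiv_symm_mulVec, glEquiv_symm_mulVec]
    | add x y hx hy => rw [map_add, mulVec_add, mulVec_add, hx, hy]

theorem bilin_eq_sum_gram {κ : Type} [Fintype κ] [DecidableEq κ] {f : (κ → F) → (κ → F) → F}
    (hf : Cfsg.Geo.IsBilinearForm f) (x y : κ → F) :
    f x y = ∑ a, ∑ b, x a * Cfsg.Geo.gramMatrix f a b * y b := by
  rw [← CL.SLn.bilinOf_apply hf]
  conv_lhs => rw [pi_eq_sum_univ' x, pi_eq_sum_univ' y]
  simp [Cfsg.Geo.gramMatrix, Finset.mul_sum, mul_comm, mul_left_comm]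
  exact Finset.sum_comm

theorem exists_form_tenE {f : (ι → F) → (ι → F) → F} {f₁ : (Fin n₁ → F) → (Fin n₁ → F) → F}
    {f₂ : (Fin n₂ → F) → (Fin n₂ → F) → F} (h₁ : Cfsg.Geo.IsBilinearForm f₁) (h₂ : Cfsg.Geo.IsBilinearForm f₂)
    {e : ι ≃ Fin n₁ × Fin n₂} {P : GL ι F} (hT : Cfsg.Geo.IsTensorFormStructure id f f₁ f₂ e P) :
    ∃ c : F, c ≠ 0 ∧ ∀ x y x' y', f (tenE e P (x ⊗ₜ y)) (tenE e P (x' ⊗ₜ y')) = f₁ x x' * (c * f₂ y y') := by
  obtain ⟨c, hc, h⟩ := hT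
  refine ⟨c, hc, fun x y x' y' => ?_⟩
  rw [tenE_tmul, tenE_tmul, h, bilin_eq_sum_gram h₁, bilin_eq_sum_gram h₂, mul_left_comm]
  congr 1
  simp only [Cfsg.Geo.formOfGram, Fintype.sum_prod_type, kroneckerMap_apply, id, Finset.sum_mul_sum]
  refine Finset.sum_congr rfl fun a _ => Finset.sum_congr rfl fun b _ =>
    Finset.sum_congr rfl fun a' _ => Finset.sum_congr rfl fun b' _ => by ring

end CL.Sp
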