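import Cfsg.Agent.Cls.SpTen4
import Cfsg.Agent.Cls.TenMat
import Cfsg.Agent.Cls.SpMaxGL

set_option autoImplicit false

/-!
Maximality of the stabilisers `Sp_{n₁}(q) ⊗ O_{n₂}(q)` of tensor decompositions in the symplectic group.
-/

namespace CL.Sp

open Module TensorProduct

theorem TD.exists_ne_kron {F V₁ V₂ V : Type*} [Field F] [Finite F] [AddCommGroup V₁] [Module F V₁] [AddCommGroup V₂]
    [Module F V₂] [AddCommGroup V] [Module F V] [FiniteDimensional F V₂] {β : LinearMap.BilinForm F V₁}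
    {s : LinearMap.BilinForm F V₂} {B : LinearMap.BilinForm F V} (T : TD β s B) (h3 : 3 ≤ finrank F V₂) {v : V₁}
    (hv : v ≠ 0) : ∃ g ∈ Isom B, ∀ a t, g ≠ T.kron a t := by
  obtain ⟨z, -, hz0, hz⟩ := SymD.exists_sing (s := s) ⊤ (by rwa [finrank_top])
  obtain ⟨z', hz'⟩ := T.exists_s hz0
  obtain ⟨v', hv'⟩ := T.exists_β hv
  refine ⟨tv T.alt (T.tm v z) 1, tv_mem_isom _ _ _, fun a t e => ?_⟩
  have h := LinearEquiv.congr_fun e (T.tm v' z')
  rw [tv_apply, T.B_tm_tm, hv', hz', T.kron_tm] at h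
  have h1 := congrArg (T.φ v) h
  have h2 := congrArg (T.φ v') h
  simp only [map_add, map_smul, T.φ_tm, hv', alt_self T.altβ, alt_neg T.altβ v v', mul_one, one_smul, zero_smul,
    add_zero, zero_add, neg_smul] at h1 h2
  rw [neg_eq_iff_eq_neg, ← neg_smul] at h2
  have hc : -β (a v') v' ≠ 0 := fun e => hz0 (by rw [h2, e, zero_smul])
  generalize t z' = w at h1 h2
  subst h1 h2
  simp only [map_smul, LinearMap.smul_apply, smul_eq_mul, mul_eq_zero, hc, false_or] at hz hz'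
  simp [hz] at hz'

theorem five_le_card {F : Type*} [Field F] [Fintype F] (hodd : Odd (Fintype.card F)) (h : Fintype.card F ≠ 3) :
    5 ≤ Nat.card F := by
  have := Fintype.one_lt_card (α := F)
  rw [Nat.card_eq_fintype_card]
  obtain ⟨k, hk⟩ := hodd
  omega

theorem isMaximalIn_tensorProductSubgroup {F : Type*} [Field F] [Fintype F] {m n₁ n₂ : ℕ} (hm : 1 ≤ m)
    (hodd : Odd (Fintype.card F)) (hn₂ : 3 ≤ n₂) (hex : ¬ (Fintype.card F = 3 ∧ n₂ = 3)) (hex' : n₁ = 2 → n₂ ≠ 4)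
    (e : (Fin m ⊕ Fin m) ≃ Fin n₁ × Fin n₂) (P : GL (Fin m ⊕ Fin m) F) (f₁ : (Fin n₁ → F) → (Fin n₁ → F) → F)
    (f₂ : (Fin n₂ → F) → (Fin n₂ → F) → F) (hf₁ : Cfsg.Geo.IsSymplecticForm f₁) (hf₂ : Cfsg.Geo.IsSymmetricForm f₂)
    (hT : Cfsg.Geo.IsTensorFormStructure id (Cfsg.sympForm m F) f₁ f₂ e P) :
    Cfsg.Geo.IsMaximalIn (Cfsg.spGL m F) (Cfsg.Geo.tensorProductSubgroup n₁ n₂ e P ⊓ Cfsg.spGL m F) := by
  obtain ⟨c, hc, h⟩ := exists_form_tenE hf₁.bilinear hf₂.bilinear hT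
  have hN := CL.SLn.bilinOf_nondegenerate hf₂.bilinear hf₂.nondegenerate
  let T : TD (CL.SLn.bilinOf hf₁.bilinear) (c • CL.SLn.bilinOf hf₂.bilinear) (stdForm (Fin m) F) :=
    { E := tenE e P
      altβ := hf₁.alternating
      ndβ := CL.SLn.bilinOf_nondegenerate hf₁.bilinear hf₁.nondegenerate
      sym := ⟨fun x y => by simp [hf₂.symm x y],
        ⟨fun x hx => hN.1 x fun y => by simpa [hc] using hx y, fun x hx => hN.2 x fun y => by simpa [hc] using hx y⟩,
        two_ne_zero_of_odd_card hodd⟩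
      alt := stdForm_isAlt _ _
      nd := stdForm_nondegenerate _ _
      form := fun a y a' y' => by rw [stdForm_eq_sympForm, h]; simp }
  have key : ∀ g, (glEquiv _ F).symm g ∈ Cfsg.Geo.tensorProductSubgroup n₁ n₂ e P ↔ ∃ a t, g = T.kron a t := fun g => by
    rw [mem_tensorProductSubgroup_symm_iff]
    exact exists₂_congr fun a t => ⟨fun h => T.equiv_ext fun x y => by rw [T.kron_tm]; exact h x y,
      fun h x y => h ▸ T.kron_tm a t x y⟩
  have h3 : 3 ≤ finrank F (Fin n₂ → F) := by simpa using hn₂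
  obtain ⟨i, -⟩ := e (Sum.inl ⟨0, hm⟩)
  have hv : (Pi.single i 1 : Fin n₁ → F) ≠ 0 := fun h => by simpa using congrFun h i
  refine isMaximalIn_spGL _ ?_ fun M hM hS g hg hgD => ?_
  · obtain ⟨g, hg, h⟩ := T.exists_ne_kron h3 hv
    exact ⟨g, hg, fun hc => by obtain ⟨a, t, e⟩ := (key g).1 hc; exact h a t e⟩
  · have O : T.Ov M := ⟨hM, fun a ha t ht => hS _ (T.kron_mem ha ht) ((key _).2 ⟨a, t, rfl⟩)⟩
    refine (O.isom_le_or h3 ?_ (by simpa using hex') hv).resolve_right fun h => hgD ((key g).2 (h g hg))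
    by_cases h4 : Fintype.card F = 3
    · left; simp only [Module.finrank_fin_fun]; omega
    · exact Or.inr (five_le_card hodd h4)

end CL.Sp
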