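/-
Tensor decompositions `V = U ⊗ W` and the commuting subalgebras `End U ⊗ 1`, `1 ⊗ End W` of `End V`: contractions,
centralisers, Kronecker products, and the rank lemmas for elements normalising `End U ⊗ 1`.
-/
import Cfsg.Agent.Base

set_option autoImplicit false
set_option linter.unusedSectionVars false

namespace CL.TW

open Module TensorProduct

/-- A tensor decomposition. -/
structure TP (F U W V : Type*) [Field F] [AddCommGroup U] [Module F U] [AddCommGroup W] [Module F W]
    [AddCommGroup V] [Module F V] where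
  E : U ⊗[F] W ≃ₗ[F] V

variable {F U W V : Type*} [Field F] [AddCommGroup U] [Module F U] [AddCommGroup W] [Module F W]
  [AddCommGroup V] [Module F V]

theorem val_inv_apply (g : (End F V)ˣ) (v : V) : g.1 ((g⁻¹).1 v) = v := by
  rw [← End.mul_apply, Units.mul_inv, End.one_apply]

theorem inv_val_apply (g : (End F V)ˣ) (v : V) : (g⁻¹).1 (g.1 v) = v := by
  rw [← End.mul_apply, Units.inv_mul, End.one_apply]

theorem unit_injective (g : (End F V)ˣ) : Function.Injective g.1 :=
  Function.LeftInverse.injective (inv_val_apply g)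

theorem unit_surjective (g : (End F V)ˣ) : Function.Surjective g.1 :=
  Function.RightInverse.surjective (val_inv_apply g)

/-- The map `z ↦ α(z) x`. -/
abbrev rk (x : U) (α : Dual F U) : End F U := α.smulRight x

theorem rk_apply (x : U) (α : Dual F U) (z : U) : rk x α z = α z • x := rfl

theorem rk_mul_rk (x y : U) (α α' : Dual F U) : rk x α * rk y α' = α y • rk x α' := by
  ext z; simp [smul_smul, mul_comm]

theorem exists_dual_one {x : U} (hx : x ≠ 0) : ∃ α : Dual F U, α x = 1 := Projective.exists_dual_eq_one F hx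

/-- A linear form vanishing on a subspace. -/
theorem exists_dual_sub {S : Submodule F U} {x : U} (hx : x ∉ S) : ∃ α : Dual F U, α x = 1 ∧ ∀ s ∈ S, α s = 0 := by
  obtain ⟨α, h⟩ := exists_dual_one (F := F) (x := S.mkQ x) (fun e => hx ((Submodule.Quotient.mk_eq_zero S).1 e))
  exact ⟨α ∘ₗ S.mkQ, h, fun s hs => by simp [(Submodule.Quotient.mk_eq_zero S).2 hs]⟩

theorem eq_of_dual {x y : U} (h : ∀ α : Dual F U, α x = α y) : x = y := by
  by_contra hne
  obtain ⟨α, hα⟩ := exists_dual_one (F := F) (sub_ne_zero.2 hne)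
  rw [map_sub, h, sub_self] at hα
  exact zero_ne_one hα

/-- An endomorphism stabilising every line is a scalar. -/
theorem exists_smul_of_lines {a : End F U} (h : ∀ x, ∃ c : F, a x = c • x) : ∃ c : F, a = c • 1 := by
  obtain ⟨c, hc⟩ := LinearMap.exists_eq_smul_id_of_forall_notLinearIndependent (f := a) fun x hx => by
    obtain ⟨c, hc⟩ := h x
    have := (LinearIndependent.pair_iff.1 hx c (-1) (by rw [hc]; simp)).2
    simp at this
  exact ⟨c, hc⟩

namespace TP

variable (T : TP F U W V)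

/-- Pure tensors. -/
noncomputable def tm : U →ₗ[F] W →ₗ[F] V := (TensorProduct.mk F U W).compr₂ T.E.toLinearMap

/-- Contraction of the first factor. -/
noncomputable def φ : Dual F U →ₗ[F] V →ₗ[F] W :=
  (TensorProduct.lift (LinearMap.mk₂ F (fun x y => (Dual.eval F U x).smulRight y) (fun _ _ _ => by ext; simp [add_smul])
    (fun _ _ _ => by ext; simp [mul_smul]) (fun _ _ _ => by ext; simp)
    (fun _ _ _ => by ext α; simp [smul_comm _ (α _)])) ∘ₗ T.E.symm.toLinearMap).flip

/-- The decomposition with the factors exchanged. -/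
noncomputable def flip : TP F W U V := ⟨(TensorProduct.comm F W U).trans T.E⟩

/-- The first factor. -/
noncomputable def A : End F U →ₐ[F] End F V :=
  (T.E.conjAlgEquiv F).toAlgHom.comp (Module.End.rTensorAlgHom F U W)

/-- The second factor. -/
noncomputable def C : End F W →ₐ[F] End F V := T.flip.A

/-- The image of a decomposition under an invertible map. -/
noncomputable def mv (g : (End F V)ˣ) : TP F U W V :=
  ⟨T.E.trans (LinearMap.GeneralLinearGroup.toLinearEquiv g)⟩

theorem tm_apply (x : U) (y : W) : T.tm x y = T.E (x ⊗ₜ y) := rfl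

theorem flip_tm (x : U) (y : W) : T.flip.tm y x = T.tm x y := rfl

theorem mv_tm (g : (End F V)ˣ) (x : U) (y : W) : (T.mv g).tm x y = g.1 (T.tm x y) := rfl

theorem φ_tm (α : Dual F U) (x : U) (y : W) : T.φ α (T.tm x y) = α x • y := by simp [φ, tm_apply]

/-- Contraction of the second factor. -/
noncomputable def ψ : Dual F W →ₗ[F] V →ₗ[F] U := T.flip.φ

theorem ψ_tm (χ : Dual F W) (x : U) (y : W) : T.ψ χ (T.tm x y) = χ y • x := T.flip.φ_tm χ y x

theorem A_tm (a : End F U) (x : U) (y : W) : T.A a (T.tm x y) = T.tm (a x) y := by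
  simp only [A, tm_apply, AlgHom.comp_apply, AlgEquiv.coe_toAlgHom, LinearEquiv.conjAlgEquiv_apply,
    LinearMap.comp_apply, LinearEquiv.coe_coe, LinearEquiv.symm_apply_apply]
  rfl

theorem C_tm (c : End F W) (x : U) (y : W) : T.C c (T.tm x y) = T.tm x (c y) := T.flip.A_tm c y x

theorem induction {P : V → Prop} (v : V) (h0 : P 0) (h1 : ∀ x y, P (T.tm x y)) (h2 : ∀ a b, P a → P b → P (a + b)) :
    P v := by
  obtain ⟨v, rfl⟩ := T.E.surjective v
  induction v using TensorProduct.induction_on with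
  | zero => rwa [map_zero]
  | tmul x y => exact h1 x y
  | add x y hx hy => rw [map_add]; exact h2 _ _ hx hy

theorem ext_tm {X : Type*} [AddCommGroup X] [Module F X] {f g : V →ₗ[F] X}
    (h : ∀ x y, f (T.tm x y) = g (T.tm x y)) : f = g :=
  LinearMap.ext fun v => T.induction (P := fun v => f v = g v) v (by simp) h fun a b ha hb => by rw [map_add, map_add, ha, hb]

theorem flip_C : T.flip.C = T.A := AlgHom.ext fun a => T.ext_tm fun x y => by
  rw [A_tm, ← flip_tm, C_tm, flip_tm]

theorem mv_A (g : (End F V)ˣ) (a : End F U) : (T.mv g).A a = g.1 * T.A a * (g⁻¹).1 :=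
  (T.mv g).ext_tm fun x y => by rw [A_tm, mv_tm, mv_tm, End.mul_apply, End.mul_apply, inv_val_apply, A_tm]

theorem mv_C (g : (End F V)ˣ) (c : End F W) : (T.mv g).C c = g.1 * T.C c * (g⁻¹).1 :=
  (T.mv g).ext_tm fun x y => by rw [C_tm, mv_tm, mv_tm, End.mul_apply, End.mul_apply, inv_val_apply, C_tm]

theorem mv_φ (g : (End F V)ˣ) (α : Dual F U) (v : V) : (T.mv g).φ α v = T.φ α ((g⁻¹).1 v) :=
  LinearMap.congr_fun ((T.mv g).ext_tm (f := (T.mv g).φ α) (g := T.φ α ∘ₗ (g⁻¹).1) fun x y => by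
    rw [φ_tm, mv_tm, LinearMap.comp_apply, inv_val_apply, φ_tm]) v

theorem mv_mv (g h : (End F V)ˣ) : (T.mv g).mv h = T.mv (h * g) := rfl

theorem mv_one : T.mv 1 = T := rfl

theorem commute (a : End F U) (c : End F W) : Commute (T.A a) (T.C c) :=
  T.ext_tm fun x y => by simp [A_tm, C_tm]

theorem AC_tm (a : End F U) (c : End F W) (x : U) (y : W) : (T.A a * T.C c) (T.tm x y) = T.tm (a x) (c y) := by
  rw [End.mul_apply, C_tm, A_tm]

theorem AC_mul (a a' : End F U) (c c' : End F W) :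
    T.A a * T.C c * (T.A a' * T.C c') = T.A (a * a') * T.C (c * c') := T.ext_tm fun x y => by
  rw [End.mul_apply, AC_tm, AC_tm, AC_tm, End.mul_apply, End.mul_apply]

theorem AC_pow (a : End F U) (c : End F W) (n : ℕ) : (T.A a * T.C c) ^ n = T.A (a ^ n) * T.C (c ^ n) := by
  rw [(T.commute a c).mul_pow, map_pow, map_pow]

theorem φ_C (α : Dual F U) (c : End F W) (v : V) : T.φ α (T.C c v) = c (T.φ α v) :=
  LinearMap.congr_fun (T.ext_tm (f := T.φ α ∘ₗ T.C c) (g := c ∘ₗ T.φ α) fun x y => by simp [C_tm, φ_tm]) v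

theorem φ_A (α : Dual F U) (a : End F U) (v : V) : T.φ α (T.A a v) = T.φ (α ∘ₗ a) v :=
  LinearMap.congr_fun (T.ext_tm (f := T.φ α ∘ₗ T.A a) fun x y => by simp [A_tm, φ_tm]) v

theorem φ_ψ (α : Dual F U) (χ : Dual F W) (v : V) : χ (T.φ α v) = α (T.ψ χ v) :=
  LinearMap.congr_fun (T.ext_tm (f := χ ∘ₗ T.φ α) (g := α ∘ₗ T.ψ χ) fun x y => by simp [φ_tm, ψ_tm, mul_comm]) v

theorem A_rk (x : U) (α : Dual F U) (v : V) : T.A (rk x α) v = T.tm x (T.φ α v) :=
  LinearMap.congr_fun (T.ext_tm (g := T.tm x ∘ₗ T.φ α) fun x y => by simp [A_tm, φ_tm]) v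

theorem tm_eq_zero {x : U} {y : W} (h : T.tm x y = 0) : x = 0 ∨ y = 0 := by
  by_cases hx : x = 0
  · exact Or.inl hx
  obtain ⟨α, hα⟩ := exists_dual_one (F := F) hx
  exact Or.inr (by simpa [φ_tm, hα] using congrArg (T.φ α) h)

theorem tm_injective {x : U} (hx : x ≠ 0) : Function.Injective (T.tm x) :=
  (injective_iff_map_eq_zero _).2 fun _ h => (T.tm_eq_zero h).resolve_left hx

theorem tm_left_cancel {x x' : U} {y : W} (hy : y ≠ 0) (h : T.tm x y = T.tm x' y) : x = x' :=
  T.flip.tm_injective hy h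

theorem AC_eq_zero {a : End F U} {c : End F W} (h : T.A a * T.C c = 0) : a = 0 ∨ c = 0 := by
  by_contra hne
  push Not at hne
  obtain ⟨x, hx⟩ := DFunLike.ne_iff.1 hne.1
  obtain ⟨y, hy⟩ := DFunLike.ne_iff.1 hne.2
  exact (T.tm_eq_zero (by rw [← AC_tm, h, LinearMap.zero_apply])).elim hx hy

theorem A_injective [Nontrivial W] : Function.Injective T.A :=
  (injective_iff_map_eq_zero _).2 fun _ h =>
    (T.AC_eq_zero (c := 1) (by rw [h, zero_mul])).resolve_right one_ne_zero

theorem C_injective [Nontrivial U] : Function.Injective T.C := T.flip.A_injective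

theorem sum_repr {ι : Type*} [Fintype ι] (b : Basis ι F U) (x : U) (y : W) :
    ∑ i, b.repr x i • T.tm (b i) y = T.tm x y := by
  conv_rhs => rw [← b.sum_repr x, map_sum, LinearMap.sum_apply]
  simp only [map_smul, LinearMap.smul_apply]

theorem sum_tm {ι : Type*} [Fintype ι] (b : Basis ι F U) (v : V) : ∑ i, T.tm (b i) (T.φ (b.coord i) v) = v := by
  simpa using LinearMap.congr_fun (T.ext_tm (f := ∑ i, T.tm (b i) ∘ₗ T.φ (b.coord i)) (g := LinearMap.id)
    fun x y => by simp [φ_tm, T.sum_repr b]) v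

theorem eq_zero_of_φ [FiniteDimensional F U] {v : V} (h : ∀ α, T.φ α v = 0) : v = 0 := by
  rw [← T.sum_tm (finBasis F U) v]
  simp [h]

theorem eq_of_φ [FiniteDimensional F U] {v v' : V} (h : ∀ α, T.φ α v = T.φ α v') : v = v' :=
  sub_eq_zero.1 (T.eq_zero_of_φ fun α => by rw [map_sub, h, sub_self])

/-- Vectors killed by the contractions with the forms vanishing at `x`. -/
theorem exists_tm [FiniteDimensional F U] {x : U} (hx : x ≠ 0) {v : V} (h : ∀ α : Dual F U, α x = 0 → T.φ α v = 0) :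
    ∃ y, v = T.tm x y := by
  obtain ⟨α, hα⟩ := exists_dual_one (F := F) hx
  refine ⟨T.φ α v, T.eq_of_φ fun α' => ?_⟩
  have := h (α' - α' x • α) (by simp [hα])
  rw [map_sub, map_smul, LinearMap.sub_apply, sub_eq_zero] at this
  rw [φ_tm, this, LinearMap.smul_apply]

/-- The components of an endomorphism. -/
noncomputable def sl (α : Dual F U) (x : U) (z : End F V) : End F W := T.φ α ∘ₗ z ∘ₗ T.tm x

theorem sl_apply (α : Dual F U) (x : U) (z : End F V) (y : W) : T.sl α x z y = T.φ α (z (T.tm x y)) := rfl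

theorem A_sandwich (x' x : U) (α α' : Dual F U) (z : End F V) :
    T.A (rk x' α) * z * T.A (rk x α') = T.A (rk x' α') * T.C (T.sl α x z) := by
  ext v; simp [A_rk, φ_C, sl_apply]

theorem sl_AC (α : Dual F U) (x : U) (a : End F U) (c : End F W) : T.sl α x (T.A a * T.C c) = α (a x) • c := by
  ext y; rw [sl_apply, AC_tm, φ_tm]; rfl

theorem sl_add (α : Dual F U) (x : U) (z z' : End F V) : T.sl α x (z + z') = T.sl α x z + T.sl α x z' := by
  ext y; simp [sl_apply]

theorem sl_sub (α : Dual F U) (x : U) (z z' : End F V) : T.sl α x (z - z') = T.sl α x z - T.sl α x z' := by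
  ext y; simp [sl_apply]

theorem sl_C_mul (α : Dual F U) (x : U) (c : End F W) (z : End F V) : T.sl α x (T.C c * z) = c * T.sl α x z := by
  ext y; simp [sl_apply, φ_C]

theorem sl_mul_C (α : Dual F U) (x : U) (c : End F W) (z : End F V) : T.sl α x (z * T.C c) = T.sl α x z * c := by
  ext y; simp [sl_apply, C_tm]

theorem commute_sl {z : End F V} {c : End F W} (h : Commute (T.C c) z) (α : Dual F U) (x : U) :
    Commute (T.C c) (T.C (T.sl α x z)) := by
  refine Commute.map ?_ T.C
  change _ * _ = _ * _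
  rw [← sl_C_mul, h.eq, sl_mul_C]

theorem sum_sl {ι : Type*} [Fintype ι] (b : Basis ι F U) (z : End F V) :
    ∑ i, ∑ j, T.A (rk (b i) (b.coord j)) * T.C (T.sl (b.coord i) (b j) z) = z := T.ext_tm fun x y => by
  rw [← T.sum_tm b (z _)]
  conv_rhs => rw [← T.sum_repr b x]
  simp [sl_apply, A_tm, C_tm]

theorem C_sl {ι : Type*} [Fintype ι] (b : Basis ι F U) (α : Dual F U) (x : U) (z : End F V) :
    T.C (T.sl α x z) = ∑ i, T.A (rk (b i) α) * z * T.A (rk x (b.coord i)) := T.ext_tm fun u y => by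
  simp [A_rk, φ_tm, C_tm, sl_apply, T.sum_repr b]

theorem exists_C [Nontrivial U] {z : End F V} (h : ∀ a, Commute (T.A a) z) : ∃ c, z = T.C c := by
  obtain ⟨x₀, hx₀⟩ := exists_ne (0 : U)
  obtain ⟨α, hα⟩ := exists_dual_one (F := F) hx₀
  refine ⟨T.sl α x₀ z, T.ext_tm fun x y => ?_⟩
  have := LinearMap.congr_fun (h (rk x α)).eq (T.tm x₀ y)
  simpa [A_rk, φ_tm, hα, C_tm, sl_apply] using this.symm

theorem exists_A [Nontrivial W] {z : End F V} (h : ∀ c, Commute (T.C c) z) : ∃ a, z = T.A a := by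
  simpa only [flip_C] using T.flip.exists_C h

/-- A map stabilising all subspaces `x ⊗ W` lies in the second factor. -/
theorem exists_C_of_sl [Nontrivial U] [FiniteDimensional F U] {z : End F V}
    (h : ∀ (x : U) (α : Dual F U), α x = 0 → T.sl α x z = 0) : ∃ c, z = T.C c := by
  refine T.exists_C fun a => sub_eq_zero.1 (T.ext_tm fun x y => T.eq_zero_of_φ fun α => ?_)
  have key : ∀ (y : W) (χ : Dual F W), ∃ c : F, ∀ x α, χ (T.φ α (z (T.tm x y))) = c * α x := fun y χ => by
    obtain ⟨c, hc⟩ := exists_smul_of_lines (a := T.ψ χ ∘ₗ z ∘ₗ T.flip.tm y) fun x => by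
      by_cases hx : x = 0
      · exact ⟨0, by simp [hx, flip_tm]⟩
      obtain ⟨y', e⟩ := T.exists_tm hx (v := z (T.tm x y)) fun α hα => LinearMap.congr_fun (h x α hα) y
      exact ⟨χ y', by simp only [LinearMap.comp_apply, flip_tm, e, ψ_tm]⟩
    refine ⟨c, fun x α => ?_⟩
    have h2 := LinearMap.congr_fun hc x
    simp only [LinearMap.comp_apply, flip_tm] at h2
    rw [T.φ_ψ, h2]; simp
  refine eq_of_dual (F := F) fun χ => ?_
  obtain ⟨c, hc⟩ := key y χ
  simp [φ_A, A_tm, hc]

theorem scalar_of_A_eq_C [Nontrivial W] {a : End F U} {c : End F W} (h : T.A a = T.C c) : ∃ l : F, a = l • 1 := by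
  obtain ⟨y, hy⟩ := exists_ne (0 : W)
  obtain ⟨χ, hχ⟩ := exists_dual_one (F := F) hy
  refine ⟨χ (c y), LinearMap.ext fun x => ?_⟩
  have := congrArg (T.ψ χ) (LinearMap.congr_fun h (T.tm x y))
  rw [A_tm, C_tm, ψ_tm, ψ_tm, hχ, one_smul] at this
  exact this

theorem scalar_of_AC_eq_one [Nontrivial U] [Nontrivial W] {a : End F U} {c : End F W} (h : T.A a * T.C c = 1) :
    ∃ l : F, l ≠ 0 ∧ a = l • 1 ∧ c = l⁻¹ • 1 := by
  obtain ⟨y, hy⟩ := exists_ne (0 : W)
  have hcy : c y ≠ 0 := fun e => by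
    obtain ⟨x, hx⟩ := exists_ne (0 : U)
    have := LinearMap.congr_fun h (T.tm x y)
    rw [AC_tm, e, map_zero, End.one_apply] at this
    exact (T.tm_eq_zero this.symm).elim hx hy
  obtain ⟨χ, hχ⟩ := exists_dual_one (F := F) hcy
  have ha : a = χ y • 1 := LinearMap.ext fun x => by
    have := congrArg (T.ψ χ) (LinearMap.congr_fun h (T.tm x y))
    rw [AC_tm, End.one_apply, ψ_tm, ψ_tm, hχ, one_smul] at this
    exact this
  have h0 : χ y ≠ 0 := fun e => by
    rw [ha, e, zero_smul, map_zero, zero_mul] at h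
    have := T.AC_eq_zero (a := 1) (c := 1) (by rw [map_one, map_one, mul_one, h])
    simp at this
  refine ⟨χ y, h0, ha, T.C_injective ?_⟩
  rw [ha, map_smul, map_one, smul_mul_assoc, one_mul] at h
  rw [map_smul, map_one, ← h, smul_smul, inv_mul_cancel₀ h0, one_smul]

/-- Kronecker products. -/
def Kron (z : End F V) : Prop := ∃ a c, z = T.A a * T.C c

theorem Kron.mul {T : TP F U W V} {z z' : End F V} (h : T.Kron z) (h' : T.Kron z') : T.Kron (z * z') := by
  obtain ⟨a, c, rfl⟩ := h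
  obtain ⟨a', c', rfl⟩ := h'
  exact ⟨_, _, T.AC_mul a a' c c'⟩

theorem kron_A (a : End F U) : T.Kron (T.A a) := ⟨a, 1, by rw [map_one, mul_one]⟩

theorem kron_C (c : End F W) : T.Kron (T.C c) := ⟨1, c, by rw [map_one, one_mul]⟩

theorem kron_mv {g : (End F V)ˣ} {z : End F V} : (T.mv g).Kron z ↔ T.Kron ((g⁻¹).1 * z * g.1) := by
  constructor
  · rintro ⟨a, c, rfl⟩
    exact ⟨a, c, by simp [mv_A, mv_C, mul_assoc]⟩
  · rintro ⟨a, c, e⟩
    refine ⟨a, c, ?_⟩
    simp only [mv_A, mv_C, mul_assoc, Units.inv_mul_cancel_left]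
    rw [← mul_assoc (T.A a), ← e]
    simp [mul_assoc]

/-- The factors of an invertible Kronecker product are invertible. -/
theorem Kron.units [FiniteDimensional F U] [FiniteDimensional F W] [Nontrivial U] [Nontrivial W] {T : TP F U W V}
    {g : (End F V)ˣ} (h : T.Kron g.1) : ∃ (a : (End F U)ˣ) (c : (End F W)ˣ), g.1 = T.A a.1 * T.C c.1 ∧
      (g⁻¹).1 = T.A (a⁻¹).1 * T.C (c⁻¹).1 := by
  obtain ⟨a, c, e⟩ := h
  obtain ⟨x₀, hx₀⟩ := exists_ne (0 : U)
  obtain ⟨y₀, hy₀⟩ := exists_ne (0 : W)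
  have key : ∀ x y, a x = 0 ∨ c y = 0 → x = 0 ∨ y = 0 := fun x y h => T.tm_eq_zero (unit_injective g (by
    rw [e, AC_tm, map_zero]
    rcases h with h | h <;> simp [h]))
  obtain ⟨a, rfl⟩ := (LinearMap.isUnit_iff_ker_eq_bot a).2 (LinearMap.ker_eq_bot'.2 fun x hx =>
    (key x y₀ (Or.inl hx)).resolve_right hy₀)
  obtain ⟨c, rfl⟩ := (LinearMap.isUnit_iff_ker_eq_bot c).2 (LinearMap.ker_eq_bot'.2 fun y hy =>
    (key x₀ y (Or.inr hy)).resolve_left hx₀)
  refine ⟨a, c, e, Units.inv_eq_of_mul_eq_one_right ?_⟩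
  rw [e, AC_mul]
  simp

theorem Kron.inv [FiniteDimensional F U] [FiniteDimensional F W] [Nontrivial U] [Nontrivial W] {T : TP F U W V}
    {g : (End F V)ˣ} (h : T.Kron g.1) : T.Kron (g⁻¹).1 := by
  obtain ⟨a, c, -, e⟩ := h.units
  exact ⟨_, _, e⟩

/-- Skolem--Noether: two decompositions with the same first factor differ by a Kronecker product. -/
theorem exists_tm_eq [FiniteDimensional F U] [Nontrivial U] [Nontrivial W] {T T' : TP F U W V}
    (h : ∀ a, ∃ a', T'.A a = T.A a') : ∃ (a : End F U) (c : End F W), ∀ x y, T'.tm x y = T.tm (a x) (c y) := by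
  choose θ hθ using h
  let θ' : End F U →ₐ[F] End F U :=
    { toFun := θ
      map_one' := T.A_injective (by rw [← hθ, map_one, map_one])
      map_mul' := fun a b => T.A_injective (by rw [map_mul, ← hθ, ← hθ, ← hθ, map_mul])
      map_zero' := T.A_injective (by rw [← hθ, map_zero, map_zero])
      map_add' := fun a b => T.A_injective (by rw [map_add, ← hθ, ← hθ, ← hθ, map_add])
      commutes' := fun c => T.A_injective (by rw [← hθ, AlgHom.commutes, AlgHom.commutes]) }
  have hinj : Function.Injective θ' := fun a b e => T'.A_injective (by rw [hθ, hθ]; exact congrArg _ e)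
  obtain ⟨e, he⟩ := (AlgEquiv.ofBijective θ' ⟨hinj, (LinearMap.injective_iff_surjective
    (f := θ'.toLinearMap)).1 hinj⟩).eq_linearEquivConjAlgEquiv
  have h1 : ∀ a, T'.A a = T.A (e.toLinearMap * a * e.symm.toLinearMap) := fun a => by
    rw [hθ]; exact congrArg _ (AlgEquiv.congr_fun he a)
  let g : End F V := T'.E.toLinearMap ∘ₗ T.E.symm.toLinearMap
  have hg : ∀ x y, g (T.tm x y) = T'.tm x y := fun x y => by simp [g, tm_apply]
  obtain ⟨c, hc⟩ := T.exists_C (z := T.A e.symm.toLinearMap * g) fun a => T.ext_tm fun x y => by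
    simp only [End.mul_apply, A_tm, hg]
    rw [← T'.A_tm, h1, ← End.mul_apply (T.A _), ← End.mul_apply (T.A _), ← map_mul, ← map_mul]
    congr 2
    ext; simp
  refine ⟨e.toLinearMap, c, fun x y => ?_⟩
  rw [← T.AC_tm, ← hc, ← mul_assoc, ← map_mul, End.mul_apply, hg,
    show e.toLinearMap * e.symm.toLinearMap = 1 by ext; simp, map_one, End.one_apply]

theorem kron_of_normalizes [FiniteDimensional F U] [Nontrivial U] [Nontrivial W] {g : (End F V)ˣ}
    (h : ∀ a, ∃ a', g.1 * T.A a * (g⁻¹).1 = T.A a') : T.Kron g.1 := by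
  obtain ⟨a, c, e⟩ := exists_tm_eq (T := T) (T' := T.mv g) fun a => by simpa only [mv_A] using h a
  exact ⟨a, c, T.ext_tm fun x y => by rw [AC_tm, ← e, mv_tm]⟩

end TP

end CL.TW
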