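/-
Tensor decompositions, part 2: unipotent Kronecker products of small rank, and frames of pairwise commuting tensor
factors: generation, and invariant subspaces of `End V`.
-/
import Cfsg.Agent.Cls.TW1

set_option autoImplicit false
set_option linter.unusedSectionVars false

namespace CL.TW

open Module

variable {F U W V : Type*} [Field F] [AddCommGroup U] [Module F U] [AddCommGroup W] [Module F W]
  [AddCommGroup V] [Module F V]

theorem exists_not_mem_apply_mem {m : End F U} {N : ℕ} (hm : m ^ N = 0) {S : Submodule F U} (hS : S ≠ ⊤) :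
    ∃ z, z ∉ S ∧ m z ∈ S := by
  by_contra h
  push Not at h
  obtain ⟨z, -, hz⟩ := SetLike.exists_of_lt (lt_top_iff_ne_top.2 hS)
  have : ∀ n, (m ^ n) z ∉ S := fun n => by
    induction n with
    | zero => exact hz
    | succ n ih => rw [pow_succ', End.mul_apply]; exact h _ ih
  exact this N (by rw [hm]; exact zero_mem _)

theorem exists_ker_of_pow [Nontrivial U] {m : End F U} {N : ℕ} (hm : m ^ N = 0) : ∃ z, z ≠ 0 ∧ m z = 0 := by
  simpa using exists_not_mem_apply_mem hm (S := ⊥) bot_ne_top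

theorem sub_one_pow_eq_zero (p : ℕ) [Fact p.Prime] [CharP F p] [Nontrivial U] {a : End F U} {n : ℕ}
    (h : a ^ p ^ n = 1) : (a - 1) ^ p ^ n = 0 := by
  have : CharP (End F U) p := charP_of_injective_algebraMap (algebraMap F (End F U)).injective p
  rw [sub_pow_char_pow_of_commute p n (Commute.one_right a), h, one_pow, sub_self]

theorem pow_eq_one_of_sub (p : ℕ) [Fact p.Prime] [CharP F p] [Nontrivial U] {a : End F U} {n r : ℕ} (hr : r ≤ p ^ n)
    (h : (a - 1) ^ r = 0) : a ^ p ^ n = 1 := by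
  have : CharP (End F U) p := charP_of_injective_algebraMap (algebraMap F (End F U)).injective p
  have h1 := sub_pow_char_pow_of_commute p n (Commute.one_right a)
  rw [pow_eq_zero_of_le hr h, one_pow] at h1
  exact (sub_eq_zero.1 h1.symm)

theorem span_ne_top [FiniteDimensional F U] {ι : Type*} [Fintype ι] (e : ι → U) (h : Fintype.card ι < finrank F U) :
    Submodule.span F (Set.range e) ≠ ⊤ := fun h' => by
  have := finrank_range_le_card (R := F) e
  rw [Set.finrank, h', finrank_top] at this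
  omega

namespace TP

variable (T : TP F U W V)

theorem exists_unip (p : ℕ) [Fact p.Prime] [CharP F p] [Finite F] [Nontrivial U] [Nontrivial W] {z : End F V}
    (h : T.Kron z) {n : ℕ} (hz : z ^ p ^ n = 1) :
    ∃ a c, z = T.A a * T.C c ∧ a ^ p ^ n = 1 ∧ c ^ p ^ n = 1 := by
  obtain ⟨a, c, rfl⟩ := h
  obtain ⟨l, hl, h1, h2⟩ := T.scalar_of_AC_eq_one (by rwa [AC_pow] at hz)
  obtain ⟨μ, rfl⟩ := Finite.surjective_of_injective (iterateFrobenius F p n).injective l
  rw [iterateFrobenius_def] at hl h1 h2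
  have h0 : μ ≠ 0 := fun e => hl (by rw [e, zero_pow (pow_ne_zero _ (Fact.out : p.Prime).ne_zero)])
  refine ⟨μ⁻¹ • a, μ • c, ?_, ?_, ?_⟩
  · rw [map_smul, map_smul, smul_mul_smul_comm, inv_mul_cancel₀ h0, one_smul]
  · rw [smul_pow, h1, smul_smul, inv_pow, inv_mul_cancel₀ hl, one_smul]
  · rw [smul_pow, h2, smul_smul, mul_inv_cancel₀ hl, one_smul]

/-- Restriction to `U ⊗ y`. -/
theorem pow_eq_zero_of_tm {X : End F V} {m : End F U} {y : W} (hy : y ≠ 0) (h : ∀ x, X (T.tm x y) = T.tm (m x) y)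
    {r : ℕ} (hX : X ^ r = 0) : m ^ r = 0 := by
  have : ∀ n x, (X ^ n) (T.tm x y) = T.tm ((m ^ n) x) y := fun n => by
    induction n with
    | zero => intro x; rfl
    | succ n ih => intro x; rw [pow_succ, pow_succ, End.mul_apply, End.mul_apply, h, ih]
  ext x
  exact (T.tm_eq_zero (by rw [← this, hX, LinearMap.zero_apply])).resolve_right hy

theorem tm_pair {x x' : U} (h : LinearIndependent F ![x, x']) {y y' : W} (e : T.tm x y + T.tm x' y' = 0) :
    y = 0 ∧ y' = 0 := by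
  obtain ⟨α, h1, h2⟩ := exists_dual_sub (S := Submodule.span F {x'}) (x := x) fun hx => by
    obtain ⟨c, hc⟩ := Submodule.mem_span_singleton.1 hx
    have := (LinearIndependent.pair_iff.1 h (-1) c (by rw [hc]; simp)).1
    simp at this
  have h3 : y = 0 := by simpa [φ_tm, h1, h2 x' (Submodule.mem_span_singleton_self _)] using congrArg (T.φ α) e
  rw [h3, map_zero, zero_add] at e
  exact ⟨h3, (T.tm_eq_zero e).resolve_left (h.ne_zero 1)⟩

/-- The sum map `W^ι → V`. -/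
noncomputable def sm {ι : Type*} [Fintype ι] (e : ι → U) : (ι → W) →ₗ[F] V := ∑ i, T.tm (e i) ∘ₗ LinearMap.proj i

theorem sm_apply {ι : Type*} [Fintype ι] (e : ι → U) (y : ι → W) : T.sm e y = ∑ i, T.tm (e i) (y i) := by simp [sm]

theorem finrank_range_A_le [FiniteDimensional F W] {ι : Type*} [Fintype ι] (e : ι → U) {n : End F U}
    (h : ∀ x, n x ∈ Submodule.span F (Set.range e)) :
    finrank F (LinearMap.range (T.A n)) ≤ Fintype.card ι * finrank F W := by
  have h1 : LinearMap.range (T.A n) ≤ LinearMap.range (T.sm e) := by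
    rintro _ ⟨v, rfl⟩
    refine T.induction (P := fun v => T.A n v ∈ LinearMap.range (T.sm e)) v (by simp) (fun x y => ?_)
      fun a b ha hb => by rw [map_add]; exact add_mem ha hb
    obtain ⟨c, hc⟩ := (Submodule.mem_span_range_iff_exists_fun F).1 (h x)
    exact ⟨fun i => c i • y, by simp [sm_apply, A_tm, ← hc]⟩
  refine (Submodule.finrank_mono h1).trans ((LinearMap.finrank_range_le _).trans ?_)
  simp [Module.finrank_pi_fintype]

theorem rank_core [FiniteDimensional F W] [FiniteDimensional F V] [Nontrivial U] {m : End F U} {b b' : End F W}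
    {ι : Type*} [Fintype ι] (e : ι → U)
    (hr : finrank F (LinearMap.range (T.A m * T.C b + T.C b')) ≤ Fintype.card ι * finrank F W)
    {S : Submodule F U} (hS : S ≠ ⊤) (he : ∀ i, e i ∈ S) (hm : ∀ i, m (e i) ∈ S) {N : ℕ} (hN : m ^ N = 0)
    (inj : ∀ y : ι → W, ∑ i, (T.tm (m (e i)) (b (y i)) + T.tm (e i) (b' (y i))) = 0 → ∀ i, y i = 0) : b' = 0 := by
  set X := T.A m * T.C b + T.C b' with hX
  have h1 : ∀ y, X (T.sm e y) = ∑ i, (T.tm (m (e i)) (b (y i)) + T.tm (e i) (b' (y i))) := fun y => by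
    simp [hX, sm_apply, A_tm, C_tm, Finset.sum_add_distrib]
  have h2 : LinearMap.range (X ∘ₗ T.sm e) = LinearMap.range X :=
    Submodule.eq_of_le_of_finrank_le (LinearMap.range_comp_le_range _ _) (by
      rw [LinearMap.finrank_range_of_inj ((injective_iff_map_eq_zero _).2 fun y hy =>
        funext (inj y ((h1 y).symm.trans hy)))]
      simpa [Module.finrank_pi_fintype] using hr)
  obtain ⟨z, hz, hz'⟩ := exists_not_mem_apply_mem hN hS
  obtain ⟨α, h3, h4⟩ := exists_dual_sub hz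
  ext y
  obtain ⟨y', hy'⟩ : X (T.tm z y) ∈ LinearMap.range (X ∘ₗ T.sm e) := h2 ▸ ⟨_, rfl⟩
  have := congrArg (T.φ α) hy'
  rw [LinearMap.comp_apply, h1] at this
  simpa [hX, φ_tm, h4 _ (he _), h4 _ (hm _), A_tm, C_tm, h3, h4 _ hz'] using this.symm

theorem rank_one [FiniteDimensional F U] [FiniteDimensional F W] [FiniteDimensional F V] (h3 : 3 ≤ finrank F U)
    {m : End F U} {b b' : End F W} (hb : Function.Injective b) (hm : m ^ 2 = 0) (hm0 : m ≠ 0)
    (hr : finrank F (LinearMap.range (T.A m * T.C b + T.C b')) ≤ finrank F W) : b' = 0 := by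
  have : Nontrivial U := Module.nontrivial_of_finrank_pos (R := F) (by omega)
  obtain ⟨x, hx⟩ := DFunLike.ne_iff.1 hm0
  have h2 : m (m x) = 0 := by rw [← End.mul_apply, ← pow_two, hm, LinearMap.zero_apply]
  refine T.rank_core (fun _ : Unit => x) (by simpa using hr) (span_ne_top ![x, m x] (by simp; omega))
    (fun _ => Submodule.subset_span ⟨0, rfl⟩) (fun _ => Submodule.subset_span ⟨1, rfl⟩) hm fun y hy i => ?_
  rw [Fintype.sum_unique] at hy
  have h4 := congrArg (T.A m) hy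
  rw [map_add, A_tm, A_tm, h2, map_zero, map_zero, LinearMap.zero_apply, zero_add] at h4
  rw [(T.tm_eq_zero h4).resolve_left hx, map_zero, add_zero] at hy
  exact (injective_iff_map_eq_zero b).1 hb _ ((T.tm_eq_zero hy).resolve_left hx)

theorem rank_two_cube [FiniteDimensional F U] [FiniteDimensional F W] [FiniteDimensional F V] (h4 : 4 ≤ finrank F U)
    {m : End F U} {b b' : End F W} (hb : Function.Injective b) (hm : m ^ 3 = 0) (hm0 : m ^ 2 ≠ 0)
    (hr : finrank F (LinearMap.range (T.A m * T.C b + T.C b')) ≤ 2 * finrank F W) : b' = 0 := by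
  have : Nontrivial U := Module.nontrivial_of_finrank_pos (R := F) (by omega)
  obtain ⟨x, hx⟩ := DFunLike.ne_iff.1 hm0
  rw [pow_two, End.mul_apply, LinearMap.zero_apply] at hx
  have h2 : m (m (m x)) = 0 := by rw [← End.mul_apply, ← End.mul_apply, ← pow_three', hm, LinearMap.zero_apply]
  refine T.rank_core ![x, m x] (by simpa using hr) (span_ne_top ![x, m x, m (m x)] (by simp; omega))
    (fun i => Submodule.subset_span ?_) (fun i => Submodule.subset_span ?_) hm fun y hy => ?_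
  · fin_cases i
    exacts [⟨0, rfl⟩, ⟨1, rfl⟩]
  · fin_cases i
    exacts [⟨1, rfl⟩, ⟨2, rfl⟩]
  simp only [Fin.sum_univ_two, Matrix.cons_val_zero, Matrix.cons_val_one] at hy
  have h5 := congrArg (T.A m) hy
  have h6 := congrArg (T.A m) h5
  simp only [map_add, A_tm, h2, map_zero, LinearMap.zero_apply, zero_add, add_zero] at h5 h6
  have h7 := (T.tm_eq_zero h6).resolve_left hx
  rw [h7, map_zero, add_zero, ← map_add] at h5
  have h8 := (T.tm_eq_zero h5).resolve_left hx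
  have h9 : T.tm (m (m x)) (b (y 1)) = 0 := by
    rw [← hy, h7, map_zero, add_zero, add_left_comm, ← map_add, h8, map_zero, add_zero]
  have h10 := (injective_iff_map_eq_zero b).1 hb _ ((T.tm_eq_zero h9).resolve_left hx)
  rw [h10, map_zero, add_zero] at h8
  exact Fin.forall_fin_two.2 ⟨(injective_iff_map_eq_zero b).1 hb _ h8, h10⟩

theorem rank_two_sq [FiniteDimensional F U] [FiniteDimensional F W] [FiniteDimensional F V] (h5 : 5 ≤ finrank F U)
    {m : End F U} {b b' : End F W} (hb : Function.Injective b) (hm : m ^ 2 = 0) {x x' : U}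
    (hx : LinearIndependent F ![m x, m x'])
    (hr : finrank F (LinearMap.range (T.A m * T.C b + T.C b')) ≤ 2 * finrank F W) : b' = 0 := by
  have : Nontrivial U := Module.nontrivial_of_finrank_pos (R := F) (by omega)
  have h2 : ∀ x, m (m x) = 0 := fun x => by rw [← End.mul_apply, ← pow_two, hm, LinearMap.zero_apply]
  refine T.rank_core ![x, x'] (by simpa using hr) (span_ne_top ![x, x', m x, m x'] (by simp; omega))
    (fun i => Submodule.subset_span ?_) (fun i => Submodule.subset_span ?_) hm fun y hy => ?_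
  · fin_cases i
    exacts [⟨0, rfl⟩, ⟨1, rfl⟩]
  · fin_cases i
    exacts [⟨2, rfl⟩, ⟨3, rfl⟩]
  simp only [Fin.sum_univ_two, Matrix.cons_val_zero, Matrix.cons_val_one] at hy
  have h6 := congrArg (T.A m) hy
  simp only [map_add, A_tm, h2, map_zero, LinearMap.zero_apply, zero_add] at h6
  obtain ⟨h7, h8⟩ := T.tm_pair hx h6
  simp only [h7, h8, map_zero, add_zero] at hy
  obtain ⟨h9, h10⟩ := T.tm_pair hx hy
  exact Fin.forall_fin_two.2 ⟨(injective_iff_map_eq_zero b).1 hb _ h9, (injective_iff_map_eq_zero b).1 hb _ h10⟩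

theorem AC_sub_one (a : End F U) (c : End F W) : T.A a * T.C c - 1 = T.A (a - 1) * T.C c + T.C (c - 1) := by
  rw [map_sub, map_sub, map_one, map_one, sub_mul, one_mul, sub_add_sub_cancel]

/-- `z` commutes with the first factor. -/
def Cm (z : End F V) : Prop := ∀ a, Commute (T.A a) z

theorem cm_C (c : End F W) : T.Cm (T.C c) := fun a => T.commute a c

theorem cm_mv {g : (End F V)ˣ} {z : End F V} : (T.mv g).Cm z ↔ T.Cm ((g⁻¹).1 * z * g.1) := by
  refine forall_congr' fun a => ?_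
  rw [mv_A]
  exact ⟨fun h => by simpa [Commute, SemiconjBy, mul_assoc] using congrArg (fun x => (g⁻¹).1 * x * g.1) h.eq,
    fun h => by simpa [Commute, SemiconjBy, mul_assoc] using congrArg (fun x => g.1 * x * (g⁻¹).1) h.eq⟩

theorem Cm.scalar [Nontrivial U] [Nontrivial W] {T : TP F U W V} {a : End F U} (h : T.Cm (T.A a)) :
    ∃ l : F, a = l • 1 := by
  obtain ⟨c, hc⟩ := T.exists_C h
  exact T.scalar_of_A_eq_C hc

/-- The subalgebra of the maps commuting with the first factor. -/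
def cmAlg : Subalgebra F (End F V) where
  carrier := {z | T.Cm z}
  mul_mem' h h' a := (h a).mul_right (h' a)
  add_mem' h h' a := (h a).add_right (h' a)
  algebraMap_mem' c _ := (Algebra.commutes c _).symm

/-- Invariance under conjugation by the elements of `Γ ⊗ 1`. -/
def Inv (Γ : Set (End F U)ˣ) (𝒟 : Submodule F (End F V)) : Prop :=
  ∀ g ∈ Γ, ∀ d ∈ 𝒟, T.A g.1 * d * T.A (g⁻¹).1 ∈ 𝒟

/-- The cofactors of `𝒳` in `𝒟`. -/
def cof (𝒳 : Submodule F (End F U)) (𝒟 : Submodule F (End F V)) : Submodule F (End F V) where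
  carrier := {d | T.Cm d ∧ ∀ x ∈ 𝒳, T.A x * d ∈ 𝒟}
  add_mem' h h' := ⟨fun a => (h.1 a).add_right (h'.1 a), fun x hx => by
    rw [mul_add]; exact add_mem (h.2 x hx) (h'.2 x hx)⟩
  zero_mem' := ⟨fun a => Commute.zero_right _, fun x _ => by rw [mul_zero]; exact zero_mem _⟩
  smul_mem' c d h := ⟨fun a => (h.1 a).smul_right c, fun x hx => by
    rw [mul_smul_comm]; exact 𝒟.smul_mem c (h.2 x hx)⟩

theorem eq_zero_of_A_mul [Nontrivial U] {a : End F U} (ha : a ≠ 0) {d : End F V} (hd : T.Cm d) (h : T.A a * d = 0) :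
    d = 0 := by
  obtain ⟨c, rfl⟩ := T.exists_C hd
  rw [(T.AC_eq_zero h).resolve_left ha, map_zero]

end TP

/-- Some power of `𝒳` is everything. -/
def Gen (𝒳 : Submodule F (End F U)) : Prop := ∃ m, 𝒳 ^ (m + 1) = ⊤

theorem Gen.ne_bot [Nontrivial U] {𝒳 : Submodule F (End F U)} (h : Gen 𝒳) : 𝒳 ≠ ⊥ := by
  rintro rfl
  obtain ⟨m, hm⟩ := h
  rw [pow_succ, Submodule.mul_bot] at hm
  exact bot_ne_top hm

/-- A frame of commuting tensor factors. -/
structure Fr {J : Type*} (T : J → TP F U W V) : Prop where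
  comm : ∀ i j, i ≠ j → ∀ a, (T i).Cm ((T j).A a)
  centre : ∀ z, (∀ j, (T j).Cm z) → ∃ c : F, z = c • 1

namespace Fr

variable {J : Type*} {T : J → TP F U W V} (R : Fr T) [FiniteDimensional F U] [Nontrivial U] [Nontrivial W]
include R

theorem mv (g : (End F V)ˣ) : Fr fun j => (T j).mv g where
  comm i j h a := (T i).cm_mv.2 (by simpa [TP.mv_A, mul_assoc] using R.comm i j h a)
  centre z h := by
    obtain ⟨c, hc⟩ := R.centre _ fun j => (T j).cm_mv.1 (h j)
    exact ⟨c, by simpa [mul_assoc] using congrArg (fun x => g.1 * x * (g⁻¹).1) hc⟩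

theorem cm_sl {i j : J} (h : i ≠ j) {z : End F V} (hz : (T i).Cm z) (α : Dual F U) (x : U) :
    (T i).Cm ((T j).C ((T j).sl α x z)) := fun a => by
  obtain ⟨c, hc⟩ := (T j).exists_C (R.comm j i h.symm a)
  exact hc ▸ (T j).commute_sl (hc ▸ hz a) α x

theorem mem_of_cm (𝒞 : Subalgebra F (End F V)) (I : Finset J) (hI : ∀ j ∈ I, ∀ a, (T j).A a ∈ 𝒞) :
    ∀ z, (∀ i, i ∉ I → (T i).Cm z) → z ∈ 𝒞 := by
  classical
  induction I using Finset.induction_on with
  | empty =>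
    intro z hz
    obtain ⟨c, rfl⟩ := R.centre z fun j => hz j (Finset.notMem_empty j)
    exact 𝒞.smul_mem 𝒞.one_mem c
  | insert j I hj ih =>
    intro z hz
    rw [← (T j).sum_sl (finBasis F U) z]
    refine sum_mem fun a _ => sum_mem fun b _ => mul_mem (hI j (Finset.mem_insert_self _ _) _)
      (ih (fun i hi => hI i (Finset.mem_insert_of_mem hi)) _ fun i hi => ?_)
    by_cases e : i = j
    · exact e ▸ (T i).cm_C _
    · exact R.cm_sl e (hz i (by simp [e, hi])) _ _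

theorem exists_A {j : J} {z : End F V} (hz : ∀ i, i ≠ j → (T i).Cm z) : ∃ a, z = (T j).A a := by
  obtain ⟨a, ha⟩ := R.mem_of_cm (T j).A.range {j} (fun i hi a => by
    rw [Finset.mem_singleton.1 hi]; exact ⟨a, rfl⟩) z fun i hi => hz i (by simpa using hi)
  exact ⟨a, ha.symm⟩

theorem cof_cm {i j : J} (h : i ≠ j) {𝒳 : Submodule F (End F U)} (h𝒳 : 𝒳 ≠ ⊥) {𝒟 : Submodule F (End F V)}
    (hD : ∀ d ∈ 𝒟, (T i).Cm d) : ∀ d ∈ (T j).cof 𝒳 𝒟, (T i).Cm d := fun d hd a => by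
  obtain ⟨x, hx, hx0⟩ := Submodule.exists_mem_ne_zero_of_ne_bot h𝒳
  refine sub_eq_zero.1 ((T j).eq_zero_of_A_mul hx0 (fun b => ((R.comm j i h.symm a b).mul_right (hd.1 b)).sub_right
    ((hd.1 b).mul_right (R.comm j i h.symm a b))) ?_)
  rw [mul_sub, ← mul_assoc, (R.comm j i h.symm a x).eq, mul_assoc, (hD _ (hd.2 x hx) a).eq, mul_assoc, sub_self]

theorem cof_inv {i j : J} (h : i ≠ j) {Γ : Set (End F U)ˣ} (𝒳 : Submodule F (End F U)) {𝒟 : Submodule F (End F V)}
    (hD : (T i).Inv Γ 𝒟) : (T i).Inv Γ ((T j).cof 𝒳 𝒟) := fun g hg d hd =>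
  ⟨fun a => ((R.comm j i h.symm _ a).mul_right (hd.1 a)).mul_right (R.comm j i h.symm _ a), fun x hx => by
    rw [← mul_assoc, ← mul_assoc, (R.comm j i h.symm _ x).eq, mul_assoc _ _ d]
    exact hD g hg _ (hd.2 x hx)⟩

end Fr

/-- The reduction principle: an invariant subspace not centralising the first factor contains `𝒳 ⊗ d`. -/
def Red (T : TP F U W V) (Γ : Set (End F U)ˣ) (P : Submodule F (End F U) → Prop) : Prop :=
  ∀ 𝒟 : Submodule F (End F V), T.Inv Γ 𝒟 → ∀ z ∈ 𝒟, ¬ T.Cm z → ∃ 𝒳, P 𝒳 ∧ T.cof 𝒳 𝒟 ≠ ⊥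

theorem mem_pow_mul {A : Type*} [Ring A] [Algebra F A] {𝒟 : Submodule F A} {m : ℕ} (h : (1 : A) ∈ 𝒟 ^ m) (n : ℕ) :
    (1 : A) ∈ 𝒟 ^ (m * n) := by
  simpa [pow_mul] using Submodule.pow_mem_pow _ h n

theorem A_mem_pow {T : TP F U W V} {𝒳 : Submodule F (End F U)} {𝒟 : Submodule F (End F V)} (h𝒳 : Gen 𝒳) {m : ℕ}
    (h : (1 : End F V) ∈ T.cof 𝒳 𝒟 ^ (m + 1)) : ∃ n, ∀ a, T.A a ∈ 𝒟 ^ (n + 1) := by
  obtain ⟨k, hk⟩ := h𝒳
  refine ⟨(k + 1) * (m + 1) - 1, fun a => ?_⟩
  rw [Nat.sub_add_cancel (Nat.mul_pos k.succ_pos m.succ_pos)]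
  have h1 : 𝒳.map T.A.toLinearMap * T.cof 𝒳 𝒟 ≤ 𝒟 := Submodule.mul_le.2 (by
    rintro _ ⟨x, hx, rfl⟩ d hd; exact hd.2 x hx)
  have h2 : Commute (𝒳.map T.A.toLinearMap) (T.cof 𝒳 𝒟) :=
    le_antisymm (Submodule.mul_le.2 (by
      rintro _ ⟨x, hx, rfl⟩ d hd; exact (hd.1 x).eq ▸ Submodule.mul_mem_mul hd ⟨x, hx, rfl⟩))
    (Submodule.mul_le.2 (by
      rintro d hd _ ⟨x, hx, rfl⟩; exact (hd.1 x).eq ▸ Submodule.mul_mem_mul ⟨x, hx, rfl⟩ hd))
  refine pow_le_pow_left' h1 _ ?_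
  rw [h2.mul_pow, ← mul_one (T.A a)]
  refine Submodule.mul_mem_mul ?_ (mul_comm (k + 1) _ ▸ mem_pow_mul h _)
  rw [← Submodule.map_pow, pow_mul, hk, pow_succ, ← one_mul a]
  exact ⟨_, Submodule.mul_mem_mul (by simpa using Submodule.pow_mem_pow (⊤ : Submodule F (End F U)) (Submodule.mem_top (x := 1)) m) trivial, rfl⟩

namespace Fr

variable {J : Type*} {T : J → TP F U W V} (R : Fr T) [FiniteDimensional F U] [Nontrivial U] [Nontrivial W]
  {Γ : Set (End F U)ˣ} (hred : ∀ j, Red (T j) Γ Gen)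
include R hred

theorem one_mem_pow (I : Finset J) : ∀ 𝒟 : Submodule F (End F V), 𝒟 ≠ ⊥ → (∀ i, i ∉ I → ∀ d ∈ 𝒟, (T i).Cm d) →
    (∀ i ∈ I, (T i).Inv Γ 𝒟) → ∃ m, (1 : End F V) ∈ 𝒟 ^ (m + 1) := by
  classical
  induction I using Finset.induction_on with
  | empty =>
    intro 𝒟 h0 h1 _
    obtain ⟨z, hz, hz0⟩ := Submodule.exists_mem_ne_zero_of_ne_bot h0
    obtain ⟨c, rfl⟩ := R.centre z fun j => h1 j (Finset.notMem_empty j) z hz
    exact ⟨0, by simpa using (𝒟.smul_mem_iff (left_ne_zero_of_smul hz0)).1 hz⟩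
  | insert j I hj ih =>
    intro 𝒟 h0 h1 h2
    by_cases h : ∀ d ∈ 𝒟, (T j).Cm d
    · refine ih 𝒟 h0 (fun i hi => ?_) fun i hi => h2 i (Finset.mem_insert_of_mem hi)
      by_cases e : i = j
      · exact e ▸ h
      · exact h1 i (by simp [e, hi])
    push Not at h
    obtain ⟨z, hz, hz'⟩ := h
    obtain ⟨𝒳, h𝒳, h3⟩ := hred j 𝒟 (h2 j (Finset.mem_insert_self _ _)) z hz hz'
    obtain ⟨m, hm⟩ := ih _ h3 (fun i hi => by
      by_cases e : i = j
      · exact e ▸ fun d hd => hd.1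
      · exact R.cof_cm e h𝒳.ne_bot (h1 i (by simp [e, hi]))) fun i hi =>
        R.cof_inv (fun e : i = j => hj (e ▸ hi)) _ (h2 i (Finset.mem_insert_of_mem hi))
    obtain ⟨n, hn⟩ := A_mem_pow h𝒳 hm
    exact ⟨n, map_one (T j).A ▸ hn 1⟩

theorem exists_mul_ne_zero (I : Finset J) {𝒟 𝒟' : Submodule F (End F V)} (h0 : 𝒟 ≠ ⊥) (h0' : 𝒟' ≠ ⊥)
    (h1 : ∀ i, i ∉ I → ∀ d ∈ 𝒟, (T i).Cm d) (h1' : ∀ i, i ∉ I → ∀ d ∈ 𝒟', (T i).Cm d)
    (h2 : ∀ i ∈ I, (T i).Inv Γ 𝒟) (h2' : ∀ i ∈ I, (T i).Inv Γ 𝒟') : ∃ d ∈ 𝒟, ∃ d' ∈ 𝒟', d * d' ≠ 0 := by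
  by_contra h
  push Not at h
  obtain ⟨m, hm⟩ := R.one_mem_pow hred I 𝒟 h0 h1 h2
  obtain ⟨n, hn⟩ := R.one_mem_pow hred I 𝒟' h0' h1' h2'
  have h3 := Submodule.mul_mem_mul hm hn
  rw [pow_succ, pow_succ', mul_assoc, ← mul_assoc 𝒟,
    show 𝒟 * 𝒟' = ⊥ from eq_bot_iff.2 (Submodule.mul_le.2 h), Submodule.bot_mul, Submodule.mul_bot, one_mul,
    Submodule.mem_bot] at h3
  obtain ⟨z, hz, hz0⟩ := Submodule.exists_mem_ne_zero_of_ne_bot h0
  exact hz0 (by rw [← mul_one z, h3, mul_zero])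

/-- An invariant subalgebra not centralising a factor contains it. -/
theorem A_mem (I : Finset J) (𝒞 : Subalgebra F (End F V)) (h1 : ∀ i, i ∉ I → ∀ d ∈ 𝒞, (T i).Cm d)
    (h2 : ∀ i ∈ I, (T i).Inv Γ 𝒞.toSubmodule) {j : J} (hj : j ∈ I) {z : End F V} (hz : z ∈ 𝒞) (hz' : ¬ (T j).Cm z)
    (a : End F U) : (T j).A a ∈ 𝒞 := by
  classical
  obtain ⟨𝒳, h𝒳, h3⟩ := hred j _ (h2 j hj) z hz hz'
  obtain ⟨m, hm⟩ := R.one_mem_pow hred (I.erase j) _ h3 (fun i hi => by
    by_cases e : i = j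
    · exact e ▸ fun d hd => hd.1
    · exact R.cof_cm e h𝒳.ne_bot (h1 i (by simpa [e] using hi))) fun i hi =>
      R.cof_inv (Finset.ne_of_mem_erase hi) _ (h2 i (Finset.mem_of_mem_erase hi))
  obtain ⟨n, hn⟩ := A_mem_pow h𝒳 hm
  have : ∀ n, 𝒞.toSubmodule ^ n ≤ 𝒞.toSubmodule := fun n => by
    induction n with
    | zero => exact Submodule.one_le.2 𝒞.one_mem
    | succ n ih => rw [pow_succ]; exact Submodule.mul_le.2 fun a ha b hb => 𝒞.mul_mem (ih ha) hb
  exact this _ (hn a)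

end Fr

end CL.TW
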