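import Cfsg.Agent.Cls.TenCore
import Cfsg.Agent.Cls.OrthOmega

set_option autoImplicit false

/-!
Symmetric bilinear forms in odd characteristic: reflections, Eichler maps, and the submodules of the space of
self-adjoint maps invariant under the orthogonal group.
-/

namespace CL.Sp

open Module

variable {F U : Type*} [Field F] [AddCommGroup U] [Module F U] {s : LinearMap.BilinForm F U}

/-- A non-degenerate symmetric bilinear form in odd characteristic. -/
structure SymD (s : LinearMap.BilinForm F U) : Prop where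
  symm : ∀ x y, s x y = s y x
  nondeg : s.Nondegenerate
  two : (2 : F) ≠ 0

/-- `s` is non-degenerate on the subspace `E`. -/
def NdOn (s : LinearMap.BilinForm F U) (E : Submodule F U) : Prop := ∀ n ∈ E, (∀ a ∈ E, s a n = 0) → n = 0

/-- The reflection in a non-singular vector. -/
noncomputable def orefl (D : SymD s) {u : U} (hu : s u u ≠ 0) : U ≃ₗ[F] U :=
  Module.reflection (f := (2 / s u u) • s.flip u) (x := u) (by simp [div_mul_cancel₀ _ hu])

theorem orefl_apply (D : SymD s) {u : U} (hu : s u u ≠ 0) (y : U) :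
    orefl D hu y = y - (2 / s u u * s y u) • u := by
  simp [orefl, Module.reflection_apply]

theorem orefl_mem (D : SymD s) {u : U} (hu : s u u ≠ 0) : orefl D hu ∈ Isom s := fun x y => by
  simp only [orefl_apply, map_sub, map_smul, LinearMap.sub_apply, LinearMap.smul_apply, smul_eq_mul, D.symm u y]
  field_simp
  ring

theorem orefl_orefl (D : SymD s) {u : U} (hu : s u u ≠ 0) (y : U) : orefl D hu (orefl D hu y) = y :=
  Module.involutive_reflection _ y

theorem orefl_inv (D : SymD s) {u : U} (hu : s u u ≠ 0) : (orefl D hu)⁻¹ = orefl D hu :=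
  inv_eq_of_mul_eq_one_right (LinearEquiv.ext fun y => orefl_orefl D hu y)

namespace SymD

theorem ndOn_top (D : SymD s) : NdOn s ⊤ := fun _ _ h => D.nondeg.2 _ fun a => h a trivial

theorem q_add (D : SymD s) (x y : U) : s (x + y) (x + y) = s x x + 2 * s x y + s y y := by
  simp only [map_add, LinearMap.add_apply, D.symm y x]; ring

theorem q_sub (D : SymD s) (x y : U) : s (x - y) (x - y) = s x x - 2 * s x y + s y y := by
  simp only [map_sub, LinearMap.sub_apply, D.symm y x]; ring

theorem exists_of_line (D : SymD s) (a : U) {n : U} (hn : s n n ≠ 0) :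
    s a a ≠ 0 ∨ s (a + n) (a + n) ≠ 0 ∨ s (a - n) (a - n) ≠ 0 := by
  by_contra h
  push Not at h
  obtain ⟨h1, h2, h3⟩ := h
  rw [D.q_add] at h2
  rw [D.q_sub] at h3
  exact mul_ne_zero D.two hn (by linear_combination h2 + h3 - 2 * h1)

theorem exists_nonsing (D : SymD s) {E : Submodule F U} (hE : NdOn s E) (h0 : E ≠ ⊥) : ∃ n ∈ E, s n n ≠ 0 := by
  by_contra h
  push Not at h
  refine h0 ((Submodule.eq_bot_iff _).2 fun n hn => hE n hn fun a ha => ?_)
  have := D.q_add a n
  rw [h _ (add_mem ha hn), h _ ha, h _ hn] at this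
  exact (mul_eq_zero.1 (by linear_combination -this : 2 * s a n = 0)).resolve_left D.two

theorem mem_of_nonsing (D : SymD s) {E R : Submodule F U} (hE : NdOn s E)
    (h : ∀ u ∈ E, s u u ≠ 0 → u ∈ R) : E ≤ R := fun a ha => by
  by_cases h0 : E = ⊥
  · rw [h0, Submodule.mem_bot] at ha; rw [ha]; exact zero_mem _
  obtain ⟨n, hn, hq⟩ := D.exists_nonsing hE h0
  rcases D.exists_of_line a hq with e | e | e
  · exact h a ha e
  · simpa using sub_mem (h _ (add_mem ha hn) e) (h n hn hq)
  · simpa using add_mem (h _ (sub_mem ha hn) e) (h n hn hq)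

theorem ndOn_perp (D : SymD s) {E : Submodule F U} (hE : NdOn s E) {u : U} (hu : u ∈ E) (hq : s u u ≠ 0) :
    NdOn s (E ⊓ LinearMap.ker (s u)) := fun n hn h => hE n hn.1 fun a ha => by
  have h1 : s u n = 0 := hn.2
  have := h (a - (s u a / s u u) • u) ⟨sub_mem ha (E.smul_mem _ hu), by simp [div_mul_cancel₀ _ hq]⟩
  simpa [h1] using this

theorem finrank_inf_ker [FiniteDimensional F U] (E : Submodule F U) (f : U →ₗ[F] F) :
    finrank F E ≤ finrank F (E ⊓ LinearMap.ker f : Submodule F U) + 1 := by
  have h1 := Submodule.finrank_sup_add_finrank_inf_eq E (LinearMap.ker f)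
  have h2 := LinearMap.finrank_range_add_finrank_ker (f.domRestrict (E ⊔ LinearMap.ker f))
  have h3 : finrank F (LinearMap.range (f.domRestrict (E ⊔ LinearMap.ker f))) ≤ 1 :=
    (Submodule.finrank_le _).trans (finrank_self F).le
  have h4 : finrank F (LinearMap.ker (f.domRestrict (E ⊔ LinearMap.ker f))) ≤ finrank F (LinearMap.ker f) := by
    rw [← Submodule.finrank_map_subtype_eq]
    exact Submodule.finrank_mono (by rintro _ ⟨x, hx, rfl⟩; exact hx)
  omega

theorem exists_eich [FiniteDimensional F U] (D : SymD s) {z e : U} (hz : s z z = 0) (he : s z e = 0) :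
    ∃ t ∈ Isom s, ∀ y, t y = y + s y e • z - s y z • e - (s e e / 2 * s y z) • z := by
  obtain ⟨t, ht, h⟩ := exists_isom_of_linear D.nondeg (LinearMap.id + (s.flip e).smulRight z -
    (s.flip z).smulRight e - ((s e e / 2) • s.flip z).smulRight z) (fun x y => by
      have := D.two
      simp only [LinearMap.add_apply, LinearMap.sub_apply, LinearMap.id_apply, LinearMap.smulRight_apply,
        LinearMap.smul_apply, LinearMap.BilinForm.flip_apply, map_add, map_sub, map_smul, smul_eq_mul, hz, he,
        D.symm e z, D.symm z y, D.symm e y]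
      field_simp
      ring)
  exact ⟨t, ht, fun y => by rw [h]; simp⟩

theorem exists_sing [Finite F] [FiniteDimensional F U] (E : Submodule F U) (h3 : 3 ≤ finrank F E) :
    ∃ z ∈ E, z ≠ 0 ∧ s z z = 0 := by
  simpa using CL.Cls.exists_singular_in_of_three_le (LinearMap.BilinMap.toQuadraticMap s) E h3

/-- A non-singular vector outside two hyperplanes. -/
theorem exists_nonsing_ne_zero₂ [Finite F] [FiniteDimensional F U] (D : SymD s) {E : Submodule F U} (hE : NdOn s E)
    (h3 : 3 ≤ finrank F E ∨ 5 ≤ Nat.card F) (f g : U →ₗ[F] F) (hf : ∃ u ∈ E, f u ≠ 0) (hg : ∃ u ∈ E, g u ≠ 0) :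
    ∃ a ∈ E, s a a ≠ 0 ∧ f a ≠ 0 ∧ g a ≠ 0 := by
  classical
  obtain ⟨a, ha, hfa, hga⟩ := exists_both_ne_zero E f g hf hg
  by_contra hc
  push Not at hc
  have hc' : ∀ x ∈ E, f x ≠ 0 → g x ≠ 0 → s x x = 0 := fun x hx h1 h2 => by
    by_contra h; exact h2 (hc x hx h h1)
  rcases h3 with h3 | h3
  · have h1 := finrank_inf_ker E f
    have h2 := finrank_inf_ker (E ⊓ LinearMap.ker f) g
    obtain ⟨n, hn, hn0⟩ := Submodule.exists_mem_ne_zero_of_ne_bot (p := E ⊓ LinearMap.ker f ⊓ LinearMap.ker g)
      (fun e => by rw [e, finrank_bot] at h2; omega)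
    have n1 : f n = 0 := hn.1.2
    have n2 : g n = 0 := hn.2
    have key : ∀ x ∈ E, f x ≠ 0 → g x ≠ 0 → s x n = 0 := fun x hx h1 h2 => by
      have e1 := hc' _ (add_mem hx hn.1.1) (by simpa [n1] using h1) (by simpa [n2] using h2)
      have e2 := hc' _ (sub_mem hx hn.1.1) (by simpa [n1] using h1) (by simpa [n2] using h2)
      rw [D.q_add] at e1
      rw [D.q_sub] at e2
      exact (mul_eq_zero.1 (by linear_combination e1 - e2 : (2 * 2) * s x n = 0)).resolve_left
        (mul_ne_zero D.two D.two)
    refine hn0 (hE n hn.1.1 fun x hx => ?_)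
    by_contra hx0
    have k0 := key a ha hfa hga
    have k : ∀ t : F, f x + t * f a = 0 ∨ g x + t * g a = 0 := fun t => by
      by_contra h
      push Not at h
      have := key (x + t • a) (add_mem hx (E.smul_mem _ ha)) (by simpa using h.1) (by simpa using h.2)
      exact hx0 (by simpa [k0] using this)
    have := D.two
    rcases k 0 with e0 | e0 <;> rcases k 1 with e1 | e1 <;> rcases k (-1) with e2 | e2 <;> grind
  · have := Fintype.ofFinite F
    obtain ⟨n, hn, hq⟩ := D.exists_nonsing hE (fun e => by rw [e, Submodule.mem_bot] at ha; simp [ha] at hfa)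
    have k : ∀ t : F, t ∈ ({-(f n / f a), -(g n / g a)} : Finset F) ∨ s n n + 2 * t * s n a = 0 := fun t => by
      by_contra h
      simp only [Finset.mem_insert, Finset.mem_singleton, not_or] at h
      have := hc' (n + t • a) (add_mem hn (E.smul_mem _ ha))
        (by simp only [map_add, map_smul, smul_eq_mul]; intro e; exact h.1.1 (by field_simp; linear_combination e))
        (by simp only [map_add, map_smul, smul_eq_mul]; intro e; exact h.1.2 (by field_simp; linear_combination e))
      rw [D.q_add] at this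
      simp only [map_smul, LinearMap.smul_apply, smul_eq_mul, hc' a ha hfa hga] at this
      exact h.2 (by linear_combination this)
    have hsub : (Finset.univ : Finset F) ⊆ {-(f n / f a), -(g n / g a), -(s n n / (2 * s n a))} := fun t _ => by
      rcases k t with h | h
      · simp only [Finset.mem_insert, Finset.mem_singleton] at h ⊢; tauto
      · have h1 : s n a ≠ 0 := fun e => hq (by simpa [e] using h)
        have := D.two
        simp only [Finset.mem_insert, Finset.mem_singleton]
        exact Or.inr (Or.inr (by field_simp; linear_combination h))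
    have h4 := (Finset.card_le_card hsub).trans Finset.card_le_three
    rw [Finset.card_univ, ← Nat.card_eq_fintype_card] at h4
    omega

theorem le_of_closed [Finite F] [FiniteDimensional F U] (D : SymD s) {E R : Submodule F U} (hE : NdOn s E)
    (h3 : 3 ≤ finrank F E ∨ 5 ≤ Nat.card F) {w : U} (hw : w ∈ E) (hw0 : w ≠ 0)
    (h : ∀ a ∈ E, s a a ≠ 0 → s w a ≠ 0 → a ∈ R) : E ≤ R := fun y hy => by
  by_contra hyR
  obtain ⟨f, hf, hfR⟩ := Submodule.exists_dual_map_eq_bot_of_notMem hyR inferInstance
  obtain ⟨a, ha, h1, h2, h4⟩ := D.exists_nonsing_ne_zero₂ hE h3 f (s w) ⟨y, hy, hf⟩ (by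
    by_contra hc
    push Not at hc
    exact hw0 (hE w hw fun a ha => by rw [D.symm]; exact hc a ha))
  exact h2 (by
    have : f a ∈ R.map f := ⟨a, h a ha h1 h4, rfl⟩
    rwa [hfR, Submodule.mem_bot] at this)

/-- Mutually orthogonal subspaces covering the non-singular vectors. -/
theorem exists_le_of_cover [FiniteDimensional F U] (D : SymD s) {E : Submodule F U} (hE : NdOn s E)
    (h3 : 3 ≤ finrank F E) {κ : Type*} (L : κ → Submodule F U)
    (ho : ∀ c c', c ≠ c' → ∀ x ∈ L c, ∀ y ∈ L c', s x y = 0) (h : ∀ u ∈ E, s u u ≠ 0 → ∃ c, u ∈ L c) :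
    ∃ c, E ≤ L c := by
  have key : ∀ c c', c ≠ c' → ∀ x ∈ E, ∀ y ∈ E, x ∈ L c → y ∈ L c' → s x x ≠ 0 → s y y ≠ 0 → s x x + s y y = 0 :=
    fun c c' hc x hx y hy h1 h2 q1 q2 => by
      by_contra hne
      have hxy := ho c c' hc x h1 y h2
      obtain ⟨d, hd⟩ := h _ (add_mem hx hy) (by rw [D.q_add, hxy]; simpa using hne)
      by_cases e : d = c
      · have := ho d c' (e ▸ hc) _ hd y h2
        exact q2 (by simpa [hxy] using this)
      · have := ho d c e _ hd x h1
        exact q1 (by simpa [D.symm y x, hxy] using this)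
  obtain ⟨u, hu, qu⟩ := D.exists_nonsing hE (fun e => by rw [e, finrank_bot] at h3; omega)
  obtain ⟨c, hc⟩ := h u hu qu
  refine ⟨c, D.mem_of_nonsing hE fun w hw qw => ?_⟩
  obtain ⟨c', hc'⟩ := h w hw qw
  by_contra hwc
  have hne : c ≠ c' := fun e => hwc (e ▸ hc')
  have huw := ho c c' hne u hc w hc'
  have hE2 := D.ndOn_perp (D.ndOn_perp hE hu qu) (u := w) ⟨hw, huw⟩ qw
  have h1 := finrank_inf_ker E (s u)
  have h2 := finrank_inf_ker (E ⊓ LinearMap.ker (s u)) (s w)
  obtain ⟨x, hx, qx⟩ := D.exists_nonsing hE2 (fun e => by rw [e, finrank_bot] at h2; omega)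
  have x1 : s u x = 0 := hx.1.2
  have x2 : s w x = 0 := hx.2
  obtain ⟨d, hd⟩ := h x hx.1.1 qx
  have k1 := key c c' hne u hu w hw hc hc' qu qw
  have := D.two
  by_cases e : d = c
  · subst e
    have k2 := key d c' hne x hx.1.1 w hw hd hc' qx qw
    have q : s (u + x) (u + x) = 2 * s u u := by rw [D.q_add, x1]; linear_combination k2 - k1
    have k3 := key d c' hne _ (add_mem hu hx.1.1) w hw (add_mem hc hd) hc' (by rw [q]; exact mul_ne_zero this qu) qw
    exact qu (by linear_combination k3 - k1 - q)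
  · have k2 := key c d (Ne.symm e) u hu x hx.1.1 hc hd qu qx
    by_cases e' : d = c'
    · subst e'
      have q : s (w + x) (w + x) = 2 * s w w := by rw [D.q_add, x2]; linear_combination k2 - k1
      have k3 := key c d hne u hu _ (add_mem hw hx.1.1) hc (add_mem hc' hd) qu (by rw [q]; exact mul_ne_zero this qw)
      exact qw (by linear_combination k3 - k1 - q)
    · have k3 := key d c' e' x hx.1.1 w hw hd hc' qx qw
      exact mul_ne_zero this qu (by linear_combination k1 + k2 - k3)

/-- The symmetric product of two vectors as a self-adjoint map. -/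
def sp (s : LinearMap.BilinForm F U) (u : U) : U →ₗ[F] Module.End F U where
  toFun w := (s.flip w).smulRight u + (s.flip u).smulRight w
  map_add' a b := by ext y; simp; module
  map_smul' c a := by ext y; simp; module

theorem sp_apply (u w y : U) : sp s u w y = s y w • u + s y u • w := rfl

/-- A space of self-adjoint maps invariant under the reflections and containing a non-scalar map contains the maps
`y ↦ s(y, z) z` for singular `z`. -/
theorem sq_mem [Finite F] [FiniteDimensional F U] (D : SymD s) (h3 : 3 ≤ finrank F U)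
    (h4 : 4 ≤ finrank F U ∨ 5 ≤ Nat.card F) (𝒜 : Submodule F (Module.End F U))
    (hs : ∀ A ∈ 𝒜, ∀ x y, s (A x) y = s x (A y))
    (hr : ∀ A ∈ 𝒜, ∀ (u : U) (hu : s u u ≠ 0), (orefl D hu : Module.End F U) * A * orefl D hu ∈ 𝒜)
    (hA : ∃ A ∈ 𝒜, ∀ c : F, A ≠ c • 1) {z : U} (hz : s z z = 0) : (s.flip z).smulRight z ∈ 𝒜 := by
  have two := D.two
  have step : ∀ A ∈ 𝒜, ∀ u, s u u ≠ 0 → sp s u (A u - (s (A u) u / s u u) • u) ∈ 𝒜 := fun A hA u hu => by
    have := 𝒜.smul_mem (-(s u u / 2)) (sub_mem (hr A hA u hu) hA)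
    convert this using 1
    ext y
    simp only [sp_apply, LinearMap.smul_apply, LinearMap.sub_apply, Module.End.mul_apply, LinearEquiv.coe_coe,
      orefl_apply, map_sub, map_smul, smul_eq_mul, ← hs A hA y u]
    match_scalars <;> field_simp <;> ring
  have all : ∀ u, s u u ≠ 0 → (∃ A ∈ 𝒜, ∀ c : F, A u ≠ c • u) → ∀ w, s u w = 0 → sp s u w ∈ 𝒜 := by
    rintro u hu ⟨A, hA, hAu⟩ w hw
    have hw0 : s u (A u - (s (A u) u / s u u) • u) = 0 := by
      simp [D.symm u (A u), div_mul_cancel₀ _ hu]
    have h1 := finrank_inf_ker (⊤ : Submodule F U) (s u)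
    rw [finrank_top] at h1
    refine D.le_of_closed (R := 𝒜.comap (sp s u)) (D.ndOn_perp D.ndOn_top trivial hu) (by omega) ⟨trivial, hw0⟩
      (sub_ne_zero.2 (hAu _)) (fun a ha qa hwa => ?_) ⟨trivial, hw⟩
    have ha' : s u a = 0 := ha.2
    have h0 := step A hA u hu
    generalize A u - (s (A u) u / s u u) • u = w0 at *
    have := 𝒜.smul_mem (-(s a a / (2 * s w0 a))) (sub_mem (hr _ h0 a qa) h0)
    rw [Submodule.mem_comap]
    convert this using 1
    ext y
    simp only [sp_apply, LinearMap.smul_apply, LinearMap.sub_apply, Module.End.mul_apply, LinearEquiv.coe_coe,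
      orefl_apply, map_sub, map_add, map_smul, smul_eq_mul, ha', D.symm a u, D.symm a w0, LinearMap.add_apply]
    match_scalars <;> field_simp <;> ring
  obtain ⟨u, hu, hAu⟩ : ∃ u, s u u ≠ 0 ∧ ∃ A ∈ 𝒜, ∀ c : F, A u ≠ c • u := by
    obtain ⟨A, hA, hne⟩ := hA
    by_contra hc
    push Not at hc
    obtain ⟨c, h⟩ := D.exists_le_of_cover D.ndOn_top (by rwa [finrank_top])
      (fun c : F => LinearMap.ker (A - c • 1)) (fun c c' hc x hx y hy => by
        simp only [LinearMap.mem_ker, LinearMap.sub_apply, LinearMap.smul_apply, Module.End.one_apply,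
          sub_eq_zero] at hx hy
        have := hs A hA x y
        rw [hx, hy] at this
        simp only [map_smul, LinearMap.smul_apply, smul_eq_mul] at this
        exact (mul_eq_zero.1 (by linear_combination this : (c - c') * s x y = 0)).resolve_left (sub_ne_zero.2 hc))
      (fun u _ hu => by
        obtain ⟨c, h⟩ := hc u hu A hA
        exact ⟨c, by simp [h]⟩)
    exact hne c (sub_eq_zero.1 (LinearMap.ker_eq_top.1 (top_le_iff.1 h)))
  have all2 : ∀ y, s y y ≠ 0 → ∀ w, s y w = 0 → sp s y w ∈ 𝒜 := fun y hy => all y hy (by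
    by_contra hc
    push Not at hc
    by_cases hyu : s y u = 0
    · obtain ⟨c, h⟩ := hc _ (all u hu hAu y (by rwa [D.symm]))
      have := congrArg (s u) h
      simp [sp_apply, hyu, D.symm u y, hy, hu] at this
    · obtain ⟨w, -, w0, hw⟩ := exists_ne_zero_orth (B := s) ⊤ ![u, y] (by simp; omega)
      have w1 : s w u = 0 := hw 0
      have w2 : s w y = 0 := hw 1
      obtain ⟨c, h⟩ := hc _ (all u hu hAu w (by rwa [D.symm]))
      rw [sp_apply, D.symm y w, w2, zero_smul, zero_add] at h
      have := congrArg (s u) h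
      simp only [map_smul, smul_eq_mul, D.symm u w, w1, mul_zero, D.symm u y] at this
      rw [(mul_eq_zero.1 this.symm).resolve_right hyu, zero_smul] at h
      exact w0 ((smul_eq_zero.1 h).resolve_left hyu))
  by_cases hz0 : z = 0
  · have : (s.flip z).smulRight z = 0 := by ext; simp [hz0]
    rw [this]; exact zero_mem _
  obtain ⟨x, hx⟩ : ∃ x, s x z ≠ 0 := by
    by_contra h
    push Not at h
    exact hz0 (D.nondeg.2 _ h)
  obtain ⟨w, -, w0, hw⟩ := exists_ne_zero_orth (B := s) ⊤ ![x, z] (by simp; omega)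
  obtain ⟨y, hy, qy⟩ : ∃ y, s y z = 0 ∧ s y y ≠ 0 := by
    by_contra h
    push Not at h
    refine w0 (D.nondeg.2 _ fun a => ?_)
    have w1 : s w x = 0 := hw 0
    have w2 : s w z = 0 := hw 1
    have h1 : s (a - (s a z / s x z) • x) z = 0 := by simp [div_mul_cancel₀ _ hx]
    have h2 := D.q_add (a - (s a z / s x z) • x) w
    rw [h _ (by simp only [map_add, LinearMap.add_apply, h1, w2, add_zero]), h _ h1, h _ w2] at h2
    have h5 := (mul_eq_zero.1 (by linear_combination -h2 : 2 * s (a - (s a z / s x z) • x) w = 0)).resolve_left two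
    simpa [D.symm x w, w1] using h5
  have := 𝒜.smul_mem (2⁻¹ : F) (sub_mem (all2 (y + z) (by rw [D.q_add, hy, hz]; simpa using qy) z (by simp [hy, hz]))
    (all2 y qy z hy))
  convert this using 1
  ext v
  simp only [sp_apply, LinearMap.smul_apply, LinearMap.sub_apply, map_add, LinearMap.smulRight_apply,
    LinearMap.BilinForm.flip_apply]
  match_scalars <;> field_simp <;> ring

theorem eq_top_of_sing (D : SymD s) {Y : Submodule F U} {z : U} (hz : z ∈ Y) (hz0 : z ≠ 0) (hq : s z z = 0)
    (h : ∀ x, s x x = 0 → (∃ y ∈ Y, s y x ≠ 0) → x ∈ Y) : Y = ⊤ := by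
  have two := D.two
  have key : ∀ x, s z x ≠ 0 → x ∈ Y := fun x hx => by
    have := h (x - (s x x / (2 * s z x)) • z) (by
      rw [D.q_sub]
      simp only [map_smul, LinearMap.smul_apply, smul_eq_mul, hq, D.symm x z]
      field_simp; ring) ⟨z, hz, by simpa [hq] using hx⟩
    simpa using add_mem this (Y.smul_mem (s x x / (2 * s z x)) hz)
  obtain ⟨x, hx⟩ : ∃ x, s z x ≠ 0 := by
    by_contra h
    push Not at h
    exact hz0 (D.nondeg.1 _ h)
  refine eq_top_iff.2 fun y _ => ?_
  by_cases hy : s z y = 0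
  · simpa using sub_mem (key (y + x) (by simpa [hy] using hx)) (key x hx)
  · exact key y hy

end SymD

end CL.Sp
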