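/-
Tensor decompositions, part 3: linear algebra in an orthogonal factor: rank one maps, Eichler maps, generation of
the endomorphism algebra, and the reduction principle for subspaces invariant under the orthogonal group.
-/
import Cfsg.Agent.Cls.TW2
import Cfsg.Agent.Cls.TenOrth

set_option autoImplicit false
set_option linter.unusedSectionVars false

namespace CL.TW

open Module CL.Sp

variable {F U W V : Type*} [Field F] [AddCommGroup U] [Module F U] [AddCommGroup W] [Module F W]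
  [AddCommGroup V] [Module F V] {β : LinearMap.BilinForm F U}

/-- The isometry group. -/
def IsoG (β : LinearMap.BilinForm F U) : Subgroup (End F U)ˣ where
  carrier := {g | ∀ x y, β (g.1 x) (g.1 y) = β x y}
  mul_mem' ha hb x y := (ha _ _).trans (hb x y)
  one_mem' _ _ := rfl
  inv_mem' {a} ha x y := by rw [← ha, val_inv_apply, val_inv_apply]

/-- Adjoint pairs. -/
def Adj (β : LinearMap.BilinForm F U) (a a' : End F U) : Prop := ∀ x y, β (a x) y = β x (a' y)

theorem IsoG.adj {g : (End F U)ˣ} (h : g ∈ IsoG β) : Adj β g.1 (g⁻¹).1 := fun x _ => by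
  rw [← h x, val_inv_apply]

theorem IsoG.adj' {g : (End F U)ˣ} (h : g ∈ IsoG β) : Adj β (g⁻¹).1 g.1 := IsoG.adj (inv_mem h)

theorem Adj.mul {a a' b b' : End F U} (h : Adj β a a') (h' : Adj β b b') : Adj β (a * b) (b' * a') := fun _ _ =>
  (h _ _).trans (h' _ _)

/-- The map `z ↦ β(y, z) x`. -/
def ee (β : LinearMap.BilinForm F U) : U →ₗ[F] U →ₗ[F] End F U :=
  LinearMap.mk₂ F (fun x y => rk x (β y)) (fun _ _ _ => by ext; simp) (fun _ _ _ => by ext; simp [smul_comm (β _ _)])
    (fun _ _ _ => by ext; simp [add_smul]) (fun _ _ _ => by ext; simp [mul_smul])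

theorem ee_apply (x y z : U) : ee β x y z = β y z • x := rfl

theorem ee_mul (x y z w : U) : ee β x y * ee β z w = β y z • ee β x w := rk_mul_rk _ _ _ _

theorem mul_ee (a : End F U) (x y : U) : a * ee β x y = ee β (a x) y := by ext; simp [ee_apply]

theorem Adj.ee_mul {a a' : End F U} (h : Adj β a a') (x y : U) : ee β x y * a' = ee β x (a y) := by
  ext z; simp [ee_apply, h y z]

theorem conj_ee {g : (End F U)ˣ} (h : g ∈ IsoG β) (x y : U) : g.1 * ee β x y * (g⁻¹).1 = ee β (g.1 x) (g.1 y) := by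
  rw [mul_ee, (IsoG.adj h).ee_mul]

/-- The skew map attached to two vectors. -/
def wg (β : LinearMap.BilinForm F U) (x y : U) : End F U := ee β x y - ee β y x

/-- The truncated exponential. -/
def ex (n : End F U) : End F U := 1 + n + (2 : F)⁻¹ • (n * n)

theorem ex_mul (two : (2 : F) ≠ 0) {n m : End F U} (h : n * m = m * n) (h1 : n * n * m = 0) (h2 : n * m * m = 0) :
    ex n * ex m = ex (n + m) := by
  have h3 : n * n * (m * m) = 0 := by rw [← mul_assoc, h1, zero_mul]
  simp only [ex, mul_add, add_mul, mul_one, one_mul, smul_mul_assoc, mul_smul_comm, ← h, h1, h3, ← mul_assoc n m, h2]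
  match_scalars <;> field_simp
  ring

theorem ex_zero : ex (0 : End F U) = 1 := by simp [ex]

theorem ex_smul_mul (two : (2 : F) ≠ 0) {n : End F U} (h : n * n * n = 0) (c d : F) :
    ex (c • n) * ex (d • n) = ex ((c + d) • n) := by
  rw [ex_mul two, add_smul] <;> simp [h, smul_smul, mul_comm]

/-- The exponential of a nilpotent map, as a unit. -/
def exU (two : (2 : F) ≠ 0) {n : End F U} (h : n * n * n = 0) (c : F) : (End F U)ˣ :=
  ⟨ex (c • n), ex ((-c) • n), by rw [ex_smul_mul two h, add_neg_cancel, zero_smul, ex_zero],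
    by rw [ex_smul_mul two h, neg_add_cancel, zero_smul, ex_zero]⟩

theorem exU_mem (two : (2 : F) ≠ 0) {n : End F U} (h : n * n * n = 0) (hn : Adj β n (-n)) (c : F) :
    exU two h c ∈ IsoG β := fun x y => by
  have : Adj β (ex (c • n)) (ex ((-c) • n)) := fun x y => by simp [ex, hn _ _, smul_smul]
  rw [show (exU two h c).1 = ex (c • n) from rfl, this]
  exact congrArg _ (inv_val_apply (exU two h c) y)

theorem exU_sq (two : (2 : F) ≠ 0) {n : End F U} (h : n * n * n = 0) (c : F) :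
    exU two h (c / 2) * exU two h (c / 2) = exU two h c :=
  Units.ext ((ex_smul_mul two h _ _).trans (by rw [show c / 2 + c / 2 = c by field_simp; ring]; rfl))

theorem log_ex {n : End F U} (h : n * n * n = 0) :
    (ex n - 1) * (ex n - 1) = n * n ∧ (ex n - 1) - (2 : F)⁻¹ • (n * n) = n ∧ (ex n - 1) ^ 3 = 0 := by
  have h1 : ex n - 1 = n + (2 : F)⁻¹ • (n * n) := by rw [ex]; abel
  have h2 : (ex n - 1) * (ex n - 1) = n * n := by simp [h1, mul_add, add_mul, ← mul_assoc, h]
  refine ⟨h2, by rw [h1]; abel, ?_⟩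
  rw [pow_three', h2, h1]
  simp [mul_add, ← mul_assoc, h]

/-- Hyperbolic pairs. -/
structure Hyp (β : LinearMap.BilinForm F U) (u u' : U) : Prop where
  l : β u u = 0
  r : β u' u' = 0
  lr : β u u' = 1
  rl : β u' u = 1

theorem Hyp.symm {u u' : U} (h : Hyp β u u') : Hyp β u' u := ⟨h.r, h.l, h.rl, h.lr⟩

theorem Hyp.ne {u u' : U} (h : Hyp β u u') : u ≠ 0 := fun e => by simpa [e] using h.lr

/-- The orthogonal complement of two vectors. -/
def P2 (β : LinearMap.BilinForm F U) (u u' : U) : Submodule F U := LinearMap.ker (β u) ⊓ LinearMap.ker (β u')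

theorem finrank_P2 [FiniteDimensional F U] (u u' : U) : finrank F U ≤ finrank F (P2 β u u') + 2 := by
  have h1 := SymD.finrank_inf_ker (⊤ : Submodule F U) (β u)
  have h2 := SymD.finrank_inf_ker (LinearMap.ker (β u)) (β u')
  rw [finrank_top, top_inf_eq] at h1
  rw [P2]
  omega

theorem Hyp.proj {u u' : U} (h : Hyp β u u') (x : U) : x - β u' x • u - β u x • u' ∈ P2 β u u' :=
  ⟨by simp [h.l, h.lr], by simp [h.r, h.rl]⟩

/-- The spans of the maps `ι_u` and of the skew maps. -/
def S0 (β : LinearMap.BilinForm F U) : Submodule F (End F U) := Submodule.span F {a | ∃ u, β u u = 0 ∧ a = ee β u u}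

def Lam (β : LinearMap.BilinForm F U) : Submodule F (End F U) := Submodule.span F {a | ∃ x y, a = wg β x y}

/-- The diagonal elements of a hyperbolic pair. -/
def hm (β : LinearMap.BilinForm F U) (u u' : U) (μ : F) : End F U := 1 + (μ - 1) • ee β u u' + (μ⁻¹ - 1) • ee β u' u

theorem hm_mul {u u' : U} (h : Hyp β u u') (μ ν : F) : hm β u u' μ * hm β u u' ν = hm β u u' (μ * ν) := by
  simp only [hm, mul_add, add_mul, mul_one, one_mul, smul_mul_assoc, mul_smul_comm, ee_mul, h.l, h.r, h.lr, h.rl,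
    mul_inv]
  module

theorem hm_one (u u' : U) : hm β u u' 1 = 1 := by simp [hm]

/-- The diagonal elements as units. -/
def hU {u u' : U} (h : Hyp β u u') {μ : F} (h0 : μ ≠ 0) : (End F U)ˣ :=
  ⟨hm β u u' μ, hm β u u' μ⁻¹, by rw [hm_mul h, mul_inv_cancel₀ h0, hm_one], by rw [hm_mul h, inv_mul_cancel₀ h0, hm_one]⟩

theorem hm_apply (u u' : U) (μ : F) (x : U) :
    hm β u u' μ x = x + ((μ - 1) * β u' x) • u + ((μ⁻¹ - 1) * β u x) • u' := by simp [hm, ee_apply, smul_smul]

section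

variable (D : SymD β)
include D

theorem ee_adj (x y : U) : Adj β (ee β x y) (ee β y x) := fun z w => by simp [ee_apply, D.symm z y, mul_comm]

theorem wg_adj (x y : U) : Adj β (wg β x y) (-wg β x y) := fun z w => by
  simp [wg, ee_adj D _ _ z w]

theorem Adj.symm {a a' : End F U} (h : Adj β a a') : Adj β a' a := fun x y => by rw [D.symm, ← h, D.symm]

theorem ext_β {x y : U} (h : ∀ z, β z x = β z y) : x = y :=
  sub_eq_zero.1 (D.nondeg.2 _ fun z => by rw [map_sub, h, sub_self])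

theorem exists_β_one {x : U} (hx : x ≠ 0) : ∃ y, β y x = 1 := by
  obtain ⟨y, hy⟩ : ∃ y, β y x ≠ 0 := not_forall.1 fun h => hx (D.nondeg.2 _ h)
  exact ⟨(β y x)⁻¹ • y, by simp [hy]⟩

theorem exists_repr [FiniteDimensional F U] (α : Dual F U) : ∃ x, β x = α := (β.toDual D.nondeg).surjective α

theorem exists_adj [FiniteDimensional F U] (a : End F U) : ∃ a', Adj β a a' :=
  ⟨(β.toDual D.nondeg).symm.toLinearMap ∘ₗ a.dualMap ∘ₗ β, fun x y => by
    rw [D.symm x, D.symm _ y]; simp⟩

theorem exists_hyp {u x : U} (hu : β u u = 0) (hx : β u x ≠ 0) : ∃ u', Hyp β u u' := by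
  have := D.two
  refine ⟨(β u x)⁻¹ • x - ((β u x)⁻¹ ^ 2 * β x x / 2) • u, hu, ?_, by simp [hu, hx], by simp [hu, hx, D.symm x u]⟩
  simp only [map_sub, map_smul, LinearMap.sub_apply, LinearMap.smul_apply, smul_eq_mul, hu, D.symm x u]
  field_simp
  ring

theorem exists_hyp' {u : U} (hu : β u u = 0) (h0 : u ≠ 0) : ∃ u', Hyp β u u' := by
  obtain ⟨x, hx⟩ := exists_β_one D h0
  exact exists_hyp D hu (x := x) (by rw [D.symm, hx]; exact one_ne_zero)

theorem Hyp.ndOn {u u' : U} (h : Hyp β u u') : NdOn β (P2 β u u') := fun n hn h1 => D.nondeg.2 _ fun a => by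
  have := h1 _ (h.proj a)
  have h2 : β u n = 0 := hn.1
  have h3 : β u' n = 0 := hn.2
  simpa [h2, h3] using this

theorem hU_mem {u u' : U} (h : Hyp β u u') {μ : F} (h0 : μ ≠ 0) : hU h h0 ∈ IsoG β := fun x y => by
  change β (hm β u u' μ x) (hm β u u' μ y) = _
  simp only [hm_apply, map_add, map_smul, LinearMap.add_apply, LinearMap.smul_apply, smul_eq_mul, h.l, h.r, h.lr, h.rl,
    D.symm x]
  field_simp
  ring

theorem wg_sq {u w w' : U} (hu : β u u = 0) (hw : β u w = 0) (hw' : β u w' = 0) :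
    wg β u w * wg β u w' = -β w w' • ee β u u := by
  simp [wg, mul_sub, sub_mul, ee_mul, hu, hw', D.symm w u, hw]

theorem wg_cube {u w w' w'' : U} (hu : β u u = 0) (hw : β u w = 0) (hw' : β u w' = 0) (hw'' : β u w'' = 0) :
    wg β u w * wg β u w' * wg β u w'' = 0 := by
  rw [wg_sq D hu hw hw']
  simp [wg, mul_sub, ee_mul, hu, hw'']

/-- Eichler maps. -/
def tU {u w : U} (hu : β u u = 0) (hw : β u w = 0) (c : F) : (End F U)ˣ := exU D.two (wg_cube D hu hw hw hw) c

theorem tU_mem {u w : U} (hu : β u u = 0) (hw : β u w = 0) (c : F) : tU D hu hw c ∈ IsoG β :=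
  exU_mem _ _ (wg_adj D u w) c

theorem ex_wg_apply {u w : U} (hu : β u u = 0) (hw : β u w = 0) (x : U) :
    ex (wg β u w) x = x + β w x • u - β u x • w - (β w w / 2 * β u x) • u := by
  rw [ex, wg_sq D hu hw hw]
  simp only [wg, LinearMap.add_apply, End.one_apply, LinearMap.sub_apply, LinearMap.smul_apply, ee_apply]
  module

theorem tU_val {u w : U} (hu : β u u = 0) (hw : β u w = 0) : (tU D hu hw 1).1 = ex (wg β u w) :=
  congrArg ex (one_smul _ _)

theorem ex_wg_mul {u w w' : U} (hu : β u u = 0) (hw : β u w = 0) (hw' : β u w' = 0) :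
    ex (wg β u w) * ex (wg β u w') = ex (wg β u (w + w')) := by
  rw [ex_mul D.two (by rw [wg_sq D hu hw hw', wg_sq D hu hw' hw, D.symm]) (wg_cube D hu hw hw hw')
    (wg_cube D hu hw hw' hw')]
  congr 1
  simp only [wg, map_add, LinearMap.add_apply]
  abel

variable [FiniteDimensional F U]

theorem eq_top_of_ee {𝒳 : Submodule F (End F U)} (h : ∀ x y, ee β x y ∈ 𝒳) : 𝒳 = ⊤ := eq_top_iff.2 fun a _ => by
  have : a = ∑ i, rk (a (finBasis F U i)) ((finBasis F U).coord i) := by
    ext x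
    conv_lhs => rw [← (finBasis F U).sum_repr x, map_sum]
    simp
  rw [this]
  refine sum_mem fun i _ => ?_
  obtain ⟨y, hy⟩ := exists_repr D ((finBasis F U).coord i)
  exact hy ▸ h _ y

theorem exists_smul_of_perp {x y : U} (h : ∀ z, β z x = 0 → β z y = 0) : ∃ c : F, y = c • x := by
  by_cases hx : x = 0
  · exact ⟨0, by rw [zero_smul]; exact D.nondeg.2 _ fun z => h z (by rw [hx, map_zero])⟩
  obtain ⟨z, hz⟩ := exists_β_one D hx
  refine ⟨β z y, ext_β D fun w => ?_⟩
  have := h (w - β w x • z) (by simp [hz])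
  simp only [map_sub, map_smul, LinearMap.sub_apply, LinearMap.smul_apply, smul_eq_mul] at this ⊢
  linear_combination this

/-- A singular vector orthogonal to neither of two given singular vectors. -/
theorem exists_sing_ne {E : Submodule F U} (hE : NdOn β E) (h3 : 3 ≤ finrank F E) {a b : U} (ha : a ∈ E) (hb : b ∈ E)
    (a0 : a ≠ 0) (b0 : b ≠ 0) (qa : β a a = 0) (qb : β b b = 0) : ∃ c ∈ E, β c c = 0 ∧ β a c ≠ 0 ∧ β b c ≠ 0 := by
  have two := D.two
  have key : ∀ x ∈ E, β a x ≠ 0 → β (x - (β x x / (2 * β a x)) • a) (x - (β x x / (2 * β a x)) • a) = 0 :=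
    fun x _ hx => by
      simp only [map_sub, map_smul, LinearMap.sub_apply, LinearMap.smul_apply, smul_eq_mul, qa, D.symm x a]
      field_simp; ring
  have ne : ∀ a ∈ E, a ≠ 0 → ∃ u ∈ E, β a u ≠ 0 := fun a ha a0 => by
    by_contra h
    push Not at h
    exact a0 (hE a ha fun x hx => by rw [D.symm, h x hx])
  by_cases hab : β b a = 0
  · obtain ⟨x, hx, h1, h2⟩ := exists_both_ne_zero E (β a) (β b) (ne a ha a0) (ne b hb b0)
    exact ⟨_, sub_mem hx (E.smul_mem _ ha), key x hx h1, by simpa [qa] using h1, by simpa [hab] using h2⟩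
  have h1 := SymD.finrank_inf_ker E (β a)
  have h2 := SymD.finrank_inf_ker (E ⊓ LinearMap.ker (β a)) (β b)
  obtain ⟨w, hw, qw⟩ := D.exists_nonsing (E := E ⊓ LinearMap.ker (β a) ⊓ LinearMap.ker (β b)) (fun n hn h => hE n hn.1.1
    fun x hx => by
      have := h (x - (β b x / β b a) • a - (β a x / β b a) • b) ⟨⟨sub_mem (sub_mem hx (E.smul_mem _ ha)) (E.smul_mem _ hb),
        by simp [qa, D.symm a b, div_mul_cancel₀ _ hab]⟩, by simp [qb, div_mul_cancel₀ _ hab]⟩
      have h4 : β a n = 0 := hn.1.2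
      have h5 : β b n = 0 := hn.2
      simpa [h4, h5] using this) (fun e => by rw [e, finrank_bot] at h2; omega)
  have h4 : β a w = 0 := hw.1.2
  have h5 : β b w = 0 := hw.2
  have h6 : β a (b + w) ≠ 0 := by simpa [h4, D.symm a b] using hab
  refine ⟨_, sub_mem (add_mem hb hw.1.1) (E.smul_mem _ ha), key _ (add_mem hb hw.1.1) h6, by simpa [qa] using h6, ?_⟩
  simp [qb, h5, D.symm w b, qw, two, hab, h4, D.symm a b]

theorem le_of_sing [Finite F] {E R : Submodule F U} (hE : NdOn β E) (h3 : 3 ≤ finrank F E)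
    (h : ∀ v ∈ E, β v v = 0 → v ∈ R) : E ≤ R := by
  have two := D.two
  obtain ⟨z, hz, z0, qz⟩ := SymD.exists_sing (s := β) E h3
  have key : ∀ x ∈ E, β z x ≠ 0 → x ∈ R := fun x hx hzx => by
    have := h (x - (β x x / (2 * β z x)) • z) (sub_mem hx (E.smul_mem _ hz)) (by
      simp only [map_sub, map_smul, LinearMap.sub_apply, LinearMap.smul_apply, smul_eq_mul, qz, D.symm x z]
      field_simp; ring)
    simpa using add_mem this (R.smul_mem (β x x / (2 * β z x)) (h z hz qz))
  obtain ⟨x, hx, h1⟩ : ∃ x ∈ E, β z x ≠ 0 := by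
    by_contra h
    push Not at h
    exact z0 (hE z hz fun x hx => by rw [D.symm, h x hx])
  intro y hy
  by_cases h2 : β z y = 0
  · simpa using sub_mem (key (y + x) (add_mem hy hx) (by simpa [h2] using h1)) (key x hx h1)
  · exact key y hy h2

/-- Transitivity on singular points. -/
theorem exists_move (h3 : 3 ≤ finrank F U) {a b : U} (a0 : a ≠ 0) (b0 : b ≠ 0) (qa : β a a = 0) (qb : β b b = 0) :
    ∃ (v w : U) (c : F), β v v = 0 ∧ β v w = 0 ∧ c ≠ 0 ∧ ex (wg β v w) a = c • b := by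
  obtain ⟨v, -, qv, h1, h2⟩ := exists_sing_ne D D.ndOn_top (by rwa [finrank_top]) trivial trivial a0 b0 qa qb
  have two := D.two
  rw [D.symm] at h1 h2
  have hw : β v ((β v a)⁻¹ • a - (β v b)⁻¹ • b) = 0 := by simp [h1, h2]
  refine ⟨v, _, β v a / β v b, qv, hw, div_ne_zero h1 h2, ?_⟩
  rw [ex_wg_apply D qv hw]
  simp only [map_sub, map_smul, LinearMap.sub_apply, LinearMap.smul_apply, smul_eq_mul, qa, qb, D.symm a b]
  match_scalars <;> field_simp <;> ring

variable [Finite F]

theorem S0_cube (h3 : 3 ≤ finrank F U) : S0 β ^ 3 = ⊤ := by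
  have h : ∀ a b, β a a = 0 → β b b = 0 → ee β a b ∈ S0 β ^ 3 := fun a b qa qb => by
    by_cases a0 : a = 0
    · simp [a0]
    by_cases b0 : b = 0
    · simp [b0]
    obtain ⟨v, -, qv, h1, h2⟩ := exists_sing_ne D D.ndOn_top (by rwa [finrank_top]) trivial trivial a0 b0 qa qb
    have hm : ∀ u, β u u = 0 → ee β u u ∈ S0 β := fun u hu => Submodule.subset_span ⟨u, hu, rfl⟩
    have := Submodule.mul_mem_mul (Submodule.mul_mem_mul (hm a qa) (hm v qv)) (hm b qb)
    rw [ee_mul, smul_mul_assoc, ee_mul, smul_smul, ← pow_three'] at this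
    exact (Submodule.smul_mem_iff _ (mul_ne_zero h1 (by rwa [D.symm]))).1 this
  have h' : 3 ≤ finrank F (⊤ : Submodule F U) := by rwa [finrank_top]
  refine eq_top_of_ee D fun x y => le_of_sing D (R := (S0 β ^ 3).comap (ee β x)) D.ndOn_top h' (fun b _ qb => ?_) trivial
  exact le_of_sing D (R := (S0 β ^ 3).comap ((ee β).flip b)) D.ndOn_top h'
    (fun a _ qa => Submodule.mem_comap.2 (h a b qa qb)) (Submodule.mem_top (x := x))

theorem exists_nonsing_P2 (h3 : 3 ≤ finrank F U) {u u' : U} (h : Hyp β u u') : ∃ w ∈ P2 β u u', β w w ≠ 0 :=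
  D.exists_nonsing (h.ndOn D) fun e => by
    have := finrank_P2 (β := β) u u'
    rw [e, finrank_bot] at this
    omega

theorem exists_nonsing_perp (h3 : 3 ≤ finrank F U) {u : U} (hu : β u u = 0) : ∃ w, β u w = 0 ∧ β w w ≠ 0 := by
  by_cases h0 : u = 0
  · obtain ⟨w, -, hw⟩ := D.exists_nonsing D.ndOn_top fun e => by
      rw [← finrank_top, e, finrank_bot] at h3; omega
    exact ⟨w, by simp [h0], hw⟩
  obtain ⟨u', h⟩ := exists_hyp' D hu h0
  obtain ⟨w, hw, qw⟩ := exists_nonsing_P2 D h3 h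
  exact ⟨w, hw.1, qw⟩

theorem gen_S0 (h3 : 3 ≤ finrank F U) : Gen (S0 β) := ⟨2, S0_cube D h3⟩

theorem gen_Lam (h3 : 3 ≤ finrank F U) : Gen (Lam β) := by
  refine ⟨5, top_le_iff.1 ?_⟩
  rw [← S0_cube D h3, show 5 + 1 = 2 * 3 from rfl, pow_mul]
  refine pow_le_pow_left' (Submodule.span_le.2 ?_) 3
  rintro _ ⟨u, hu, rfl⟩
  obtain ⟨w, h1, h2⟩ := exists_nonsing_perp D h3 hu
  have hm : wg β u w ∈ Lam β := Submodule.subset_span ⟨u, w, rfl⟩
  have := Submodule.mul_mem_mul hm hm
  rw [wg_sq D hu h1 h1, ← pow_two] at this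
  exact (Submodule.smul_mem_iff _ (neg_ne_zero.2 h2)).1 this

/-- The maps `ι_u` generate the endomorphism algebra. -/
theorem commute_of_sing (h3 : 3 ≤ finrank F U) {A : Type*} [Ring A] [Algebra F A] (f : End F U →ₐ[F] A) {z : A}
    (h : ∀ u, β u u = 0 → Commute (f (ee β u u)) z) (a : End F U) : Commute (f a) z := by
  let 𝒞 := (Subalgebra.centralizer F {z}).comap f
  have hm : ∀ a, a ∈ 𝒞 ↔ Commute (f a) z := fun a => by
    simp [𝒞, Subalgebra.mem_centralizer_iff, Commute, SemiconjBy, eq_comm]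
  have h1 : S0 β ≤ 𝒞.toSubmodule := Submodule.span_le.2 (by rintro _ ⟨u, hu, rfl⟩; exact (hm _).2 (h u hu))
  have h2 : S0 β ^ 3 ≤ 𝒞.toSubmodule := by
    rw [pow_three']
    have h3 : S0 β * S0 β ≤ 𝒞.toSubmodule := Submodule.mul_le.2 fun a ha b hb => 𝒞.mul_mem (h1 ha) (h1 hb)
    exact Submodule.mul_le.2 fun a ha b hb => 𝒞.mul_mem (h3 ha) (h1 hb)
  exact (hm a).1 (h2 (S0_cube D h3 ▸ trivial))


omit [FiniteDimensional F U] [Finite F]

/-- Reflections. -/
noncomputable def rU {x : U} (hx : β x x ≠ 0) : (End F U)ˣ :=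
  ⟨1 - (2 / β x x) • ee β x x, 1 - (2 / β x x) • ee β x x, by
    simp only [mul_sub, sub_mul, mul_one, one_mul, smul_mul_assoc, mul_smul_comm, ee_mul]
    match_scalars <;> field_simp
    ring, by
    simp only [mul_sub, sub_mul, mul_one, one_mul, smul_mul_assoc, mul_smul_comm, ee_mul]
    match_scalars <;> field_simp
    ring⟩

omit D in
theorem rU_apply {x : U} (hx : β x x ≠ 0) (y : U) : (rU hx).1 y = y - (2 / β x x * β x y) • x := by
  simp [rU, ee_apply, smul_smul]

theorem rU_mem {x : U} (hx : β x x ≠ 0) : rU hx ∈ IsoG β := fun y z => by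
  simp only [rU_apply, map_sub, map_smul, LinearMap.sub_apply, LinearMap.smul_apply, smul_eq_mul, D.symm y x]
  field_simp
  ring

/-- A self-adjoint map of square zero and rank one. -/
theorem exists_iota [FiniteDimensional F U] {b : End F U} (hb : Adj β b b) (h2 : b * b = 0) (h0 : b ≠ 0)
    (h1 : ∀ x x', ¬ LinearIndependent F ![b x, b x']) : ∃ (u : U) (c : F), u ≠ 0 ∧ β u u = 0 ∧ c ≠ 0 ∧ b = c • ee β u u := by
  obtain ⟨x, hx⟩ := DFunLike.ne_iff.1 h0
  have h3 : ∀ y, ∃ c : F, b y = c • b x := fun y => by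
    have := h1 x y
    rw [LinearIndependent.pair_iff' hx] at this
    push Not at this
    obtain ⟨c, hc⟩ := this
    exact ⟨c, hc.symm⟩
  have h4 : β (b x) x ≠ 0 := fun e => hx (D.nondeg.1 _ fun y => by
    obtain ⟨c, hc⟩ := h3 y
    rw [hb, hc, map_smul, D.symm, e, smul_zero])
  refine ⟨b x, (β (b x) x)⁻¹, hx, by rw [hb, ← End.mul_apply, h2, LinearMap.zero_apply, map_zero], inv_ne_zero h4,
    LinearMap.ext fun y => ?_⟩
  obtain ⟨c, hc⟩ := h3 y
  rw [LinearMap.smul_apply, ee_apply, hb x y, hc, map_smul, D.symm x, smul_smul, smul_eq_mul, mul_left_comm,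
    inv_mul_cancel₀ h4, mul_one]

/-- A map with all non-singular vectors as eigenvectors is a scalar. -/
theorem exists_smul_of_nonsing [FiniteDimensional F U] (h3 : 3 ≤ finrank F U) {a : End F U}
    (h : ∀ x, β x x ≠ 0 → ∃ c : F, a x = c • x) : ∃ c : F, a = c • 1 := by
  obtain ⟨c, hc⟩ := D.exists_le_of_cover D.ndOn_top (by rwa [finrank_top]) (fun c : F => LinearMap.ker (a - c • 1))
    (fun c c' hc x hx y hy => by
      simp only [LinearMap.mem_ker, LinearMap.sub_apply, LinearMap.smul_apply, End.one_apply, sub_eq_zero] at hx hy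
      by_contra hne
      have key : ∀ e : F, e ≠ 0 → β (x + e • y) (x + e • y) = 0 := fun e he => by
        by_contra hq
        obtain ⟨d, hd⟩ := h _ hq
        rw [map_add, map_smul, hx, hy] at hd
        have h1 : (c - d) • x = (e * (d - c')) • y := by linear_combination (norm := module) hd
        have h2 : ((c - d) * (c - c')) • x = 0 := by
          have := congrArg a h1
          rw [map_smul, map_smul, hx, hy] at this
          linear_combination (norm := module) this - c' • h1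
        have hx0 : x ≠ 0 := fun e => hne (by simp [e])
        have hy0 : y ≠ 0 := fun e => hne (by simp [e])
        have h4 : c - d = 0 := (mul_eq_zero.1 ((smul_eq_zero.1 h2).resolve_right hx0)).resolve_right (sub_ne_zero.2 hc)
        rw [h4, zero_smul, eq_comm, smul_eq_zero, mul_eq_zero, ← sub_eq_zero.1 h4] at h1
        exact hy0 (h1.resolve_left (not_or.2 ⟨he, sub_ne_zero.2 hc⟩))
      have e1 := key 1 one_ne_zero
      have e2 := key (-1) (by simp)
      simp only [map_add, map_smul, LinearMap.add_apply, LinearMap.smul_apply, smul_eq_mul, D.symm y x] at e1 e2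
      exact mul_ne_zero (mul_ne_zero D.two D.two) hne (by linear_combination e1 - e2))
    fun u _ hu => by
      obtain ⟨c, hc⟩ := h u hu
      exact ⟨c, by simp [hc]⟩
  exact ⟨c, sub_eq_zero.1 (LinearMap.ker_eq_top.1 (top_le_iff.1 hc))⟩

end

/-- The hypotheses on the orthogonal factor. -/
structure OD (β : LinearMap.BilinForm F U) : Prop extends SymD β where
  h3 : 3 ≤ finrank F U
  hq : 4 ≤ finrank F U ∨ 5 ≤ Nat.card F
  h5 : ∀ x y, β x x = 0 → β x y = 0 → β y y = 0 → LinearIndependent F ![x, y] → 5 ≤ finrank F U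

section Red

variable [FiniteDimensional F U] [Finite F] (D : OD β) (T : TP F U W V) {𝒟 : Submodule F (End F V)}
  (hD : T.Inv (IsoG β) 𝒟)
include D hD

theorem D_mem {z : End F V} (hz : z ∈ 𝒟) {x : U} (hx : β x x ≠ 0) :
    β x x • (T.A (ee β x x) * z + z * T.A (ee β x x)) - (2 : F) • (T.A (ee β x x) * z * T.A (ee β x x)) ∈ 𝒟 := by
  have := 𝒟.smul_mem (β x x ^ 2 / 2) (sub_mem hz (hD _ (rU_mem D.toSymD hx) z hz))
  convert this using 1
  have two := D.two
  change _ = _ • (z - T.A (1 - (2 / β x x) • ee β x x) * z * T.A (1 - (2 / β x x) • ee β x x))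
  simp only [map_sub, map_one, map_smul, mul_sub, sub_mul, mul_one, one_mul, smul_mul_assoc, mul_smul_comm]
  match_scalars <;> field_simp
  ring

theorem DD_mem {z : End F V} (hz : z ∈ 𝒟) {x y : U} (hx : β x x ≠ 0) (hy : β y y ≠ 0) (h : β x y = 0) :
    T.A (ee β x y) * T.C (T.sl (β x) y z) + T.A (ee β y x) * T.C (T.sl (β y) x z) ∈ 𝒟 := by
  have h1 : T.A (ee β x x) * T.A (ee β y y) = 0 := by rw [← map_mul, ee_mul, h, zero_smul, map_zero]
  have h2 : T.A (ee β y y) * T.A (ee β x x) = 0 := by rw [← map_mul, ee_mul, D.symm, h, zero_smul, map_zero]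
  have h3 : ∀ z, T.A (ee β y y) * (T.A (ee β x x) * z) = 0 := fun z => by rw [← mul_assoc, h2, zero_mul]
  have := D_mem D T hD (D_mem D T hD hz hx) hy
  simp only [mul_add, add_mul, mul_sub, sub_mul, smul_mul_assoc, mul_smul_comm, mul_assoc, h1, h3, mul_zero, smul_zero,
    zero_add, add_zero, sub_zero, ← smul_add] at this
  rw [𝒟.smul_mem_iff hy, 𝒟.smul_mem_iff hx, add_comm, ← mul_assoc, ← mul_assoc] at this
  exact (T.A_sandwich x y (β x) (β y) z) ▸ (T.A_sandwich y x (β y) (β x) z) ▸ this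

theorem ext_pair {c c' : End F W} {x y : U} (h : β x y = 0) (hy : y ≠ 0)
    (hx : β x x ≠ 0) (h1 : T.A (ee β x y) * T.C c + T.A (ee β y x) * T.C c' ∈ 𝒟) (w : U) (hw : β x w = 0) :
    T.A (ee β x w) * T.C c + T.A (ee β w x) * T.C c' ∈ 𝒟 := by
  let Φ : U →ₗ[F] End F V := LinearMap.mulRight F (T.C c) ∘ₗ T.A.toLinearMap ∘ₗ ee β x +
    LinearMap.mulRight F (T.C c') ∘ₗ T.A.toLinearMap ∘ₗ (ee β).flip x
  have h2 := SymD.finrank_inf_ker (⊤ : Submodule F U) (β x)
  rw [finrank_top] at h2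
  refine D.le_of_closed (R := 𝒟.comap Φ) (D.ndOn_perp D.ndOn_top trivial hx) (D.hq.imp_left fun _ => by omega)
    ⟨trivial, h⟩ hy (fun a ha qa hya => ?_) ⟨trivial, hw⟩
  have h3 : β x a = 0 := ha.2
  have := DD_mem D T hD h1 hx qa h3
  simp only [TP.sl_add, TP.sl_AC, ee_apply, map_smul, smul_eq_mul, h3, D.symm a x, mul_zero, zero_smul, map_zero,
    add_zero, zero_add, mul_smul_comm, D.symm a y, mul_comm (β x x), ← smul_add] at this
  exact (𝒟.smul_mem_iff (mul_ne_zero hya hx)).1 this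

theorem ext_all {c : End F W} {ε : F} (hε : ε ≠ 0) {x y : U} (h : β x y = 0) (hy : y ≠ 0)
    (hx : β x x ≠ 0) (h1 : T.A (ee β x y + ε • ee β y x) * T.C c ∈ 𝒟) (hε2 : ε * ε = 1) {a : U} (ha : β a a ≠ 0)
    (w : U) (hw : β a w = 0) : T.A (ee β a w + ε • ee β w a) * T.C c ∈ 𝒟 := by
  have e : ∀ x y, T.A (ee β x y + ε • ee β y x) * T.C c = T.A (ee β x y) * T.C c + T.A (ee β y x) * T.C (ε • c) :=
    fun x y => by simp [add_mul]
  simp only [e] at h1 ⊢
  obtain ⟨v, hv, hm⟩ : ∃ v, β x v = 0 ∧ ∀ d : F, β a x • v + (ε * β a v) • x ≠ d • a := by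
    by_cases hax : β a x = 0
    · refine ⟨a, by rwa [D.symm], fun d hd => ?_⟩
      have := congrArg (β x) hd
      simp [hax, D.symm x a, hε, ha, hx] at this
    · obtain ⟨v, hv, v0⟩ := Submodule.exists_mem_ne_zero_of_ne_bot (p := P2 β x a) fun e => by
        have := finrank_P2 (β := β) x a
        have := D.h3
        rw [e, finrank_bot] at *
        omega
      have h2 : β x v = 0 := hv.1
      have h3 : β a v = 0 := hv.2
      refine ⟨v, h2, fun d hd => ?_⟩
      have := congrArg (β a) hd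
      simp only [map_smul, h3, smul_eq_mul, mul_zero, add_zero, zero_smul] at this hd
      rw [(mul_eq_zero.1 this.symm).resolve_right ha, zero_smul] at hd
      exact v0 ((smul_eq_zero.1 hd).resolve_left hax)
  obtain ⟨b, hb, qb, hb'⟩ : ∃ b, β a b = 0 ∧ β b b ≠ 0 ∧ β (β a x • v + (ε * β a v) • x) b ≠ 0 := by
    by_contra hc
    push Not at hc
    obtain ⟨d, hd⟩ := exists_smul_of_perp D.toSymD (x := a) (y := β a x • v + (ε * β a v) • x) fun z hz => by
      rw [D.symm]
      exact D.mem_of_nonsing (R := LinearMap.ker (β _)) (D.ndOn_perp D.ndOn_top trivial ha)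
        (fun u hu qu => hc u hu.2 qu) ⟨trivial, (D.symm _ _).trans hz⟩
    exact hm d hd
  refine ext_pair D T hD hb (fun e => qb (by simp [e])) ha ?_ w hw
  have := DD_mem D T hD (ext_pair D T hD h hy hx h1 v hv) ha qb hb
  refine (𝒟.smul_mem_iff hb').1 ?_
  simp only [TP.sl_add, TP.sl_AC] at this
  convert this using 1
  simp only [ee_apply, map_smul, smul_eq_mul, map_add, LinearMap.add_apply, LinearMap.smul_apply,
    mul_add, mul_smul_comm, D.symm v a, D.symm b x, D.symm b v, D.symm x a]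
  match_scalars
  · ring
  · linear_combination (β a v * β x b) * hε2

omit hD in
theorem red : Red T (IsoG β) fun 𝒳 => 𝒳 = S0 β ∨ 𝒳 = Lam β := fun 𝒟 hD z hz hz' => by
  have : Nontrivial U := Module.nontrivial_of_finrank_pos (R := F) (by have := D.h3; omega)
  obtain ⟨x, y, hx, hy, h, h0⟩ : ∃ x y, β x x ≠ 0 ∧ β y y ≠ 0 ∧ β x y = 0 ∧ T.sl (β x) y z ≠ 0 := by
    by_contra hc
    push Not at hc
    obtain ⟨c, hc⟩ := T.exists_C_of_sl (z := z) fun x α hα => LinearMap.ext fun y => eq_of_dual (F := F) fun χ => by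
      obtain ⟨c, hc⟩ := exists_smul_of_nonsing D.toSymD D.h3 (a := T.ψ χ ∘ₗ z ∘ₗ T.flip.tm y) fun x hx =>
        exists_smul_of_perp D.toSymD fun w hw => by
          have := D.mem_of_nonsing (R := LinearMap.ker (β.flip (T.ψ χ (z (T.tm x y)))))
            (D.ndOn_perp D.ndOn_top trivial hx) (fun u hu qu => by
              have := LinearMap.congr_fun (hc u x qu hx ((D.symm _ _).trans hu.2)) y
              rw [TP.sl_apply] at this
              rw [LinearMap.mem_ker, LinearMap.BilinForm.flip_apply, ← T.φ_ψ, this, LinearMap.zero_apply, map_zero])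
            (show w ∈ _ from ⟨trivial, (D.symm _ _).trans hw⟩)
          exact this
      have h2 : T.ψ χ (z (T.tm x y)) = c • x := LinearMap.congr_fun hc x
      rw [TP.sl_apply, T.φ_ψ, h2, map_smul, hα]
      simp
    exact hz' (hc ▸ T.cm_C c)
  have h1 := DD_mem D T hD hz hx hy h
  generalize T.sl (β x) y z = c at *
  generalize T.sl (β y) x z = c' at *
  have y0 : y ≠ 0 := fun e => hy (by simp [e])
  obtain ⟨v, hv, qv⟩ := D.exists_nonsing (D.ndOn_perp (D.ndOn_perp D.ndOn_top trivial hx) ⟨trivial, h⟩ hy) fun e => by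
    have h2 := finrank_P2 (β := β) x y
    have := D.h3
    rw [top_inf_eq] at e
    rw [P2, e, finrank_bot] at h2
    omega
  have hxv : β x v = 0 := hv.1.2
  have hyv : β y v = 0 := hv.2
  have x0 : x ≠ 0 := fun e => hx (by simp [e])
  have h2 := ext_pair D T hD ((D.symm _ _).trans h) x0 hy (add_comm (T.A _ * _) _ ▸ h1) v hyv
  have h3 := ext_pair D T hD ((D.symm _ _).trans hxv) x0 qv (add_comm (T.A _ * _) _ ▸ ext_pair D T hD h y0 hx h1 v hxv)
    y ((D.symm _ _).trans hyv)
  have v0 : v ≠ 0 := fun e => qv (by simp [e])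
  have hne : ∀ {d : End F W} {𝒳}, d ≠ 0 → (∀ a ∈ 𝒳, T.A a * T.C d ∈ 𝒟) → T.cof 𝒳 𝒟 ≠ ⊥ := fun {d 𝒳} hd h e =>
    hd (T.C_injective ((e.le ⟨T.cm_C d, h⟩).trans (map_zero _).symm))
  have sp : ∀ (d : End F W) (S : Set (End F U)), (∀ a ∈ S, T.A a * T.C d ∈ 𝒟) →
      ∀ a ∈ Submodule.span F S, T.A a * T.C d ∈ 𝒟 := fun d S h =>
    Submodule.span_le (p := 𝒟.comap (LinearMap.mulRight F (T.C d) ∘ₗ T.A.toLinearMap)).2 h
  by_cases h4 : c - c' = 0
  · obtain rfl := sub_eq_zero.1 h4
    have h5 := @ext_all F U W V _ _ _ _ _ _ _ β _ _ D T 𝒟 hD c 1 one_ne_zero _ _ hyv v0 hy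
      (by simpa [add_mul] using h2) (mul_one 1)
    refine ⟨_, Or.inl rfl, hne h0 (sp _ _ ?_)⟩
    rintro _ ⟨u, hu, rfl⟩
    obtain ⟨w, h6, h7⟩ := exists_nonsing_perp D.toSymD D.h3 hu
    have := sub_mem (h5 (a := w + u) (by simpa [hu, h6, D.symm w u] using h7) u (by simp [hu, h6, D.symm w u]))
      (h5 h7 u ((D.symm _ _).trans h6))
    refine (𝒟.smul_mem_iff D.two).1 ?_
    convert this using 1
    simp only [map_add, LinearMap.add_apply, one_smul, add_mul]
    module
  · have h5 := @ext_all F U W V _ _ _ _ _ _ _ β _ _ D T 𝒟 hD (c - c') (-1) (by simp) _ _ hyv v0 hy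
      (by
        convert sub_mem h3 h2 using 1
        simp only [map_add, map_sub, map_neg, neg_smul, one_smul, add_mul, mul_sub, neg_mul]
        abel) (by simp)
    refine ⟨_, Or.inr rfl, hne h4 (sp _ _ ?_)⟩
    rintro _ ⟨a, b, rfl⟩
    let Φ : U →ₗ[F] End F V := LinearMap.mulRight F (T.C (c - c')) ∘ₗ T.A.toLinearMap ∘ₗ ((ee β).flip b - ee β b)
    refine D.mem_of_nonsing (R := 𝒟.comap Φ) D.ndOn_top (fun a _ qa => ?_) (Submodule.mem_top (x := a))
    have := h5 qa (b - (β a b / β a a) • a) (by simp [div_mul_cancel₀ _ qa])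
    change T.A (ee β a b - ee β b a) * _ ∈ 𝒟
    convert this using 3
    simp only [map_sub, map_smul, LinearMap.sub_apply, LinearMap.smul_apply]
    module

omit hD in
theorem red_gen : Red T (IsoG β) Gen := fun 𝒟 hD z hz hz' => by
  obtain ⟨𝒳, h, h'⟩ := red D T 𝒟 hD z hz hz'
  exact ⟨𝒳, by
    rcases h with rfl | rfl
    exacts [gen_S0 D.toSymD D.h3, gen_Lam D.toSymD D.h3], h'⟩

end Red

end CL.TW
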