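/-
Tensor decompositions, part 4: tensor products of symmetric forms, partial symmetry, the unipotent radical of the
stabiliser of `u ⊗ W`, and the shape of its normaliser.
-/
import Cfsg.Agent.Cls.TW3

set_option autoImplicit false
set_option linter.unusedSectionVars false

namespace CL.TW

open Module CL.Sp

variable {F U W V : Type*} [Field F] [AddCommGroup U] [Module F U] [AddCommGroup W] [Module F W]
  [AddCommGroup V] [Module F V] {β : LinearMap.BilinForm F U} {γ : LinearMap.BilinForm F W}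
  {B : LinearMap.BilinForm F V}

theorem exists_unit [FiniteDimensional F U] (D : SymD β) {a : End F U} {ν : F} (h0 : ν ≠ 0)
    (h : ∀ x y, β (a x) (a y) = ν * β x y) : ∃ g : (End F U)ˣ, g.1 = a :=
  (LinearMap.isUnit_iff_ker_eq_bot a).2 (LinearMap.ker_eq_bot'.2 fun x hx => D.nondeg.1 _ fun y =>
    (mul_eq_zero.1 (by rw [← h, hx, map_zero, LinearMap.zero_apply])).resolve_left h0)

theorem conj_mem_isoG {a b : (End F U)ˣ} {ν : F} (h0 : ν ≠ 0) (h : ∀ x y, β (a.1 x) (a.1 y) = ν * β x y)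
    (hb : b ∈ IsoG β) : a⁻¹ * b * a ∈ IsoG β := fun x y => mul_left_cancel₀ h0 (by
  rw [← h, ← h, ← hb (a.1 x)]
  simp only [Units.val_mul, End.mul_apply, val_inv_apply])

theorem OD.nontrivial (D : OD β) : Nontrivial U := Module.nontrivial_of_finrank_pos (R := F) (by have := D.h3; omega)

/-- A skew map of square zero. -/
theorem OD.exists_pair (D : OD β) {m : End F U} (hm : Adj β m (-m)) (h2 : m * m = 0) (h0 : m ≠ 0) :
    5 ≤ finrank F U ∧ ∃ x x', LinearIndependent F ![m x, m x'] := by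
  obtain ⟨x, hx⟩ := DFunLike.ne_iff.1 h0
  obtain ⟨y, hy⟩ := exists_β_one D.toSymD hx
  have h1 : ∀ x y, β (m x) (m y) = 0 := fun x y => by
    rw [hm, ← End.mul_apply, neg_mul, h2, neg_zero, LinearMap.zero_apply, map_zero]
  have h3 : ∀ x, β x (m x) = 0 := fun x => (mul_eq_zero.1 (show 2 * β x (m x) = 0 by
    have := hm x x
    rw [D.symm, LinearMap.neg_apply, map_neg] at this
    linear_combination this)).resolve_left D.two
  have h4 : LinearIndependent F ![m x, m y] := LinearIndependent.pair_iff.2 fun s t h => by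
    have e1 := congrArg (β y) h
    simp only [map_add, map_smul, hy, h3, smul_eq_mul, mul_one, mul_zero, add_zero, map_zero] at e1
    rw [e1, zero_smul, zero_add, smul_eq_zero] at h
    refine ⟨e1, h.resolve_right fun e => ?_⟩
    have := hm y x
    simp [e, hy] at this
  exact ⟨D.h5 _ _ (h1 _ _) (h1 _ _) (h1 _ _) h4, x, y, h4⟩

theorem OD.exists_same_norm [FiniteDimensional F U] [Finite F] (D : OD β) (hq : ∀ μ : F, μ ≠ 0 → μ * μ = 1) {u u' : U}
    (h : Hyp β u u') {x : U} (hx : x ∈ P2 β u u') (qx : β x x ≠ 0) :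
    ∃ x' ∈ P2 β u u', β x x' = 0 ∧ β x' x' = β x x := by
  classical
  have pm : ∀ a b : F, a ≠ 0 → b ≠ 0 → a = b ∨ a = -b := fun a b ha hb =>
    mul_self_eq_mul_self_iff.1 ((hq a ha).trans (hq b hb).symm)
  have h4 : 4 ≤ finrank F U := D.hq.resolve_right fun h => by
    have := Fintype.ofFinite F
    have h1 : (Finset.univ : Finset F) ⊆ {0, 1, -1} := fun a _ => by
      by_cases h0 : a = 0
      · simp [h0]
      · rcases pm a 1 h0 one_ne_zero with e | e <;> simp [e]
    have := (Finset.card_le_card h1).trans Finset.card_le_three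
    rw [Finset.card_univ, ← Nat.card_eq_fintype_card] at this
    omega
  have h1 := finrank_P2 (β := β) u u'
  have h2 := SymD.finrank_inf_ker (P2 β u u') (β x)
  have hE := D.ndOn_perp (h.ndOn D.toSymD) hx qx
  obtain ⟨y, hy, qy⟩ := D.exists_nonsing hE fun e => by rw [e, finrank_bot] at h2; omega
  have hxy : β x y = 0 := hy.2
  refine (pm _ _ qy qx).elim (fun e => ⟨y, hy.1, hxy, e⟩) fun e => ?_
  have hxy' : x + y ∈ P2 β u u' := add_mem hx hy.1
  have h5 := D.h5 u (x + y) h.l hxy'.1 (by rw [D.q_add, hxy, e]; ring) (LinearIndependent.pair_iff.2 fun s t e => by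
    have e1 := congrArg (β u') e
    have e2 := congrArg (β x) e
    have h6 : β u' (x + y) = 0 := hxy'.2
    have h7 : β u x = 0 := hx.1
    rw [map_add, map_smul, map_smul, map_zero] at e1 e2
    rw [h6, h.rl] at e1
    rw [map_add, hxy, D.symm x u, h7] at e2
    exact ⟨by simpa using e1, by simpa [qx] using e2⟩)
  have h3 := SymD.finrank_inf_ker (P2 β u u' ⊓ LinearMap.ker (β x)) (β y)
  obtain ⟨z, hz, qz⟩ := D.exists_nonsing (D.ndOn_perp hE hy qy) fun e => by rw [e, finrank_bot] at h3; omega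
  have hxz : β x z = 0 := hz.1.2
  have hyz : β y z = 0 := hz.2
  refine (pm _ _ qz qx).elim (fun e => ⟨z, hz.1.1, hxz, e⟩) fun e' => ⟨y + z, add_mem hy.1 hz.1.1, by simp [hxy, hxz], ?_⟩
  rw [D.q_add, hyz, e, e']
  linear_combination (-β x x) * hq 2 D.two

namespace TP

variable (T : TP F U W V)

/-- The first factor on units. -/
noncomputable def Au : (End F U)ˣ →* (End F V)ˣ := Units.map T.A.toMonoidHom

theorem Au_val (g : (End F U)ˣ) : (T.Au g).1 = T.A g.1 := rfl

theorem Au_inv (g : (End F U)ˣ) : ((T.Au g)⁻¹).1 = T.A (g⁻¹).1 := rfl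

theorem mv_Au (h : (End F V)ˣ) (g : (End F U)ˣ) : (T.mv h).Au g = h * T.Au g * h⁻¹ := Units.ext (T.mv_A h g.1)

/-- The components of an endomorphism with respect to a form. -/
noncomputable def sb (β : LinearMap.BilinForm F U) (z : End F V) : U →ₗ[F] U →ₗ[F] End F W :=
  LinearMap.mk₂ F (fun y x => T.sl (β y) x z) (fun _ _ _ => by ext; simp [sl_apply]) (fun _ _ _ => by ext; simp [sl_apply])
    (fun _ _ _ => by ext; simp [sl_apply]) (fun _ _ _ => by ext; simp [sl_apply])

theorem sb_apply (z : End F V) (y x : U) (w : W) : T.sb β z y x w = T.φ (β y) (z (T.tm x w)) := rfl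

theorem sb_add (z z' : End F V) : T.sb β (z + z') = T.sb β z + T.sb β z' := by ext; simp [sb_apply]

theorem sb_sub (z z' : End F V) : T.sb β (z - z') = T.sb β z - T.sb β z' := by ext; simp [sb_apply]

theorem sb_smul (c : F) (z : End F V) : T.sb β (c • z) = c • T.sb β z := by ext; simp [sb_apply]

theorem sb_AC (a : End F U) (c : End F W) (y x : U) : T.sb β (T.A a * T.C c) y x = β y (a x) • c := T.sl_AC _ _ _ _

theorem sb_C (c : End F W) (y x : U) : T.sb β (T.C c) y x = β y x • c := by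
  simpa using T.sb_AC (β := β) 1 c y x

theorem sb_mul_A (z : End F V) (a : End F U) (y x : U) : T.sb β (z * T.A a) y x = T.sb β z y (a x) := by
  ext; simp [sb_apply, A_tm]

theorem sb_A_mul {a a' : End F U} (h : Adj β a a') (z : End F V) (y x : U) :
    T.sb β (T.A a' * z) y x = T.sb β z (a y) x := by
  ext w
  rw [sb_apply, sb_apply, End.mul_apply, φ_A, show β y ∘ₗ a' = β (a y) from LinearMap.ext fun v => (h y v).symm]

theorem ext_sb [FiniteDimensional F U] (D : SymD β) {z z' : End F V} (h : ∀ y x, T.sb β z y x = T.sb β z' y x) :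
    z = z' := T.ext_tm fun x w => T.eq_of_φ fun α => by
  obtain ⟨y, rfl⟩ := exists_repr D α
  exact LinearMap.congr_fun (h y x) w

theorem ee_sandwich (x y y' x' : U) (z : End F V) :
    T.A (ee β x y) * z * T.A (ee β y' x') = T.A (ee β x x') * T.C (T.sb β z y y') := T.A_sandwich _ _ _ _ _

theorem A_ee (x y : U) (v : V) : T.A (ee β x y) v = T.tm x (T.φ (β y) v) := T.A_rk _ _ _

/-- Symmetry in the first factor. -/
def symS (β : LinearMap.BilinForm F U) : Submodule F (End F V) where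
  carrier := {z | ∀ x y, T.sb β z x y = T.sb β z y x}
  add_mem' h h' x y := by simp [sb_add, h x y, h' x y]
  zero_mem' x y := by ext; simp [sb_apply]
  smul_mem' c _ h x y := by simp [sb_smul, h x y]

variable {T} [Nontrivial U]

theorem Cm.mul_mem_symS {c z : End F V} (hc : T.Cm c) (hz : z ∈ T.symS β) : c * z ∈ T.symS β := fun x y => by
  obtain ⟨c, rfl⟩ := T.exists_C hc
  exact (T.sl_C_mul _ _ _ _).trans ((congrArg _ (hz x y)).trans (T.sl_C_mul _ _ _ _).symm)

theorem Cm.mul_mem_symS' {c z : End F V} (hc : T.Cm c) (hz : z ∈ T.symS β) : z * c ∈ T.symS β := fun x y => by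
  obtain ⟨c, rfl⟩ := T.exists_C hc
  exact (T.sl_mul_C _ _ _ _).trans ((congrArg (· * c) (hz x y)).trans (T.sl_mul_C _ _ _ _).symm)

theorem Cm.mem_symS (D : SymD β) {c : End F V} (hc : T.Cm c) : c ∈ T.symS β := fun x y => by
  obtain ⟨c, rfl⟩ := T.exists_C hc
  rw [sb_C, sb_C, D.symm]

omit [Nontrivial U]

/-- The maps commuting with the skew maps attached to a singular vector. -/
theorem sb_of_comm [FiniteDimensional F U] [Finite F] (D : OD β) {u u' : U} (h : Hyp β u u') {σ : End F V}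
    (hσ : ∀ w, β u w = 0 → Commute (T.A (wg β u w)) σ) : ∃ (c e : End F W) (d : U →ₗ[F] End F W), d u = 0 ∧ d u' = 0 ∧
      (∀ w ∈ P2 β u u', d w = T.sb β σ u' w) ∧
      ∀ y x, T.sb β σ y x = β y x • c + β u y • d x - β u x • d y + (β u y * β u x) • e := by
  set s := T.sb β σ
  have rel : ∀ w, β u w = 0 → ∀ y x, β w x • s y u - β u x • s y w + β w y • s u x - β u y • s w x = 0 :=
    fun w hw y x => by
      have h1 := T.sb_mul_A (β := β) σ (wg β u w) y x
      rw [← (hσ w hw).eq, T.sb_A_mul ((wg_adj D.toSymD u w).symm D.toSymD)] at h1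
      simp only [wg, LinearMap.neg_apply, LinearMap.sub_apply, ee_apply, map_neg, map_sub, map_smul,
        LinearMap.smul_apply] at h1
      linear_combination (norm := module) -h1
  have h1 : ∀ w ∈ P2 β u u', s w u = 0 := fun w hw => by
    have h2 : β u' w = 0 := hw.2
    simpa [h.l, h.lr, D.symm w u, D.symm w u', h2, show β u w = 0 from hw.1] using rel w hw.1 u' u
  have h2 : ∀ w ∈ P2 β u u', s u w = 0 := fun w hw =>
    D.mem_of_nonsing (R := LinearMap.ker (s u)) (h.ndOn D.toSymD) (fun w hw qw => by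
      simpa [h1 w hw, qw, show β u w = 0 from hw.1] using rel w hw.1 w w) hw
  obtain ⟨w, hw, qw⟩ := exists_nonsing_P2 D.toSymD D.h3 h
  have h3 : s u u = 0 := by simpa [h.l, qw, D.symm w u, show β u w = 0 from hw.1] using rel w hw.1 u w
  have h4 : ∀ w ∈ P2 β u u', ∀ x ∈ P2 β u u', s w x = β w x • s u' u := fun w hw x hx => by
    have := rel w hw.1 u' x
    simp only [h.lr, D.symm w u', show β u' w = 0 from hw.2, show β u x = 0 from hx.1] at this
    linear_combination (norm := module) -this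
  have h5 : s u u' = s u' u := by
    have := rel w hw.1 w u'
    simp only [h.lr, D.symm w u', show β u' w = 0 from hw.2, show β u w = 0 from hw.1, h4 w hw w hw] at this
    exact smul_right_injective _ qw (by linear_combination (norm := module) this)
  have h6 : ∀ w ∈ P2 β u u', s w u' = -s u' w := fun w hw => by
    have := rel w hw.1 u' u'
    simp only [h.lr, D.symm w u', show β u' w = 0 from hw.2] at this
    linear_combination (norm := module) -this
  refine ⟨s u' u, s u' u', s u' ∘ₗ (1 - ee β u u' - ee β u' u), by simp [ee_apply, h.l, h.rl],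
    by simp [ee_apply, h.r, h.lr], fun w hw => by simp [ee_apply, show β u' w = 0 from hw.2, show β u w = 0 from hw.1],
    fun y x => ?_⟩
  have hx := h.proj x
  have hy := h.proj y
  have e1 := h4 _ hy _ hx
  have e2 := h6 _ hy
  have e3 := h1 _ hy
  have e4 := h2 _ hx
  simp only [map_sub, map_smul, LinearMap.sub_apply, LinearMap.smul_apply, smul_eq_mul, h3, h5, h.l, h.r, h.lr, h.rl,
    D.symm y u, D.symm y u', LinearMap.comp_apply, End.one_apply, ee_apply] at e1 e2 e3 e4 ⊢
  linear_combination (norm := module) e1 + β u x • e2 + β u' x • e3 + β u' y • e4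

variable (T) in
/-- The unipotent radical of the stabiliser of `u ⊗ W`. -/
structure Rad (β : LinearMap.BilinForm F U) (u : U) (r : End F V) : Prop where
  fix : ∀ y, r (T.tm u y) = T.tm u y
  tr : ∀ v, T.φ (β u) v = 0 → ∃ y, r v = v + T.tm u y

theorem Rad.mul {u : U} {r r' : End F V} (h : T.Rad β u r) (h' : T.Rad β u r') : T.Rad β u (r * r') :=
  ⟨fun y => by rw [End.mul_apply, h'.fix, h.fix], fun v hv => by
    obtain ⟨y, e⟩ := h'.tr v hv
    obtain ⟨y', e'⟩ := h.tr v hv
    exact ⟨y' + y, by rw [End.mul_apply, e, map_add, e', h.fix, map_add, add_assoc]⟩⟩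

theorem Rad.inv {u : U} {r : (End F V)ˣ} (h : T.Rad β u r.1) : T.Rad β u (r⁻¹).1 := by
  have h1 : ∀ y, (r⁻¹).1 (T.tm u y) = T.tm u y := fun y => by conv_lhs => rw [← h.fix, inv_val_apply]
  refine ⟨h1, fun v hv => ?_⟩
  obtain ⟨y, e⟩ := h.tr v hv
  have := congrArg (r⁻¹).1 e
  rw [inv_val_apply, map_add, h1] at this
  exact ⟨-y, by rw [map_neg, ← sub_eq_add_neg, eq_sub_iff_add_eq, ← this]⟩

theorem Rad.tm {u u' : U} (h : Hyp β u u') {r : End F V} (R : T.Rad β u r) {x : U} (hx : β u x = 0) (y : W) :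
    r (T.tm x y) = T.tm x y + T.tm u (T.sb β (r - 1) u' x y) := by
  obtain ⟨y', e⟩ := R.tr (T.tm x y) (by rw [φ_tm, hx, zero_smul])
  simp [sb_apply, e, φ_tm, h.rl]

theorem ex_wg_perp (D : SymD β) {u w : U} (hu : β u u = 0) (hw : β u w = 0) {v : V} (hv : T.φ (β u) v = 0) :
    T.A (ex (wg β u w)) v = v + T.tm u (T.φ (β w) v) := by
  simp [ex, wg, A_ee, hv, φ_tm, hw, hu, D.symm w u]

theorem rad_ex (D : SymD β) {u w : U} (hu : β u u = 0) (hw : β u w = 0) : T.Rad β u (T.A (ex (wg β u w))) :=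
  ⟨fun y => by simp [A_tm, ex_wg_apply D hu hw, hu, D.symm w u, hw], fun _ hv => ⟨_, ex_wg_perp D hu hw hv⟩⟩

end TP

/-- A tensor product of non-degenerate symmetric forms. -/
structure FT (T : TP F U W V) (β : LinearMap.BilinForm F U) (γ : LinearMap.BilinForm F W)
    (B : LinearMap.BilinForm F V) : Prop where
  b : SymD β
  c : SymD γ
  v : SymD B
  form : ∀ x y x' y', B (T.tm x y) (T.tm x' y') = β x x' * γ y y'

namespace FT

variable {T : TP F U W V} (M : FT T β γ B)
include M

theorem flip : FT T.flip γ β B := ⟨M.c, M.b, M.v, fun y x y' x' => (M.form x y x' y').trans (mul_comm _ _)⟩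

theorem mv {g : (End F V)ˣ} (hg : g ∈ IsoG B) : FT (T.mv g) β γ B :=
  ⟨M.b, M.c, M.v, fun x y x' y' => (hg _ _).trans (M.form x y x' y')⟩

theorem B_tm (x : U) (y : W) (v : V) : B (T.tm x y) v = γ y (T.φ (β x) v) :=
  LinearMap.congr_fun (T.ext_tm (g := γ y ∘ₗ T.φ (β x)) fun x' y' => by simp [M.form, T.φ_tm]) v

theorem adj_of_tm {z z' : End F V} (h : ∀ x y x' y', B (z (T.tm x y)) (T.tm x' y') = B (T.tm x y) (z' (T.tm x' y'))) :
    Adj B z z' := fun v w => LinearMap.congr_fun₂ (T.ext_tm (f := B ∘ₗ z) (g := B.compl₂ z')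
      fun x y => T.ext_tm (h x y)) v w

theorem adj_AC {a a' : End F U} {c c' : End F W} (h : Adj β a a') (h' : Adj γ c c') :
    Adj B (T.A a * T.C c) (T.A a' * T.C c') := M.adj_of_tm fun x y x' y' => by
  rw [T.AC_tm, T.AC_tm, M.form, M.form, h, h']

theorem adj_A {a a' : End F U} (h : Adj β a a') : Adj B (T.A a) (T.A a') := by
  simpa using M.adj_AC h (c := 1) (c' := 1) fun _ _ => rfl

theorem adj_C {c c' : End F W} (h : Adj γ c c') : Adj B (T.C c) (T.C c') := M.flip.adj_A h

theorem adj_sb {z z' : End F V} (h : Adj B z z') (x x' : U) : Adj γ (T.sb β z x x') (T.sb β z' x' x) := fun y y' => by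
  rw [M.c.symm, TP.sb_apply, TP.sb_apply, ← M.B_tm, ← M.B_tm, M.v.symm, h]

theorem adj_of_C [Nontrivial U] {c c' : End F W} (h : Adj B (T.C c) (T.C c')) : Adj γ c c' := fun y y' => by
  obtain ⟨x, hx⟩ := exists_ne (0 : U)
  obtain ⟨x', hx'⟩ := exists_β_one M.b hx
  simpa [T.sb_C, hx', M.b.symm x] using M.adj_sb h x x' y y'

theorem Au_mem {g : (End F U)ˣ} (hg : g ∈ IsoG β) : T.Au g ∈ IsoG B := fun v w => by
  rw [T.Au_val, M.adj_A (IsoG.adj hg), ← T.Au_inv, ← T.Au_val, inv_val_apply]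

theorem adj_z {u : U} {σ : End F W} (hσ : Adj γ σ (-σ)) :
    Adj B (1 + T.A (ee β u u) * T.C σ) (1 - T.A (ee β u u) * T.C σ) := fun v w => by
  have := M.adj_AC (ee_adj M.b u u) hσ v w
  simp only [map_neg, mul_neg, LinearMap.neg_apply] at this
  simp only [LinearMap.add_apply, End.one_apply, map_add, this, sub_eq_add_neg,
    LinearMap.neg_apply, map_neg]

variable [FiniteDimensional F U]

theorem exists_tm {u : U} (hu : u ≠ 0) {v : V} (h : ∀ v', T.φ (β u) v' = 0 → B v' v = 0) : ∃ y, v = T.tm u y :=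
  T.exists_tm hu fun α hα => by
    obtain ⟨x, rfl⟩ := exists_repr M.b α
    exact M.c.nondeg.2 _ fun y => by rw [← M.B_tm, h _ (by rw [T.φ_tm, M.b.symm, hα, zero_smul])]

theorem eq_iota_C {u u' : U} (h : Hyp β u u') {n : End F V} (h1 : ∀ v, T.φ (β u) v = 0 → n v = 0)
    (h2 : ∀ v v', T.φ (β u) v' = 0 → B v' (n v) = 0) : n = T.A (ee β u u) * T.C (T.sb β n u' u') := by
  rw [← T.ee_sandwich]
  ext v
  obtain ⟨y, e⟩ := M.exists_tm h.ne (h2 v)
  have := h1 (v - T.A (ee β u' u) v) (by simp [T.A_ee, T.φ_tm, h.lr])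
  rw [map_sub, sub_eq_zero] at this
  rw [End.mul_apply, End.mul_apply, ← this, e, T.A_ee, T.φ_tm, h.rl, one_smul]

/-- An isometry fixing the orthogonal complement of `u ⊗ W` pointwise. -/
theorem exists_z {u u' : U} (h : Hyp β u u') {g : (End F V)ˣ} (hg : g ∈ IsoG B) (h1 : ∀ v, T.φ (β u) v = 0 → g.1 v = v) :
    ∃ σ, Adj γ σ (-σ) ∧ g.1 = 1 + T.A (ee β u u) * T.C σ := by
  have e := eq_add_of_sub_eq' (M.eq_iota_C h (n := g.1 - 1) (fun v hv => by simp [h1 v hv]) fun v v' hv => by
    rw [LinearMap.sub_apply, map_sub, ← h1 v' hv, hg, h1 v' hv, End.one_apply, sub_self])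
  refine ⟨_, fun y y' => ?_, e⟩
  have := hg (T.tm u' y) (T.tm u' y')
  rw [e] at this
  simp only [LinearMap.add_apply, End.one_apply, T.AC_tm, ee_apply, h.lr, one_smul, map_add, M.form, h.l, h.r, h.rl] at this
  simp only [LinearMap.neg_apply, map_neg]
  linear_combination this

theorem perp_of_stab {u : U} {g : (End F V)ˣ} (hg : g ∈ IsoG B) (h : ∀ y, ∃ y', (g⁻¹).1 (T.tm u y) = T.tm u y') {v : V}
    (hv : T.φ (β u) v = 0) : T.φ (β u) (g.1 v) = 0 := M.c.nondeg.2 _ fun y => by
  obtain ⟨y', e⟩ := h y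
  rw [← M.B_tm, ← IsoG.adj' hg, e, M.B_tm, hv, map_zero]

variable [FiniteDimensional F W]

omit M in
theorem exists_stab {u : U} (hu : u ≠ 0) {g : (End F V)ˣ} (h : ∀ y, ∃ y', g.1 (T.tm u y) = T.tm u y') :
    ∃ s : (End F W)ˣ, (∀ y, g.1 (T.tm u y) = T.tm u (s.1 y)) ∧ ∀ y, (g⁻¹).1 (T.tm u y) = T.tm u ((s⁻¹).1 y) := by
  obtain ⟨α, hα⟩ := exists_dual_one (F := F) hu
  have h1 : ∀ y, g.1 (T.tm u y) = T.tm u (T.sl α u g.1 y) := fun y => by
    obtain ⟨y', e⟩ := h y
    rw [TP.sl_apply, e, T.φ_tm, hα, one_smul]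
  obtain ⟨s, hs⟩ := (LinearMap.isUnit_iff_ker_eq_bot (T.sl α u g.1)).2 (LinearMap.ker_eq_bot'.2 fun y hy =>
    T.tm_injective hu (unit_injective g (by rw [h1, hy, map_zero, map_zero])))
  refine ⟨s, hs ▸ h1, fun y => ?_⟩
  conv_lhs => rw [← val_inv_apply s y, hs, ← h1, inv_val_apply]

/-- Conjugates of elements of the radical. -/
theorem rad_conj {u : U} (hu : u ≠ 0) {g : (End F V)ˣ} (hg : g ∈ IsoG B) (h : ∀ y, ∃ y', g.1 (T.tm u y) = T.tm u y')
    {r : End F V} (R : T.Rad β u r) : T.Rad β u ((g⁻¹).1 * r * g.1) := by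
  obtain ⟨s, h1, h2⟩ := exists_stab hu h
  refine ⟨fun y => by rw [End.mul_apply, End.mul_apply, h1, R.fix, ← h1, inv_val_apply], fun v hv => ?_⟩
  obtain ⟨y, e⟩ := R.tr _ (M.perp_of_stab hg (fun y => ⟨_, h2 y⟩) hv)
  exact ⟨_, by rw [End.mul_apply, End.mul_apply, e, map_add, inv_val_apply, h2]⟩

end FT

namespace Fr

variable {J : Type*} {T : J → TP F U W V} (R : Fr T) [FiniteDimensional F U] [Nontrivial U] [Nontrivial W]
  (M : ∀ j, FT (T j) β γ B)
include R M

/-- Telescoping of partial transpositions. -/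
theorem skew_eq_sum [Nonempty J] (I : Finset J) : ∀ (z z' : End F V) (a a' : J → End F U), Adj B z z' → (∀ j, Adj β (a j) (a' j)) →
    (∀ i, i ∉ I → (T i).Cm z) → (∀ j ∈ I, z - (T j).A (a j) ∈ (T j).symS β) →
    z - z' = ∑ j ∈ I, (T j).A (a j - a' j) := by
  classical
  induction I using Finset.induction_on with
  | empty =>
    intro z z' a a' h _ h1 _
    obtain ⟨c, rfl⟩ := R.centre z fun j => h1 j (Finset.notMem_empty j)
    obtain ⟨j⟩ := ‹Nonempty J›
    ext v
    exact ext_β (M j).v fun w => by simp [← h w v]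
  | insert j I hj ih =>
    intro z z' a a' h ha h1 h2
    have D := (M j).b
    have h3 : Adj B (z - (T j).A (a j)) (z' - (T j).A (a' j)) := fun v w => by simp [h v w, (M j).adj_A (ha j) v w]
    obtain ⟨c, hc⟩ := (T j).exists_C (z := ∑ i ∈ I, (T i).A (a i - a' i)) fun b =>
      Commute.sum_right _ _ _ fun i hi => R.comm j i (fun e => hj (e ▸ hi)) _ b
    rw [Finset.sum_insert hj, map_sub, ← sub_eq_iff_eq_add', sub_sub_sub_comm, hc]
    refine (T j).ext_sb D fun y x => (T j).C_injective ?_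
    rw [TP.sb_sub, TP.sb_C, map_smul, ← hc, Finset.smul_sum, LinearMap.sub_apply, LinearMap.sub_apply, map_sub]
    have := ih ((T j).C ((T j).sb β (z - (T j).A (a j)) y x)) _ (fun i => β y x • a i) (fun i => β y x • a' i)
      ((M j).adj_C (h2 j (Finset.mem_insert_self _ _) x y ▸ (M j).adj_sb h3 x y)) (fun i v w => by simp [ha i v w])
      (fun i hi => by
        by_cases e : i = j
        · exact e ▸ (T i).cm_C _
        · exact R.cm_sl e (fun b => (h1 i (by simp [e, hi]) b).sub_right (R.comm i j e _ b)) _ _) fun i hi => by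
        have e : i ≠ j := fun e => hj (e ▸ hi)
        obtain ⟨c, hc⟩ := (T j).exists_C (R.comm j i e.symm (a i))
        have h4 : (T j).C ((T j).sb β (z - (T j).A (a j)) y x) - (T i).A (β y x • a i) =
            (T j).C ((T j).sl (β y) x (z - (T i).A (a i) - (T j).A (a j))) := by
          rw [sub_right_comm, TP.sl_sub, map_sub, map_smul, hc]
          congr 1
          rw [← map_smul]
          exact congrArg _ ((T j).sb_C c y x).symm
        rw [h4, (T j).C_sl (finBasis F U)]
        exact sum_mem fun b _ => (R.comm i j e _).mul_mem_symS' ((R.comm i j e _).mul_mem_symS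
          (sub_mem (h2 i (Finset.mem_insert_of_mem hi)) ((R.comm i j e _).mem_symS D)))
    simpa only [← smul_sub, map_smul] using this

end Fr

end CL.TW
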