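import Cfsg.Agent.Cls.TenRad
import Cfsg.Agent.Cls.TraceTrick

set_option autoImplicit false

/-!
The trace trick for tensor decompositions: the group of Kronecker products fixes a form of degree four on
`V × V*`, and an overgroup in which enough unipotent elements fix a unique decomposition fixes this form as well.
-/

namespace CL.Sp

open Module CL.SLn CL.TrTr
open CL.Uni (UG UG_apply_left UG_apply_right)

section General

variable {F X : Type*} [Field F] [AddCommGroup X] [Module F X] (p : ℕ) [Fact p.Prime] [CharP F p]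

include F in
theorem sum_eq_zero_of_free {α : Type*} (Ω : Finset α) (π : α → α) {n : ℕ} (h1 : ∀ a ∈ Ω, π a ∈ Ω)
    (h2 : ∀ a ∈ Ω, π^[p ^ n] a = a) (h3 : ∀ a ∈ Ω, π a ≠ a) (s : α → X) (h4 : ∀ a ∈ Ω, s (π a) = s a) :
    ∑ a ∈ Ω, s a = 0 := by
  classical
  rw [← Finset.sum_fiberwise_of_maps_to (g := s) (t := Ω.image s) fun a ha => Finset.mem_image_of_mem s ha]
  refine Finset.sum_eq_zero fun v _ => ?_
  rw [Finset.sum_congr rfl fun a ha => (Finset.mem_filter.1 ha).2, Finset.sum_const]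
  let f : Function.End (Ω.filter (s · = v)) := fun a =>
    ⟨π a, Finset.mem_filter.2 ⟨h1 _ (Finset.mem_filter.1 a.2).1,
      (h4 _ (Finset.mem_filter.1 a.2).1).trans (Finset.mem_filter.1 a.2).2⟩⟩
  have hf : ∀ k a, ((f ^ k) a).1 = π^[k] a.1 := fun k => by
    induction k with
    | zero => exact fun _ => rfl
    | succ k ih => exact fun a => by rw [pow_succ, Function.iterate_succ_apply]; exact ih (f a)
  have := Equiv.Perm.card_fixedPoints_modEq (f := f) (p := p) (n := n)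
    (funext fun a => Subtype.ext ((hf _ a).trans (h2 _ (Finset.mem_filter.1 a.2).1)))
  rw [Fintype.card_coe, Fintype.card_eq_zero_iff.2 ⟨fun a => h3 _ (Finset.mem_filter.1 a.1.2).1
    (congrArg Subtype.val a.2)⟩] at this
  obtain ⟨k, hk⟩ := (Nat.modEq_zero_iff_dvd.1 this)
  rw [hk, ← Nat.cast_smul_eq_nsmul F, Nat.cast_mul, CharP.cast_eq_zero, zero_mul, zero_smul]

theorem sum_mem_of_step {A : Type*} [AddCommGroup A] {e : A → End F X} (h0 : e 0 = 1)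
    (hadd : ∀ a b, e (a + b) = e a * e b) {u : End F X} {n : ℕ} (hu : u ^ p ^ n = 1) (hc : ∀ a y, u (e a y) = e a (u y))
    {N N' : Submodule F X} (hN : ∀ v ∈ N, u v - v ∈ N') (O : Finset X) (hO : ∀ a, ∀ y ∈ O, e a y ∈ O)
    (hO' : ∀ y ∈ O, u y ∈ O) (hs : ∀ ω ⊆ O, (∀ a, ∀ y ∈ ω, e a y ∈ ω) → ∑ y ∈ ω, y ∈ N)
    (hf : ∀ y ∈ O, ∀ a, u y ≠ e a y) : ∑ y ∈ O, y ∈ N' := by
  classical
  let orb : X → Finset X := fun y => O.filter fun v => ∃ a, e a y = v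
  have hm : ∀ y v, y ∈ O → (v ∈ orb y ↔ ∃ a, e a y = v) := fun y v hy =>
    Finset.mem_filter.trans ⟨And.right, fun ⟨a, ha⟩ => ⟨ha ▸ hO a y hy, a, ha⟩⟩
  have hself : ∀ y ∈ O, y ∈ orb y := fun y hy => (hm y y hy).2 ⟨0, by rw [h0]; rfl⟩
  have horb : ∀ y ∈ O, ∀ a, orb (e a y) = orb y := fun y hy a => Finset.ext fun v => by
    rw [hm _ _ hy, hm _ _ (hO a y hy)]
    exact ⟨fun ⟨b, hb⟩ => ⟨b + a, by rw [hadd]; exact hb⟩, fun ⟨b, hb⟩ => ⟨b - a, by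
      rw [← End.mul_apply, ← hadd, sub_add_cancel, hb]⟩⟩
  have him : ∀ y ∈ O, (orb y).image u = orb (u y) := fun y hy => Finset.ext fun v => by
    simp only [Finset.mem_image, hm _ _ hy, hm _ _ (hO' y hy)]
    exact ⟨fun ⟨_, ⟨a, rfl⟩, e⟩ => ⟨a, by rw [← hc, e]⟩, fun ⟨a, e⟩ => ⟨_, ⟨a, rfl⟩, by rw [hc, e]⟩⟩
  have hinj : Function.Injective u := Function.LeftInverse.injective (g := u ^ (p ^ n - 1)) fun y => by
    rw [← End.mul_apply, ← pow_succ, Nat.sub_add_cancel (Nat.one_le_pow _ _ (Fact.out : p.Prime).pos), hu]; rfl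
  rw [← Finset.sum_fiberwise_of_maps_to (g := orb) (t := O.image orb) fun a ha => Finset.mem_image_of_mem _ ha,
    ← Submodule.Quotient.mk_eq_zero, ← Submodule.mkQ_apply, map_sum, Finset.sum_congr rfl (g := fun ω => N'.mkQ (∑ y ∈ ω, y))]
  · refine sum_eq_zero_of_free (F := F) p _ (Finset.image u) (n := n) (fun ω hω => ?_) (fun ω _ => ?_) (fun ω hω h => ?_) _
      fun ω hω => ?_
    · obtain ⟨y, hy, rfl⟩ := Finset.mem_image.1 hω
      exact him y hy ▸ Finset.mem_image_of_mem _ (hO' y hy)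
    · rw [Finset.iterate_image, ← End.coe_pow, hu]; exact Finset.image_id
    · obtain ⟨y, hy, rfl⟩ := Finset.mem_image.1 hω
      obtain ⟨a, ha⟩ := (hm _ _ hy).1 (h ▸ Finset.mem_image_of_mem u (hself y hy))
      exact hf y hy a ha.symm
    · obtain ⟨y, hy, rfl⟩ := Finset.mem_image.1 hω
      rw [Finset.sum_image fun _ _ _ _ h => hinj h, ← map_sum u]
      refine (Submodule.Quotient.eq _).2 (hN _ (hs _ (Finset.filter_subset _ _) fun a v hv => ?_))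
      obtain ⟨b, rfl⟩ := (hm _ _ hy).1 hv
      exact (hm _ _ hy).2 ⟨a + b, by rw [hadd]; rfl⟩
  · intro ω hω
    obtain ⟨y, hy, rfl⟩ := Finset.mem_image.1 hω
    congr 2
    ext v
    rw [Finset.mem_filter]
    refine ⟨fun h => h.2 ▸ hself v h.1, fun h => ⟨(Finset.mem_filter.1 h).1, ?_⟩⟩
    obtain ⟨a, rfl⟩ := (hm _ _ hy).1 h
    exact horb y hy a

theorem comp_sub_mem_mfil' {ι : Type*} [Fintype ι] {Vf : ℕ → Submodule F X} {f : X →ₗ[F] X} {s : ℕ}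
    (hf : ∀ j, ∀ v ∈ Vf j, f v - v ∈ Vf (j + s)) {b : ℕ} {φ : MultilinearMap F (fun _ : ι => X) F}
    (hφ : φ ∈ mfil ι Vf b) : φ.compLinearMap (fun _ => f) - φ ∈ mfil ι Vf (b - s) := by
  classical
  intro a v h1 h2
  have h3 : (fun i => f (v i)) = (fun i => f (v i) - v i) + v := by ext i; simp
  rw [MultilinearMap.sub_apply, MultilinearMap.compLinearMap_apply, h3, MultilinearMap.map_add_univ,
    ← Finset.sum_erase_add _ _ (Finset.mem_univ ∅), Finset.piecewise_empty, add_sub_cancel_right]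
  refine Finset.sum_eq_zero fun t ht => hφ (fun i => a i + if i ∈ t then s else 0) _ (fun i => ?_) ?_
  · by_cases hi : i ∈ t
    · rw [Finset.piecewise_eq_of_mem _ _ _ hi, if_pos hi]; exact hf _ _ (h1 i)
    · rw [Finset.piecewise_eq_of_notMem _ _ _ hi, if_neg hi]; exact h1 i
  · have := Nat.le_mul_of_pos_left s (Finset.card_pos.2 (Finset.nonempty_iff_ne_empty.2 (Finset.mem_erase.1 ht).1))
    rw [Finset.sum_add_distrib, Finset.sum_ite_mem, Finset.univ_inter, Finset.sum_const, smul_eq_mul]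
    omega

/-- The action on the sum of the space and its dual. -/
def dπ (F X : Type*) [Field F] [AddCommGroup X] [Module F X] :
    (X ≃ₗ[F] X) →* ((X × Dual F X) ≃ₗ[F] (X × Dual F X)) where
  toFun g := g.prodCongr g.symm.dualMap
  map_one' := rfl
  map_mul' _ _ := rfl

theorem dπ_apply (g : X ≃ₗ[F] X) (v : X × Dual F X) :
    dπ F X g v = (g v.1, v.2 ∘ₗ ((g⁻¹ : X ≃ₗ[F] X) : X →ₗ[F] X)) := rfl

end General

variable {F V₁ V₂ V : Type*} [Field F] [AddCommGroup V₁] [Module F V₁] [AddCommGroup V₂] [Module F V₂]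
  [AddCommGroup V] [Module F V]

namespace TL

variable (T : TL F V₁ V₂ V)

/-- The partial trace of a map of rank one. -/
noncomputable def ptr : Dual F V →ₗ[F] V →ₗ[F] V₁ →ₗ[F] V₁ :=
  LinearMap.mk₂ F (fun f v => T.ψ.flip v ∘ₗ LinearMap.llcomp F V₂ V F f ∘ₗ T.tm) (fun _ _ _ => by ext; simp)
    (fun _ _ _ => by ext; simp) (fun _ _ _ => by ext; simp) (fun _ _ _ => by ext; simp)

theorem ptr_apply (f : Dual F V) (v : V) (a : V₁) : T.ptr f v a = T.ψ (f ∘ₗ T.tm a) v := rfl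

/-- The invariant form of degree four. -/
noncomputable def four : MultilinearMap F (fun _ : Fin 4 => V × Dual F V) F :=
  MultilinearMap.mk' (fun v => LinearMap.trace F V₁ (T.ptr (v 2).2 (v 0).1 * T.ptr (v 3).2 (v 1).1))
    (fun v i x y => by fin_cases i <;> simp [add_mul, mul_add]) (fun v i c x => by fin_cases i <;> simp)

theorem four_apply (v : Fin 4 → V × Dual F V) :
    T.four v = LinearMap.trace F V₁ (T.ptr (v 2).2 (v 0).1 * T.ptr (v 3).2 (v 1).1) := rfl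

theorem fix_four {g : V ≃ₗ[F] V} (hg : g ∈ T.KS) : mrep (Fin 4) (dπ F V) g T.four = T.four := by
  obtain ⟨a, t, e⟩ := inv_mem hg
  have h1 : ∀ f v, T.ptr (f ∘ₗ (g : V →ₗ[F] V)) (g⁻¹ v) = (a : End F V₁) * T.ptr f v * (a⁻¹ : V₁ ≃ₗ[F] V₁) :=
    fun f v => LinearMap.ext fun b => by
      rw [ptr_apply, e, ψ_kron, ← inv_inv g, e, kron_inv]
      simp only [End.mul_apply, LinearEquiv.coe_coe, ptr_apply]
      congr 3
      ext y
      simp [kron_tm]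
  ext v
  rw [mrep_apply, four_apply, four_apply]
  simp only [← map_inv, dπ_apply, inv_inv, h1]
  rw [mul_assoc, mul_assoc, LinearMap.trace_mul_comm]
  congr 1
  ext b
  simp

theorem ptr_comp (α : Dual F V₁) (η : Dual F V₂) (v : V) : T.ptr (α ∘ₗ T.ψ η) v = α.smulRight (T.ψ η v) := by
  ext a
  have : (α ∘ₗ T.ψ η) ∘ₗ T.tm a = α a • η := by ext y; simp [ψ_tm, mul_comm]
  simp [ptr_apply, this]

theorem exists_map_of_fix [FiniteDimensional F V₁] [FiniteDimensional F V₂] [Nontrivial V₁] {g : V ≃ₗ[F] V}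
    (h : mrep (Fin 4) (dπ F V) g T.four = T.four) {w : V₂} (hw : w ≠ 0) :
    ∃ u ≠ 0, ∀ a, g (T.tm a w) ∈ T.swap.M u := by
  have h1 : ∀ a a' (α α' : Dual F V₁) η η', α (T.ψ η' (g (T.tm a' w))) * α' (T.ψ η (g (T.tm a w))) =
      α (T.ψ η (g (T.tm a' w))) * α' (T.ψ η' (g (T.tm a w))) := fun a a' α α' η η' => by
    have h2 : ∀ f a, T.ptr f (T.tm a w) = (f ∘ₗ T.tm.flip w).smulRight a := fun f a => by
      ext b; simp [ptr_apply, ψ_tm]
    have := DFunLike.congr_fun h ![(g (T.tm a w), 0), (g (T.tm a' w), 0), (0, α ∘ₗ T.ψ η), (0, α' ∘ₗ T.ψ η')]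
    rw [mrep_apply, four_apply, four_apply] at this
    simp only [← map_inv, dπ_apply] at this
    have h3 : ∀ (f f' : Dual F V₁) a a', LinearMap.trace F V₁ (f.smulRight a * f'.smulRight a') = f a' * f' a :=
      fun f f' a a' => by
        rw [show f.smulRight a * f'.smulRight a' = (f a' • f').smulRight a by ext; simp [mul_smul, smul_comm (f a')],
          LinearMap.trace_smulRight]
        rfl
    simpa [h2, ptr_comp, h3] using this.symm
  obtain ⟨a, ha⟩ := exists_ne (0 : V₁)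
  obtain ⟨α, hα⟩ : ∃ α, T.φ α (g (T.tm a w)) ≠ 0 := by
    by_contra hc
    push Not at hc
    exact T.tm_ne_zero ha hw (g.map_eq_zero_iff.1 (T.eq_zero_of_φ hc))
  obtain ⟨η, hη⟩ := exists_dual_eq_one (F := F) hα
  refine ⟨_, hα, fun a' => T.swap.mem_M_of_φ hα fun η' h' => (forall_dual_apply_eq_zero_iff F _).1 fun β => ?_⟩
  have := h1 a a' β α η η'
  rwa [← T.φ_ψ α, ← T.φ_ψ α, hη, h', mul_one, mul_zero] at this

end TL

namespace TF

variable {σ : F →+* F} {ε ε₁ ε₂ : F}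
  {B₁ : V₁ →ₛₗ[σ] V₁ →ₗ[F] F} {B₂ : V₂ →ₛₗ[σ] V₂ →ₗ[F] F} {B : V →ₛₗ[σ] V →ₗ[F] F}
  (T : TF σ ε₁ ε₂ ε B₁ B₂ B) {X : Subgroup (V ≃ₗ[F] V)} {w w' : V₂}

/-- The flag defined by an isotropic vector of the second factor. -/
noncomputable def fl (w : V₂) : ℕ → Submodule F V
  | 0 => ⊤
  | 1 => LinearMap.ker (T.ψ' w)
  | 2 => T.L w
  | _ + 3 => ⊥

/-- The flag on the sum of the space and its dual. -/
noncomputable def dfl (w : V₂) (j : ℕ) : Submodule F (V × Dual F V) := (T.fl w j).prod (T.fl w (3 - j)).dualAnnihilator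

theorem fl_of_le (w : V₂) {j : ℕ} (h : 3 ≤ j) : T.fl w j = ⊥ := by
  obtain ⟨k, rfl⟩ := Nat.exists_eq_add_of_le' h
  rfl

theorem fl_anti (hw : B₂ w w = 0) : Antitone (T.fl w) := antitone_nat_of_succ_le fun
  | 0 => le_top
  | 1 => by rintro _ ⟨a, rfl⟩; exact (T.ψ'_tm w a w).trans (by rw [hw, zero_smul])
  | _ + 2 => bot_le

theorem mem_mfil_nine (φ : MultilinearMap F (fun _ : Fin 4 => V × Dual F V) F) : φ ∈ mfil (Fin 4) (T.dfl w) 9 := by
  intro a v h1 h2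
  obtain ⟨i, hi⟩ : ∃ i, 3 ≤ a i := by
    by_contra hc
    push Not at hc
    have := hc 0
    have := hc 1
    have := hc 2
    have := hc 3
    rw [Fin.sum_univ_four] at h2
    omega
  have := h1 i
  rw [dfl, T.fl_of_le w hi, Nat.sub_eq_zero_of_le hi, fl, Submodule.dualAnnihilator_top, Submodule.prod_bot] at this
  exact φ.map_coord_zero i this

theorem span_dfl (hw : B₂ w w = 0) (hw' : B₂ w' w' = 0) (hww : B₂ w w' = 1) :
    Submodule.span F {v | ∃ a a', 2 ≤ a + a' ∧ v ∈ T.dfl w a ∧ v ∈ T.dfl w' a'} = ⊤ := by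
  have e1 := T.flip_one hww
  have e2 := T.r₂.eps
  let p : V →ₗ[F] V := σ ε₂ • T.κ w (B₂ w')
  let p' : V →ₗ[F] V := T.κ w' (B₂ w)
  have h0 : ∀ (u : V₂) (f : Dual F V), f ∈ (T.fl u (3 - 0)).dualAnnihilator := fun u f =>
    (Submodule.mem_dualAnnihilator _).2 fun x hx => by rw [show x = 0 from hx, map_zero]
  refine eq_top_iff.2 fun v _ => ?_
  rw [show v = (p v.1, v.2 ∘ₗ p') + (p' v.1, v.2 ∘ₗ p) + (v.1 - p v.1 - p' v.1, v.2 - v.2 ∘ₗ p - v.2 ∘ₗ p') by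
    ext <;> simp <;> ring]
  refine add_mem (add_mem (Submodule.subset_span ⟨2, 0, le_rfl, ⟨Submodule.smul_mem _ _ (T.tm_mem_L _ _), ?_⟩, trivial,
    h0 _ _⟩) (Submodule.subset_span ⟨0, 2, le_rfl, ⟨trivial, h0 _ _⟩, T.tm_mem_L _ _, ?_⟩))
    (Submodule.subset_span ⟨1, 1, le_rfl, ⟨?_, ?_⟩, ?_, ?_⟩)
  · exact (Submodule.mem_dualAnnihilator _).2 fun x (hx : T.ψ' w x = 0) => by simp [p', T.κ_apply, hx]
  · exact (Submodule.mem_dualAnnihilator _).2 fun x (hx : T.ψ' w' x = 0) => by simp [p, T.κ_apply, hx]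
  · change T.ψ' w _ = 0
    simp [p, p', T.κ_apply, T.ψ_tm, hw, hww]
  · refine (Submodule.mem_dualAnnihilator _).2 ?_
    rintro _ ⟨a, rfl⟩
    simp [p, p', T.κ_apply, T.ψ_tm, hw, e1, T.swap_tm, ← mul_assoc, mul_comm _ ε₂, e2]
  · change T.ψ' w' _ = 0
    simp [p, p', T.κ_apply, T.ψ_tm, hw', e1, smul_smul, mul_comm _ ε₂, e2]
  · refine (Submodule.mem_dualAnnihilator _).2 ?_
    rintro _ ⟨a, rfl⟩
    simp [p, p', T.κ_apply, T.ψ_tm, hw', hww, T.swap_tm]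

variable {T}

theorem step_dfl (hw : B₂ w w = 0) {h : V ≃ₗ[F] V} {s : ℕ} (h1 : ∀ j, ∀ v ∈ T.fl w j, h v - v ∈ T.fl w (j + s))
    (h2 : ∀ j, ∀ v ∈ T.fl w j, h⁻¹ v - v ∈ T.fl w (j + s)) (j : ℕ) (v : V × Dual F V) (hv : v ∈ T.dfl w j) :
    dπ F V h v - v ∈ T.dfl w (j + s) :=
  ⟨h1 j _ hv.1, (Submodule.mem_dualAnnihilator _).2 fun x hx => by
    have := (Submodule.mem_dualAnnihilator _).1 hv.2 _ (T.fl_anti hw (by omega) (h2 _ x hx))
    simpa [dπ_apply] using this⟩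

theorem Rad.step {h : V ≃ₗ[F] V} (R : T.Rad w h) (hh : h ∈ UG B) : ∀ j, ∀ v ∈ T.fl w j, h v - v ∈ T.fl w (j + 1)
  | 0, v, _ => show T.ψ' w _ = 0 by rw [map_sub, R.ψ'_eq hh, sub_self]
  | 1, v, hv => R.sub v hv
  | 2, _, ⟨a, rfl⟩ => sub_eq_zero.2 (R.fix a)
  | _ + 3, v, hv => by rw [show v = 0 from hv]; simp

theorem Rad.cube {h : V ≃ₗ[F] V} (R : T.Rad w h) (hh : h ∈ UG B) : ((h : End F V) - 1) ^ 3 = 0 :=
  LinearMap.ext fun x => R.step hh 2 _ (R.step hh 1 _ (R.step hh 0 x trivial))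

theorem Rad.pow [Nontrivial V] {h : V ≃ₗ[F] V} (R : T.Rad w h) (hh : h ∈ UG B) (p : ℕ) [Fact p.Prime] [CharP F p] :
    h ^ p ^ 2 = 1 := by
  have := charP_of_injective_algebraMap (FaithfulSMul.algebraMap_injective F (Module.End F V)) p
  have h1 := pow_eq_zero_of_le (show 3 ≤ p ^ 2 by nlinarith [(Fact.out : p.Prime).two_le]) (R.cube hh)
  rw [sub_pow_char_pow_of_commute _ _ (Commute.one_right _), one_pow, sub_eq_zero] at h1
  exact LinearEquiv.toLinearMap_injective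
    ((map_pow LinearEquiv.automorphismGroup.toLinearMapMonoidHom h _).trans h1)

theorem Rad.comm (hw : B₂ w w = 0) {h : V ≃ₗ[F] V} (R : T.Rad w h) (hh : h ∈ UG B) (c : F) :
    h * unip _ (T.κ'_κ' hw) c = unip _ (T.κ'_κ' hw) c * h :=
  LinearEquiv.ext fun x => by simp [unip_apply, T.κ_apply, R.fix, R.ψ'_eq hh]

theorem step_unip (hw : B₂ w w = 0) (c : F) :
    ∀ j, ∀ v ∈ T.fl w j, unip _ (T.κ'_κ' hw) c v - v ∈ T.fl w (j + 2)
  | 0, v, _ => by rw [unip_apply, add_sub_cancel_left]; exact Submodule.smul_mem _ _ (T.tm_mem_L _ _)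
  | j + 1, v, hv => by
    have : T.ψ' w v = 0 := T.fl_anti hw (show 1 ≤ j + 1 by omega) hv
    simp [unip_apply, T.κ_apply, this]

variable [FiniteDimensional F V₁] [FiniteDimensional F V₂] [Nontrivial V₁]

theorem iso_of_map {g : V ≃ₗ[F] V} (hg : g ∈ UG B) (hw0 : w ≠ 0) (hw : B₂ w w = 0) {u : V₂} (hu : u ≠ 0)
    (h : ∀ a, g (T.tm a w) ∈ T.L u) : B₂ u u = 0 := by
  obtain ⟨f, hf⟩ := exists_dual_eq_one (F := F) hu
  let α : V₁ →ₗ[F] V₁ := T.ψ f ∘ₗ (g : V →ₗ[F] V) ∘ₗ T.tm.flip w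
  have h1 : ∀ a, g (T.tm a w) = T.tm (α a) u := fun a => by
    obtain ⟨b, e⟩ := T.mem_L.1 (h a)
    simp [α, e, T.ψ_tm, hf]
  have h2 := LinearMap.injective_iff_surjective.1 (show Function.Injective α from fun a b e =>
    T.tm_left_injective hw0 (g.injective (by rw [h1, h1, e])))
  obtain ⟨a, ha⟩ := exists_ne (0 : V₁)
  obtain ⟨b, hb⟩ := T.r₁.exists_one ha
  obtain ⟨a, rfl⟩ := h2 a
  obtain ⟨b, rfl⟩ := h2 b
  have := T.B_tm (α a) u (α b) u
  rwa [← h1, ← h1, hg, B_tm, hw, hb, mul_zero, one_mul, eq_comm] at this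

variable (T) in
/-- The other points of the orbit of the invariant form. -/
def Oth (X : Subgroup (V ≃ₗ[F] V)) (φ : MultilinearMap F (fun _ : Fin 4 => V × Dual F V) F) : Prop :=
  (∃ h ∈ X, mrep (Fin 4) (dπ F V) h T.four = φ) ∧ φ ≠ T.four

omit [FiniteDimensional F V₁] [FiniteDimensional F V₂] [Nontrivial V₁] in
theorem Oth.map {φ : MultilinearMap F (fun _ : Fin 4 => V × Dual F V) F} (h : T.Oth X φ) {k : V ≃ₗ[F] V} (hk : k ∈ X)
    (hk' : k ∈ T.KS) : T.Oth X (mrep (Fin 4) (dπ F V) k φ) := by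
  obtain ⟨⟨h, hh, rfl⟩, hne⟩ := h
  refine ⟨⟨k * h, mul_mem hk hh, by rw [map_mul]; rfl⟩, fun e => hne ?_⟩
  simpa using congrArg (mrep (Fin 4) (dπ F V) k⁻¹) (e.trans (T.fix_four hk').symm)

variable (hX : X ≤ UG B) (hw0 : w ≠ 0) (hw : B₂ w w = 0)
  (hQ : ∀ u u', u ≠ 0 → u' ≠ 0 → B₂ u u = 0 → B₂ u' u' = 0 → ∀ k ∈ X, (∀ a, k (T.tm a u) ∈ T.L u') → k ∈ T.KS)
include hX hw0 hw hQ

theorem mem_KS_of_fix {g : V ≃ₗ[F] V} (hg : g ∈ X) (h : mrep (Fin 4) (dπ F V) g T.four = T.four) : g ∈ T.KS := by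
  obtain ⟨u, h0, e⟩ := T.exists_map_of_fix h hw0
  exact hQ w u hw0 h0 hw (iso_of_map (hX hg) hw0 hw h0 e) g hg e

theorem Oth.ne {φ : MultilinearMap F (fun _ : Fin 4 => V × Dual F V) F} (h : T.Oth X φ) {k : V ≃ₗ[F] V}
    (U : UF X T.KS k) : mrep (Fin 4) (dπ F V) k φ ≠ φ := fun e => by
  obtain ⟨⟨g, hg, rfl⟩, hne⟩ := h
  refine hne (T.fix_four (U.uniq g hg (mem_KS_of_fix hX hw0 hw hQ (mul_mem (mul_mem (inv_mem hg) U.memX) hg) ?_)))
  rw [map_mul, map_mul, End.mul_apply, End.mul_apply, e]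
  simp

theorem sum_mem_of_uf (p : ℕ) [Fact p.Prime] [CharP F p] {A : Type*} [AddCommGroup A] [Finite A]
    (hp : ∀ a : A, p • a = 0) (E : A → V ≃ₗ[F] V) (h0 : E 0 = 1) (hadd : ∀ a b, E (a + b) = E a * E b) {s c : ℕ}
    (hs : ∀ a j, ∀ v ∈ T.fl w j, E a v - v ∈ T.fl w (j + s)) (hU : ∀ a ≠ 0, UF X T.KS (E a))
    (hc : p ^ c ≤ Nat.card A) (O : Finset (MultilinearMap F (fun _ : Fin 4 => V × Dual F V) F))
    (hO : ∀ φ ∈ O, T.Oth X φ) (hO' : ∀ a, ∀ φ ∈ O, mrep (Fin 4) (dπ F V) (E a) φ ∈ O) :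
    ∑ φ ∈ O, φ ∈ mfil (Fin 4) (T.dfl w) (9 - s * (c * (p - 1))) := by
  have hi : ∀ a, (E a)⁻¹ = E (-a) := fun a => inv_eq_of_mul_eq_one_right (by rw [← hadd, add_neg_cancel, h0])
  have U : Unip (fun a => mrep (Fin 4) (dπ F V) (E a)) fun j => mfil (Fin 4) (T.dfl w) (9 - s * j) :=
    ⟨by simp only [h0, map_one], fun a a' => by simp only [hadd, map_mul], fun a j _ hy => by
      rw [Nat.mul_succ, ← Nat.sub_sub]
      exact comp_sub_mem_mfil' (step_dfl hw (hi a ▸ hs _) (inv_inv (E a) ▸ hs _)) hy,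
      fun _ _ h => mfil_mono _ (Nat.sub_le_sub_left (Nat.mul_le_mul_left _ h) _)⟩
  refine U.sum_invariant_mem p hp _ O hO' fun φ hφ => ⟨0, c, T.mem_mfil_nine φ, ?_, by omega⟩
  rwa [(AddSubgroup.eq_bot_iff_forall (U.stab φ)).2 fun a ha => by_contra fun h0 => (hO φ hφ).ne hX hw0 hw hQ (hU a h0) ha,
    AddSubgroup.index_bot]

theorem sum_mem_of_two (p : ℕ) [Fact p.Prime] [CharP F p] [Finite F] (C : AddSubgroup F) {c : ℕ}
    (hU : ∀ d ∈ C, d ≠ 0 → UF X T.KS (unip _ (T.κ'_κ' hw) d)) (hc : p ^ c ≤ Nat.card C) (h2 : 2 ≤ c * (p - 1))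
    {e e' : V ≃ₗ[F] V} (he : e ∈ X ⊓ T.KS) (he' : e' ∈ X ⊓ T.KS) (R : T.Rad w e) (R' : T.Rad w e') {d : F}
    (hd : d ∈ C) (d0 : d ≠ 0) (hee : e * e' = unip _ (T.κ'_κ' hw) d * (e' * e))
    (O : Finset (MultilinearMap F (fun _ : Fin 4 => V × Dual F V) F)) (hO : ∀ φ, φ ∈ O ↔ T.Oth X φ) :
    ∑ φ ∈ O, φ ∈ mfil (Fin 4) (T.dfl w) 4 := by
  classical
  obtain ⟨a₀, ha₀⟩ := exists_ne (0 : V₁)
  have : Nontrivial V := ⟨_, _, T.tm_ne_zero ha₀ hw0⟩
  set ρ := mrep (Fin 4) (dπ F V)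
  let E : C → V ≃ₗ[F] V := fun a => unip _ (T.κ'_κ' hw) a
  have h0 : E 0 = 1 := unip_zero _
  have hadd : ∀ a b, E (a + b) = E a * E b := fun a b => (unip_mul _ _ _).symm
  have hE : ∀ a, E a ∈ X := fun a => by
    by_cases h : a = 0
    · rw [h, h0]; exact one_mem _
    · exact (hU a a.2 fun e => h (Subtype.ext e)).memX
  have hO' : ∀ a, ∀ φ ∈ O, ρ (E a) φ ∈ O := fun a φ h => (hO _).2 (((hO _).1 h).map (hE a) (T.unip_κ'_mem_KS hw _))
  have hc' : ∀ {k}, k ∈ X ⊓ T.KS → T.Rad w k → ∀ a φ, ρ k (ρ (E a) φ) = ρ (E a) (ρ k φ) := fun hk R a φ => by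
    rw [← End.mul_apply, ← map_mul, R.comm hw (hX hk.1), map_mul, End.mul_apply]
  have key : ∀ {k}, k ∈ X ⊓ T.KS → T.Rad w k → ∀ O' ⊆ O, (∀ a, ∀ φ ∈ O', ρ (E a) φ ∈ O') → (∀ φ ∈ O', ρ k φ ∈ O') →
      (∀ φ ∈ O', ∀ a, ρ k φ ≠ ρ (E a) φ) → ∑ φ ∈ O', φ ∈ mfil (Fin 4) (T.dfl w) 4 := fun {k} hk R O' h1 h3 h4 h5 =>
    sum_mem_of_step p (e := fun a => ρ (E a)) (by simp only [h0, map_one]) (fun a b => by simp only [hadd, map_mul])
      (n := 2) (by rw [← map_pow, R.pow (hX hk.1), map_one]) (hc' hk R) (N := mfil (Fin 4) (T.dfl w) 5)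
      (fun v hv => comp_sub_mem_mfil' (step_dfl hw (R.inv.step (inv_mem (hX hk.1)))
        ((inv_inv k).symm ▸ R.step (hX hk.1))) hv) O' h3 h4
      (fun ω h6 h7 => mfil_mono _ (by omega) (sum_mem_of_uf hX hw0 hw hQ p
        (fun a => Subtype.ext (by simp)) E h0 hadd (fun a => step_unip hw _)
        (fun a ha => hU a a.2 fun e => ha (Subtype.ext e)) hc ω (fun φ h => (hO φ).1 (h1 (h6 h))) h7)) h5
  have hEE : ∀ a b φ, ρ (E a) (ρ (E b) φ) = ρ (E (a + b)) φ := fun a b φ => by rw [hadd, map_mul, End.mul_apply]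
  have hcm : ∀ φ, ρ e (ρ e' φ) = ρ (E ⟨d, hd⟩) (ρ e' (ρ e φ)) := fun φ => by
    rw [← End.mul_apply, ← map_mul, hee, map_mul, map_mul]; rfl
  rw [← Finset.sum_filter_add_sum_filter_not O fun φ => ∃ a, ρ e φ = ρ (E a) φ]
  refine add_mem (key he' R' _ (Finset.filter_subset _ _) (fun a φ h => ?_) (fun φ h => ?_) fun φ h a' h' => ?_)
    (key he R _ (Finset.filter_subset _ _) (fun a φ h => ?_) (fun φ h => ?_)
      fun φ h a h' => (Finset.mem_filter.1 h).2 ⟨a, h'⟩) <;> rw [Finset.mem_filter] at h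
  · obtain ⟨h, b, hb⟩ := h
    exact Finset.mem_filter.2 ⟨hO' a φ h, b, by rw [hc' he R, hb, hEE, hEE, add_comm]⟩
  · obtain ⟨h, b, hb⟩ := h
    exact Finset.mem_filter.2 ⟨(hO _).2 (((hO _).1 h).map he'.1 he'.2), _, by rw [hcm, hb, hc' he' R', hEE]⟩
  · obtain ⟨h, b, hb⟩ := h
    refine ((hO _).1 (hO' (b + a') φ h)).ne hX hw0 hw hQ (hU d hd d0) ?_
    have := hcm φ
    rwa [h', hb, hc' he R, hc' he' R', hb, h', hEE, hEE b, add_comm a', eq_comm] at this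
  · exact Finset.mem_filter.2 ⟨hO' a φ h.1, fun ⟨b, hb⟩ => h.2 ⟨b, by
      have := congrArg (ρ (E (-a))) hb
      rwa [hc' he R, hEE, hEE, hEE, neg_add_cancel, h0, map_one, add_right_comm, neg_add_cancel, zero_add] at this⟩⟩
  · refine Finset.mem_filter.2 ⟨(hO _).2 (((hO _).1 h.1).map he.1 he.2), fun ⟨b, hb⟩ => h.2 ⟨b, ?_⟩⟩
    simpa using congrArg (ρ e⁻¹) (hb.trans (hc' he R b φ).symm)

/-- The trace trick. -/
theorem le_KS_of_depth [Finite F] [FiniteDimensional F V] (hw' : B₂ w' w' = 0) (hww : B₂ w w' = 1)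
    (h : ∀ u ∈ ({w, w'} : Set V₂), ∀ O : Finset (MultilinearMap F (fun _ : Fin 4 => V × Dual F V) F),
      (∀ φ, φ ∈ O ↔ T.Oth X φ) → ∑ φ ∈ O, φ ∈ mfil (Fin 4) (T.dfl u) 4) : X ≤ T.KS := by
  have := finite_linearEquiv (F := F) (V := V)
  intro g hg
  refine mem_KS_of_fix hX hw0 hw hQ hg (fixed_of_sum_eq_zero _ X _ (fun O hO => ?_) g hg)
  exact eq_zero_of_mfil (T.span_dfl hw hw' hww) (by simp) (h w (Or.inl rfl) O hO) (h w' (Or.inr rfl) O hO)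

end TF

end CL.Sp
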