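/-
Tensor decompositions, part 5: if a group of isometries containing the squares of the isometries of the factors
meets the unipotent radical of the stabiliser of `u ⊗ W` in the first factor only, then the stabiliser of `u ⊗ W`
consists of Kronecker products.
-/
import Cfsg.Agent.Cls.TW4
import Cfsg.Agent.Cls.TenTrace

set_option autoImplicit false
set_option linter.unusedSectionVars false

namespace CL.TW

open Module CL.Sp

variable {F U W V : Type*} [Field F] [AddCommGroup U] [Module F U] [AddCommGroup W] [Module F W]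
  [AddCommGroup V] [Module F V] {β : LinearMap.BilinForm F U} {γ : LinearMap.BilinForm F W}
  {B : LinearMap.BilinForm F V} {H : Subgroup (End F V)ˣ}

theorem exU_mem_of_sq {T : TP F U W V} (hsq : ∀ b ∈ IsoG β, T.Au (b * b) ∈ H) (two : (2 : F) ≠ 0) {n : End F U}
    (h : n * n * n = 0) (hn : Adj β n (-n)) (c : F) : T.Au (exU two h c) ∈ H :=
  exU_sq two h c ▸ hsq _ (exU_mem two h hn _)

theorem tU_mem_of_sq {T : TP F U W V} (hsq : ∀ b ∈ IsoG β, T.Au (b * b) ∈ H) (D : SymD β) {u w : U} (hu : β u u = 0)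
    (hw : β u w = 0) (c : F) : T.Au (tU D hu hw c) ∈ H := exU_mem_of_sq hsq _ _ (wg_adj D u w) c

theorem Au_tU {T : TP F U W V} (D : SymD β) {u w : U} (hu : β u u = 0) (hw : β u w = 0) :
    (T.Au (tU D hu hw 1)).1 = T.A (ex (wg β u w)) := congrArg T.A (tU_val D hu hw)

/-- The elements `1 + ι_u ⊗ d`. -/
noncomputable def zU (T : TP F U W V) {u : U} (hu : β u u = 0) (σ : End F W) : (End F V)ˣ :=
  ⟨1 + T.A (ee β u u) * T.C σ, 1 - T.A (ee β u u) * T.C σ,
    by simp [mul_sub, add_mul, T.AC_mul, ee_mul, hu], by simp [mul_add, sub_mul, T.AC_mul, ee_mul, hu]⟩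

theorem zU_add (T : TP F U W V) {u : U} (hu : β u u = 0) (σ τ : End F W) : zU T hu (σ + τ) = zU T hu σ * zU T hu τ :=
  Units.ext (by simp [zU, mul_add, add_mul, T.AC_mul, ee_mul, hu, add_assoc])

theorem zU_zero (T : TP F U W V) {u : U} (hu : β u u = 0) : zU T hu 0 = 1 := Units.ext (by simp [zU])

theorem FT.zU_mem {T : TP F U W V} (M : FT T β γ B) {u : U} (hu : β u u = 0) {σ : End F W} (hσ : Adj γ σ (-σ)) :
    zU T hu σ ∈ IsoG B := fun _ w => (M.adj_z hσ _ _).trans (congrArg _ (inv_val_apply (zU T hu σ) w))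

theorem TP.kron_conj (T : TP F U W V) (a : (End F U)ˣ) (s : (End F W)ˣ) (b : (End F U)ˣ) :
    (T.Au a * T.flip.Au s)⁻¹ * T.Au b * (T.Au a * T.flip.Au s) = T.Au (a⁻¹ * b * a) := by
  have : ∀ b, Commute (T.Au b) (T.flip.Au s) := fun b => Units.ext (T.commute _ _)
  rw [(this a).eq, mul_inv_rev, mul_assoc, mul_assoc, ← mul_assoc (T.Au b), (this b).eq, mul_assoc,
    inv_mul_cancel_left, map_mul, map_mul, map_inv, mul_assoc]

variable [FiniteDimensional F U] [FiniteDimensional F W] [Nontrivial W] [Finite F]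

/-- An element of the radical normalising the Levi subgroup up to the first factor. -/
theorem FT.exists_z_mul {T : TP F U W V} (M : FT T β γ B) (D : OD β) (hsq : ∀ b ∈ IsoG β, T.Au (b * b) ∈ H)
    {u u' : U} (h : Hyp β u u') (hI : ∀ r ∈ H, T.Rad β u r.1 → ∃ w, β u w = 0 ∧ r.1 = T.A (ex (wg β u w)))
    {r : (End F V)ˣ} (hr : r ∈ IsoG B) (R : T.Rad β u r.1) (hH : ∀ b ∈ IsoG β, r * T.Au (b * b) * r⁻¹ ∈ H) :
    ∃ σ w, ∃ hw : β u w = 0, Adj γ σ (-σ) ∧ r = zU T h.l σ * T.Au (tU D.toSymD h.l hw 1) := by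
  let ρ := T.sb β (r.1 - 1) u'
  let S := (Submodule.span F {(1 : End F W)}).comap ρ
  have key : ∀ b ∈ IsoG β, ∀ l : F, l ≠ 0 → (b * b).1 u = l • u → ∀ x, β u x = 0 → (b * b).1 x - l • x ∈ S :=
    fun b hb l hl e x hx => by
      have hm := mul_mem hb hb
      have hH' := hH b hb
      have hsq' := hsq b hb
      generalize b * b = m at *
      have e' : (m⁻¹).1 u = l⁻¹ • u := by
        rw [eq_inv_smul_iff₀ hl, ← map_smul, ← e, inv_val_apply]
      obtain ⟨w, hw, e1⟩ := hI _ (mul_mem hH' (inv_mem hsq')) (by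
        have := M.rad_conj h.ne (M.Au_mem (inv_mem hm)) (fun y => ⟨l⁻¹ • y, by rw [T.Au_val, T.A_tm, e']; simp⟩) R.inv
        simpa only [map_inv, inv_inv, Units.val_mul, mul_assoc] using R.mul this)
      have hmx : β u (m.1 x) = 0 := by rw [← IsoG.adj' hm, e', map_smul, LinearMap.smul_apply, hx, smul_zero]
      refine Submodule.mem_span_singleton.2 ⟨β w (m.1 x), LinearMap.ext fun y => T.tm_injective h.ne ?_⟩
      have e2 := LinearMap.congr_fun e1 ((T.Au m).1 (r.1 (T.tm x y)))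
      simp only [Units.val_mul, End.mul_apply, inv_val_apply] at e2
      rw [T.Au_val, T.A_tm, R.tm h hmx, R.tm h hx, map_add, T.A_tm, T.A_tm, e, map_add,
        TP.ex_wg_perp D.toSymD h.l hw (by rw [T.φ_tm, hmx, zero_smul]), map_smul, LinearMap.smul_apply, map_smul,
        (TP.rad_ex D.toSymD h.l hw).fix, T.φ_tm] at e2
      simp only [ρ, map_sub, map_smul, LinearMap.sub_apply, LinearMap.smul_apply, End.one_apply] at e2 ⊢
      linear_combination (norm := module) -e2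
  have hS : P2 β u u' ≤ S := by
    by_cases hq : ∀ μ : F, μ ≠ 0 → μ * μ = 1
    · refine D.mem_of_nonsing (h.ndOn D.toSymD) fun x hx qx => ?_
      obtain ⟨x', hx', e1, e2⟩ := D.exists_same_norm hq h hx qx
      have two := D.two
      have q : β (x + x') (x + x') = 2 * β x x := by rw [D.q_add, e1, e2]; ring
      have q' : β (x + x') (x + x') ≠ 0 := q ▸ mul_ne_zero two qx
      have h1 : β x u = 0 := (D.symm _ _).trans hx.1
      have h2 : β x' u = 0 := (D.symm _ _).trans hx'.1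
      have h3 : (rU qx * rU q').1 x = -x' := by
        simp only [Units.val_mul, End.mul_apply, rU_apply, q]
        simp only [map_add, map_sub, map_smul, LinearMap.add_apply, e1, D.symm x' x, smul_eq_mul]
        match_scalars <;> field_simp <;> ring
      have h4 : (rU qx * rU q').1 x' = x := by
        simp only [Units.val_mul, End.mul_apply, rU_apply, q]
        simp only [map_add, map_sub, map_smul, LinearMap.add_apply, e1, e2, smul_eq_mul]
        match_scalars <;> field_simp <;> ring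
      have := key _ (mul_mem (rU_mem D.toSymD qx) (rU_mem D.toSymD q')) 1 one_ne_zero
        (by simp [rU_apply, h1, h2]) x hx.1
      rw [Units.val_mul, End.mul_apply, h3, map_neg, h4, show -x - (1 : F) • x = (-2 : F) • x by module] at this
      exact (S.smul_mem_iff (neg_ne_zero.2 two)).1 this
    · push Not at hq
      obtain ⟨μ, h0, h1⟩ := hq
      intro x hx
      have h2 : (hU h h0 * hU h h0).1 = hm β u u' (μ * μ) := hm_mul h μ μ
      have := key _ (hU_mem D.toSymD h h0) (μ * μ) (mul_ne_zero h0 h0) (by simp [h2, hm_apply, h.l, h.rl, sub_smul])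
        x hx.1
      rw [h2, hm_apply, show β u' x = 0 from hx.2, show β u x = 0 from hx.1, mul_zero, mul_zero, zero_smul, zero_smul,
        add_zero, add_zero, show x - (μ * μ) • x = (1 - μ * μ) • x by module] at this
      exact (S.smul_mem_iff (sub_ne_zero.2 h1.symm)).1 this
  obtain ⟨y₀, hy₀⟩ := exists_ne (0 : W)
  obtain ⟨χ, hχ⟩ := exists_dual_one (F := F) hy₀
  obtain ⟨w, hw⟩ := exists_repr D.toSymD (χ ∘ₗ ρ.flip y₀ ∘ₗ (1 - ee β u' u))
  have h0 : ρ u = 0 := by ext y; simp [ρ, TP.sb_apply, R.fix]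
  have h1 : ∀ x, β u x = 0 → ρ x = β w x • 1 := fun x hx => by
    obtain ⟨c, hc⟩ := Submodule.mem_span_singleton.1 (hS (h.proj x))
    simp only [map_sub, map_smul, h0, hx, zero_smul, smul_zero, sub_zero] at hc
    simp [hw, ee_apply, hx, ← hc, hχ]
  have hw' : β u w = 0 := by rw [D.symm, hw]; simp [ee_apply, h.l, h0]
  obtain ⟨σ, h2, h3⟩ := M.exists_z h (mul_mem hr (inv_mem (M.Au_mem (tU_mem D.toSymD h.l hw' 1)))) fun v hv => by
    have h4 : ∀ v, T.φ (β u) v = 0 → r.1 v = (T.Au (tU D.toSymD h.l hw' 1)).1 v := fun v hv => by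
      rw [Au_tU, ← sub_eq_zero, ← LinearMap.sub_apply, show v = T.A (1 - ee β u' u) v by simp [T.A_ee, hv],
        ← End.mul_apply]
      refine LinearMap.congr_fun (g := 0) (T.ext_tm fun x y => ?_) v
      have hx : β u ((1 - ee β u' u) x) = 0 := by simp [ee_apply, h.lr]
      rw [End.mul_apply, T.A_tm, LinearMap.sub_apply, R.tm h hx, TP.ex_wg_perp D.toSymD h.l hw'
        (by rw [T.φ_tm, hx, zero_smul]), T.φ_tm, h1 _ hx]
      simp
    rw [Units.val_mul, End.mul_apply, h4, val_inv_apply]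
    exact M.perp_of_stab (inv_mem (M.Au_mem (tU_mem D.toSymD h.l hw' 1)))
      (fun y => ⟨y, by rw [inv_inv, Au_tU, (TP.rad_ex D.toSymD h.l hw').fix]⟩) hv
  exact ⟨σ, w, hw', h2, mul_inv_eq_iff_eq_mul.1 (Units.ext h3)⟩

theorem FT.weak_F1 {T : TP F U W V} (M : FT T β γ B) (D : OD β) (hH : H ≤ IsoG B)
    (hsq : ∀ b ∈ IsoG β, T.Au (b * b) ∈ H) {u u' : U} (h : Hyp β u u')
    (hI : ∀ r ∈ H, T.Rad β u r.1 → ∃ w, β u w = 0 ∧ r.1 = T.A (ex (wg β u w))) {g : (End F V)ˣ} (hg : g ∈ H)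
    (hL : ∀ y, ∃ y', g.1 (T.tm u y) = T.tm u y') :
    ∃ (σ : End F W) (a : (End F U)ˣ) (s : (End F W)ˣ) (ν : F), Adj γ σ (-σ) ∧ ν ≠ 0 ∧ a.1 u = u ∧
      (∀ x y, β (a.1 x) (a.1 y) = ν * β x y) ∧ (∀ y y', ν * γ (s.1 y) (s.1 y') = γ y y') ∧
      g = zU T h.l σ * (T.Au a * T.flip.Au s) := by
  obtain ⟨s, hs, hs'⟩ := FT.exists_stab h.ne hL
  have k0 : ∀ z, β u z = 0 → ∃ w, ∀ v, T.φ (β u) v = 0 → T.φ (β z) (g.1 v) = s.1 (T.φ (β w) v) := fun z hz => by
    obtain ⟨w, hw, e⟩ := hI _ (mul_mem (mul_mem (inv_mem hg) (tU_mem_of_sq hsq D.toSymD h.l hz 1)) hg)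
      (M.rad_conj h.ne (hH hg) hL (Au_tU (T := T) D.toSymD h.l hz ▸ TP.rad_ex D.toSymD h.l hz))
    refine ⟨w, fun v hv => T.tm_injective h.ne ?_⟩
    have := congrArg g.1 (LinearMap.congr_fun e v)
    rw [Units.val_mul, Units.val_mul, End.mul_apply, End.mul_apply, val_inv_apply, Au_tU, TP.ex_wg_perp D.toSymD h.l hw hv,
      TP.ex_wg_perp D.toSymD h.l hz (M.perp_of_stab (hH hg) (fun y => ⟨_, hs' y⟩) hv), map_add, hs] at this
    exact add_left_cancel this
  obtain ⟨y₀, hy₀⟩ := exists_ne (0 : W)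
  obtain ⟨χ, hχ⟩ := exists_dual_one (F := F) (x := s.1 y₀) fun e => hy₀ (unit_injective s (by rw [e, map_zero]))
  let a₀ : End F U := T.ψ χ ∘ₗ g.1 ∘ₗ T.flip.tm y₀
  have ha₀ : ∀ z x, β z (a₀ x) = χ (T.φ (β z) (g.1 (T.tm x y₀))) := fun z x => (T.φ_ψ _ _ _).symm
  have k2 : ∀ x, β u x = 0 → β u (a₀ x) = 0 := fun x hx => by
    rw [ha₀, M.perp_of_stab (hH hg) (fun y => ⟨_, hs' y⟩) (by rw [T.φ_tm, hx, zero_smul]), map_zero]
  have k3 : ∀ x, β u x = 0 → ∀ y, ∃ y', g.1 (T.tm x y) - T.tm (a₀ x) (s.1 y) = T.tm u y' := fun x hx y =>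
    T.exists_tm h.ne fun α hα => by
      obtain ⟨z, rfl⟩ := exists_repr D.toSymD α
      obtain ⟨w, hw⟩ := k0 z ((D.symm _ _).trans hα)
      rw [map_sub, T.φ_tm, ha₀, hw _ (by rw [T.φ_tm, hx, zero_smul]), hw _ (by rw [T.φ_tm, hx, zero_smul])]
      simp [T.φ_tm, hχ]
  have k4 : ∀ x x', β u x = 0 → β u x' = 0 → ∀ y y', β (a₀ x) (a₀ x') * γ (s.1 y) (s.1 y') = β x x' * γ y y' :=
    fun x x' hx hx' y y' => by
      obtain ⟨z, e⟩ := k3 x hx y
      obtain ⟨z', e'⟩ := k3 x' hx' y'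
      rw [← M.form x y, ← hH hg, eq_add_of_sub_eq e, eq_add_of_sub_eq e']
      simp [M.form, h.l, k2 x' hx', D.symm (a₀ x) u, k2 x hx]
  obtain ⟨w₀, hw₀, q₀⟩ := exists_nonsing_P2 D.toSymD D.h3 h
  set ν := β (a₀ w₀) (a₀ w₀) / β w₀ w₀ with hν
  have k5 : ∀ y y', ν * γ (s.1 y) (s.1 y') = γ y y' := fun y y' => by
    rw [hν, div_mul_eq_mul_div, k4 _ _ hw₀.1 hw₀.1, mul_div_cancel_left₀ _ q₀]
  obtain ⟨y₁, hy₁⟩ := exists_β_one M.c hy₀
  have ν0 : ν ≠ 0 := fun e => by simpa [e, hy₁] using k5 y₁ y₀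
  have k6 : ∀ x x', β u x = 0 → β u x' = 0 → β (a₀ x) (a₀ x') = ν * β x x' := fun x x' hx hx' => by
    have := k5 y₁ y₀
    have := k4 x x' hx hx' y₁ y₀
    rw [hy₁] at *
    grind
  let P : End F U := 1 - ee β u u' - ee β u' u
  have hP : ∀ x, P x ∈ P2 β u u' := h.proj
  have hP1 : ∀ x, β u (P x) = 0 := fun x => (hP x).1
  have hP2 : ∀ x, β u' (P x) = 0 := fun x => (hP x).2
  have hP3 : ∀ x y, β (P x) (P y) = β x y - β u' x * β u y - β u x * β u' y := fun x y => by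
    simp [P, ee_apply, h.l, h.r, h.lr, h.rl, D.symm x u, D.symm x u']
    ring
  have k7 : ∀ x y, β ((ee β u u' + P * a₀ * P + ν • ee β u' u) x) ((ee β u u' + P * a₀ * P + ν • ee β u' u) y) =
      ν * β x y := fun x y => by
    simp only [LinearMap.add_apply, End.mul_apply, LinearMap.smul_apply, ee_apply, map_add, map_smul, smul_eq_mul, h.l,
      h.r, h.lr, h.rl, hP1, hP2, D.symm (P _) u, D.symm (P _) u', hP3, k2 _ (hP1 _), k6 _ _ (hP1 _) (hP1 _)]
    ring
  obtain ⟨a, ha⟩ := exists_unit D.toSymD ν0 k7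
  rw [← ha] at k7
  have k8 : a.1 u = u := by simp [ha, P, ee_apply, h.l, h.rl]
  have k9 : ∀ x, β u x = 0 → ∃ c : F, a₀ x = a.1 x + c • u := fun x hx => by
    have : a₀ u = u := by simp [a₀, T.flip_tm, hs, T.ψ_tm, hχ]
    refine ⟨β u' (a₀ x) - β u' x, ?_⟩
    simp only [ha, P, LinearMap.add_apply, End.mul_apply, LinearMap.smul_apply, ee_apply, LinearMap.sub_apply,
      End.one_apply, hx, map_sub, map_smul, this, k2 x hx, h.l, h.rl, zero_smul, sub_zero]
    module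
  have hl : ∀ x y, (T.Au a * T.flip.Au s).1 (T.tm x y) = T.tm (a.1 x) (s.1 y) := T.AC_tm _ _
  have hl' : T.Au a * T.flip.Au s ∈ IsoG B := fun v w =>
    LinearMap.congr_fun₂ (T.ext_tm (f := B.compl₁₂ (T.Au a * T.flip.Au s).1 (T.Au a * T.flip.Au s).1) (g := B)
      fun x y => T.ext_tm fun x' y' => by
        rw [LinearMap.compl₁₂_apply, hl, hl, M.form, M.form, k7, ← k5 y]
        ring) v w
  have R : T.Rad β u ((T.Au a * T.flip.Au s)⁻¹ * g).1 := by
    refine ⟨fun y => by rw [Units.val_mul, End.mul_apply, hs, ← k8, ← hl, inv_val_apply, k8], fun v hv => ?_⟩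
    rw [show v = T.A (1 - ee β u' u) v by simp [T.A_ee, hv]]
    refine T.induction (P := fun v => ∃ y, ((T.Au a * T.flip.Au s)⁻¹ * g).1 (T.A (1 - ee β u' u) v) =
      T.A (1 - ee β u' u) v + T.tm u y) v ⟨0, by simp⟩ (fun x y => ?_) fun a b ⟨y, e⟩ ⟨y', e'⟩ =>
        ⟨y + y', by rw [map_add, map_add, e, e', map_add]; abel⟩
    have hx : β u ((1 - ee β u' u) x) = 0 := by simp [ee_apply, h.lr]
    obtain ⟨z, e⟩ := k3 _ hx y
    obtain ⟨c, e'⟩ := k9 _ hx
    refine ⟨(s⁻¹).1 (z + c • s.1 y), unit_injective (T.Au a * T.flip.Au s) ?_⟩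
    rw [Units.val_mul _ g, End.mul_apply, val_inv_apply, T.A_tm, eq_add_of_sub_eq e, e', map_add (Units.val _), hl, hl, k8,
      val_inv_apply]
    simp only [map_add, map_smul, LinearMap.add_apply, LinearMap.smul_apply]
    abel
  obtain ⟨σ, w, hw, h1, h2⟩ := M.exists_z_mul D hsq h hI (r := g * (T.Au a * T.flip.Au s)⁻¹)
    (mul_mem (hH hg) (inv_mem hl')) (by
      simpa only [inv_inv, ← Units.val_mul, mul_inv_cancel_left] using M.rad_conj h.ne (inv_mem hl')
        (fun y => ⟨(s⁻¹).1 y, by conv_lhs => rw [← k8, ← val_inv_apply s y, ← hl, inv_val_apply]⟩) R) fun b hb => by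
      have := mul_mem (mul_mem hg (hsq _ (conj_mem_isoG ν0 k7 hb))) (inv_mem hg)
      rw [show a⁻¹ * b * a * (a⁻¹ * b * a) = a⁻¹ * (b * b) * a by group, ← T.kron_conj a s] at this
      simpa only [mul_inv_rev (g : (End F V)ˣ), inv_inv, mul_assoc] using this
  refine ⟨σ, tU D.toSymD h.l hw 1 * a, s, ν, h1, ν0, ?_, fun x y => (tU_mem D.toSymD h.l hw 1 _ _).trans (k7 x y), k5, ?_⟩
  · rw [Units.val_mul, End.mul_apply, k8, tU_val, ex_wg_apply D.toSymD h.l hw]
    simp [h.l, D.symm w u, hw]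
  · rw [map_mul, mul_assoc, ← mul_assoc _ (T.Au _), ← h2, inv_mul_cancel_right]

/-- Common fixed points of commuting permutations of order `p`. -/
theorem card_filter_eq (p : ℕ) [Fact p.Prime] [CharP F p] {α ι : Type*} (X : Finset α) (π : ι → α → α) {n : ℕ}
    (h1 : ∀ i, ∀ a ∈ X, π i a ∈ X) (h2 : ∀ i a, (π i)^[p ^ n] a = a) (h3 : ∀ i j a, π i (π j a) = π j (π i a))
    (I : Finset ι) : open Classical in ((X.filter fun a => ∀ i ∈ I, π i a = a).card : F) = X.card := by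
  classical
  induction I using Finset.induction_on with
  | empty => simp
  | insert j I hj ih =>
    rw [← ih, ← Finset.card_filter_add_card_filter_not (s := X.filter fun a => ∀ i ∈ I, π i a = a) (fun a => π j a = a),
      Nat.cast_add]
    have := sum_eq_zero_of_free (F := F) p ((X.filter fun a => ∀ i ∈ I, π i a = a).filter fun a => ¬ π j a = a) (π j)
      (n := n) (fun a ha => by
        simp only [Finset.mem_filter] at ha ⊢
        refine ⟨⟨h1 j a ha.1.1, fun i hi => by rw [h3, ha.1.2 i hi]⟩, fun e => ha.2 ?_⟩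
        have h4 := h2 j a
        rw [← Nat.sub_add_cancel (Nat.one_le_pow n p (Fact.out : p.Prime).pos), Function.iterate_succ_apply,
          Function.iterate_fixed e] at h4
        exact h4) (fun a _ => h2 j a) (fun a ha => (Finset.mem_filter.1 ha).2) (fun _ => (1 : F)) fun _ _ => rfl
    rw [Finset.sum_const, nsmul_eq_mul, mul_one] at this
    rw [this, add_zero, Finset.filter_filter]
    congr 2
    ext a
    simp [and_comm]

theorem card_fixed_eq (p : ℕ) [Fact p.Prime] [CharP F p] {α ι : Type*} [Finite ι] (X : Finset α) (π : ι → α → α) {n : ℕ}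
    (h1 : ∀ i, ∀ a ∈ X, π i a ∈ X) (h2 : ∀ i a, (π i)^[p ^ n] a = a) (h3 : ∀ i j a, π i (π j a) = π j (π i a))
    (Y : Finset α) (hY : ∀ a, a ∈ Y ↔ a ∈ X ∧ ∀ i, π i a = a) : (Y.card : F) = X.card := by
  have := Fintype.ofFinite ι
  rw [← card_filter_eq p X π h1 h2 h3 Finset.univ]
  congr 2
  ext a
  simp [hY]

theorem iterate_conj {A : Type*} [Monoid A] (s : Aˣ) (σ : A) (n : ℕ) :
    (fun σ => s.1 * σ * (s⁻¹).1)^[n] σ = (s ^ n).1 * σ * ((s ^ n)⁻¹).1 := by
  induction n with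
  | zero => simp
  | succ n ih => rw [Function.iterate_succ_apply', ih, pow_succ', mul_inv_rev]; simp only [Units.val_mul, mul_assoc]

theorem conj_comm {A : Type*} [Monoid A] {s t : Aˣ} (h : Commute s t) (σ : A) :
    s.1 * (t.1 * σ * (t⁻¹).1) * (s⁻¹).1 = t.1 * (s.1 * σ * (s⁻¹).1) * (t⁻¹).1 := by
  simp only [← mul_assoc]
  rw [← Units.val_mul, h.eq, mul_assoc, mul_assoc _ _ (t⁻¹).1, ← Units.val_mul, ← Units.val_mul,
    ← Units.val_mul, h.inv_inv.eq]

theorem tU_pow (p : ℕ) [Fact p.Prime] [CharP F p] (D : OD β) {u w : U} (hu : β u u = 0) (hw : β u w = 0) :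
    tU D.toSymD hu hw 1 ^ p ^ 2 = 1 :=
  have := D.nontrivial
  Units.ext (pow_eq_one_of_sub p (r := 3) (by nlinarith [(Fact.out : p.Prime).two_le])
    (tU_val D.toSymD hu hw ▸ (log_ex (wg_cube D.toSymD hu hw hw hw)).2.2))

/-- The orthogonal setting. -/
structure OS {J : Type*} (T : J → TP F U W V) (β : LinearMap.BilinForm F U) (γ : LinearMap.BilinForm F W)
    (B : LinearMap.BilinForm F V) (H : Subgroup (End F V)ˣ) : Prop where
  d : OD β
  ft : ∀ j, FT (T j) β γ B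
  fr : Fr T
  le : H ≤ IsoG B
  sq : ∀ j, ∀ b ∈ IsoG β, (T j).Au (b * b) ∈ H

/-- `H` meets the unipotent radicals in the factors. -/
def RI {J : Type*} (T : J → TP F U W V) (β : LinearMap.BilinForm F U) (H : Subgroup (End F V)ˣ) : Prop :=
  ∀ j u, β u u = 0 → u ≠ 0 → ∀ r ∈ H, (T j).Rad β u r.1 → ∃ w, β u w = 0 ∧ r.1 = (T j).A (ex (wg β u w))

variable {J : Type*} {T : J → TP F U W V}

theorem OS.mv (S : OS T β γ B H) {h : (End F V)ˣ} (hh : h ∈ H) : OS (fun j => (T j).mv h) β γ B H :=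
  have := S.d.nontrivial
  ⟨S.d, fun j => (S.ft j).mv (S.le hh), S.fr.mv h, S.le, fun j b hb =>
    (T j).mv_Au h _ ▸ mul_mem (mul_mem hh (S.sq j b hb)) (inv_mem hh)⟩

theorem RI.mv (I : RI T β H) {h : (End F V)ˣ} (hh : h ∈ H) : RI (fun j => (T j).mv h) β H := fun j u hu h0 r hr R => by
  obtain ⟨w, hw, e⟩ := I j u hu h0 _ (mul_mem (mul_mem (inv_mem hh) hr) hh) ⟨fun y => by
    simp only [Units.val_mul, End.mul_apply]
    rw [← TP.mv_tm, R.fix, TP.mv_tm, inv_val_apply], fun v hv => by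
      obtain ⟨y, e⟩ := R.tr (h.1 v) (by rw [TP.mv_φ, inv_val_apply, hv])
      exact ⟨y, by rw [Units.val_mul, Units.val_mul, End.mul_apply, End.mul_apply, e, map_add, TP.mv_tm, inv_val_apply,
        inv_val_apply]⟩⟩
  exact ⟨w, hw, by simp [TP.mv_A, ← e, mul_assoc]⟩

theorem TP.stab_of_commute (T : TP F U W V) (D : SymD β) {u : U} (h0 : u ≠ 0) {g : End F V}
    (h : Commute (T.A (ee β u u)) g) (y : W) : ∃ y', g (T.tm u y) = T.tm u y' := by
  obtain ⟨x, hx⟩ := exists_β_one D h0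
  have := LinearMap.congr_fun h.eq (T.tm x y)
  rw [End.mul_apply, End.mul_apply, T.A_tm, ee_apply, D.symm, hx, one_smul, T.A_ee] at this
  exact ⟨_, this.symm⟩

theorem commute_of_ex {A : Type*} [Ring A] [Algebra F A] (f : End F U →ₐ[F] A) {n : End F U} (h : n * n * n = 0) {z : A}
    (hz : Commute (f (ex n)) z) : Commute (f (n * n)) z ∧ Commute (f n) z := by
  obtain ⟨h1, h2, -⟩ := log_ex h
  have h3 : Commute (f (ex n - 1)) z := by rw [map_sub, map_one]; exact hz.sub_left (Commute.one_left z)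
  have h4 : Commute (f (n * n)) z := by rw [← h1, map_mul]; exact h3.mul_left h3
  exact ⟨h4, by rw [← h2, map_sub, map_smul]; exact h3.sub_left (h4.smul_left _)⟩

theorem commute_iota (D : OD β) {A : Type*} [Ring A] [Algebra F A] (f : End F U →ₐ[F] A) {u : U} (hu : β u u = 0) {z : A}
    (h : ∀ w, β u w = 0 → Commute (f (ex (wg β u w))) z) : Commute (f (ee β u u)) z := by
  obtain ⟨w, h1, h2⟩ := exists_nonsing_perp D.toSymD D.h3 hu
  have := ((commute_of_ex f (wg_cube D.toSymD hu h1 h1 h1) (h w h1)).1).smul_left (-β w w)⁻¹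
  rwa [wg_sq D.toSymD hu h1 h1, map_smul, smul_smul, inv_mul_cancel₀ (neg_ne_zero.2 h2), one_smul] at this

theorem Fr.sb_C_sb [Nontrivial U] (R : Fr T) {i j : J} (h : j ≠ i) {z : End F V} {y x : U} (hz : (T j).sb β z y x = 0)
    (y' x' : U) : (T j).sb β ((T i).C ((T i).sb β z y' x')) y x = 0 := by
  let Φ : End F V →ₗ[F] End F W := ⟨⟨fun z => (T j).sb β z y x, fun _ _ => by simp [TP.sb_add]⟩,
    fun _ _ => by simp [TP.sb_smul]⟩
  change Φ ((T i).C ((T i).sl _ _ _)) = 0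
  rw [(T i).C_sl (finBasis F U), map_sum]
  refine Finset.sum_eq_zero fun b _ => ?_
  obtain ⟨c₁, e₁⟩ := (T j).exists_C (R.comm j i h (rk (finBasis F U b) (β y')))
  obtain ⟨c₂, e₂⟩ := (T j).exists_C (R.comm j i h (rk x' ((finBasis F U).coord b)))
  rw [e₁, e₂]
  exact ((T j).sl_mul_C _ _ _ _).trans (by rw [(T j).sl_C_mul]; exact (congrArg (c₁ * · * c₂) hz).trans (by simp))

variable [Fintype J] [FiniteDimensional F V]

/-- A skew element commuting with the first factor and symmetric in the other factors vanishes. -/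
theorem OS.eq_zero_of_symS (S : OS T β γ B H) {i : J} {σ : End F W} (hσ : Adj γ σ (-σ))
    (h : ∀ j, j ≠ i → (T i).C σ ∈ (T j).symS β) : σ = 0 := by
  have := S.d.nontrivial
  have : Nonempty J := ⟨i⟩
  have := S.fr.skew_eq_sum S.ft Finset.univ _ _ (fun _ => 0) (fun _ => 0) ((S.ft i).adj_C hσ) (fun _ _ _ => by simp)
    (by simp) fun j _ => by
      rw [map_zero, sub_zero]
      by_cases e : j = i
      · exact e ▸ ((T j).cm_C σ).mem_symS S.d.toSymD
      · exact h j e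
  simp only [map_neg, sub_neg_eq_add, sub_self, map_zero, Finset.sum_const_zero, ← map_add, ← two_smul F σ] at this
  exact (smul_eq_zero.1 ((T i).C_injective (this.trans (map_zero _).symm))).resolve_left S.d.two

theorem OS.eq_zero_of_fixed (S : OS T β γ B H) (I : RI T β H) {i : J} {u u' : U} (h : Hyp β u u') {σ : End F W}
    (hσ : Adj γ σ (-σ)) (h1 : ∀ b ∈ IsoG β, zU (T i) h.l σ * (T i).Au (b * b) * (zU (T i) h.l σ)⁻¹ ∈ H)
    (h2 : ∀ j, j ≠ i → ∀ w, β u w = 0 → Commute ((T j).A (ex (wg β u w))) ((T i).C σ)) : σ = 0 := by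
  have D := S.d
  have := D.nontrivial
  refine S.eq_zero_of_symS (i := i) hσ fun j hj => ?_
  obtain ⟨v, w, c, qv, hw, hc, e⟩ := exists_move D.toSymD D.h3 h.ne h.symm.ne h.l h.r
  have hm := exU_sq D.two (wg_cube D.toSymD qv hw hw hw) 1
  have h3 := mul_mem (h1 _ (tU_mem D.toSymD qv hw (1 / 2))) (inv_mem (S.sq i _ (tU_mem D.toSymD qv hw (1 / 2))))
  rw [tU, hm] at h3
  set k := zU (T i) h.l σ * _ * _ * _
  have hk : k.1 = (1 + (T i).A (ee β u u) * (T i).C σ) * (1 - (c * c) • ((T i).A (ee β u' u') * (T i).C σ)) := by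
    have := conj_ee (tU_mem D.toSymD qv hw 1) u u
    rw [tU_val, e, ← tU_val D.toSymD qv hw] at this
    simp only [k, Units.val_mul, mul_assoc]
    congr 1
    change (T i).A (tU D.toSymD qv hw 1).1 * ((1 - _) * (T i).A ((tU D.toSymD qv hw 1)⁻¹).1) = _
    rw [sub_mul, mul_sub, one_mul, ← map_mul, Units.mul_inv, map_one, mul_assoc, ← ((T i).commute _ σ).eq,
      ← mul_assoc, ← mul_assoc, ← map_mul, ← map_mul, this]
    simp [smul_smul]
  have h4 := commute_iota D (T j).A h.l (h2 j hj)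
  have h5 : ∀ a, Commute ((T j).A (ee β u u)) ((T i).A a * (T i).C σ) := fun a => (S.fr.comm j i hj a _).mul_right h4
  obtain ⟨τ, a, s, ν, -, ν0, ha, ha', -, e1⟩ := (S.ft j).weak_F1 D S.le (S.sq j) h (I j u h.l h.ne) h3
    ((T j).stab_of_commute D.toSymD h.ne (hk ▸ ((Commute.one_right _).add_right (h5 _)).mul_right
      ((Commute.one_right _).sub_right ((h5 _).smul_right _))))
  obtain ⟨c', e', d, d1, d2, hd, hσ'⟩ := TP.sb_of_comm D h fun w hw =>
    (commute_of_ex (T j).A (wg_cube D.toSymD h.l hw hw hw) (h2 j hj w hw)).2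
  suffices hd' : ∀ x, d x = 0 from fun x y => by simp [hσ', hd', D.symm x y, mul_comm]
  suffices hd' : ∀ x ∈ P2 β u u', (T j).sb β ((T i).C σ) u' x = 0 from fun x => by
    have := hd' _ (h.proj x)
    rw [← hd _ (h.proj x)] at this
    simpa [d1, d2] using this
  intro x hx
  have h6 : (T j).sb β k.1 u' (x - β u' (a.1 x) • u) = 0 := by
    have h7 : β u (a.1 x) = 0 := by rw [← ha, ha', show β u x = 0 from hx.1, mul_zero]
    rw [e1]
    change (T j).sb β ((1 + (T j).A _ * (T j).C _) * ((T j).A a.1 * (T j).C s.1)) _ _ = 0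
    rw [add_mul, TP.AC_mul, one_mul, TP.sb_add, LinearMap.add_apply, LinearMap.add_apply, TP.sb_AC, TP.sb_AC]
    simp [ha, ee_apply, h.l, h.rl, h7]
  have h7 := S.fr.sb_C_sb hj h6
  have hk' : ∀ y y', (T i).sb β k.1 y y' = β y y' • 1 + (β u y' * β y u) • σ - (c * c * (β u' y' * β y u')) • σ -
      (c * c * (β u' y' * β y u)) • (σ * σ) := fun y y' => by
    rw [hk, mul_sub, mul_one, add_mul, one_mul, mul_smul_comm, TP.AC_mul, ← map_one (T i).C]
    simp only [TP.sb_add, TP.sb_sub, TP.sb_smul, LinearMap.add_apply, LinearMap.sub_apply, LinearMap.smul_apply, TP.sb_AC,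
      TP.sb_C, ee_mul, ee_apply, map_smul, h.lr, smul_eq_mul, one_smul]
    module
  obtain ⟨y, hy, qy⟩ := exists_nonsing_P2 D.toSymD D.h3 h
  have h8 := h7 y y
  have h9 := h7 u' u'
  rw [hk'] at h8 h9
  simp only [show β u y = 0 from hy.1, show β u' y = 0 from hy.2, zero_mul, mul_zero, zero_smul, add_zero, sub_zero,
    map_smul, map_one, TP.sb_smul, LinearMap.smul_apply] at h8
  rw [← map_one (T j).C, TP.sb_C, map_sub, map_smul, h.rl, show β u' x = 0 from hx.2, smul_smul, smul_eq_zero] at h8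
  have h10 : β u' (a.1 x) = 0 := by simpa [qy] using h8
  simpa [h10, h.r, h.lr, h.rl] using h9

/-- The stabiliser of `u ⊗ W` consists of Kronecker products. -/
theorem OS.kron_of_stab (S : OS T β γ B H) (I : RI T β H) {i : J} {u : U} (hu : β u u = 0) (h0 : u ≠ 0)
    {g : (End F V)ˣ} (hg : g ∈ H) (hL : ∀ y, ∃ y', g.1 ((T i).tm u y) = (T i).tm u y') : (T i).Kron g.1 := by
  classical
  have D := S.d
  have := D.nontrivial
  obtain ⟨u', h⟩ := exists_hyp' D.toSymD hu h0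
  have : Finite (End F W) := Module.finite_of_finite F
  have : Finite U := Module.finite_of_finite F
  have := Fintype.ofFinite (End F W)
  have := Fintype.ofFinite U
  let X : Finset (End F W) := Finset.univ.filter fun σ => Adj γ σ (-σ) ∧
    ∀ b ∈ IsoG β, zU (T i) hu σ * (T i).Au (b * b) * (zU (T i) hu σ)⁻¹ ∈ H
  have hX : ∀ σ, σ ∈ X ↔ Adj γ σ (-σ) ∧ ∀ b ∈ IsoG β, zU (T i) hu σ * (T i).Au (b * b) * (zU (T i) hu σ)⁻¹ ∈ H :=
    fun σ => by simp [X]
  have aff : ∀ (τ : End F W) (a : (End F U)ˣ) (s : (End F W)ˣ) (ν : F), Adj γ τ (-τ) → ν ≠ 0 → a.1 u = u →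
      (∀ x y, β (a.1 x) (a.1 y) = ν * β x y) → (∀ y y', ν * γ (s.1 y) (s.1 y') = γ y y') →
      zU (T i) hu τ * ((T i).Au a * (T i).flip.Au s) ∈ H → (∀ σ ∈ X, τ + ν⁻¹ • (s.1 * σ * (s⁻¹).1) ∈ X) ∧
      ∑ σ ∈ X, σ = X.card • τ + ν⁻¹ • (s.1 * (∑ σ ∈ X, σ) * (s⁻¹).1) := fun τ a s ν h1 ν0 h2 h3 h4 h5 => by
    have h6 : ∀ σ ∈ X, τ + ν⁻¹ • (s.1 * σ * (s⁻¹).1) ∈ X := fun σ hσ => by
      obtain ⟨h6, h7⟩ := (hX σ).1 hσ
      have h8 : (T i).Au a * (T i).flip.Au s * zU (T i) hu σ =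
          zU (T i) hu (ν⁻¹ • (s.1 * σ * (s⁻¹).1)) * ((T i).Au a * (T i).flip.Au s) := Units.ext (by
        have : a.1 * ee β u u = ν⁻¹ • (ee β u u * a.1) := by
          ext x
          rw [mul_ee, h2, LinearMap.smul_apply, End.mul_apply, ee_apply, ee_apply, smul_smul, ← h2, h3, h2,
            inv_mul_cancel_left₀ ν0]
        change (T i).A a.1 * (T i).C s.1 * (1 + _) = (1 + _) * ((T i).A a.1 * (T i).C s.1)
        rw [mul_add, add_mul, TP.AC_mul, TP.AC_mul, this]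
        simp [mul_assoc, -map_mul])
      refine (hX _).2 ⟨fun y y' => ?_, fun b hb => ?_⟩
      · have h9 : ∀ y y', γ (s.1 y) y' = ν⁻¹ * γ y ((s⁻¹).1 y') := fun y y' => by
          rw [← h4 y, val_inv_apply, inv_mul_cancel_left₀ ν0]
        simp only [LinearMap.add_apply, LinearMap.smul_apply, End.mul_apply, map_add, map_smul, LinearMap.neg_apply,
          map_neg, h1 y y', h9, h6 _ _, (S.ft i).c.symm y (s.1 _), smul_eq_mul]
        rw [(S.ft i).c.symm ((s⁻¹).1 y'), h6, LinearMap.neg_apply, map_neg]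
        ring
      · have := mul_mem (mul_mem h5 (h7 _ (conj_mem_isoG ν0 h3 hb))) (inv_mem h5)
        rw [show a⁻¹ * b * a * (a⁻¹ * b * a) = a⁻¹ * (b * b) * a by group, ← (T i).kron_conj a s] at this
        rw [zU_add, ← mul_inv_eq_iff_eq_mul.2 h8]
        generalize (T i).Au a * (T i).flip.Au s = l at *
        convert this using 1
        group
    refine ⟨h6, ?_⟩
    have hinj : Function.Injective fun σ => τ + ν⁻¹ • (s.1 * σ * (s⁻¹).1) := fun σ σ' e => by
      simpa using smul_right_injective _ (inv_ne_zero ν0) (add_left_cancel e)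
    conv_lhs => rw [← Finset.eq_of_subset_of_card_le (Finset.image_subset_iff.2 h6)
      (Finset.card_image_of_injective _ hinj).ge, Finset.sum_image hinj.injOn]
    simp [Finset.sum_add_distrib, Finset.mul_sum, Finset.sum_mul, Finset.smul_sum]
  have aff' : ∀ j, j ≠ i → ∀ t : (End F U)ˣ, (T j).Au t ∈ H → ∃ s : (End F W)ˣ, (T j).Au t = (T i).flip.Au s ∧
      (∀ σ ∈ X, s.1 * σ * (s⁻¹).1 ∈ X) ∧ Commute ((T j).A t.1) ((T i).C (∑ σ ∈ X, σ)) := fun j hj t ht => by
    obtain ⟨c, e⟩ := (T i).exists_C (S.fr.comm i j hj.symm t.1)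
    obtain ⟨c', e'⟩ := (T i).exists_C (S.fr.comm i j hj.symm (t⁻¹).1)
    let s : (End F W)ˣ := ⟨c, c', (T i).C_injective (by rw [map_mul, ← e, ← e', ← map_mul, Units.mul_inv, map_one, map_one]),
      (T i).C_injective (by rw [map_mul, ← e, ← e', ← map_mul, Units.inv_mul, map_one, map_one])⟩
    have e1 : (T j).Au t = (T i).flip.Au s := Units.ext e
    obtain ⟨h1, h2⟩ := aff 0 1 s 1 (fun _ _ => by simp) one_ne_zero rfl (fun _ _ => by simp) (fun y y' => by
      rw [one_mul, (S.ft i).adj_of_C (c := s.1) (c' := (s⁻¹).1) (IsoG.adj (S.le (e1 ▸ ht))), inv_val_apply])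
      (by rwa [zU_zero, map_one, one_mul, one_mul, ← e1])
    refine ⟨s, e1, by simpa using h1, ?_⟩
    rw [e]
    refine Commute.map (show s.1 * _ = _ * s.1 from ?_) _
    conv_rhs => rw [h2]
    simp
  have hS : ∑ σ ∈ X, σ = 0 := S.eq_zero_of_symS (i := i) (fun y y' => by
      simp only [LinearMap.sum_apply, map_sum, LinearMap.neg_apply, map_neg, ← Finset.sum_neg_distrib]
      exact Finset.sum_congr rfl fun σ hσ => by simpa using ((hX σ).1 hσ).1 y y') fun j hj =>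
    TP.Cm.mem_symS D.toSymD (commute_of_sing D.toSymD D.h3 _ fun v hv => commute_iota D _ hv fun w hw => by
      obtain ⟨-, -, -, h1⟩ := aff' j hj _ (tU_mem_of_sq (S.sq j) D.toSymD hv hw 1)
      rwa [tU_val] at h1)
  obtain ⟨p, hp⟩ := CharP.exists F
  have := CharP.char_is_prime F p
  have := Fact.mk this
  have hex : ∀ a : {j // j ≠ i} × {w // β u w = 0}, ∃ s : (End F W)ˣ,
      (T a.1.1).Au (tU D.toSymD hu a.2.2 1) = (T i).flip.Au s ∧ ∀ σ ∈ X, s.1 * σ * (s⁻¹).1 ∈ X := fun a => by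
    obtain ⟨s, h1, h2, -⟩ := aff' _ a.1.2 _ (tU_mem_of_sq (S.sq _) D.toSymD hu a.2.2 1)
    exact ⟨s, h1, h2⟩
  choose s hs hs' using hex
  have hinj : Function.Injective (T i).flip.Au := Units.map_injective (T i).C_injective
  have h1 := card_fixed_eq (F := F) p X (fun a σ => (s a).1 * σ * ((s a)⁻¹).1) (n := 2) hs' (fun a σ => by
      rw [iterate_conj, show s a ^ p ^ 2 = 1 from hinj (by rw [map_pow, ← hs, ← map_pow, map_one, tU_pow p D, map_one])]
      simp) (fun a b => conj_comm (hinj (by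
        rw [map_mul, map_mul, ← hs, ← hs]
        refine Units.ext ?_
        simp only [Units.val_mul, Au_tU]
        by_cases e : a.1.1 = b.1.1
        · rw [e, ← map_mul, ← map_mul, ex_wg_mul D.toSymD hu a.2.2 b.2.2, ex_wg_mul D.toSymD hu b.2.2 a.2.2, add_comm]
        · exact S.fr.comm _ _ e _ _))) {0} fun σ => Finset.mem_singleton.trans ⟨by
      rintro rfl
      exact ⟨(hX 0).2 ⟨fun _ _ => by simp, fun b hb => by simpa [zU_zero] using S.sq i b hb⟩, by simp⟩, fun ⟨h1, h2⟩ =>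
      S.eq_zero_of_fixed I h ((hX σ).1 h1).1 ((hX σ).1 h1).2 fun j hj w hw => by
        rw [← Au_tU D.toSymD hu hw, hs (⟨j, hj⟩, ⟨w, hw⟩)]
        exact Commute.map ((Units.mul_inv_eq_iff_eq_mul _).1 (h2 _)) (T i).C⟩
  obtain ⟨τ, a, s, ν, h2, h3, h4, h5, h6, rfl⟩ := (S.ft i).weak_F1 D S.le (S.sq i) h (I i u hu h0) hg hL
  have h7 := (aff τ a s ν h2 h3 h4 h5 h6 hg).2
  rw [hS, mul_zero, zero_mul, smul_zero, add_zero, ← Nat.cast_smul_eq_nsmul F, ← h1, Finset.card_singleton,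
    Nat.cast_one, one_smul] at h7
  rw [← h7, zU_zero, one_mul]
  exact ⟨a.1, s.1, rfl⟩

end CL.TW
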