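/-
Tensor decompositions, part 6: a root element of an orthogonal factor normalising a conjugate factor lies in it or
centralises it; hence the two factors coincide or commute.
-/
import Cfsg.Agent.Cls.TW5

set_option autoImplicit false
set_option linter.unusedSectionVars false

namespace CL.TW

open Module CL.Sp

variable {F U W V : Type*} [Field F] [AddCommGroup U] [Module F U] [AddCommGroup W] [Module F W]
  [AddCommGroup V] [Module F V] {β : LinearMap.BilinForm F U} {γ : LinearMap.BilinForm F W}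
  {B : LinearMap.BilinForm F V} {H : Subgroup (End F V)ˣ}

theorem exists_mu (h : 5 ≤ Nat.card F) : ∃ μ : F, μ ≠ 0 ∧ μ * μ ≠ 1 := by
  classical
  by_contra hq
  push Not at hq
  have := Nat.finite_of_card_ne_zero (α := F) (by omega)
  have := Fintype.ofFinite F
  have h1 : (Finset.univ : Finset F) ⊆ {0, 1, -1} := fun a _ => by
    by_cases h0 : a = 0
    · simp [h0]
    · rcases mul_self_eq_one_iff.1 (hq a h0) with e | e <;> simp [e]
  have := (Finset.card_le_card h1).trans Finset.card_le_three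
  rw [Finset.card_univ, ← Nat.card_eq_fintype_card] at this
  omega

theorem vandermonde (two : (2 : F) ≠ 0) (h : 5 ≤ Nat.card F) {𝒮 : Submodule F (End F V)} {N x : End F V}
    (hf : ∀ c : F, ex (c • N) * x * ex ((-c) • N) ∈ 𝒮) : N * x - x * N ∈ 𝒮 ∧ N * x * (N * N) - N * N * x * N ∈ 𝒮 := by
  obtain ⟨μ, h0, h1⟩ := exists_mu h
  have key : ∀ c : F, (2 * c) • (N * x - x * N) + c ^ 3 • (N * x * (N * N) - N * N * x * N) ∈ 𝒮 := fun c => by
    convert sub_mem (hf c) (hf (-c)) using 1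
    simp only [ex, mul_add, add_mul, mul_one, one_mul, smul_mul_assoc, mul_smul_comm, mul_assoc]
    match_scalars <;> field_simp <;> ring
  have h2 : N * x * (N * N) - N * N * x * N ∈ 𝒮 := by
    refine (𝒮.smul_mem_iff (mul_ne_zero h0 (sub_ne_zero.2 h1))).1 ?_
    convert sub_mem (key μ) (𝒮.smul_mem μ (key 1)) using 1
    module
  refine ⟨(𝒮.smul_mem_iff two).1 ?_, h2⟩
  simpa using sub_mem (key 1) h2

theorem map_ex (f : End F U →ₐ[F] End F V) (n : End F U) : f (ex n) = ex (f n) := by simp [ex]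

theorem Adj.pow {a a' : End F U} (h : Adj β a a') (n : ℕ) : Adj β (a ^ n) (a' ^ n) := by
  induction n with
  | zero => exact fun _ _ => rfl
  | succ n ih => rw [pow_succ, pow_succ']; exact ih.mul h

theorem Adj.skew (D : SymD β) {a a' : End F U} (h : Adj β a a') : Adj β (a - a') (-(a - a')) := fun x y => by
  simp [h x y, h.symm D x y]

namespace TP

/-- The two decompositions have the same first factor. -/
def Same (T T' : TP F U W V) : Prop := ∀ a, ∃ a', T'.A a = T.A a'

/-- The first factors commute. -/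
def Comm (T T' : TP F U W V) : Prop := ∀ a, T.Cm (T'.A a)

theorem Comm.symm {T T' : TP F U W V} (h : T.Comm T') : T'.Comm T := fun a b => (h b a).symm

theorem exists_mv (T T' : TP F U W V) : ∃ g, T' = T.mv g :=
  ⟨LinearMap.GeneralLinearGroup.ofLinearEquiv (T.E.symm.trans T'.E), by
    cases T'
    simp only [mv, TP.mk.injEq]
    ext v
    simp⟩

variable {T T' : TP F U W V} [FiniteDimensional F U] [FiniteDimensional F W] [Nontrivial W]

theorem Kron.conj_A [Nontrivial U] {g : (End F V)ˣ} (h : T.Kron g.1) (a : End F U) :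
    ∃ a', g.1 * T.A a * (g⁻¹).1 = T.A a' := by
  obtain ⟨b, c, e, e'⟩ := h.units
  exact ⟨b.1 * a * (b⁻¹).1, by rw [e, e', ← mul_one (T.A a), ← map_one T.C, AC_mul, AC_mul]; simp⟩

theorem Same.symm [Nontrivial U] (h : T.Same T') : T'.Same T := fun a => by
  obtain ⟨g, rfl⟩ := T.exists_mv T'
  obtain ⟨a', e⟩ := (T.kron_of_normalizes (g := g) fun a => by simpa only [mv_A] using h a).inv.conj_A a
  exact ⟨a', by simp [mv_A, ← e, mul_assoc]⟩

theorem exists_AC_of_lie [Nontrivial U] {N : End F V} (h : ∀ x, ∃ x', N * T.A x - T.A x * N = T.A x') :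
    ∃ a c, N = T.A a + T.C c := by
  obtain ⟨x₀, hx₀⟩ := exists_ne (0 : U)
  obtain ⟨α, hα⟩ := exists_dual_one (F := F) hx₀
  choose δ hδ using h
  let b := finBasis F U
  refine ⟨∑ i, δ (rk (b i) α) * rk x₀ (b.coord i), T.sl α x₀ N, ?_⟩
  have h1 := T.C_sl b α x₀ 1
  rw [← map_one T.C, ← one_mul (T.C 1), ← map_one T.A, sl_AC, End.one_apply, hα, one_smul] at h1
  simp only [map_one, mul_one] at h1
  rw [T.C_sl b, map_sum, ← Finset.sum_add_distrib]
  conv_lhs => rw [← mul_one N, h1, Finset.mul_sum]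
  exact Finset.sum_congr rfl fun i _ => by rw [map_mul, ← hδ]; noncomm_ring

theorem not_indep_of_rank [FiniteDimensional F V] {b : End F U}
    (h : finrank F (LinearMap.range (T.A b)) ≤ finrank F W) (x x' : U) : ¬ LinearIndependent F ![b x, b x'] := fun h1 => by
  have h2 : LinearMap.range (T.sm ![b x, b x']) ≤ LinearMap.range (T.A b) := by
    rintro _ ⟨y, rfl⟩
    exact ⟨T.tm x (y 0) + T.tm x' (y 1), by simp [sm_apply, A_tm]⟩
  have h3 := (Submodule.finrank_mono h2).trans h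
  rw [LinearMap.finrank_range_of_inj ((injective_iff_map_eq_zero _).2 fun y hy => funext (Fin.forall_fin_two.2
    (T.tm_pair h1 (by simpa [sm_apply] using hy))))] at h3
  have := finrank_pos (R := F) (M := W)
  simp [Module.finrank_pi_fintype] at h3
  omega

end TP

variable [FiniteDimensional F U] [FiniteDimensional F W] [Nontrivial W] [Finite F] [FiniteDimensional F V]

namespace FT

variable {T T' : TP F U W V} (M : FT T β γ B) (D : OD β)
include M D

theorem core3 {a : End F U} {c : End F W} (ha : Adj β a (-a)) (h3 : a ^ 3 = 0) (h2 : a * a ≠ 0)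
    (h : ∀ x y, ∃ b d, (T.A a + T.C c) * T.A (wg β x y) * ((T.A a + T.C c) * (T.A a + T.C c)) -
      (T.A a + T.C c) * (T.A a + T.C c) * T.A (wg β x y) * (T.A a + T.C c) = T.A b + T.C d) : ∃ l : F, c = l • 1 := by
  obtain ⟨y, qy, hy⟩ : ∃ y, β y y = 0 ∧ a (a y) ≠ 0 := by
    by_contra hc
    push Not at hc
    exact h2 (LinearMap.ext fun x => le_of_sing D.toSymD (R := LinearMap.ker (a * a)) D.ndOn_top
      (by rw [finrank_top]; exact D.h3) (fun v _ hv => hc v hv) (Submodule.mem_top (x := x)))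
  obtain ⟨s, h4, h5⟩ : ∃ s, β s y = 0 ∧ β s (a (a y)) ≠ 0 := by
    by_contra hc
    push Not at hc
    obtain ⟨l, hl⟩ := exists_smul_of_perp D.toSymD hc
    have h6 := LinearMap.congr_fun h3 (a y)
    simp only [pow_three, End.mul_apply, hl, map_smul, smul_smul, LinearMap.zero_apply, smul_eq_zero, mul_self_eq_zero] at h6
    exact hy (by rcases h6 with e | e <;> simp [hl, e])
  obtain ⟨r, hr⟩ := exists_β_one D.toSymD (x := y) fun e => hy (by simp [e])
  obtain ⟨b, d, e⟩ := h s r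
  have hx : wg β s r y = s := by simp [wg, ee_apply, hr, h4]
  have hx' := wg_adj D.toSymD s r
  generalize wg β s r = x at *
  have e1 : ∀ a, T.A a = T.A a * T.C 1 := fun a => by simp
  have e2 : ∀ c, T.C c = T.A 1 * T.C c := fun c => by simp
  rw [e1 a, e1 x, e1 b, e2 c, e2 d] at e
  have e3 := congrArg (fun z => T.sb β z y y) e
  simp only [mul_add, add_mul, TP.AC_mul, TP.sb_add, TP.sb_sub, LinearMap.add_apply, LinearMap.sub_apply, TP.sb_AC,
    mul_one, one_mul, End.mul_apply, End.one_apply, qy, hx] at e3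
  have k1 : ∀ z, β y (x z) = -β s z := fun z => by rw [← hx, hx']; simp
  have k2 : ∀ z, β y (a z) = -β (a y) z := fun z => by rw [ha]; simp
  have k3 : β (a y) (a s) = -β s (a (a y)) := by rw [D.symm s, ha (a y)]; simp
  have k4 : β (a y) (x (a y)) = 0 := (mul_eq_zero.1 (show 2 * β (a y) (x (a y)) = 0 by
    have := hx' (a y) (a y)
    rw [D.symm, LinearMap.neg_apply, map_neg] at this
    linear_combination this)).resolve_left D.two
  simp only [k2 s, k2 (x (a y)), k2 (a s), k1, k3, k4, D.symm (a y) s, D.symm y s, h4] at e3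
  refine ⟨(2 * β s (a (a y)))⁻¹ * (β y (a (x (a (a y)))) - β y (a (a (x (a y)))) - β y (b y)), ?_⟩
  rw [mul_smul, eq_inv_smul_iff₀ (mul_ne_zero D.two h5)]
  linear_combination (norm := module) -e3

theorem lie_dich {N : End F V} (e : ∃ a c, N = T.A a + T.C c) (hN : Adj B N (-N)) (h3 : N * N * N = 0)
    (h : 4 ≤ finrank F U ∧ finrank F (LinearMap.range N) ≤ 2 * finrank F W ∨ finrank F U = 3 ∧
      ∀ x y, ∃ b d, N * T.A (wg β x y) * (N * N) - N * N * T.A (wg β x y) * N = T.A b + T.C d) :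
    (∃ b, N = T.A b) ∨ T.Cm N := by
  have := D.nontrivial
  obtain ⟨a, c, ha, rfl⟩ : ∃ a c, Adj β a (-a) ∧ N = T.A a + T.C c := by
    obtain ⟨a, c, rfl⟩ := e
    obtain ⟨a', ha⟩ := exists_adj D.toSymD a
    obtain ⟨c', hc⟩ := exists_adj M.c c
    refine ⟨(2 : F)⁻¹ • (a - a'), (2 : F)⁻¹ • (c - c'), fun x y => by simp [ha x y, ha.symm D.toSymD x y]; ring, ?_⟩
    have h1 : -(T.A a + T.C c) = T.A a' + T.C c' := LinearMap.ext fun v => ext_β M.v fun w => by
      rw [← hN, LinearMap.add_apply, LinearMap.add_apply, map_add, map_add, LinearMap.add_apply, M.adj_A ha, M.adj_C hc]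
    have := D.two
    rw [map_smul, map_smul, ← smul_add, eq_inv_smul_iff₀ this, map_sub, map_sub]
    linear_combination (norm := module) -h1
  obtain ⟨p, hp⟩ := CharP.exists F
  have := Fact.mk (CharP.char_is_prime F p)
  have hp2 : p ≠ 2 := fun e => D.two (by subst e; exact CharP.cast_eq_zero F 2)
  have : Nontrivial V := (T.tm_injective (exists_ne (0 : U)).choose_spec).nontrivial
  have : CharP (End F V) p := charP_of_injective_algebraMap (algebraMap F (End F V)).injective p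
  have h1 : T.A (a ^ p) = T.C (-c ^ p) := by
    have h2 := add_pow_char_of_commute p (T.commute a c)
    rw [pow_eq_zero_of_le (show 3 ≤ p by have := (Fact.out : p.Prime).two_le; omega) (by rwa [pow_three']), ← map_pow,
      ← map_pow] at h2
    rw [map_neg, eq_neg_iff_add_eq_zero, h2]
  obtain ⟨l, hl⟩ := T.scalar_of_A_eq_C h1
  obtain rfl : l = 0 := by
    obtain ⟨x, -, hx⟩ := D.exists_nonsing D.ndOn_top top_ne_bot
    have := ha.pow p x x
    rw [((Fact.out : p.Prime).odd_of_ne_two hp2).neg_pow, hl] at this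
    simp only [LinearMap.smul_apply, End.one_apply, map_smul, smul_eq_mul, LinearMap.neg_apply, map_neg] at this
    exact (mul_eq_zero.1 (show l * (2 * β x x) = 0 by linear_combination this)).resolve_right (mul_ne_zero D.two hx)
  rw [hl, zero_smul, map_zero, ← map_zero T.C] at h1
  obtain ⟨y, hy, hcy⟩ := exists_ker_of_pow (neg_eq_zero.1 (T.C_injective h1.symm))
  have h4 : a ^ 3 = 0 := T.pow_eq_zero_of_tm (X := T.A a + T.C c) hy (fun x => by simp [T.A_tm, T.C_tm, hcy])
    (by rwa [pow_three'])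
  by_cases h0 : a = 0
  · exact Or.inr (by simpa [h0] using T.cm_C c)
  suffices ∃ l : F, c = l • 1 by
    obtain ⟨l, rfl⟩ := this
    exact Or.inl ⟨a + l • 1, by simp⟩
  have e1 : T.A a + T.C c = T.A a * T.C 1 + T.C c := by simp
  by_cases h2 : a * a = 0
  · obtain ⟨h5, x, x', h6⟩ := D.exists_pair ha h2 h0
    exact ⟨0, (T.rank_two_sq h5 Function.injective_id (by rwa [pow_two]) h6
      (e1 ▸ (h.resolve_right fun h => by omega).2)).trans (zero_smul _ _).symm⟩
  rcases h with h | h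
  · exact ⟨0, (T.rank_two_cube h.1 Function.injective_id h4 (by rwa [pow_two]) (e1 ▸ h.2)).trans (zero_smul _ _).symm⟩
  · exact M.core3 D ha h4 h2 h.2

/-- Unipotent Kronecker isometries. -/
theorem kron_iso {t : (End F V)ˣ} (ht : t ∈ IsoG B) (h : T.Kron t.1) (h3 : (t.1 - 1) ^ 3 = 0) :
    ∃ (a : (End F U)ˣ) (c : End F W), a ∈ IsoG β ∧ (a.1 - 1) ^ 3 = 0 ∧ Function.Injective c ∧ t.1 = T.A a.1 * T.C c := by
  have := D.nontrivial
  obtain ⟨p, hp⟩ := CharP.exists F
  have := Fact.mk (CharP.char_is_prime F p)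
  have : Nontrivial V := (T.tm_injective (exists_ne (0 : U)).choose_spec).nontrivial
  obtain ⟨a, c, e, h1, h2⟩ := T.exists_unip p h (n := 2)
    (pow_eq_one_of_sub p (r := 3) (by nlinarith [(Fact.out : p.Prime).two_le]) h3)
  have hpos : p ^ 2 ≠ 0 := pow_ne_zero _ (Fact.out : p.Prime).ne_zero
  obtain ⟨y, hy, hcy⟩ := exists_ker_of_pow (sub_one_pow_eq_zero p h2)
  rw [LinearMap.sub_apply, sub_eq_zero, End.one_apply] at hcy
  obtain ⟨y', hy'⟩ := exists_β_one M.c hy
  have h4 : ∀ x x', γ (c y') y * β (a x) (a x') = β x x' := fun x x' => by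
    have := ht (T.tm x y') (T.tm x' y)
    rwa [e, T.AC_tm, T.AC_tm, M.form, M.form, hcy, hy', mul_one, mul_comm] at this
  have h5 : ∀ n x x', γ (c y') y ^ n * β ((a ^ n) x) ((a ^ n) x') = β x x' := fun n => by
    induction n with
    | zero => simp
    | succ n ih => intro x x'; rw [pow_succ, pow_succ', End.mul_apply, End.mul_apply, mul_assoc, h4, ih]
  obtain ⟨x, -, hx⟩ := D.exists_nonsing D.ndOn_top top_ne_bot
  have h6 : γ (c y') y = 1 := (iterateFrobenius F p 2).injective (by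
    have := h5 (p ^ 2) x x
    rw [h1] at this
    rw [map_one, iterateFrobenius_def]
    exact (mul_eq_right₀ hx).1 this)
  refine ⟨Units.ofPowEqOne a _ h1 hpos, c, fun x x' => by simpa [h6] using h4 x x',
    T.pow_eq_zero_of_tm hy (fun x => by simp [e, T.A_tm, T.C_tm, hcy]) h3,
    unit_injective (Units.ofPowEqOne c _ h2 hpos), e⟩

omit M in
theorem rank_ex {u w : U} (hu : β u u = 0) (hw : β u w = 0) :
    finrank F (LinearMap.range (T.A (ex (wg β u w)) - 1)) ≤ 2 * finrank F W ∧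
      finrank F (LinearMap.range (T.A (wg β u w))) ≤ 2 * finrank F W := by
  have h1 : ∀ c : F, c • u ∈ Submodule.span F (Set.range ![u, w]) := fun c =>
    Submodule.smul_mem _ c (Submodule.subset_span ⟨0, rfl⟩)
  have h2 : ∀ c : F, c • w ∈ Submodule.span F (Set.range ![u, w]) := fun c =>
    Submodule.smul_mem _ c (Submodule.subset_span ⟨1, rfl⟩)
  rw [← map_one T.A, ← map_sub]
  refine ⟨(T.finrank_range_A_le ![u, w] fun x => ?_).trans (by simp),
    (T.finrank_range_A_le ![u, w] fun x => sub_mem (h1 _) (h2 _)).trans (by simp)⟩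
  rw [LinearMap.sub_apply, ex_wg_apply D.toSymD hu hw, End.one_apply, sub_right_comm, sub_right_comm _ _ x,
    add_sub_cancel_left]
  exact sub_mem (sub_mem (h1 _) (h2 _)) (h1 _)

omit M in
theorem skew_sub_one {a : (End F U)ˣ} (ha : a ∈ IsoG β) (h2 : (a.1 - 1) * (a.1 - 1) = 0) :
    Adj β (a.1 - 1) (-(a.1 - 1)) := fun x y => by
  have : (a⁻¹).1 = 1 - (a.1 - 1) := Units.inv_eq_of_mul_eq_one_right (by
    linear_combination (norm := noncomm_ring) -h2)
  simp [IsoG.adj ha x y, this]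

theorem ld4 (M' : FT T' β γ B) (h4 : 4 ≤ finrank F U) {u w : U} (hu : β u u = 0) (hw : β u w = 0)
    (h : T'.Kron (T.A (ex (wg β u w)))) : (∃ a, T.A (ex (wg β u w)) = T'.A a) ∨ T'.Cm (T.A (ex (wg β u w))) := by
  rw [← Au_tU D.toSymD hu hw] at h
  obtain ⟨a, c, ha, h3, hc, e⟩ := M'.kron_iso D (M.Au_mem (tU_mem D.toSymD hu hw 1)) h (by
    rw [Au_tU, ← map_one T.A, ← map_sub, ← map_pow, (log_ex (wg_cube D.toSymD hu hw hw hw)).2.2, map_zero])
  have hr := (rank_ex (T := T) D hu hw).1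
  rw [Au_tU] at e
  rw [e] at hr ⊢
  rw [T'.AC_sub_one] at hr
  by_cases h0 : a.1 - 1 = 0
  · exact Or.inr (by simpa [sub_eq_zero.1 h0] using T'.cm_C c)
  suffices c - 1 = 0 from Or.inl ⟨a.1, by simp [sub_eq_zero.1 this]⟩
  by_cases h2 : (a.1 - 1) * (a.1 - 1) = 0
  · obtain ⟨h5, x, x', h6⟩ := D.exists_pair (skew_sub_one D ha h2) h2 h0
    exact T'.rank_two_sq h5 hc (by rwa [pow_two]) h6 hr
  · exact T'.rank_two_cube h4 hc h3 (by rwa [pow_two]) hr

theorem ld3 (M' : FT T' β γ B) (h4 : finrank F U = 3) {n : End F U} (hn : Adj β n (-n)) (h3 : n * n * n = 0)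
    (h : ∀ c : F, T'.Kron (T.A (ex (c • n)))) : (∃ a, T.A n = T'.A a) ∨ T'.Cm (T.A n) := by
  have := D.nontrivial
  have key := fun x => vandermonde D.two (D.hq.resolve_left (by omega)) (𝒮 := LinearMap.range T'.A.toLinearMap)
    (N := T.A n) (x := T'.A x) fun c => by
      obtain ⟨a', e⟩ := TP.Kron.conj_A (g := T.Au (exU D.two h3 c)) (h c) x
      exact ⟨a', by rw [← map_smul, ← map_smul, ← map_ex, ← map_ex]; exact e.symm⟩
  refine M'.lie_dich D (TP.exists_AC_of_lie fun x => ?_) (map_neg T.A n ▸ M.adj_A hn)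
    (by rw [← map_mul, ← map_mul, h3, map_zero]) (Or.inr ⟨h4, fun x y => ?_⟩)
  · obtain ⟨a, e⟩ := (key x).1
    exact ⟨a, e.symm⟩
  · obtain ⟨a, e⟩ := (key _).2
    exact ⟨a, 0, by rw [map_zero, add_zero]; exact e.symm⟩

omit M in
theorem iota_of_sq {u w : U} (hu : β u u = 0) (hw : β u w = 0) (qw : β w w ≠ 0) {z : End F V}
    (e : z * z = T.A (wg β u w) * T.A (wg β u w)) (h : (∃ a, z = T'.A a) ∨ T'.Cm z) :
    (∃ a, T.A (ee β u u) = T'.A a) ∨ T'.Cm (T.A (ee β u u)) := by
  rw [← map_mul, wg_sq D.toSymD hu hw hw, map_smul, ← inv_smul_eq_iff₀ (neg_ne_zero.2 qw)] at e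
  rw [← e]
  exact h.imp (fun ⟨a, h⟩ => ⟨(-β w w)⁻¹ • (a * a), by simp [h]⟩) fun h a => ((h a).mul_right (h a)).smul_right _

omit M in
theorem iota_of_ex {u w : U} (hu : β u u = 0) (hw : β u w = 0) (qw : β w w ≠ 0)
    (h : (∃ a, T.A (ex (wg β u w)) = T'.A a) ∨ T'.Cm (T.A (ex (wg β u w)))) :
    (∃ a, T.A (ee β u u) = T'.A a) ∨ T'.Cm (T.A (ee β u u)) :=
  iota_of_sq D hu hw qw (z := T.A (ex (wg β u w)) - 1) (by
    rw [← map_one T.A, ← map_sub, ← map_mul, (log_ex (wg_cube D.toSymD hu hw hw hw)).1, map_mul])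
    (h.imp (fun ⟨a, h⟩ => ⟨a - 1, by simp [h]⟩) fun h a => (h a).sub_right (Commute.one_right _))

theorem ld (M' : FT T' β γ B) {u : U} (hu : β u u = 0)
    (h : ∀ w (hw : β u w = 0) (c : F), T'.Kron (T.Au (tU D.toSymD hu hw c)).1) :
    (∃ a, T.A (ee β u u) = T'.A a) ∨ T'.Cm (T.A (ee β u u)) := by
  obtain ⟨w, hw, qw⟩ := exists_nonsing_perp D.toSymD D.h3 hu
  rcases D.h3.eq_or_lt with h3 | h3
  · exact iota_of_sq D hu hw qw rfl (M.ld3 D M' h3.symm (wg_adj D.toSymD u w) (wg_cube D.toSymD hu hw hw hw) (h w hw))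
  · exact iota_of_ex D hu hw qw (M.ld4 D M' h3 hu hw (Au_tU (T := T) D.toSymD hu hw ▸ h w hw 1))

theorem adj_of_A {a a' : End F U} (h : Adj B (T.A a) (T.A a')) : Adj β a a' :=
  M.flip.adj_of_C (T.flip_C.symm ▸ h)

/-- A map `ι_u ⊗ 1` lying in another factor. -/
theorem exists_iota_eq (M' : FT T' β γ B) {u : U} (hu : β u u = 0) (h0 : u ≠ 0) {b : End F U}
    (e : T.A (ee β u u) = T'.A b) : ∃ (v : U) (c : F), v ≠ 0 ∧ β v v = 0 ∧ c ≠ 0 ∧ b = c • ee β v v := by
  refine exists_iota D.toSymD (M'.adj_of_A D (e ▸ M.adj_A (ee_adj D.toSymD u u)))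
    (T'.A_injective (by rw [map_mul, ← e, ← map_mul, ee_mul, hu, zero_smul, map_zero, map_zero])) (fun h => ?_)
    (TP.not_indep_of_rank (T := T') (e ▸ (T.finrank_range_A_le (fun _ : Unit => u) (n := ee β u u) fun x =>
        Submodule.smul_mem _ _ (Submodule.subset_span ⟨(), rfl⟩)).trans (by simp)))
  obtain ⟨x, hx⟩ := exists_β_one D.toSymD h0
  rw [h, map_zero, ← map_zero T.A] at e
  exact h0 (by simpa [ee_apply, D.symm u x, hx] using LinearMap.congr_fun (T.A_injective e) x)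

end FT

theorem ee_ne_zero (D : SymD β) {u : U} (h0 : u ≠ 0) : ee β u u ≠ 0 := fun e => by
  obtain ⟨x, hx⟩ := exists_β_one D h0
  exact h0 (by simpa [ee_apply, D.symm u x, hx] using LinearMap.congr_fun e x)

variable {J : Type*} [Fintype J] {T T' : J → TP F U W V} (S : OS T β γ B H) (I : RI T β H) (S' : OS T' β γ B H)
  (I' : RI T' β H)
include S S'

include I' in
theorem OS.same_of_iota {i j : J} {u : U} (hu : β u u = 0) (h0 : u ≠ 0) {b : End F U}
    (e : (T i).A (ee β u u) = (T' j).A b) : (T i).Same (T' j) := by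
  have D := S.d
  have := D.nontrivial
  obtain ⟨v, c, v0, qv, hc, rfl⟩ := (S.ft i).exists_iota_eq D (S'.ft j) hu h0 e
  refine fun a => S.fr.exists_A fun m hm b => commute_of_sing D.toSymD D.h3 _ (fun x hx => ?_) b
  by_cases x0 : x = 0
  · simp [x0]
  have h1 : ∀ a, Commute ((T' j).A (ee β v v)) ((T m).A a) := fun a => by
    have := (S.fr.comm m i hm _ a).symm.smul_left c⁻¹ (a := (T i).A (ee β u u))
    rwa [e, map_smul, inv_smul_smul₀ hc] at this
  refine (((S.ft m).ld D (S'.ft j) hx fun w hw d => S'.kron_of_stab I' qv v0 (tU_mem_of_sq (S.sq m) D.toSymD hx hw d)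
    ((T' j).stab_of_commute D.toSymD v0 (h1 _))).resolve_left ?_ a).symm
  rintro ⟨b, e'⟩
  obtain ⟨y, d, y0, qy, hd, rfl⟩ := (S.ft m).exists_iota_eq D (S'.ft j) hx x0 e'
  have h2 := (h1 (ee β x x)).eq
  rw [e', ← map_mul, ← map_mul] at h2
  have h3 := LinearMap.congr_fun ((T' j).A_injective h2) v
  simp only [End.mul_apply, LinearMap.smul_apply, ee_apply, map_smul, qv, zero_smul, map_zero, smul_smul, smul_eq_zero,
    v0, or_false, mul_eq_zero, hd, false_or, D.symm y v, or_self] at h3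
  obtain ⟨c', hc'⟩ := (T i).exists_C (S.fr.comm i m hm.symm (ee β x x))
  have h4 : (T i).A (ee β u u) * (T i).C c' = 0 := by
    rw [e, ← hc', e', ← map_mul, smul_mul_smul_comm, ee_mul, h3, zero_smul, smul_zero, map_zero]
  rw [((T i).AC_eq_zero h4).resolve_left (ee_ne_zero D.toSymD h0), map_zero, ← map_zero (T m).A] at hc'
  exact ee_ne_zero D.toSymD x0 ((T m).A_injective hc')

include I in
theorem OS.comm_of_iota {i j : J} {u : U} (hu : β u u = 0) (h0 : u ≠ 0) (h : (T' j).Cm ((T i).A (ee β u u))) :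
    (T i).Comm (T' j) := fun a b => by
  have D := S.d
  have := D.nontrivial
  refine (commute_of_sing D.toSymD D.h3 _ (fun x hx => ?_) a).symm
  by_cases x0 : x = 0
  · simp [x0]
  refine (((S'.ft j).ld D (S.ft i) hx fun w hw d => S.kron_of_stab I hu h0 (tU_mem_of_sq (S'.sq j) D.toSymD hx hw d)
    ((T i).stab_of_commute D.toSymD h0 (h _).symm)).resolve_left ?_ b).symm
  rintro ⟨b, e⟩
  obtain ⟨a', e'⟩ := S'.same_of_iota S I hx x0 e (ee β u u)
  obtain ⟨l, rfl⟩ := TP.Cm.scalar (e' ▸ h)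
  have h1 : (T i).A (ee β u u) * (T i).A (ee β u u) = 0 := by rw [← map_mul, ee_mul, hu, zero_smul, map_zero]
  rw [e', ← map_mul, ← map_zero (T' j).A] at h1
  have h2 : l = 0 := by simpa using (T' j).A_injective h1
  rw [h2, zero_smul, map_zero, ← map_zero (T i).A] at e'
  exact ee_ne_zero D.toSymD h0 ((T i).A_injective e')

include I I' in
theorem OS.dich_of_iota {i j : J} {u : U} (hu : β u u = 0) (h0 : u ≠ 0)
    (h : (∃ a, (T i).A (ee β u u) = (T' j).A a) ∨ (T' j).Cm ((T i).A (ee β u u))) :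
    (T i).Same (T' j) ∨ (T i).Comm (T' j) :=
  h.imp (fun ⟨_, e⟩ => S.same_of_iota S' I' hu h0 e) (S.comm_of_iota I S' hu h0)

include I I' in
/-- A root element of a factor normalising a conjugate factor. -/
theorem OS.dich {i j : J} {u w : U} (hu : β u u = 0) (h0 : u ≠ 0) (hw : β u w = 0) (qw : β w w ≠ 0)
    (h : (T' j).Kron ((T i).A (ex (wg β u w)))) : (T i).Same (T' j) ∨ (T i).Comm (T' j) := by
  have D := S.d
  have := D.nontrivial
  rcases D.h3.eq_or_lt with h3 | h3
  swap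
  · exact S.dich_of_iota I S' I' hu h0 (FT.iota_of_ex D hu hw qw ((S.ft i).ld4 D (S'.ft j) h3 hu hw h))
  rw [← Au_tU D.toSymD hu hw] at h
  obtain ⟨a, c, ha, h4, -, e⟩ := (S'.ft j).kron_iso D ((S.ft i).Au_mem (tU_mem D.toSymD hu hw 1)) h (by
    rw [Au_tU, ← map_one (T i).A, ← map_sub, ← map_pow, (log_ex (wg_cube D.toSymD hu hw hw hw)).2.2, map_zero])
  rw [Au_tU] at e
  by_cases h1 : a.1 - 1 = 0
  · refine S.dich_of_iota I S' I' hu h0 (FT.iota_of_ex D hu hw qw (Or.inr ?_))
    simpa [e, sub_eq_zero.1 h1] using (T' j).cm_C c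
  have h2 : (a.1 - 1) * (a.1 - 1) ≠ 0 := fun h2 => by
    have := (D.exists_pair (FT.skew_sub_one D ha h2) h2 h1).1
    omega
  obtain ⟨m, hm⟩ : ∃ m, a.1 = 1 + m := ⟨a.1 - 1, by abel⟩
  rw [hm, add_sub_cancel_left] at h2 h4
  rw [pow_three'] at h4
  have h5 : Adj β m (m * m - m) := fun x y => by
    have h6 : (a⁻¹).1 = 1 + (m * m - m) := Units.inv_eq_of_mul_eq_one_right (by
      rw [hm]; linear_combination (norm := noncomm_ring) h4)
    simpa [hm, h6] using IsoG.adj ha x y
  have h6 : ∀ z, m * (m * (m * z)) = 0 := fun z => by rw [← mul_assoc, ← mul_assoc, h4, zero_mul]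
  have h7 : (m - (2 : F)⁻¹ • (m * m)) * (m - (2 : F)⁻¹ • (m * m)) = m * m := by
    simp [mul_sub, sub_mul, mul_assoc, ← mul_assoc m m m, h4]
  have h8 : Adj β (m * m) (m * m) := by
    simpa [mul_sub, sub_mul, mul_assoc, h6, ← mul_assoc m m m, h4] using h5.mul h5
  have h9 : Adj β (m - (2 : F)⁻¹ • (m * m)) (-(m - (2 : F)⁻¹ • (m * m))) := fun x y => by
    have := D.two
    simp only [LinearMap.sub_apply, LinearMap.smul_apply, LinearMap.neg_apply, map_sub, map_smul, map_neg, h5 x y, h8 x y,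
      smul_eq_mul]
    field_simp
    ring
  have h10 : (m - (2 : F)⁻¹ • (m * m)) * (m - (2 : F)⁻¹ • (m * m)) * (m - (2 : F)⁻¹ • (m * m)) = 0 := by
    rw [h7]; simp [mul_sub, mul_assoc, ← mul_assoc m m m, h4]
  obtain ⟨v, d, v0, qv, hd, e'⟩ := exists_iota D.toSymD h8 (by simp [mul_assoc, h6]) h2 fun x x' h => by
    have h11 : ∀ x y, β ((m * m) x) ((m * m) y) = 0 := fun x y => by
      rw [h8, ← End.mul_apply, mul_assoc, h6, LinearMap.zero_apply, map_zero]
    have := D.h5 _ _ (h11 _ _) (h11 _ _) (h11 _ _) h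
    omega
  have h11 := (S'.ft j).ld3 D (S.ft i) h3.symm h9 h10 fun c' => S.kron_of_stab I hu h0
    (exU_mem_of_sq (S'.sq j) D.two h10 h9 c') ((T i).stab_of_commute D.toSymD h0 (by
      have h11 : Commute ((T i).A (ex (wg β u w))) ((T' j).A (ex (c' • (m - (2 : F)⁻¹ • (m * m))))) := by
        rw [e]
        refine Commute.mul_left (Commute.map ?_ _) ((T' j).commute _ _).symm
        have h12 : Commute a.1 m := hm ▸ (Commute.one_left m).add_left (Commute.refl m)
        have h13 := (h12.sub_right ((h12.mul_right h12).smul_right (2 : F)⁻¹)).smul_right c'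
        exact ((Commute.one_right _).add_right h13).add_right ((h13.mul_right h13).smul_right _)
      have := (commute_of_ex (T i).A (wg_cube D.toSymD hu hw hw hw) h11).1.smul_left (-β w w)⁻¹
      rwa [wg_sq D.toSymD hu hw hw, map_smul, inv_smul_smul₀ (neg_ne_zero.2 qw)] at this))
  have h12 : (T' j).A (ee β v v) = d⁻¹ • ((T' j).A (m - (2 : F)⁻¹ • (m * m)) * (T' j).A (m - (2 : F)⁻¹ • (m * m))) := by
    rw [← map_mul, h7, e', map_smul, inv_smul_smul₀ hd]
  exact (S'.dich_of_iota I' S I qv v0 (h12 ▸ h11.imp (fun ⟨b, h⟩ => ⟨d⁻¹ • (b * b), by simp only [h, map_smul, map_mul]⟩)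
    fun h a => ((h a).mul_right (h a)).smul_right _)).imp TP.Same.symm TP.Comm.symm

end CL.TW
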