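/-
Tensor decompositions: the frame attached to a tensor power `F^ι ≃ (F^k)^{⊗ (t+1)}`, the group permuting the factors
and the tensor-wreath subgroup, permutations of the factors, and tensor powers of forms.
-/
import Cfsg.Agent.Cls.TW6
import Cfsg.Agent.Cls.TenMat

set_option autoImplicit false
set_option linter.unusedSectionVars false

namespace CL.TW

open Module Matrix CL.Asch

section Abstract

variable {F U W V : Type*} [Field F] [AddCommGroup U] [Module F U] [AddCommGroup W] [Module F W]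
  [AddCommGroup V] [Module F V] [FiniteDimensional F U] [FiniteDimensional F W] [Nontrivial U] [Nontrivial W]
  {J : Type*} {T : J → TP F U W V}

variable (T) in
/-- The group permuting the factors of a frame. -/
def PermG : Subgroup (End F V)ˣ where
  carrier := {g | ∃ π : Equiv.Perm J, ∀ j, (T (π j)).Same ((T j).mv g)}
  one_mem' := ⟨1, fun _ a => ⟨a, rfl⟩⟩
  mul_mem' := by
    rintro g h ⟨π, hg⟩ ⟨ρ, hh⟩
    refine ⟨π * ρ, fun j a => ?_⟩
    obtain ⟨a', e⟩ := hh j a
    obtain ⟨a'', e'⟩ := hg (ρ j) a'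
    exact ⟨a'', by rw [← TP.mv_mv, TP.mv_A, e, ← TP.mv_A]; exact e'⟩
  inv_mem' := by
    rintro g ⟨π, hg⟩
    refine ⟨π⁻¹, fun j a => ?_⟩
    obtain ⟨a', e⟩ := (hg (π⁻¹ j)).symm a
    exact ⟨a', by simp_all [TP.mv_A, mul_assoc]⟩

theorem mem_permG {g : (End F V)ˣ} (π : Equiv.Perm J)
    (h : ∀ j a, ∃ a', g.1 * (T j).A a * (g⁻¹).1 = (T (π j)).A a') : g ∈ PermG T :=
  ⟨π, fun j a => by simpa only [TP.mv_A] using h j a⟩

theorem Fr.Au_mem_permG (R : Fr T) (i : J) (b : (End F U)ˣ) : (T i).Au b ∈ PermG T := mem_permG 1 fun j a => by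
  by_cases e : j = i
  · exact ⟨b.1 * a * (b⁻¹).1, by simp [e, TP.Au_val, TP.Au_inv, -map_inv]⟩
  · exact ⟨a, by rw [TP.Au_val, ← (R.comm j i e _ a).eq, mul_assoc, ← TP.Au_val, Units.mul_inv, mul_one]; rfl⟩

theorem exists_not_commute (h2 : 2 ≤ finrank F U) : ∃ a b : End F U, ¬ Commute a b := by
  obtain ⟨x, hx⟩ := exists_ne (0 : U)
  obtain ⟨y, -, hy⟩ := SetLike.exists_of_lt (lt_top_iff_ne_top.2 (span_ne_top (F := F) ![x] (by simp; omega)))
  obtain ⟨α, h1, h3⟩ := exists_dual_sub hy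
  obtain ⟨α', h4⟩ := exists_dual_one (F := F) hx
  refine ⟨rk x α, rk y α', fun h => hx ?_⟩
  simpa [h1, h3 x (Submodule.subset_span ⟨0, rfl⟩), h4] using LinearMap.congr_fun h.eq x

theorem Fr.mem_permG [Finite J] (R : Fr T) (h2 : 2 ≤ finrank F U) {g : (End F V)ˣ}
    (h : ∀ j, ∃ i, (T i).Same ((T j).mv g)) : g ∈ PermG T := by
  choose π hπ using h
  refine ⟨Equiv.ofBijective π (Finite.injective_iff_bijective.1 fun j l e => ?_), hπ⟩
  by_contra hne
  obtain ⟨a, b, hab⟩ := exists_not_commute h2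
  obtain ⟨a', e₁⟩ := (hπ j).symm a
  obtain ⟨b', e₂⟩ := (hπ l).symm b
  exact hab ((T (π j)).A_injective (by
    rw [map_mul, map_mul, e₁, e, e₂]; exact (R.mv g).comm j l hne b' a'))

end Abstract

variable {F : Type*} [Field F] {ι : Type} [Fintype ι] [DecidableEq ι] {k t : ℕ}

/-- The `j`-th decomposition of a tensor power. -/
noncomputable def wT (e : ι ≃ (Fin (t + 1) → Fin k)) (P : GL ι F) (j : Fin (t + 1)) :
    TP F (Fin k → F) ((Fin t → Fin k) → F) (ι → F) :=
  ⟨((Pi.basisFun F (Fin k)).tensorProduct (Pi.basisFun F (Fin t → Fin k))).equivFun.trans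
    ((LinearEquiv.funCongrLeft F F (e.trans (Fin.insertNthEquiv (fun _ => Fin k) j).symm)).trans (Sp.glEquiv ι F P))⟩

variable (e : ι ≃ (Fin (t + 1) → Fin k)) (P : GL ι F)

theorem wT_tm (j : Fin (t + 1)) (x : Fin k → F) (y : (Fin t → Fin k) → F) :
    (wT e P j).tm x y = (P : Matrix ι ι F) *ᵥ ((fun a => x (a j) * y (j.removeNth a)) ∘ e) := by
  simp only [TP.tm_apply, wT, LinearEquiv.trans_apply, Sp.glEquiv_apply]
  congr 1
  ext i
  exact (Basis.tensorProduct_repr_tmul_apply _ _ x y (e i j) (j.removeNth (e i))).trans (by simp [mul_comm])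

theorem sum_insertNth {M : Type*} [AddCommMonoid M] (j : Fin (t + 1)) (f : (Fin (t + 1) → Fin k) → M) :
    ∑ a, f a = ∑ x : Fin k, ∑ b : Fin t → Fin k, f (j.insertNth x b) := by
  rw [← (Fin.insertNthEquiv (fun _ => Fin k) j).sum_comp, Fintype.sum_prod_type]
  rfl

theorem wT_A (j : Fin (t + 1)) (a : Matrix (Fin k) (Fin k) F) :
    (wT e P j).A (toLin' a) = toLin' (transAlg e P (slot j a)) := (wT e P j).ext_tm fun x y => by
  rw [TP.A_tm, wT_tm, wT_tm, toLin'_apply, toLin'_apply, transAlg_mulVec]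
  congr 2
  funext b
  have : ∀ c : Fin t → Fin k, ∏ i, (1 : Matrix (Fin k) (Fin k) F) (b (j.succAbove i)) (c i) =
      if j.removeNth b = c then 1 else 0 := fun c => congrFun (congrFun (pureT_one (F := F)) (j.removeNth b)) c
  simp [mulVec, dotProduct, sum_insertNth j, slot, Fin.prod_univ_succAbove _ j, this, Finset.sum_mul, mul_assoc]

theorem wT_A' (j : Fin (t + 1)) (a : End F (Fin k → F)) :
    (wT e P j).A a = toLin' (transAlg e P (slot j (LinearMap.toMatrix' a))) := by rw [← wT_A, toLin'_toMatrix']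

theorem wT_fr : Fr (wT e P) where
  comm i j h a b := by
    change _ * _ = _ * _
    rw [wT_A', wT_A', End.mul_eq_comp, End.mul_eq_comp, ← toLin'_mul, ← toLin'_mul, ← map_mul, ← map_mul, slot_commute h]
  centre z hz := by
    obtain ⟨z, rfl⟩ := toLin'.surjective z
    obtain ⟨z, rfl⟩ := (transAlg e P).surjective z
    obtain ⟨c, rfl⟩ := scalar_of_comm_slot (x := z) fun i a => (transAlg e P).injective (toLin'.injective (by
      rw [map_mul (transAlg e P), map_mul (transAlg e P), toLin'_mul, toLin'_mul, ← wT_A]; exact hz i _))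
    exact ⟨c, by rw [map_smul, map_one, map_smul, toLin'_one]; rfl⟩

theorem toLin_conj (g : GL ι F) (x : Matrix ι ι F) :
    (GeneralLinearGroup.toLin g).1 * toLin' x * ((GeneralLinearGroup.toLin g)⁻¹).1 = toLin' (conjAlg g x) := by
  rw [conjAlg_apply, toLin'_mul, toLin'_mul, ← map_inv]
  rfl

/-- The permutations of the factors. -/
noncomputable def pmU (π : Equiv.Perm (Fin (t + 1))) : (End F (ι → F))ˣ :=
  GeneralLinearGroup.toLin (transGL e P (permGL k F π))

theorem pmU_conj (π : Equiv.Perm (Fin (t + 1))) (i : Fin (t + 1)) (a : End F (Fin k → F)) :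
    (pmU e P π).1 * (wT e P i).A a * ((pmU e P π)⁻¹).1 = (wT e P (π i)).A a := by
  rw [wT_A', wT_A', pmU, toLin_conj, conjAlg_transGL, conjAlg_permGL_slot]

theorem pmU_apply (π : Equiv.Perm (Fin (t + 1))) (x : (Fin (t + 1) → Fin k) → F) :
    (pmU e P π).1 ((P : Matrix ι ι F) *ᵥ (x ∘ e)) = (P : Matrix ι ι F) *ᵥ ((fun a => x (a ∘ π)) ∘ e) := by
  refine (transAlg_mulVec e P (permT k F π) x).trans ?_
  congr 2
  funext a
  simp [mulVec, dotProduct, permT]

theorem mem_tensorWreath_iff [Nonempty (Fin k)] (g : GL ι F) :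
    g ∈ Cfsg.Geo.tensorWreathSubgroup k (t + 1) e P ↔ GeneralLinearGroup.toLin g ∈ PermG (wT e P) := by
  constructor
  · obtain ⟨g, rfl⟩ := (transGL e P).surjective g
    rw [mem_tensorWreathSubgroup_iff_transGL]
    refine fun h => (Subgroup.closure_le ((PermG (wT e P)).comap
      (GeneralLinearGroup.toLin.toMonoidHom.comp (transGL e P).toMonoidHom))).2 ?_ h
    rintro g (⟨gs, h⟩ | ⟨π, h⟩)
    · obtain rfl : g = pureGL gs := Units.ext (Matrix.ext h)
      refine mem_permG 1 fun j a => ⟨toLin' (conjAlg (gs j) (LinearMap.toMatrix' a)), ?_⟩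
      rw [wT_A', wT_A, Equiv.Perm.one_apply, ← conjAlg_pureGL_slot, ← conjAlg_transGL]
      exact toLin_conj _ _
    · obtain rfl : g = permGL k F π := Units.ext (Matrix.ext h)
      exact mem_permG π fun j a => ⟨a, pmU_conj e P π j a⟩
  · rintro ⟨π, h⟩
    refine mem_tensorWreathSubgroup_of_permutes t.succ_pos e P g π fun i a => ?_
    obtain ⟨a', h'⟩ := h i (toLin' a)
    rw [TP.mv_A, wT_A, toLin_conj, wT_A'] at h'
    exact ⟨_, toLin'.injective h'⟩

variable {e P} {σ : F → F} {f : (ι → F) → (ι → F) → F} {G : Matrix (Fin k) (Fin k) F} {c : F}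
  (h : ∀ x y : (Fin (t + 1) → Fin k) → F, f ((P : Matrix ι ι F) *ᵥ (x ∘ e)) ((P : Matrix ι ι F) *ᵥ (y ∘ e)) =
    c * ∑ a, ∑ b, x a * (∏ i, G (a i) (b i)) * σ (y b))
include h

theorem form_pmU (π : Equiv.Perm (Fin (t + 1))) (v w : ι → F) : f ((pmU e P π).1 v) ((pmU e P π).1 w) = f v w := by
  have hs : ∀ v : ι → F, ∃ x, v = (P : Matrix ι ι F) *ᵥ (x ∘ e) := fun v =>
    ⟨(((P⁻¹ : GL ι F) : Matrix ι ι F) *ᵥ v) ∘ e.symm, by simp [Function.comp_assoc]⟩
  obtain ⟨x, rfl⟩ := hs v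
  obtain ⟨y, rfl⟩ := hs w
  rw [pmU_apply, pmU_apply, h, h]
  congr 1
  refine Fintype.sum_equiv (π.symm.arrowCongr (Equiv.refl _)) _ _ fun a =>
    Fintype.sum_equiv (π.symm.arrowCongr (Equiv.refl _)) _ _ fun b => ?_
  rw [← Equiv.prod_comp π]
  rfl

theorem form_wT (hσ : ∀ a b, σ (a * b) = σ a * σ b) (j : Fin (t + 1)) (x x' : Fin k → F) (y y' : (Fin t → Fin k) → F) :
    f ((wT e P j).tm x y) ((wT e P j).tm x' y') =
      (∑ a, ∑ b, x a * G a b * σ (x' b)) * (c * ∑ a, ∑ b, y a * (∏ i, G (a i) (b i)) * σ (y' b)) := by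
  rw [wT_tm, wT_tm, h, mul_left_comm]
  congr 1
  simp only [sum_insertNth j, Fin.prod_univ_succAbove _ j, Fin.insertNth_apply_same, Fin.insertNth_apply_succAbove,
    Fin.removeNth_insertNth, hσ, Finset.sum_mul_sum]
  exact Finset.sum_congr rfl fun a _ => Finset.sum_congr rfl fun b _ =>
    Finset.sum_congr rfl fun a' _ => Finset.sum_congr rfl fun b' _ => by ring

end CL.TW
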