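import Cfsg.Agent.Cls.WS7
import Cfsg.Agent.Cls.TWMat
import Cfsg.Agent.Cls.MaxRich
import Cfsg.Agent.Cls.SpTen5

set_option autoImplicit false
set_option linter.unusedSectionVars false

/-!
Maximality of the stabilisers of tensor powers of symplectic spaces in symplectic and orthogonal groups.
-/

namespace CL.Sp

open Module CL.SLn CL.TW QuadraticMap Cfsg Cfsg.Geo Matrix
open CL.Uni (UG)
open LinearMap.GeneralLinearGroup (ofLinearEquiv toLinearEquiv)

variable {F : Type*} [Field F] {ι : Type} [Fintype ι] [DecidableEq ι] {k t : ℕ} {ε ε₁ : F}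
  {B : LinearMap.BilinForm F (ι → F)} {e : ι ≃ (Fin (t + 1) → Fin k)} {P : GL ι F}

theorem exists_frame [Nontrivial (Fin k)] (r : RF (RingHom.id F) ε B) (he : ε₁ = -ε)
    {f₁ : (Fin k → F) → (Fin k → F) → F} (hf₁ : IsSymplecticForm f₁)
    (hT : IsTensorPowerFormStructure id (fun x y => B x y) f₁ e P) :
    ∃ γ, ∃ T : Fin (t + 1) → TF (RingHom.id F) ε₁ (-1) ε γ (bilinOf hf₁.bilinear) B,
      (∀ j, (T j).tp = wT e P j) ∧ ∀ π, toLinearEquiv (pmU e P π) ∈ UG B := by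
  obtain ⟨c, -, h⟩ := hT
  have a₁ : (bilinOf hf₁.bilinear).IsAlt := hf₁.alternating
  have r₂ : RF (RingHom.id F) (-1) (bilinOf hf₁.bilinear) := ⟨fun _ => rfl, by simp, fun x y => by rw [alt_neg a₁]; simp,
    (bilinOf_nondegenerate hf₁.bilinear hf₁.nondegenerate).1⟩
  let γ := c • toBilin' (of fun a b : Fin t → Fin k => ∏ i, gramMatrix f₁ (a i) (b i))
  have h1 : ∀ j a y a' y', B ((wT e P j).tm y a) ((wT e P j).tm y' a') = γ a a' * bilinOf hf₁.bilinear y y' :=
    fun j a y a' y' => by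
      rw [form_wT (f := fun x y => B x y) h (fun _ _ => rfl), mul_comm, bilinOf_apply, bilin_eq_sum_gram hf₁.bilinear]
      simp [γ, toBilin'_apply]
  obtain ⟨u, hu⟩ := exists_ne (0 : Fin k → F)
  obtain ⟨v, hv⟩ := r₂.exists_one hu
  have r₁ : RF (RingHom.id F) ε₁ γ := ⟨fun _ => rfl, by simpa [he] using r.eps, fun x y => by
    have := r.symm ((wT e P 0).tm v x) ((wT e P 0).tm u y)
    rw [h1, h1, r₂.symm u v, hv] at this
    simpa [he] using this, fun x hx => ((wT e P 0).tm_eq_zero (r.nondeg _ (LinearMap.congr_fun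
      ((wT e P 0).ext_tm (g := 0) fun y a => by rw [h1, hx, zero_mul]; rfl)))).resolve_left hu⟩
  exact ⟨γ, fun j => { E := (wT e P j).flip.E, r₁ := r₁, r₂ := r₂, r := r, form := h1 j }, fun j =>
    congrArg TP.mk (LinearEquiv.toLinearMap_injective (TensorProduct.ext' fun _ _ => rfl)),
    form_pmU (f := fun x y => B x y) h⟩

variable [Nontrivial (Fin k)] [Finite F] {γ : LinearMap.BilinForm F ((Fin t → Fin k) → F)}
  {β : LinearMap.BilinForm F (Fin k → F)}

theorem le_or_exists (hβ : β.IsAlt) {T : Fin (t + 1) → TF (RingHom.id F) ε₁ (-1) ε γ β B} (hT : ∀ j, (T j).tp = wT e P j)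
    (hc : ((2 : F) ≠ 0 ∧ (5 ≤ Nat.card F ∨ 3 ≤ k)) ∨ ((2 : F) = 0 ∧ 6 ≤ k)) {G H : Subgroup ((ι → F) ≃ₗ[F] (ι → F))}
    (hH : H ≤ UG B) (h1 : ∀ g ∈ G, (glEquiv ι F).symm g ∈ tensorWreathSubgroup k (t + 1) e P → g ∈ H)
    (hk : ∀ j, ∀ s ∈ Isom β, (T j).kron 1 s ∈ G)
    (hp : ∀ i π, (T i).tp.Cm (pmU e P π).1 → toLinearEquiv (pmU e P π) ∈ G) :
    (∀ g ∈ H, (glEquiv ι F).symm g ∈ tensorWreathSubgroup k (t + 1) e P) ∨
      ∃ i, ∃ O : Ov (T i) H, ∀ s, s + ad (T i).r₁ s ∈ O.ZW := by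
  have e1 : ∀ g, (glEquiv ι F).symm g ∈ tensorWreathSubgroup k (t + 1) e P ↔ ofLinearEquiv g ∈ PermG (wT e P) :=
    fun g => by
      rw [mem_tensorWreath_iff, show GeneralLinearGroup.toLin ((glEquiv ι F).symm g) = ofLinearEquiv g from
        MulEquiv.apply_symm_apply _ _]
  have h2 : 2 ≤ finrank F (Fin k → F) := by simpa using Fin.nontrivial_iff_two_le.1 ‹_›
  have Φ : OF T H := ⟨funext hT ▸ wT_fr e P, fun j => ⟨hβ, hH, fun s hs => h1 _ (hk j s hs) ((e1 _).2 (by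
    rw [show ofLinearEquiv ((T j).kron 1 s) = (wT e P j).Au (ofLinearEquiv s) from
      Units.ext (LinearMap.ext fun x => hT j ▸ (T j).kron_one_apply s x)]
    exact (wT_fr e P).Au_mem_permG _ _))⟩, fun i l l' hl hl' => ⟨toLinearEquiv (pmU e P (Equiv.swap l l')),
      h1 _ (hp i _ fun a => by
        have := pmU_conj e P (Equiv.swap l l') i a
        rw [Equiv.swap_apply_of_ne_of_ne hl.symm hl'.symm, Units.mul_inv_eq_iff_eq_mul] at this
        exact hT i ▸ this.symm) ((e1 _).2 (mem_permG _ fun j a => ⟨a, pmU_conj e P _ j a⟩)),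
      fun j a => by rw [hT, hT]; exact pmU_conj e P _ j a⟩⟩
  refine (Φ.same_or (by simpa using hc) h2).imp (fun h g hg => (e1 g).2 ((wT_fr e P).mem_permG h2 fun j => ?_))
    fun ⟨i, h⟩ => ⟨i, _, h⟩
  simp only [← hT]
  exact h g hg j

omit [Nontrivial (Fin k)] [Finite F] in
theorem two_le_of_card (e : ι ≃ (Fin (t + 1) → Fin k)) (h : 2 ≤ Fintype.card ι) : 2 ≤ k := by
  have h1 := Fintype.card_congr e
  simp only [Fintype.card_pi, Fintype.card_fin, Finset.prod_const, Finset.card_univ] at h1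
  by_contra h2
  obtain rfl | rfl : k = 0 ∨ k = 1 := by omega
  all_goals simp at h1; omega

omit [Nontrivial (Fin k)] [Finite F] in
theorem isMaximalIn_sp_wreath [Fintype F] {m : ℕ} (hm : 2 ≤ m) (hodd : Odd (Fintype.card F)) (ht : 2 ≤ t)
    (hex : ¬ (Fintype.card F = 3 ∧ k = 2)) (e : (Fin m ⊕ Fin m) ≃ (Fin t → Fin k)) (P : GL (Fin m ⊕ Fin m) F)
    {f₁ : (Fin k → F) → (Fin k → F) → F} (hf₁ : IsSymplecticForm f₁)
    (hT : IsTensorPowerFormStructure id (sympForm m F) f₁ e P) :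
    IsMaximalIn (spGL m F) (tensorWreathSubgroup k t e P ⊓ spGL m F) := by
  obtain ⟨t, rfl⟩ : ∃ s, t = s + 1 := ⟨t - 1, by omega⟩
  have h2 := two_le_of_card e (by simp; omega)
  have := Fin.nontrivial_iff_two_le.2 h2
  have two := CL.Cls.two_ne_zero_of_odd_card hodd
  have hB := stdForm_isAlt (Fin m) F
  obtain ⟨γ, T, h1, h3⟩ := exists_frame (B := stdForm (Fin m) F) (ε := -1) (ε₁ := 1) (e := e) (P := P)
    ⟨fun _ => rfl, by simp, fun x y => by rw [alt_neg hB]; simp, (stdForm_nondegenerate _ _).1⟩ (neg_neg _).symm hf₁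
    (by simpa only [stdForm_eq_sympForm] using hT)
  refine isMaximalIn_spGL _ ?_ fun M hM hS g hg hgD => ?_
  · obtain ⟨g, hg, h⟩ := SetLike.not_le_iff_exists.1 ((CL.Asch.rich_spGL hm fun h => absurd (h.2 ▸ hodd)
      (by decide)).not_le_tensorWreathSubgroup (CL.Asch.singBig_zero (by simp; omega)) h2 ht e P)
    exact ⟨_, (mem_spGL_iff g).1 hg, by rwa [MulEquiv.symm_apply_apply]⟩
  obtain ⟨i, O, h⟩ := (le_or_exists (β := bilinOf hf₁.bilinear) hf₁.alternating h1 (Or.inl ⟨two, by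
      by_cases h4 : Fintype.card F = 3
      · right; omega
      · exact Or.inl (five_le_card hodd h4)⟩) hM hS
    (fun j s hs => (T j).kron_mem_UG' (one_mem _) hs) fun _ π _ => h3 π).resolve_left fun h => hgD (h g hg)
  exact O.isom_le two hB h

omit [Nontrivial (Fin k)] [Finite F] in
theorem isMaximalIn_omega_wreath [Fintype F] (hn : 10 ≤ Fintype.card ι) {Q : (ι → F) → F}
    (hQ : IsNondegenerateQuadraticForm Q) (ht : 2 ≤ t) (hex : ¬ (Fintype.card F = 3 ∧ k = 2))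
    (hex' : ¬ Odd (Fintype.card F) → 6 ≤ k) (e : ι ≃ (Fin t → Fin k)) (P : GL ι F)
    {f₁ : (Fin k → F) → (Fin k → F) → F} (hf₁ : IsSymplecticForm f₁)
    (hT : IsTensorPowerFormStructure id (polar Q) f₁ e P)
    (hp : ∀ xs : Fin t → (Fin k → F), Q ((P : Matrix ι ι F) *ᵥ ((fun a : Fin t → Fin k => ∏ i, xs i (a i)) ∘ e)) = 0) :
    IsMaximalIn (omegaGL Q) (tensorWreathSubgroup k t e P ⊓ omegaGL Q) := by
  obtain ⟨t, rfl⟩ : ∃ s, t = s + 1 := ⟨t - 1, by omega⟩
  obtain ⟨Q, rfl, hN⟩ := CL.Cls.exists_qf_of_isNondeg hQ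
  have h2 := two_le_of_card e (by omega)
  have := Fin.nontrivial_iff_two_le.2 h2
  obtain ⟨γ, T, h1, h3⟩ := exists_frame (B := polarBilin Q) (ε := 1) (ε₁ := -1) (e := e) (P := P)
    ⟨fun _ => rfl, by simp, fun x y => by simp [polar_comm Q x], hN.1⟩ rfl hf₁ hT
  have a₁ : (bilinOf hf₁.bilinear).IsAlt := hf₁.alternating
  have h4 : ∀ j a y, Q ((T j).tm a y) = 0 := fun j a y => by
    induction (Pi.basisFun F _).mem_span a using Submodule.span_induction with
    | mem _ h =>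
      obtain ⟨b, rfl⟩ := h
      rw [← TL.tp_tm, h1, wT_tm, ← hp (j.insertNth y fun i => Pi.single (b i) 1)]
      congr 3
      funext a
      rw [Fin.prod_univ_succAbove _ j]
      simp [Pi.single_apply, Finset.prod_ite_zero, funext_iff, Fin.removeNth]
    | zero => simp
    | add a a' _ _ h h' => simp [CL.Cls.map_add', h, h', (T j).polar_tm, alt_self a₁]
    | smul c a _ h => simp [CL.Cls.map_smul', h]
  obtain ⟨u, hu⟩ := exists_ne (0 : Fin k → F)
  obtain ⟨v, hv⟩ := (T 0).r₂.exists_one hu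
  have hγ : γ.IsAlt := fun a => by simpa [CL.Cls.map_add', h4, (T 0).polar_tm, hv] using h4 0 a (u + v)
  have h5 : 5 ≤ finrank F (ι → F) := by simp; omega
  have h6 : 3 ≤ finrank F ((Fin t → Fin k) → F) := by
    have e1 := Fintype.card_congr e
    have e2 : k ≤ k ^ t := Nat.le_self_pow (by omega) k
    simp only [Fintype.card_pi, Fintype.card_fin, Finset.prod_const, Finset.card_univ, pow_succ,
      finrank_fintype_fun_eq_card] at e1 ⊢
    nlinarith
  refine CL.Cls.isMaximalIn_omegaGL Q _ rfl ?_ fun H hS hH g hg hgD => ?_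
  · obtain ⟨g, hg, h⟩ := SetLike.not_le_iff_exists.1 ((CL.Asch.rich_omegaGL hN (by omega)).not_le_tensorWreathSubgroup
      (CL.Asch.singBig_of_card Q (by omega)) h2 ht e P)
    rw [CL.Cls.omegaGL_eq_map] at hg
    obtain ⟨g, hg, rfl⟩ := hg
    exact ⟨g, hg, h⟩
  have e1 : ∀ g, CL.Cls.ogGL Q g = (glEquiv ι F).symm g.1 := fun g => (glEquiv ι F).injective (LinearEquiv.ext fun v => by
    rw [glEquiv_apply, CL.Cls.ogGL_mulVec, MulEquiv.apply_symm_apply])
  have le : H.map (CL.Cls.OG Q).subtype ≤ CL.Cls.OG Q := Subgroup.map_subtype_le _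
  obtain ⟨i, O, h⟩ := (le_or_exists a₁ h1 (G := OmL Q) (by
      by_cases h : Odd (Fintype.card F)
      · refine Or.inl ⟨CL.Cls.two_ne_zero_of_odd_card h, ?_⟩
        by_cases h4 : Fintype.card F = 3
        · right; omega
        · exact Or.inl (five_le_card h h4)
      · have := hex' h
        exact (em _).symm.imp (fun h => ⟨h, Or.inr (by omega)⟩) fun h => ⟨h, this⟩) (le.trans OG_le_UG)
    (by rintro _ ⟨k, hk, rfl⟩ h; exact ⟨k, hS ⟨Subgroup.mem_comap.2 (e1 k ▸ h), hk⟩, rfl⟩)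
    (fun j s hs => TF.isom_le_rightOf (h4 j) h5 a₁ hs) fun i π h => by
      obtain ⟨c, hc⟩ := TL.mem_KS_of_cm (g := toLinearEquiv (pmU e P π)) h
      have := TF.isom_le_rightOf (T := (T i).sw) (fun y a => h4 i a y) h5 hγ (x := c) fun a b => by
        simpa [hc, (T i).kron_tm, (T i).polar_tm, hv] using h3 π ((T i).tm a u) ((T i).tm b v)
      exact hc ▸ (T i).sw_kron c 1 ▸ this).resolve_left fun h => hgD (Subgroup.mem_comap.2 (e1 g ▸ h _ ⟨g, hg, rfl⟩))
  exact (Subgroup.map_le_map_iff_of_injective (CL.Cls.OG Q).subtype_injective).1 (O.OmL_le le hγ (h4 i) h6 (by omega) h)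

end CL.Sp
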