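import Cfsg.Agent.Cls.SpTen6
import Cfsg.Agent.Cls.SpUni
import Cfsg.Agent.Cls.SpSub2
import Cfsg.Agent.Cls.SpMaxOrth
import Cfsg.Agent.Cls.WS8

/-! The geometric maximal subgroups of `Sp₈(q)`, given the extraspecial item. -/

set_option autoImplicit false
open Cfsg

namespace CL.Sp

theorem s5822_of {F : Type*} [Field F] [Fintype F]
    (hC6 : (∀ (p : ℕ) (R : Subgroup (Matrix.GeneralLinearGroup (Fin 4 ⊕ Fin 4) F)), p.Prime → Odd p → Fintype.card F = p → Cfsg.Geo.IsSymplecticTypeGroup 2 R → Cfsg.Geo.ActsAbsolutelyIrreducibly (Cfsg.Geo.matrixSet R) → R ≤ Cfsg.spGL 4 F → Nat.card R = 128 → Nat.card (Subgroup.center R) = 2 → Cfsg.Geo.IsOfMinusType 3 R → Cfsg.Geo.IsMaximalIn (Cfsg.spGL 4 F) (Cfsg.Geo.subgroupNormalizer R ⊓ Cfsg.spGL 4 F))) :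
    (∀ W : Submodule F (Fin 4 ⊕ Fin 4 → F), W ≠ ⊥ → Cfsg.Geo.IsTotallySingularFor (Cfsg.sympForm 4 F) W → Cfsg.Geo.IsMaximalIn (Cfsg.spGL 4 F) (Cfsg.Geo.subspaceStabilizer W ⊓ Cfsg.spGL 4 F)) ∧
    (∀ W : Submodule F (Fin 4 ⊕ Fin 4 → F), W ≠ ⊥ → Cfsg.Geo.IsNondegenerateOn (Cfsg.sympForm 4 F) W → Module.finrank F W < 4 → Cfsg.Geo.IsMaximalIn (Cfsg.spGL 4 F) (Cfsg.Geo.subspaceStabilizer W ⊓ Cfsg.spGL 4 F)) ∧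
    (3 ≤ Fintype.card F → ∀ D : Fin 4 → Submodule F (Fin 4 ⊕ Fin 4 → F), Cfsg.Geo.IsNondegenerateMDecomposition (Cfsg.sympForm 4 F) 2 D → Cfsg.Geo.IsMaximalIn (Cfsg.spGL 4 F) (Cfsg.Geo.decompositionStabilizer D ⊓ Cfsg.spGL 4 F)) ∧
    (∀ D : Fin 2 → Submodule F (Fin 4 ⊕ Fin 4 → F), Cfsg.Geo.IsNondegenerateMDecomposition (Cfsg.sympForm 4 F) 4 D → Cfsg.Geo.IsMaximalIn (Cfsg.spGL 4 F) (Cfsg.Geo.decompositionStabilizer D ⊓ Cfsg.spGL 4 F)) ∧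
    (Odd (Fintype.card F) → ∀ D : Fin 2 → Submodule F (Fin 4 ⊕ Fin 4 → F), Cfsg.Geo.IsMDecomposition 4 D → (∀ i, Cfsg.Geo.IsTotallySingularFor (Cfsg.sympForm 4 F) (D i)) → Cfsg.Geo.IsMaximalIn (Cfsg.spGL 4 F) (Cfsg.Geo.decompositionStabilizer D ⊓ Cfsg.spGL 4 F)) ∧
    (∀ K : Subalgebra F (Matrix (Fin 4 ⊕ Fin 4) (Fin 4 ⊕ Fin 4) F), Cfsg.Geo.IsFieldSubalgebra 2 K → Cfsg.Geo.IsSelfAdjointFor (Cfsg.sympForm 4 F) K → (∀ k ∈ K, ∀ v : (Fin 4 ⊕ Fin 4 → F), (Cfsg.sympForm 4 F) (Matrix.mulVec k v) v = 0) → Cfsg.Geo.IsMaximalIn (Cfsg.spGL 4 F) (Cfsg.Geo.subalgebraNormalizer K ⊓ Cfsg.spGL 4 F)) ∧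
    (Odd (Fintype.card F) → ∀ K : Subalgebra F (Matrix (Fin 4 ⊕ Fin 4) (Fin 4 ⊕ Fin 4) F), Cfsg.Geo.IsFieldSubalgebra 2 K → Cfsg.Geo.IsAdjointClosedFor (Cfsg.sympForm 4 F) K → ¬ Cfsg.Geo.IsSelfAdjointFor (Cfsg.sympForm 4 F) K → Cfsg.Geo.IsMaximalIn (Cfsg.spGL 4 F) (Cfsg.Geo.subalgebraNormalizer K ⊓ Cfsg.spGL 4 F)) ∧
    (Odd (Fintype.card F) → ∀ (e : (Fin 4 ⊕ Fin 4) ≃ Fin 2 × Fin 4) (P : Matrix.GeneralLinearGroup (Fin 4 ⊕ Fin 4) F) (f₁ : (Fin 2 → F) → (Fin 2 → F) → F) (f₂ : (Fin 4 → F) → (Fin 4 → F) → F), Cfsg.Geo.IsSymplecticForm f₁ → Cfsg.Geo.IsSymmetricForm f₂ → ¬ Cfsg.Geo.IsPlusTypeOn (fun v : Fin 4 → F => f₂ v v) ⊤ → Cfsg.Geo.IsTensorFormStructure id (Cfsg.sympForm 4 F) f₁ f₂ e P → Cfsg.Geo.IsMaximalIn (Cfsg.spGL 4 F) (Cfsg.Geo.tensorProductSubgroup 2 4 e P ⊓ Cfsg.spGL 4 F)) ∧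
    (∀ (F₀ : Subfield F) (r : ℕ) (P : Matrix.GeneralLinearGroup (Fin 4 ⊕ Fin 4) F) (ζ : F), r.Prime → Fintype.card F = Nat.card F₀ ^ r → ζ ≠ 0 → Cfsg.Geo.IsFormRationalStructure (Cfsg.sympForm 4 F) F₀ ζ P → Cfsg.Geo.IsMaximalIn (Cfsg.spGL 4 F) (Cfsg.Geo.subfieldSubgroup F₀ P ⊓ Cfsg.spGL 4 F)) ∧
    (∀ (p : ℕ) (R : Subgroup (Matrix.GeneralLinearGroup (Fin 4 ⊕ Fin 4) F)), p.Prime → Odd p → Fintype.card F = p → Cfsg.Geo.IsSymplecticTypeGroup 2 R → Cfsg.Geo.ActsAbsolutelyIrreducibly (Cfsg.Geo.matrixSet R) → R ≤ Cfsg.spGL 4 F → Nat.card R = 128 → Nat.card (Subgroup.center R) = 2 → Cfsg.Geo.IsOfMinusType 3 R → Cfsg.Geo.IsMaximalIn (Cfsg.spGL 4 F) (Cfsg.Geo.subgroupNormalizer R ⊓ Cfsg.spGL 4 F)) ∧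
    (Odd (Fintype.card F) → 5 ≤ Fintype.card F → ∀ (e : (Fin 4 ⊕ Fin 4) ≃ (Fin 3 → Fin 2)) (P : Matrix.GeneralLinearGroup (Fin 4 ⊕ Fin 4) F) (f₁ : (Fin 2 → F) → (Fin 2 → F) → F), Cfsg.Geo.IsSymplecticForm f₁ → Cfsg.Geo.IsTensorPowerFormStructure id (Cfsg.sympForm 4 F) f₁ e P → Cfsg.Geo.IsMaximalIn (Cfsg.spGL 4 F) (Cfsg.Geo.tensorWreathSubgroup 2 3 e P ⊓ Cfsg.spGL 4 F)) ∧
    (¬ Odd (Fintype.card F) → ∀ Q : (Fin 4 ⊕ Fin 4 → F) → F, Cfsg.Geo.IsNondegenerateQuadraticForm Q → (∀ u v : (Fin 4 ⊕ Fin 4 → F), QuadraticMap.polar Q u v = (Cfsg.sympForm 4 F) u v) → Cfsg.Geo.IsMaximalIn (Cfsg.spGL 4 F) (Cfsg.Geo.quadSimilarityGroup Q ⊓ Cfsg.spGL 4 F))  := by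
  refine ⟨fun W h0 hW => isMaximalIn_stab_isotropic W h0 hW,
    fun W h0 hW hd => isMaximalIn_stab_nondeg' W h0 hW hd,
    fun h3 D hD => isMaximalIn_decompositionStabilizer_nondeg D hD
      (by rw [Nat.card_eq_fintype_card]; omega),
    fun D hD => isMaximalIn_decompositionStabilizer_nondeg D hD (by omega),
    fun hodd D hD hts => isMaximalIn_decompositionStabilizer_isotropic (by omega) hodd D hD hts,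
    fun K hK hsa halt => isMaximalIn_subalgebraNormalizer_symp (by omega) Nat.prime_two
      (Or.inr (Or.inr (by omega))) K hK hsa halt,
    fun hodd K hK hac hn => isMaximalIn_subalgebraNormalizer_unitary (by omega) hodd K hK hac hn,
    fun hodd e P f₁ f₂ h₁ h₂ hex hT => isMaximalIn_tensor_minus (by omega) hodd e P f₁ f₂ h₁ h₂ hex hT,
    fun F₀ r P ζ hr hc hζ hP => isMaximalIn_subfieldSubgroup (Or.inl (by omega)) F₀ hr hc P hζ hP,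
    hC6,
    fun hodd h5 e P f₁ h₁ hT => isMaximalIn_sp_wreath (by omega) hodd (by omega) (by omega) e P h₁ hT,
    fun heven Q hQ hpol => isMaximalIn_quadSimilarityGroup (by omega) heven Q hQ hpol⟩

end CL.Sp
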