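/-
Elements of prime order of `Sp` acting on pairs of complementary totally isotropic subspaces.
-/
import Cfsg.Agent.Cls.ElfTwo
import Cfsg.Agent.Cls.SpMaxGL

set_option autoImplicit false

namespace CL.Elf

open Module CL.Cls CL.Elu

variable {F V : Type*} [Field F] [AddCommGroup V] [Module F V] [FiniteDimensional F V]
  {B : LinearMap.BilinForm F V} (hB : ∀ x, (∀ y, B x y = 0) → x = 0) (hA : B.IsAlt)

/-- `f` fixes or swaps a pair of complementary totally isotropic subspaces. -/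
def FxP (B : LinearMap.BilinForm F V) (f : End F V) : Prop :=
  ∃ U W : Submodule F V, IsCompl U W ∧ Ort B U U ∧ Ort B W W ∧
    ((U.map f = U ∧ W.map f = W) ∨ (U.map f = W ∧ W.map f = U))

omit [FiniteDimensional F V] in
theorem fxP_neg {f : End F V} (h : FxP B (-f)) : FxP B f := by
  simpa only [FxP, Submodule.map_neg] using h

include hB hA

theorem exists_pairs {g : V ≃ₗ[F] V} (hg : ∀ u v, B (g u) (g v) = B u v)
    (P : Submodule F V → Submodule F V → Prop) (h0 : P ⊥ ⊥)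
    (hs : ∀ U W U' W', P U W → P U' W' → P (U ⊔ U') (W ⊔ W')) (hi : ∀ U W, P U W → Inv g (U ⊔ W))
    (H : ∀ S, ND B S → Inv g S → S ≠ ⊥ → ∃ u ∈ S, ∃ v ∈ S, B u v ≠ 0 ∧ P (F ∙ u) (F ∙ v)) (n : ℕ) :
    ∀ S : Submodule F V, finrank F S = n → ND B S → Inv g S →
      ∃ U W, P U W ∧ Ort B U U ∧ Ort B W W ∧ U ⊔ W = S := by
  have h := isWittForm_alt B hB hA
  induction n using Nat.strong_induction_on with
  | _ n ih =>
  intro S hn hS hI
  by_cases e : S = ⊥
  · exact ⟨⊥, ⊥, h0, ort_bot_left, ort_bot_left, by rw [e, sup_idem]⟩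
  obtain ⟨u, hu, v, hv, huv, hP⟩ := H S hS hI e
  obtain ⟨p1, p2⟩ := nd_plane hA huv
  have p3 := plane_le hu hv
  have p4 := p1.finrank_inf_prp h p3
  obtain ⟨U, W, a1, a2, a3, a4⟩ := ih _ (by omega) _ rfl (hS.inf_prp h p1 p3) (hI.inf ((hi _ _ hP).perp hg))
  have o : Ort B (F ∙ u ⊔ F ∙ v) (U ⊔ W) := ort_prp.mono le_rfl (a4 ▸ inf_le_right)
  have o1 := o.mono le_sup_left le_sup_left
  have o2 := o.mono le_sup_right le_sup_right
  exact ⟨_, _, hs _ _ _ _ hP a1, ((ort_span (hA u)).sup_right o1).sup_left ((o1.symm h).sup_right a2),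
    ((ort_span (hA v)).sup_right o2).sup_left ((o2.symm h).sup_right a3),
    by rw [sup_sup_sup_comm, a4, p1.sup_inf_prp h p3]⟩

theorem isCompl_of_ort {U W : Submodule F V} (h1 : Ort B U U) (h2 : Ort B W W) (h3 : U ⊔ W = ⊤) :
    IsCompl U W ∧ finrank F U = finrank F W := by
  have h := isWittForm_alt B hB hA
  have a1 := (nd_top h).two_mul_le h le_top h1
  have a2 := (nd_top h).two_mul_le h le_top h2
  have a3 := Submodule.finrank_sup_add_finrank_inf_eq U W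
  rw [h3] at a3
  exact ⟨⟨disjoint_iff.2 (Submodule.finrank_eq_zero.1 (by omega)), codisjoint_iff.2 h3⟩, by omega⟩

theorem fxP_two (h2 : (2 : F) ≠ 0) : AllEl (CL.Sp.Isom B) 2 (FxP B) ∨ Subsingleton V := by
  rcases subsingleton_or_nontrivial V with h | h
  · exact Or.inr h
  refine Or.inl ((allEl_two hB h2 le_rfl).2 ⟨fun g hg g1 _ _ => ?_, fun g hg g1 => ?_⟩)
  · have g2 : ∀ v, g (g v) = v := fun v => by rw [← LinearEquiv.mul_apply, ← pow_two, g1]; rfl
    obtain ⟨U, W, a1, a2, a3, a4⟩ := exists_pairs hB hA hg (fun U W => Inv g U ∧ Inv g W)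
      ⟨inv_bot (map_zero g), inv_bot (map_zero g)⟩ (fun _ _ _ _ a b => ⟨a.1.sup' b.1, a.2.sup' b.2⟩)
      (fun _ _ a => a.1.sup' a.2) (fun S hS hI h0 => by
        obtain ⟨u₀, hu₀, h0⟩ := Submodule.exists_mem_ne_zero_of_ne_bot h0
        obtain ⟨u, hu, u0, ε, e1, e2⟩ : ∃ u ∈ S, u ≠ 0 ∧ ∃ ε : F, ε * ε = 1 ∧ g u = ε • u := by
          by_cases e : u₀ + g u₀ = 0
          · exact ⟨u₀, hu₀, h0, -1, by simp, by rw [neg_one_smul, eq_neg_iff_add_eq_zero, add_comm, e]⟩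
          · exact ⟨_, add_mem hu₀ (hI _ hu₀), e, 1, by simp, by rw [map_add, g2, one_smul, add_comm]⟩
        obtain ⟨v, hv, huv⟩ := nd_iff_ne.1 hS u hu u0
        have e3 : ∀ x, g x = ε • x → Inv g (F ∙ x) := fun x hx y hy => by
          obtain ⟨c, rfl⟩ := Submodule.mem_span_singleton.1 hy
          rw [map_smul, hx]
          exact Submodule.smul_mem _ _ (Submodule.smul_mem _ _ (Submodule.mem_span_singleton_self x))
        refine ⟨u, hu, v + ε • g v, add_mem hv (S.smul_mem _ (hI _ hv)), ?_, e3 u e2, e3 _ ?_⟩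
        · have := hg u v
          rw [e2, map_smul, LinearMap.smul_apply] at this
          rw [map_add, map_smul, this, ← two_mul]
          exact mul_ne_zero h2 huv
        · rw [map_add, map_smul, g2, smul_add, smul_smul, e1, one_smul, add_comm]) _ ⊤ rfl
      (nd_top (isWittForm_alt B hB hA)) inv_top
    have m : ∀ X : Submodule F V, Inv g X → X.map (g : V →ₗ[F] V) = X := fun X hX =>
      Submodule.eq_of_le_of_finrank_eq (map_le_iff_forall.2 hX) (LinearEquiv.finrank_map_eq g X)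
    exact ⟨U, W, (isCompl_of_ort hB hA a2 a3 a4).1, a2, a3, Or.inl ⟨m U a1.1, m W a1.2⟩⟩
  · obtain ⟨U, W, a1, a2, a3, a4⟩ := exists_pairs hB hA hg
      (fun U W => U.map (g : V →ₗ[F] V) ≤ W ∧ W.map (g : V →ₗ[F] V) ≤ U) (by simp)
      (fun _ _ _ _ a b => by
        rw [Submodule.map_sup, Submodule.map_sup]; exact ⟨sup_le_sup a.1 b.1, sup_le_sup a.2 b.2⟩)
      (fun U W a => map_le_iff_forall.1 (show (U ⊔ W).map (g : V →ₗ[F] V) ≤ _ by
        rw [Submodule.map_sup, sup_comm U W]; exact sup_le_sup a.1 a.2)) (fun S hS hI h0 => by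
        obtain ⟨u, hu, e⟩ : ∃ u ∈ S, B u (g u) ≠ 0 := by
          by_contra hc
          push Not at hc
          refine h0 (eq_bot_iff.2 fun u hu => hS u hu fun y hy => ?_)
          obtain ⟨v, hv, rfl⟩ := hI.exists_eq hy
          have e1 := hc _ (add_mem hu hv)
          have e2 := hg v (g u)
          simp only [map_add, LinearMap.add_apply, hc u hu, hc v hv, g1, map_neg] at e1 e2
          rw [LinearMap.IsAlt.neg hA] at e2
          refine (mul_eq_zero.1 ?_).resolve_left h2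
          linear_combination e1 + e2
        refine ⟨u, hu, g u, hI u hu, e, ?_, ?_⟩
        · rw [Submodule.map_span, Set.image_singleton]; rfl
        · rw [Submodule.map_span, Set.image_singleton, LinearEquiv.coe_coe, g1, Submodule.span_singleton_le_iff_mem]
          exact neg_mem (Submodule.mem_span_singleton_self u)) _ ⊤ rfl (nd_top (isWittForm_alt B hB hA)) inv_top
    obtain ⟨b1, b2⟩ := isCompl_of_ort hB hA a2 a3 a4
    exact ⟨U, W, b1, a2, a3, Or.inr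
      ⟨Submodule.eq_of_le_of_finrank_eq a1.1 ((LinearEquiv.finrank_map_eq g U).trans b2),
       Submodule.eq_of_le_of_finrank_eq a1.2 ((LinearEquiv.finrank_map_eq g W).trans b2.symm)⟩⟩

theorem tipair_ext {U W U' W' : Submodule F V} (h : CL.Sp.IsTIPair B U W) (h' : CL.Sp.IsTIPair B U' W')
    (e : U ≃ₗ[F] U') : ∃ g ∈ CL.Sp.Isom B, (∀ u : U, g u = e u) ∧ U.map (g : V →ₗ[F] V) = U' ∧
      W.map (g : V →ₗ[F] V) = W' := by
  have hN : B.Nondegenerate := hA.isRefl.nondegenerate_iff_separatingLeft.2 hB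
  obtain ⟨φ, hφ⟩ := h.exists_dualEquiv hA hN
  obtain ⟨φ', hφ'⟩ := h'.exists_dualEquiv hA hN
  let σ : W ≃ₗ[F] W' := φ.trans (e.symm.dualMap.trans φ'.symm)
  have hσ : ∀ (u : U) (w : W), B (e u) (σ w) = B u w := fun u w => by
    rw [← hφ', ← hφ]; simp [σ]
  let f : V →ₗ[F] V := LinearMap.ofIsCompl h.compl (U'.subtype ∘ₗ (e : U →ₗ[F] U')) (W'.subtype ∘ₗ (σ : W →ₗ[F] W'))
  have f1 : ∀ u : U, f u = e u := fun u => by simp [f]
  have f2 : ∀ w : W, f w = σ w := fun w => by simp [f]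
  obtain ⟨s, hs, es⟩ := CL.Sp.exists_isom_of_linear hN f fun x y => by
    obtain ⟨u, hu, w, hw, rfl⟩ := h.exists_add x
    obtain ⟨u', hu', w', hw', rfl⟩ := h.exists_add y
    simp only [map_add, f1 ⟨u, hu⟩, f1 ⟨u', hu'⟩, f2 ⟨w, hw⟩, f2 ⟨w', hw'⟩, LinearMap.add_apply,
      h.left u hu u' hu', h.right w hw w' hw', h'.right _ (σ _).2 _ (σ _).2, h'.left _ (e _).2 _ (e _).2, hσ,
      ← LinearMap.IsAlt.neg hA (e _ : V) (σ _ : V), ← LinearMap.IsAlt.neg hA u' w]
  exact ⟨s, hs, fun u => (es u).trans (f1 u), map_eq_of_glue s e fun u => (es u).trans (f1 u),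
    map_eq_of_glue s σ fun u => (es u).trans (f2 u)⟩

theorem card_tipair_dvd [Finite F] {d : ℕ} (hd : finrank F V = 2 * d) :
    Nat.card {P : Submodule F V × Submodule F V // IsCompl P.1 P.2 ∧ Ort B P.1 P.1 ∧ Ort B P.2 P.2} ∣
      Nat.card F ^ (d ^ 2) * ∏ j ∈ Finset.range d, (Nat.card F ^ (j + 1) + 1) := by
  have hN : B.Nondegenerate := hA.isRefl.nondegenerate_iff_separatingLeft.2 hB
  let _ : MulAction (V ≃ₗ[F] V) (Submodule F V × Submodule F V) :=
    { smul := fun g x => (x.1.map (g : V →ₗ[F] V), x.2.map (g : V →ₗ[F] V))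
      one_smul := fun x => Prod.ext (Submodule.map_id _) (Submodule.map_id _)
      mul_smul := fun g h x => Prod.ext (Submodule.map_comp _ _ _) (Submodule.map_comp _ _ _) }
  obtain ⟨U, W, -, a2, a3, a4⟩ := exists_pairs hB hA (g := 1) (fun _ _ => rfl) (fun _ _ => True) trivial
    (fun _ _ _ _ _ _ => trivial) (fun _ _ _ _ h => h) (fun S hS _ h0 => by
      obtain ⟨u, hu, h0⟩ := Submodule.exists_mem_ne_zero_of_ne_bot h0
      obtain ⟨v, hv, huv⟩ := nd_iff_ne.1 hS u hu h0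
      exact ⟨u, hu, v, hv, huv, trivial⟩) _ ⊤ rfl (nd_top (isWittForm_alt B hB hA)) inv_top
  have hP : CL.Sp.IsTIPair B U W := ⟨a2, a3, (isCompl_of_ort hB hA a2 a3 a4).1⟩
  have hdim : ∀ {U W}, CL.Sp.IsTIPair B U W → finrank F U = d := fun h => by
    have := h.finrank_eq hN
    have := Submodule.finrank_add_eq_of_isCompl h.compl
    omega
  have h1 := CL.Sp.card_eq_ncard_mul (CL.Sp.Isom B) (CL.Sp.Stab B U ⊓ CL.Sp.Stab B W) (U, W)
    {P | IsCompl P.1 P.2 ∧ Ort B P.1 P.1 ∧ Ort B P.2 P.2} (fun y => ⟨fun hy => by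
      have hy' : CL.Sp.IsTIPair B y.1 y.2 := ⟨hy.2.1, hy.2.2, hy.1⟩
      obtain ⟨g, b1, -, b2, b3⟩ := tipair_ext hB hA hP hy' (LinearEquiv.ofFinrankEq _ _ ((hdim hP).trans (hdim hy').symm))
      exact ⟨g, b1, Prod.ext b2 b3⟩, by
      rintro ⟨g, hg, rfl⟩
      have m : ∀ X : Submodule F V, Ort B X X → Ort B (X.map (g : V →ₗ[F] V)) (X.map (g : V →ₗ[F] V)) := by
        rintro X hX _ ⟨x, hx, rfl⟩ _ ⟨y, hy, rfl⟩; exact (hg x y).trans (hX x hx y hy)
      exact ⟨(Submodule.orderIsoMapComap g).isCompl hP.compl, m U a2, m W a3⟩⟩)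
    (fun g => ⟨fun h => ⟨h.1.1, Prod.ext h.1.2 h.2.2⟩,
      fun h => ⟨⟨h.1, congrArg Prod.fst h.2⟩, h.1, congrArg Prod.snd h.2⟩⟩)
  have h2 : Nat.card (U ≃ₗ[F] U) ∣ Nat.card ↥(CL.Sp.Stab B U ⊓ CL.Sp.Stab B W) :=
    Subgroup.card_dvd_of_surjective ((CL.Sp.restr B U).comp (Subgroup.inclusion inf_le_left)) fun e => by
      obtain ⟨g, b1, b4, b2, b3⟩ := tipair_ext hB hA hP hP e
      exact ⟨⟨g, ⟨b1, b2⟩, b1, b3⟩, LinearEquiv.ext fun u => Subtype.ext (b4 u)⟩
  have hq : 1 < Nat.card F := Finite.one_lt_card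
  have h3 : ∏ j ∈ Finset.range d, (Nat.card F ^ (j + 1) - 1) ∣ Nat.card (U ≃ₗ[F] U) := by
    rw [CL.Sp.card_linearEquiv, hdim hP, Fin.prod_univ_eq_prod_range (fun i => Nat.card F ^ d - Nat.card F ^ i),
      ← Finset.prod_range_reflect (fun i => Nat.card F ^ d - Nat.card F ^ i)]
    refine Finset.prod_dvd_prod_of_dvd _ _ fun j hj => ⟨Nat.card F ^ (d - 1 - j), ?_⟩
    rw [Nat.sub_mul, one_mul, ← pow_add, show j + 1 + (d - 1 - j) = d by have := Finset.mem_range.1 hj; omega]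
  rw [CL.Sp.card_isom hA hN hd, ← Nat.card_coe_set_eq, Finset.prod_congr rfl (fun j _ => show _ =
    (Nat.card F ^ (j + 1) + 1) * (Nat.card F ^ (j + 1) - 1) by rw [← Nat.sq_sub_sq, one_pow, ← pow_mul, mul_comm]),
    Finset.prod_mul_distrib, ← mul_assoc] at h1
  refine Nat.dvd_of_mul_dvd_mul_right (k := ∏ j ∈ Finset.range d, (Nat.card F ^ (j + 1) - 1))
    (Finset.prod_pos fun j _ => Nat.sub_pos_of_lt (Nat.one_lt_pow j.succ_ne_zero hq)) ?_
  rw [h1]
  exact Nat.mul_dvd_mul_left _ (h3.trans h2)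

omit hB hA in
theorem two_dvd_card_tipair [Finite F] [Nontrivial V] :
    2 ∣ Nat.card {P : Submodule F V × Submodule F V // IsCompl P.1 P.2 ∧ Ort B P.1 P.1 ∧ Ort B P.2 P.2} := by
  classical
  have : Finite V := Module.finite_of_finite F
  have : Finite (Submodule F V) := Finite.of_injective _ SetLike.coe_injective
  set X := {P : Submodule F V × Submodule F V // IsCompl P.1 P.2 ∧ Ort B P.1 P.1 ∧ Ort B P.2 P.2}
  have := Fintype.ofFinite X
  let f : Function.End X := fun P => ⟨P.1.swap, P.2.1.symm, P.2.2.2, P.2.2.1⟩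
  have h := Equiv.Perm.card_fixedPoints_modEq (f := f) (p := 2) (n := 1) rfl
  have e : IsEmpty f.fixedPoints := ⟨fun ⟨P, hP⟩ => by
    have h1 : P.1.2 = P.1.1 := congrArg (fun Q : X => Q.1.1) hP
    have h2 := P.2.1
    rw [h1] at h2
    exact bot_ne_top ((disjoint_self.1 h2.disjoint).symm.trans (codisjoint_self.1 h2.codisjoint))⟩
  rw [Fintype.card_eq_zero (α := f.fixedPoints)] at h
  rw [Nat.card_eq_fintype_card]
  exact (Nat.modEq_zero_iff_dvd).1 h

theorem not_allEl_fxP [Finite F] {d r : ℕ} [hr : Fact r.Prime] (hd : finrank F V = 2 * d) (h0 : d ≠ 0) (hr2 : r ≠ 2)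
    (hrF : (r : F) ≠ 0) (hΩ : r ∣
      Nat.card {P : Submodule F V × Submodule F V // IsCompl P.1 P.2 ∧ Ort B P.1 P.1 ∧ Ort B P.2 P.2} / 2) :
    ¬ AllEl (CL.Sp.Isom B) r (FxP B) := by
  have : Nontrivial V := Module.nontrivial_of_finrank_pos (R := F) (by omega)
  have ho := hr.out.odd_of_ne_two hr2
  rw [allEl_sp_odd hB ho fun _ => fxP_neg]
  intro H
  have h1 := (hΩ.trans (Nat.div_dvd_of_dvd two_dvd_card_tipair)).trans (card_tipair_dvd hB hA hd)
  have hq := natCard_cast_ne_zero hrF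
  rcases (Nat.Prime.dvd_mul hr.out).1 h1 with h | h
  · exact hq ((ZMod.natCast_eq_zero_iff _ _).2 (hr.out.dvd_of_dvd_pow h))
  obtain ⟨j, hj, h⟩ := (hr.out.prime.dvd_finsetProd_iff _).1 h
  have h2 : ((Nat.card F : ℕ) : ZMod r) ^ (j + 1) = -1 := by
    rw [eq_neg_iff_add_eq_zero]; exact_mod_cast (ZMod.natCast_eq_zero_iff _ _).2 h
  obtain ⟨i, hi⟩ : ∃ i, i = orderOf ((Nat.card F : ℕ) : ZMod r) := ⟨_, rfl⟩
  have h3 : i ∣ (j + 1) * 2 := hi ▸ orderOf_dvd_of_pow_eq_one (by rw [pow_mul, h2]; simp)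
  have h4 : ¬ Odd i := fun h => by
    have e := orderOf_dvd_iff_pow_eq_one.1 (hi ▸ (Nat.Coprime.dvd_of_dvd_mul_right (Nat.coprime_two_right.2 h) h3))
    have : Fact (2 < r) := ⟨two_lt_of_ne hr2⟩
    exact ZMod.neg_one_ne_one (h2.symm.trans e)
  have h5 := Nat.le_of_dvd (by omega) h3
  have h6 := Finset.mem_range.1 hj
  have hi0 : i ≠ 0 := hi ▸ orderOf_card_ne_zero hrF
  have ht : (r - 1) / i ≠ 0 := by
    have := Nat.le_of_dvd (by have := hr.out.two_le; omega) (hi ▸ ZMod.orderOf_dvd_card_sub_one hq)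
    exact (Nat.div_pos this (by omega)).ne'
  obtain ⟨k, hk, m0, e1, e2, -⟩ := (sp_ts hB hA hrF hi hd hr2 d).1 (fun g g1 g2 g3 => by
    obtain ⟨U, W, a1, a2, a3, a4⟩ := H g g1 g2 g3
    have a5 := (isCompl_of_ort hB hA a2 a3 a1.codisjoint.eq_top).2
    have a6 := Submodule.finrank_add_eq_of_isCompl a1
    refine ⟨U, ⟨by omega, a2⟩, ?_⟩
    rcases a4 with a4 | a4
    · exact map_le_iff_forall.1 a4.1.le
    have a7 : Inv (g * g : V ≃ₗ[F] V) U := fun v hv =>
      a4.2.le (Submodule.mem_map_of_mem (a4.1.le (Submodule.mem_map_of_mem hv)))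
    obtain ⟨s, hs⟩ := ho
    refine a7.zpowers hr.out.ne_zero (by rw [← pow_two, ← pow_mul, mul_comm, pow_mul, g2, one_pow]) g ?_
    refine Subgroup.mem_zpowers_iff.2 ⟨(s + 1 : ℕ), ?_⟩
    rw [zpow_natCast, ← pow_two, ← pow_mul, show 2 * (s + 1) = r + 1 by omega, pow_succ, g2, one_mul])
    1 0 one_ne_zero ⟨fun h => (h4 h).elim, by omega, fun _ => trivial⟩ ⟨by omega, Nat.one_le_iff_ne_zero.2 (by simpa using ht), fun h => (h4 h).elim⟩
  rw [Nat.le_zero.1 hk] at e1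
  omega

end CL.Elf
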