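/-
Polar spaces: a reflexive non-degenerate sesquilinear form `B` with a set `s` of singular vectors.
The singular vectors of `y^⊥` span it; a subspace closed under "root elements" contains `y^⊥`.
-/
import Cfsg.Agent.Cls.MaxSp

set_option autoImplicit false

namespace CL.SLn

open Module

variable {F V : Type*} [Field F] [AddCommGroup V] [Module F V] {σ : F →+* F}

/-- The data used about a Hermitian or quadratic space: `s` is the set of singular vectors, and
every subspace of dimension at least `k` has a non-zero one. -/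
structure Polar (B : V →ₛₗ[σ] V →ₗ[F] F) (s : V → Prop) (k : ℕ) : Prop where
  surj : Function.Surjective σ
  refl : ∀ x y, B x y = 0 → B y x = 0
  nondeg : ∀ x, (∀ y, B x y = 0) → x = 0
  self : ∀ e, s e → B e e = 0
  smul : ∀ (c : F) e, s e → s (c • e)
  hyp : ∀ e z, s e → B e z ≠ 0 → ∃ c : F, s (z + c • e)
  exists_mem : ∀ W : Submodule F V, k ≤ finrank F W → ∃ e ∈ W, e ≠ 0 ∧ s e

/-- The common kernel of `m` functionals has codimension at most `m`. -/
theorem finrank_le_ker_pi [FiniteDimensional F V] {m : ℕ} (f : Fin m → Dual F V) :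
    finrank F V ≤ finrank F (LinearMap.ker (LinearMap.pi f)) + m := by
  have h1 := (LinearMap.pi f).finrank_range_add_finrank_ker
  have h2 : finrank F (LinearMap.range (LinearMap.pi f)) ≤ m := by
    simpa using Submodule.finrank_le (LinearMap.range (LinearMap.pi f))
  omega

namespace Polar

variable {B : V →ₛₗ[σ] V →ₗ[F] F} {s : V → Prop} {k : ℕ}

theorem refl_ne (h : Polar B s k) {x y : V} (e : B x y ≠ 0) : B y x ≠ 0 := fun e' ↦ e (h.refl _ _ e')

theorem exists_ne_zero (h : Polar B s k) {x : V} (hx : x ≠ 0) : ∃ y, B x y ≠ 0 := by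
  by_contra hc
  push Not at hc
  exact hx (h.nondeg x hc)

theorem ext_left (h : Polar B s k) {x y : V} (e : ∀ z, B x z = B y z) : x = y :=
  sub_eq_zero.1 (h.nondeg _ fun z ↦ by simp [e z])

/-- If `y^⊥ ≤ a^⊥` then `a` is a multiple of `y`. -/
theorem exists_smul_of_perp (h : Polar B s k) {y a : V} (e : ∀ z, B y z = 0 → B a z = 0) :
    ∃ c : F, a = c • y := by
  obtain ⟨c, hc⟩ := exists_smul_of_ker_le e
  obtain ⟨d, rfl⟩ := h.surj c
  exact ⟨d, h.ext_left fun z ↦ by rw [hc, LinearMap.map_smulₛₗ]⟩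

theorem exists_perp_ne_zero (h : Polar B s k) {y a : V} (ha : ∀ c : F, a ≠ c • y) :
    ∃ z, B y z = 0 ∧ B a z ≠ 0 := by
  by_contra hc
  push Not at hc
  obtain ⟨c, hc⟩ := h.exists_smul_of_perp hc
  exact ha c hc

variable [FiniteDimensional F V]

/-- Every functional is `B y` for some `y`. -/
theorem exists_eq (h : Polar B s k) (φ : Dual F V) : ∃ y, B y = φ := by
  by_cases h0 : φ = 0
  · exact ⟨0, by rw [h0, map_zero]⟩
  classical
  let b := finBasis F V
  let L : V →ₗ[F] (Fin (finrank F V) → F) := LinearMap.pi fun i ↦ B (b i)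
  have hL : Function.Injective L := by
    rw [← LinearMap.ker_eq_bot, eq_bot_iff]
    intro x hx
    refine h.nondeg x fun y ↦ h.refl _ _ ?_
    rw [← b.sum_repr y]
    simp only [map_sum, LinearMap.map_smulₛₗ, LinearMap.sum_apply, LinearMap.smul_apply]
    exact Finset.sum_eq_zero fun i _ ↦ by
      rw [show B (b i) x = 0 from congrFun (LinearMap.mem_ker.1 hx) i, smul_zero]
  have hsp : Submodule.span F (Set.range fun i ↦ B (b i)) = ⊤ := by
    by_contra hne
    obtain ⟨ψ, h1, h2⟩ := Submodule.exists_le_ker_of_lt_top _ (lt_top_iff_ne_top.2 hne)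
    obtain ⟨x, rfl⟩ := (Module.evalEquiv F V).surjective ψ
    refine h1 ?_
    rw [show x = 0 from hL (funext fun i ↦ by
      simpa [L] using h2 (Submodule.subset_span ⟨i, rfl⟩)), map_zero]
  have hm : φ ∈ Submodule.span F (Set.range fun i ↦ B (b i)) := hsp ▸ Submodule.mem_top
  obtain ⟨c, rfl⟩ := (Submodule.mem_span_range_iff_exists_fun F).1 hm
  choose d hd using h.surj
  exact ⟨∑ i, d (c i) • b i, by simp only [map_sum, LinearMap.map_smulₛₗ, hd]⟩

/-- A non-zero singular vector orthogonal to `m` given vectors. -/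
theorem exists_sing_perp (h : Polar B s k) {m : ℕ} (hn : k + m ≤ finrank F V) (f : Fin m → V) :
    ∃ e, e ≠ 0 ∧ s e ∧ ∀ i, B (f i) e = 0 := by
  have := finrank_le_ker_pi fun i ↦ B (f i)
  obtain ⟨e, h1, h2, h3⟩ := h.exists_mem (LinearMap.ker (LinearMap.pi fun i ↦ B (f i))) (by omega)
  exact ⟨e, h2, h3, fun i ↦ congrFun (LinearMap.mem_ker.1 h1) i⟩

/-- A singular vector orthogonal to `m` given vectors and not a multiple of `y`. -/
theorem exists_sing_perp_ne (h : Polar B s k) {m : ℕ} (hn : k + (m + 1) ≤ finrank F V)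
    (f : Fin m → V) (y : V) : ∃ e, (∀ c : F, e ≠ c • y) ∧ s e ∧ ∀ i, B (f i) e = 0 := by
  by_cases hy : y = 0
  · obtain ⟨e, h1, h2, h3⟩ := h.exists_sing_perp (by omega) f
    exact ⟨e, fun c ↦ by simpa [hy] using h1, h2, h3⟩
  · obtain ⟨y', hy'⟩ := h.exists_ne_zero hy
    obtain ⟨e, h1, h2, h3⟩ := h.exists_sing_perp hn (Fin.cons y' f)
    refine ⟨e, fun c hc ↦ h1 ?_, h2, fun i ↦ h3 i.succ⟩
    have h4 : B y' e = 0 := h3 0
    rw [hc, map_smul, smul_eq_mul, mul_eq_zero] at h4
    rw [hc, h4.resolve_right (h.refl_ne hy'), zero_smul]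

omit [FiniteDimensional F V] in
/-- A subspace holding a singular vector `e` of `y^⊥` outside the radical and the singular vectors
of `y^⊥` not orthogonal to `e` holds `y^⊥`. -/
theorem perp_le (h : Polar B s k) {y e z₀ : V} {S : Submodule F V} (he : s e) (hye : B y e = 0)
    (heS : e ∈ S) (h0 : B y z₀ = 0) (h1 : B e z₀ ≠ 0)
    (hS : ∀ r, s r → B y r = 0 → B r e ≠ 0 → r ∈ S) {x : V} (hx : B y x = 0) : x ∈ S := by
  refine le_of_forall_ne_zero (U := LinearMap.ker (B y)) (φ := B e) h0 h1 (fun z hz h2 ↦ ?_) hx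
  obtain ⟨c, hc⟩ := h.hyp e z he h2
  have h3 := hS _ hc (by simp [hye, LinearMap.mem_ker.1 hz]) (by
    apply h.refl_ne
    simpa [h.self e he] using h2)
  simpa using S.sub_mem h3 (S.smul_mem c heS)

/-- If `a` is not a multiple of `y`, some singular vector of `y^⊥` is not orthogonal to `a`. -/
theorem exists_sing_perp_ne_zero (h : Polar B s k) (hn : k + 2 ≤ finrank F V) {y a : V}
    (ha : ∀ c : F, a ≠ c • y) : ∃ r, s r ∧ B y r = 0 ∧ B r a ≠ 0 := by
  by_contra hc
  push Not at hc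
  obtain ⟨e, h1, h2, h3⟩ := h.exists_sing_perp_ne hn ![y] y
  have h4 : B y e = 0 := h3 0
  obtain ⟨z, h5, h6⟩ := h.exists_perp_ne_zero h1
  obtain ⟨c, hc'⟩ := h.exists_smul_of_perp (y := y) (a := a) fun x hx ↦
    h.perp_le (S := LinearMap.ker (B a)) h2 h4 (h.refl _ _ (hc e h2 h4)) h5 h6
      (fun r hr hr' _ ↦ h.refl _ _ (hc r hr hr')) hx
  exact ha c hc'

/-- A subspace closed under the root elements of `y^⊥`, with a vector of `y^⊥` that is not a
multiple of `y`, holds `y^⊥`. -/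
theorem perp_le_of_closed (h : Polar B s k) (hn : k + 2 ≤ finrank F V) {y w : V}
    {S : Submodule F V} (hw : w ∈ S) (hyw : B y w = 0) (hne : ∀ c : F, w ≠ c • y)
    (hS : ∀ w ∈ S, ∀ r, s r → B y r = 0 → B r w ≠ 0 → r ∈ S) {x : V} (hx : B y x = 0) : x ∈ S := by
  obtain ⟨e, h1, h2, h3⟩ := h.exists_sing_perp_ne_zero hn hne
  have h4 := hS w hw e h1 h2 h3
  exact h.perp_le h1 h2 h4 hyw h3 (fun r hr hr' h5 ↦ hS e h4 r hr hr' h5) hx

theorem eq_top_of_closed (h : Polar B s k) (hn : k + 2 ≤ finrank F V) {w : V}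
    {S : Submodule F V} (hw : w ∈ S) (hne : w ≠ 0)
    (hS : ∀ w ∈ S, ∀ r, s r → B r w ≠ 0 → r ∈ S) : S = ⊤ :=
  eq_top_iff.2 fun x _ ↦ h.perp_le_of_closed hn (y := 0) hw (by simp) (by simpa using hne)
    (fun w hw r hr _ ↦ hS w hw r hr) (by simp)

end Polar

end CL.SLn
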