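import Cfsg.Agent.Cls.TenTrace
import Cfsg.Agent.Cls.PolarIrr

set_option autoImplicit false

/-!
Ranks of unipotent Kronecker products.  Overgroups of the group of Kronecker products when the second factor is
much larger than the first one.
-/

namespace CL.Sp

open Module TensorProduct CL.SLn
open CL.Uni (UG UG_apply_left UG_apply_right)

variable {F V₁ V₂ V : Type*} [Field F] [AddCommGroup V₁] [Module F V₁] [AddCommGroup V₂] [Module F V₂]
  [AddCommGroup V] [Module F V]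

namespace TL

variable (T : TL F V₁ V₂ V)

/-- The subspace `V₁ ⊗ W`. -/
noncomputable def LS (W : Submodule F V₂) : Submodule F V := LinearMap.range (T.E.toLinearMap ∘ₗ W.subtype.lTensor V₁)

theorem tm_mem_LS (a : V₁) {W : Submodule F V₂} {y : V₂} (hy : y ∈ W) : T.tm a y ∈ T.LS W := ⟨a ⊗ₜ ⟨y, hy⟩, rfl⟩

theorem LS_le {W : Submodule F V₂} {S : Submodule F V} (h : ∀ a, ∀ y ∈ W, T.tm a y ∈ S) : T.LS W ≤ S := by
  rintro _ ⟨x, rfl⟩
  induction x using TensorProduct.induction_on with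
  | zero => simp
  | tmul a y => exact h a y y.2
  | add x y hx hy => rw [map_add]; exact add_mem hx hy

theorem finrank_LS [FiniteDimensional F V₁] [FiniteDimensional F V₂] (W : Submodule F V₂) :
    finrank F (T.LS W) = finrank F V₁ * finrank F W := by
  rw [LS, LinearMap.finrank_range_of_inj (f := T.E.toLinearMap ∘ₗ W.subtype.lTensor V₁) (T.E.injective.comp
    (Module.Flat.lTensor_preserves_injective_linearMap _ W.injective_subtype)), finrank_tensorProduct]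

theorem LS_span (w : V₂) : T.LS (F ∙ w) = T.swap.M w :=
  le_antisymm (T.LS_le fun a y hy => by
    obtain ⟨c, rfl⟩ := Submodule.mem_span_singleton.1 hy
    rw [map_smul]; exact Submodule.smul_mem _ _ ⟨a, rfl⟩) (by
    rintro _ ⟨a, rfl⟩; exact T.tm_mem_LS a (Submodule.mem_span_singleton_self w))

theorem range_eq_LS {Φ : V →ₗ[F] V} {f : V₂ →ₗ[F] V₂} (h : ∀ a y, Φ (T.tm a y) = T.tm a (f y)) :
    LinearMap.range Φ = T.LS (LinearMap.range f) :=
  le_antisymm (by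
    rintro _ ⟨x, rfl⟩
    exact T.ind (P := fun x => Φ x ∈ T.LS (LinearMap.range f)) (by simp)
      (fun a y => h a y ▸ T.tm_mem_LS a ⟨y, rfl⟩) (fun x y hx hy => by rw [map_add]; exact add_mem hx hy) x)
    (T.LS_le (by rintro a _ ⟨y, rfl⟩; exact ⟨_, h a y⟩))

theorem mem_of_tm_mem_LS {a : V₁} (ha : a ≠ 0) {W : Submodule F V₂} {y : V₂} (h : T.tm a y ∈ T.LS W) : y ∈ W := by
  obtain ⟨f, hf⟩ := exists_dual_eq_one (F := F) ha
  have := T.LS_le (S := W.comap (T.φ f)) (fun b z hz => by simpa [T.φ_tm] using W.smul_mem _ hz) h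
  simpa [T.φ_tm, hf] using this

/-- The rank of `a ⊗ t - 1` for unipotent `a`. -/
theorem rank_kron [FiniteDimensional F V₁] [FiniteDimensional F V₂] [FiniteDimensional F V] {a : V₁ ≃ₗ[F] V₁}
    (t : V₂ ≃ₗ[F] V₂) {m : ℕ} (ha : ((a : End F V₁) - 1) ^ m = 0) :
    finrank F (LinearMap.range ((a : End F V₁) - 1)) * finrank F V₂ ≤
      finrank F (LinearMap.range ((T.kron a t : End F V) - 1)) := by
  set N : End F V₁ := (a : End F V₁) - 1
  obtain ⟨C, hC⟩ := (LinearMap.range N.dualMap).exists_isCompl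
  have : Free F C := Free.of_divisionRing F C
  let b := Module.finBasis F C
  let Φ : LinearMap.ker ((T.kron a t : End F V) - 1) →ₗ[F] Fin (finrank F C) → V₂ :=
    (LinearMap.pi fun i => T.φ (b i)) ∘ₗ Submodule.subtype _
  have h1 : Function.Injective Φ := by
    rw [← LinearMap.ker_eq_bot, eq_bot_iff]
    rintro ⟨x, hx⟩ h
    have hx' : T.kron a t x = x := sub_eq_zero.1 hx
    have h2 : ∀ f ∈ C, T.φ f x = 0 := fun f hf => by
      have := b.ext (f₁ := T.φ.flip x ∘ₗ C.subtype) (f₂ := 0) fun i => congrFun (LinearMap.mem_ker.1 h) i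
      exact LinearMap.congr_fun this ⟨f, hf⟩
    have h3 : ∀ f, T.φ f x = 0 → T.φ (f ∘ₗ N) x = 0 := fun f hf => by
      have := T.φ_kron a t f x
      rw [hx', hf, eq_comm, t.map_eq_zero_iff] at this
      simp [N, LinearMap.comp_sub, this, hf, End.one_eq_id]
    have h4 : ∀ k, (∀ f : Dual F V₁, T.φ (f ∘ₗ (N ^ k)) x = 0) → ∀ f, T.φ f x = 0 := fun k => by
      induction k with
      | zero => exact id
      | succ k ih =>
        refine fun h => ih fun f => ?_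
        obtain ⟨_, ⟨g, rfl⟩, c, hc, rfl⟩ := Submodule.mem_sup.1 (hC.sup_eq_top.ge (Submodule.mem_top (x := f)))
        have h5 : ∀ j, T.φ (c ∘ₗ (N ^ j)) x = 0 := fun j => by
          induction j with
          | zero => exact h2 c hc
          | succ j ih => exact h3 _ ih
        rw [LinearMap.add_comp, map_add, LinearMap.add_apply, h5, add_zero]
        have := h g
        rwa [pow_succ'] at this
    exact Subtype.ext (T.eq_zero_of_φ (h4 m fun f => by simp [ha]))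
  have h2 := LinearMap.finrank_le_finrank_of_injective h1
  have h3 := Submodule.finrank_add_eq_of_isCompl hC
  have h4 := LinearMap.finrank_range_add_finrank_ker ((T.kron a t : End F V) - 1)
  rw [LinearMap.finrank_range_dualMap_eq_finrank_range, Subspace.dual_finrank_eq] at h3
  rw [Module.finrank_pi_fintype, Finset.sum_const, Finset.card_univ, Fintype.card_fin, smul_eq_mul] at h2
  rw [T.finrank_eq, ← h3, add_mul] at h4
  omega

end TL

namespace TF

variable {σ : F →+* F} {ε ε₁ ε₂ : F}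
  {B₁ : V₁ →ₛₗ[σ] V₁ →ₗ[F] F} {B₂ : V₂ →ₛₗ[σ] V₂ →ₗ[F] F} {B : V →ₛₗ[σ] V →ₗ[F] F}
  {T : TF σ ε₁ ε₂ ε B₁ B₂ B} {X : Subgroup (V ≃ₗ[F] V)} {w : V₂} [FiniteDimensional F V₁] [FiniteDimensional F V₂]

variable (T) in
theorem exists_perp_sub (x : V) :
    ∃ W : Submodule F V₂, finrank F V₂ ≤ finrank F W + finrank F V₁ ∧ ∀ u ∈ W, T.ψ' u x = 0 := by
  let b := Module.finBasis F V₁
  refine ⟨_, finrank_le_ker_pi fun i => B₂ (T.φ (b.coord i) x), fun u hu => ?_⟩
  rw [T.eq_sum b x, map_sum]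
  exact Finset.sum_eq_zero fun i _ => by rw [T.ψ_tm, T.r₂.flip0 (congrFun (LinearMap.mem_ker.1 hu) i), zero_smul]

variable [FiniteDimensional F V] [Finite F] [Nontrivial V₁] (hX : X ≤ UG B) (hlt : finrank F V₁ < finrank F V₂)
  {c : F} (hc : c ≠ 0) (hU : ∀ u, u ≠ 0 → ∀ hu : B₂ u u = 0, UF X T.KS (unip (T.κ' u) (T.κ'_κ' hu) c))
  (hP : ∀ u, ∃ u', (∀ c : F, u' ≠ c • u) ∧ B₂ u' u' = 0 ∧ B₂ u u' = 0)
include hX hlt hc hU hP

theorem mem_KS_of_ψ'_eq {g : V ≃ₗ[F] V} (hg : g ∈ X) (hw0 : w ≠ 0) (hw : B₂ w w = 0) {a : V₁} (ha : a ≠ 0) {u : V₂}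
    (hu0 : u ≠ 0) (hu : B₂ u u = 0) (h1 : T.ψ' u (g (T.tm a w)) = 0) : g ∈ T.KS := by
  by_cases h2 : g (T.tm a w) ∈ T.L u
  · obtain ⟨b, hb⟩ := T.mem_L.1 h2
    obtain ⟨u', e1, e2, e3⟩ := hP u
    refine mem_KS_of_ψ' hX hlt hc hU hg hw0 hw ha (fun e => e1 0 (by rw [e, zero_smul])) e2
      (by rw [hb, T.ψ_tm, T.r₂.flip0 e3, zero_smul]) fun h => ?_
    obtain ⟨d, hd⟩ := T.swap.exists_smul_of_tm_mem
      (fun e => T.tm_ne_zero ha hw0 (g.injective (by simp [hb, e]))) (hb ▸ h)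
    exact e1 d⁻¹ (by rw [hd, smul_smul, inv_mul_cancel₀ fun e => hu0 (by simp [hd, e]), one_smul])
  · exact mem_KS_of_ψ' hX hlt hc hU hg hw0 hw ha hu0 hu h1 h2

theorem le_KS_of_add_le {k : ℕ} (hk : finrank F V₁ + k ≤ finrank F V₂)
    (hW : ∀ W : Submodule F V₂, k ≤ finrank F W → ∃ u ∈ W, u ≠ 0 ∧ B₂ u u = 0) : X ≤ T.KS := fun g hg => by
  obtain ⟨a, ha⟩ := exists_ne (0 : V₁)
  obtain ⟨w, -, w0, hw⟩ := hW ⊤ (by rw [finrank_top]; omega)
  obtain ⟨W, h1, h2⟩ := T.exists_perp_sub (g (T.tm a w))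
  obtain ⟨u, hu, u0, hu'⟩ := hW W (by omega)
  exact mem_KS_of_ψ'_eq hX hlt hc hU hP hg w0 hw ha u0 hu' (h2 u hu)

/-- The case `dim V₂ = dim V₁ + 1`. -/
theorem le_KS_of_succ (h3 : 3 ≤ finrank F V₁) (hk : finrank F V₂ = finrank F V₁ + 1)
    (hW : ∀ W : Submodule F V₂, 2 ≤ finrank F W → ∃ u ∈ W, u ≠ 0 ∧ B₂ u u = 0) {v : V₁} (v0 : v ≠ 0)
    (hv : B₁ v v = 0) (hs : unip (T.sw.κ' v) (T.sw.κ'_κ' hv) c ∈ X) : X ≤ T.KS := fun g hg => by
  by_contra hn
  have := finite_linearEquiv (F := F) (V := V)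
  obtain ⟨p, hp⟩ := CharP.exists F
  have hpp : Fact p.Prime := ⟨CharP.char_is_prime F p⟩
  obtain ⟨u, -, u0, hu⟩ := hW ⊤ (by rw [finrank_top]; omega)
  have : Nontrivial V₂ := ⟨_, _, u0⟩
  have hσ := cnj_cnj (T.sw.κ'_κ' hv) g
  have hs : unip _ hσ c ∈ X := unip_cnj (T.sw.κ'_κ' hv) g c ▸ mul_mem (mul_mem hg hs) (inv_mem hg)
  have hΓ : Subgroup.closure {unip _ hσ c, unip _ (T.κ'_κ' hu) c} ≤ X :=
    (Subgroup.closure_le _).2 (by rintro _ (rfl | rfl); exacts [hs, (hU u u0 hu).memX])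
  obtain ⟨γ, hγ, h⟩ := (hU u u0 hu).exists_conj (unip_pow_char _ c) hΓ (Subgroup.subset_closure (Or.inr rfl))
    (Subgroup.subset_closure (Or.inl rfl)) (unip_pow_char _ c)
  obtain ⟨a', c', R⟩ := exists_PR _ _ (closure_pair_le_PG _ _ _ _ hγ)
  rw [← unip_cnj] at h
  set τ := cnj γ (cnj g (T.sw.κ' v))
  have hr : finrank F (LinearMap.range (c • τ)) = finrank F V₂ := by
    rw [LinearMap.range_smul _ c hc, finrank_range_cnj, finrank_range_cnj, T.sw.range_κ' v0, sw_L, T.finrank_M v0]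
  obtain ⟨a, t, e, ha, -⟩ := TL.exists_unipotent h (unip_pow_char _ c)
  obtain ⟨b, hb, hab⟩ := TL.exists_fix_of_pow ha
  have e' : ∀ x, T.kron a t x = x + (c • τ) x := fun x => by rw [← e]; rfl
  rcases TL.kron_two (fun x => by simp [τ, cnj_cnj hσ]) hb hab e' hr.le h3 with h1 | h1
  · rw [T.range_eq_LS (f := (t : End F V₂) - 1) fun x y => by
      rw [← add_right_inj (T.tm x y), ← e', T.kron_tm, h1]; simp, T.finrank_LS, hk] at hr
    have := (Nat.dvd_add_right dvd_rfl).1 (Dvd.intro _ hr)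
    rw [Nat.dvd_one] at this
    omega
  obtain rfl : t = 1 := LinearEquiv.ext h1
  obtain ⟨d, hd, e1⟩ := TL.exists_range_eq_M e' hr.le fun e => by
    rw [e, LinearMap.range_zero, finrank_bot] at hr; omega
  have h4 := R.finrank_le (fun x => smul_right_injective V hc (by
      refine T.ext_tm (f := (c • τ) ∘ₗ T.κ' u) (g := T.κ' u ∘ₗ (c • τ)) (fun x y => ?_) x |>.trans (by simp)
      have h5 : ∀ y, (c • τ) (T.tm x y) = T.tm (a x - x) y := fun y => by
        rw [← add_right_inj (T.tm x y), ← e', T.kron_tm]; simp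
      simp only [LinearMap.comp_apply, h5, T.κ_apply, T.ψ_tm, map_smul, LinearMap.smul_apply (B₂ u y)])) fun x hx => by
    let f := T.ψ' u ∘ₗ (g : V →ₗ[F] V) ∘ₗ T.tm v
    have h5 : ¬ 2 ≤ finrank F (LinearMap.ker f) := fun h => by
      obtain ⟨y, hy, y0, hy'⟩ := hW _ h
      exact hn (mem_KS_of_ψ'_eq hX hlt hc hU hP hg y0 hy' v0 u0 hu hy)
    have h6 := f.finrank_range_add_finrank_ker
    have h7 : LinearMap.range f = ⊤ := Submodule.eq_top_of_finrank_eq
      (le_antisymm (Submodule.finrank_le _) (by omega))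
    rw [cnj_apply, g.map_eq_zero_iff, T.sw.κ_apply] at hx
    have h8 := (T.sw.tm_eq_zero hx).resolve_right v0
    rw [T.κ_apply, T.r₁.nondeg (T.ψ' u x) fun b => ?_, map_zero, LinearMap.zero_apply]
    obtain ⟨y, rfl⟩ := h7.ge (Submodule.mem_top (x := b))
    refine (T.B_ψ _ u _).symm.trans (T.r.flip0 ?_)
    rw [LinearMap.comp_apply, LinearEquiv.coe_coe, UG_apply_left (hX hg)]
    exact (T.sw.B_ψ y v _).trans ((congrArg (B₂ y) h8).trans (map_zero _))
  rw [← LinearMap.range_smul τ c hc, e1, T.range_κ' u0, T.swap.finrank_M u0] at h4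
  have h9 : T.M d ⊓ T.L u ≤ F ∙ T.tm d u := by
    rintro _ ⟨⟨y, rfl⟩, hy⟩
    obtain ⟨s, rfl⟩ := T.swap.exists_smul_of_tm_mem hd hy
    exact Submodule.mem_span_singleton.2 ⟨s, (map_smul _ _ _).symm⟩
  have := (Submodule.finrank_mono h9).trans (finrank_span_singleton (T.tm_ne_zero hd u0)).le
  omega

end TF

end CL.Sp
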