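/-
Elements of prime order and tensor decompositions.
-/
import Cfsg.Agent.Cls.ElfExt2
import Cfsg.Agent.Cls.TenRank
import Cfsg.Agent.Cls.TenMat

set_option autoImplicit false

namespace CL.Elf

open Module CL.Cls CL.Known CL.Elu QuadraticMap CL.Sp

variable {F V V₁ V₂ : Type*} [Field F] [AddCommGroup V] [Module F V] [AddCommGroup V₁] [Module F V₁]
  [AddCommGroup V₂] [Module F V₂] [FiniteDimensional F V] [FiniteDimensional F V₁] [FiniteDimensional F V₂]

theorem finrank_range_add_fx (g : V ≃ₗ[F] V) :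
    finrank F (LinearMap.range ((g : End F V) - 1)) + finrank F (fx g) = finrank F V := by
  rw [show fx g = LinearMap.ker ((g : End F V) - 1 : End F V) from Submodule.ext fun v => by simp [mem_fx, sub_eq_zero],
    LinearMap.finrank_range_add_finrank_ker]

/-- Every invariant subspace containing a suitable vector has dimension at least `k`. -/
def Deg (g : V → V) (F : Type*) [Field F] [Module F V] (k : ℕ) : Prop :=
  ∃ u, ∀ Z : Submodule F V, u ∈ Z → Inv g Z → k ≤ finrank F Z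

theorem deg_two {g : V ≃ₗ[F] V} (h : ∀ z : F, ¬ ∀ v, g v = z • v) : Deg g F 2 := by
  obtain ⟨u, hu⟩ : ∃ u, ∀ z : F, g u ≠ z • u := by
    by_contra H
    push Not at H
    obtain ⟨z, hz⟩ := LinearMap.exists_eq_smul_id_of_forall_notLinearIndependent (f := (g : End F V)) fun v hv => by
      obtain ⟨z, hz⟩ := H v
      exact one_ne_zero (LinearIndependent.pair_iff.1 hv (-z) 1 (by simp [hz])).2
    exact h z fun v => LinearMap.congr_fun hz v
  refine ⟨u, fun Z h1 h2 => ?_⟩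
  have h3 : LinearIndependent F ![(⟨u, h1⟩ : Z), ⟨g u, h2 u h1⟩] :=
    (LinearIndependent.pair_iff' fun e => hu 0 (by simp [show u = 0 from congrArg Subtype.val e])).2
      fun a e => hu a (congrArg Subtype.val e).symm
  simpa using h3.fintype_card_le_finrank

theorem deg_of_fpf [Finite F] {r : ℕ} [hr : Fact r.Prime] {g : V ≃ₗ[F] V} (hg : g ^ r = 1) {E : Submodule F V}
    (h0 : E ≠ ⊥) (h1 : Inv g E) (h2 : Disjoint E (fx g)) : Deg g F (orderOf ((Nat.card F : ℕ) : ZMod r)) := by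
  obtain ⟨u, u1, u2⟩ := (Submodule.ne_bot_iff _).1 h0
  exact ⟨u, fun Z z1 z2 => (Nat.le_of_dvd (Nat.pos_of_ne_zero fun e => u2 ((Submodule.eq_bot_iff _).1
    (Submodule.finrank_eq_zero.1 e) u (Submodule.mem_inf.2 ⟨z1, u1⟩))) (orderOf_dvd_finrank_of_fpf (isPGroup_zpowers hg) (Z ⊓ E)
      ((z2.inf h1).zpowers hr.out.ne_zero hg) (h2.mono_left inf_le_right))).trans (Submodule.finrank_mono inf_le_left)⟩

section Ten

variable (T : TL F V₁ V₂ V)

theorem fx_kron_le (x : V₁ ≃ₗ[F] V₁) {y : V₂ ≃ₗ[F] V₂} {k : ℕ} (h : Deg y F (k + 1)) :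
    finrank F (fx (T.kron x y)) + finrank F V₁ * k ≤ finrank F V := by
  obtain ⟨u, hu⟩ := h
  let Z₀ : Submodule F V₂ := sInf {Z | u ∈ Z ∧ Inv y Z}
  have h1 := hu Z₀ (Submodule.mem_sInf.2 fun Z hZ => hZ.1) fun v hv =>
    Submodule.mem_sInf.2 fun Z hZ => hZ.2 v (Submodule.mem_sInf.1 hv Z hZ)
  obtain ⟨W, hW⟩ := Z₀.exists_isCompl
  let S := LinearMap.range ((T.kron x y : End F V) - 1) ⊔ T.LS (F ∙ u ⊔ W)
  let Z : Submodule F V₂ := ⨅ a, S.comap (T.tm a)
  have h2 : F ∙ u ⊔ W ≤ Z := fun v hv => Submodule.mem_iInf _ |>.2 fun a => Submodule.mem_sup_right (T.tm_mem_LS a hv)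
  have h3 : Z₀ ≤ Z := sInf_le ⟨h2 (Submodule.mem_sup_left (Submodule.mem_span_singleton_self u)), fun v hv =>
    Submodule.mem_iInf _ |>.2 fun a => by
      obtain ⟨a, rfl⟩ := x.surjective a
      have := S.add_mem (Submodule.mem_sup_left ⟨T.tm a v, rfl⟩) ((Submodule.mem_iInf _).1 hv a)
      simpa [T.kron_tm] using this⟩
  have h4 : S = ⊤ := eq_top_iff.2 fun v _ => T.ind (P := (· ∈ S)) S.zero_mem (fun a v => (Submodule.mem_iInf _).1
    ((sup_le h3 (le_sup_right.trans h2)) (hW.sup_eq_top ▸ Submodule.mem_top : v ∈ Z₀ ⊔ W)) a) (fun _ _ => S.add_mem) v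
  have h5 := Submodule.finrank_add_le_finrank_add_finrank (LinearMap.range ((T.kron x y : End F V) - 1))
    (T.LS (F ∙ u ⊔ W))
  have h6 := finrank_range_add_fx (T.kron x y)
  have h7 := Submodule.finrank_add_le_finrank_add_finrank (F ∙ u) W
  have h8 := Submodule.finrank_add_eq_of_isCompl hW
  have h9 : finrank F (F ∙ u) ≤ 1 := by simpa using finrank_span_le_card ({u} : Set V₂)
  change finrank F S ≤ _ at h5
  rw [h4, finrank_top, T.finrank_LS] at h5
  have := Nat.mul_le_mul_left (finrank F V₁) (show finrank F ↥(F ∙ u ⊔ W) + k ≤ finrank F V₂ by omega)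
  rw [mul_add, ← T.finrank_eq] at this
  omega

theorem finrank_fx_kron_one (y : V₂ ≃ₗ[F] V₂) : finrank F (fx (T.kron 1 y)) = finrank F V₁ * finrank F (fx y) := by
  have h1 := finrank_range_add_fx (T.kron 1 y)
  rw [T.range_eq_LS (f := (y : End F V₂) - 1) fun a v => by simp [T.kron_tm], T.finrank_LS, T.finrank_eq,
    ← finrank_range_add_fx y, mul_add] at h1
  omega

omit [FiniteDimensional F V] [FiniteDimensional F V₁] [FiniteDimensional F V₂] in
theorem scalar_of_kron_eq_one [Nontrivial V₁] [Nontrivial V₂] {x : V₁ ≃ₗ[F] V₁} {y : V₂ ≃ₗ[F] V₂}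
    (h : T.kron x y = 1) : ∃ z : F, z ≠ 0 ∧ (∀ a, x a = z • a) ∧ ∀ u, y u = z⁻¹ • u := by
  obtain ⟨a, ha⟩ := exists_ne (0 : V₁)
  obtain ⟨u, hu⟩ := exists_ne (0 : V₂)
  have e : ∀ a u, T.tm (x a) (y u) = T.tm a u := fun a u => by rw [← T.kron_tm, h]; rfl
  obtain ⟨z, hz⟩ := T.exists_smul_of_tm_mem (v := a) (a := x a) (y := y u) (by simpa) (e a u ▸ T.tm_mem_M a u)
  have hz0 : z ≠ 0 := fun h => by simp [h, ha] at hz
  have e2 : ∀ u, y u = z⁻¹ • u := fun u => T.tm_injective ha (by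
    rw [map_smul, ← e a u, hz, map_smul, LinearMap.smul_apply, inv_smul_smul₀ hz0])
  exact ⟨z, hz0, fun a => T.tm_left_injective hu (by
    rw [map_smul, LinearMap.smul_apply, ← e a u, e2, map_smul, smul_inv_smul₀ hz0]), e2⟩

end Ten

section Codim

variable [Finite F] {r i c : ℕ} [hr : Fact r.Prime] (hrF : (r : F) ≠ 0)
  (hi : i = orderOf ((Nat.card F : ℕ) : ZMod r)) (hc : c = if Even i then i else 2 * i) {g : V ≃ₗ[F] V}
  (hgr : g ^ r = 1) (hg1 : g ≠ 1)
include hrF hi hc hgr hg1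

theorem codim_of_witt {B : LinearMap.BilinForm F V} {ε : F} {A : Type*} {Q : V → A}
    (h : IsWittForm (RingHom.id F) ε B Q) (hg : ∀ u v, B (g u) (g v) = B u v)
    (he : Even (finrank F (prp B (fx g)))) : finrank F (fx g) + c ≤ finrank F V ∧ Deg g F i := by
  have h1 := (nd_fx h hrF hg hgr).disjoint (ort_prp.symm h)
  have h2 : Inv g (prp B (fx g)) := inv_fx.perp hg
  have h3 := finrank_prp h (fx g)
  have h4 : finrank F (prp B (fx g)) ≠ 0 := fun e => hg1 (LinearEquiv.ext fun v =>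
    mem_fx.1 (Submodule.eq_top_of_finrank_eq (by omega : finrank F (fx g) = _) ▸ Submodule.mem_top))
  refine ⟨?_, hi ▸ deg_of_fpf hgr (mt Submodule.finrank_eq_zero.2 h4) h2 h1.symm⟩
  have h5 := hi ▸ orderOf_dvd_finrank_of_fpf (isPGroup_zpowers hgr) _ (h2.zpowers hr.out.ne_zero hgr) h1.symm
  have : c ∣ finrank F (prp B (fx g)) := by
    split_ifs at hc with e
    · exact hc ▸ h5
    · exact hc ▸ (Nat.coprime_two_left.2 (Nat.not_even_iff_odd.1 e)).mul_dvd_of_dvd_of_dvd he.two_dvd h5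
  have := Nat.le_of_dvd (by omega) this
  omega

end Codim

section SpO

variable [Finite F] {B : LinearMap.BilinForm F V} (hB : ∀ x, (∀ y, B x y = 0) → x = 0) (hA : B.IsAlt)
  (h2 : (2 : F) ≠ 0) {β : LinearMap.BilinForm F V₁} (hβ : ∀ x, (∀ y, β x y = 0) → x = 0) (hβ' : β.IsAlt)
  {Q : QuadraticForm F V₂} (hQ : (polarBilin Q).Nondegenerate) (T : TL F V₁ V₂ V)
  (hT : ∀ a u a' u', B (T.tm a u) (T.tm a' u') = β a a' * polar Q u u')
include hT

omit [Finite F] [FiniteDimensional F V] [FiniteDimensional F V₁] [FiniteDimensional F V₂] in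
theorem kron_mem_isom {x : V₁ ≃ₗ[F] V₁} {y : V₂ ≃ₗ[F] V₂} (hx : x ∈ Isom β) (hy : y ∈ OG Q) : T.kron x y ∈ Isom B :=
  fun v w => T.ind (P := fun v => B (T.kron x y v) (T.kron x y w) = B v w) (by simp)
    (fun a u => T.ind (P := fun w => B (T.kron x y (T.tm a u)) (T.kron x y w) = B (T.tm a u) w) (by simp)
      (fun a' u' => by rw [T.kron_tm, T.kron_tm, hT, hT, hx, OG.polar_app ⟨y, hy⟩])
      (fun _ _ h h' => by simp only [map_add, h, h']) w)
    (fun _ _ h h' => by simp only [map_add, LinearMap.add_apply, h, h']) v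

include hB hA h2 hβ hβ' hQ

theorem allEl_ten_two (ha : finrank F V₁ = 2) [Nontrivial V] : AllEl (Isom B) 2 (Cj (Isom B) T.KS) := by
  refine (allEl_two hB h2 le_rfl).2 ⟨fun g g0 g1 _ _ => ?_, fun g g0 g1 => ?_⟩
  · have h := isWittForm_of_nondeg hQ
    obtain ⟨k, hk⟩ := (nd_fx (isWittForm_alt B hB hA) (r := 2) (by exact_mod_cast h2) g0 g1).even_of_alt hA
    have e1 := Submodule.finrank_le (fx g)
    rw [T.finrank_eq, ha] at e1
    obtain ⟨W, -, w1, w2, -⟩ := (nd_top h).exists_dq' h2 (k := k) (by rw [finrank_top]; omega)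
      (k = finrank F (⊤ : Submodule F V₂) → Dq (polarBilin Q) ⊤) (fun e e' => by
        rw [Submodule.finrank_eq_zero.1 (e'.symm.trans e)]; exact dq_bot) fun e => by simp [e]
    obtain ⟨t, -, t1, t2, t3⟩ := exists_neg_on h (w1.perp h) Q.map_neg
    obtain ⟨t4, t5⟩ := fx_of_neg_on h h2 (w1.perp h) t2 t3
    exact cj_of_inv hB hA h2 g0 (kron_mem_isom T hT (one_mem _) t1) g1 (by rw [T.kron_pow, one_pow, t4, T.kron_one])
      (T.kron_mem_KS _ _) (by rw [finrank_fx_kron_one, t5, prp_prp h, ha, w2, hk, two_mul])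
  · obtain ⟨s, s1, s2⟩ := exists_sp_sq_neg hβ hβ'
    exact cj_of_sq_neg hB hA h2 g0 (kron_mem_isom T hT s1 (one_mem _)) g1 (fun v => T.ind
      (P := fun v => T.kron s 1 (T.kron s 1 v) = -v) (by simp) (fun a u => by simp [T.kron_tm, s2])
      (fun _ _ h h' => by simp only [map_add, h, h', neg_add]) v) (T.kron_mem_KS _ _)

omit hB hA hβ' [Finite F] [FiniteDimensional F V] [FiniteDimensional F V₁] [FiniteDimensional F V₂] in
theorem exists_kron_isom [Nontrivial V₁] [Nontrivial V₂] {r : ℕ} (hr : Odd r) {x : V₁ ≃ₗ[F] V₁} {y : V₂ ≃ₗ[F] V₂}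
    (h : T.kron x y ∈ Isom B) (h1 : T.kron x y ^ r = 1) :
    ∃ x' ∈ Isom β, ∃ y' ∈ OG Q, x' ^ r = 1 ∧ y' ^ r = 1 ∧ T.kron x' y' = T.kron x y := by
  obtain ⟨k, rfl⟩ := hr
  obtain ⟨z, z0, z1, z2⟩ := scalar_of_kron_eq_one T ((T.kron_pow x y _).symm.trans h1)
  have e : ∀ a u a' u', β (x a) (x a') * polar Q (y u) (y u') = β a a' * polar Q u u' := fun a u a' u' => by
    rw [← hT, ← hT, ← T.kron_tm, ← T.kron_tm, h]
  obtain ⟨a, ha⟩ := exists_ne (0 : V₁)
  obtain ⟨a', ha'⟩ := not_forall.1 (mt (hβ a) ha)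
  obtain ⟨u, hu⟩ := exists_ne (0 : V₂)
  obtain ⟨u', hu'⟩ := not_forall.1 (mt (hQ.1 u) hu)
  rw [polarBilin_apply_apply] at hu'
  have e1 : polar Q (y u) (y u') ≠ 0 := fun e1 => by simpa [e1, ha', hu'] using e a u a' u'
  obtain ⟨m, hm⟩ : ∃ m, ∀ a a', β (x a) (x a') = m * β a a' :=
    ⟨polar Q u u' / polar Q (y u) (y u'), fun a a' => by field_simp; exact (e a u a' u').trans (mul_comm _ _)⟩
  have e2 : ∀ n : ℕ, β ((x ^ n) a) ((x ^ n) a') = m ^ n * β a a' := fun n => by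
    induction n with
    | zero => simp
    | succ n ih => rw [pow_succ', LinearEquiv.mul_apply, LinearEquiv.mul_apply, hm, ih]; ring
  have e3 : z * z = m ^ (2 * k + 1) := mul_right_cancel₀ ha' (by rw [← e2, z1, z1]; simp [mul_assoc])
  have m0 : m ≠ 0 := fun e => by simp [e, z0] at e3
  let t := Units.mk0 (z / m ^ k) (div_ne_zero z0 (pow_ne_zero _ m0))
  have t1 : (t : F) * t = m := by simp only [t, Units.val_mk0]; field_simp; linear_combination e3
  have t2 : (t : F) ^ (2 * k + 1) = z := by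
    rw [pow_succ, pow_mul, pow_two, t1]; simp only [t, Units.val_mk0]; field_simp
  refine ⟨t⁻¹ • x, fun b b' => ?_, t • y, fun v => mul_left_cancel₀ h2 (mul_left_cancel₀ ha' ?_),
    LinearEquiv.ext fun v => ?_, LinearEquiv.ext fun v => ?_, T.kron_smul x y t⟩
  · simp only [LinearEquiv.smul_apply, map_smul, LinearMap.smul_apply, hm, ← t1, smul_eq_mul,
      Units.val_inv_eq_inv_val]
    field_simp
  · rw [← polar_self', ← polar_self', ← e a v a' v, hm, ← t1]
    simp only [LinearEquiv.smul_apply, polar_smul_left, polar_smul_right, smul_eq_mul]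
    ring
  · rw [smul_equiv_pow, z1, Units.val_inv_eq_inv_val, inv_pow, t2, inv_smul_smul₀ z0]; rfl
  · rw [smul_equiv_pow, z2, t2, smul_inv_smul₀ z0]; rfl

theorem allEl_ten_sp (ha : 2 ≤ finrank F V₁) (hb : 3 ≤ finrank F V₂) {r : ℕ} [hr : Fact r.Prime]
    (hΩ : r ∣ T.KS.relIndex (Isom B)) : AllEl (Isom B) r (Cj (Isom B) T.KS) ↔ r = 2 ∧ finrank F V₁ = 2 := by
  have hn := T.finrank_eq
  have h6 : 2 * 3 ≤ finrank F V := hn ▸ Nat.mul_le_mul ha hb
  have : Nontrivial V := Module.nontrivial_of_finrank_pos (R := F) (by omega)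
  have : Nontrivial V₁ := Module.nontrivial_of_finrank_pos (R := F) (by omega)
  have : Nontrivial V₂ := Module.nontrivial_of_finrank_pos (R := F) (by omega)
  refine ⟨fun H => ?_, fun ⟨e1, e2⟩ => e1 ▸ allEl_ten_two hB hA h2 hβ hβ' hQ T hT e2⟩
  have key : ∀ (x : V₁ ≃ₗ[F] V₁) (y : V₂ ≃ₗ[F] V₂) c, finrank F (fx (T.kron x y)) + c = finrank F V → c ≠ 0 → c ≤ 2 →
      finrank F V₁ ≤ c := fun x y c h c0 c2 => by
    by_cases e1 : ∀ z : F, ¬ ∀ v, y v = z • v
    · have := fx_kron_le T x (deg_two e1)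
      omega
    by_cases e2 : ∀ z : F, ¬ ∀ v, x v = z • v
    · have := fx_kron_le T.swap y (deg_two e2)
      rw [T.swap_kron] at this
      omega
    push Not at e1 e2
    obtain ⟨z, hz⟩ := e1
    obtain ⟨z', hz'⟩ := e2
    have e : ∀ v, T.kron x y v = (z * z') • v := T.ext_tm (f := (T.kron x y : End F V)) (g := (z * z') • LinearMap.id)
      fun a u => by simp [T.kron_tm, hz, hz', smul_smul]
    obtain ⟨v, v1, v2⟩ := (Submodule.ne_bot_iff (fx (T.kron x y))).1 fun e => by rw [e, finrank_bot] at h; omega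
    rw [show fx (T.kron x y) = ⊤ from eq_top_iff.2 fun w _ => mem_fx.2 (by rw [e, smul_left_injective F v2
      (((e v).symm.trans (mem_fx.1 v1)).trans (one_smul F v).symm), one_smul]), finrank_top] at h
    omega
  by_cases hrF : (r : F) = 0
  · obtain ⟨g, g1, g2, g3, g4⟩ := sp_witness_char hB hA H (by omega) hrF
    obtain ⟨_, -, ⟨x, y, rfl⟩, -, h4⟩ := g3.exists g1
    have := key x y 1 (by omega) one_ne_zero one_le_two
    omega
  obtain ⟨i, hi⟩ : ∃ i, i = orderOf ((Nat.card F : ℕ) : ZMod r) := ⟨_, rfl⟩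
  obtain ⟨c, hc⟩ : ∃ c, c = if Even i then i else 2 * i := ⟨_, rfl⟩
  have hi0 : i ≠ 0 := hi ▸ orderOf_card_ne_zero hrF
  have hc0 : c ≠ 0 := by split_ifs at hc <;> omega
  have hcn : c ≤ finrank F V := by
    obtain ⟨d, hd⟩ := even_finrank_of_alt B hB hA
    have := hΩ.trans (Subgroup.index_dvd_card _)
    rw [card_isom hA ⟨hB, fun x hx => hB x fun y => by rw [← hA.neg_eq, hx, neg_zero]⟩ (hd.trans (two_mul d).symm)]
      at this
    obtain ⟨j, j1, j2⟩ := (Prime.dvd_finsetProd_iff hr.out.prime _).1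
      ((hr.out.dvd_mul.1 this).resolve_left (not_dvd_card_pow hrF _))
    obtain ⟨e, e1, e2⟩ := c_facts hi hc Nat.card_pos j2
    have := Nat.le_of_dvd (by omega) e2
    have := Finset.mem_range.1 j1
    omega
  obtain ⟨g, g1, g2, g3, g4⟩ := sp_witness hB hA H (by omega) hrF hi hc hcn
  obtain ⟨_, h0, ⟨x, y, rfl⟩, h3, h4⟩ := g3.exists g1
  by_cases hr2 : r = 2
  · subst hr2
    rw [hi, order_two hrF, if_neg (by decide)] at hc
    have := key x y c (by omega) hc0 (by omega)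
    exact ⟨rfl, by omega⟩
  exfalso
  obtain ⟨x, x1, y, y1, x2, y2, e⟩ := exists_kron_isom h2 hβ hQ T hT (hr.out.odd_of_ne_two hr2) h0 (h3 r g2)
  rw [← e] at h4
  have hx := fun h => codim_of_witt hrF hi hc x2 h (isWittForm_alt β hβ hβ') x1
    (((nd_fx (isWittForm_alt β hβ hβ') hrF x1 x2).perp (isWittForm_alt β hβ hβ')).even_of_alt hβ')
  have hW := isWittForm_of_nondeg hQ
  have hy := fun h => codim_of_witt hrF hi hc y2 h hW (og_isom le_rfl y y1) (by
    obtain ⟨-, -, -, -, h⟩ := fpf_quad hr2 hrF (isPGroup_zpowers y2) (Subgroup.zpowers_le.2 y1)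
      ((nd_fx hW hrF (og_isom le_rfl y y1) y2).perp hW) ((inv_fx.perp (og_isom le_rfl y y1)).zpowers hr.out.ne_zero y2)
      ((nd_fx hW hrF (og_isom le_rfl y y1) y2).disjoint (ort_prp.symm hW)).symm hi
    exact h)
  by_cases x3 : x = 1
  · subst x3
    rw [finrank_fx_kron_one] at h4
    by_cases y3 : y = 1
    · rw [y3, show fx (1 : V₂ ≃ₗ[F] V₂) = ⊤ from eq_top_iff.2 fun _ _ => mem_fx.2 rfl, finrank_top] at h4
      omega
    · have := Nat.mul_le_mul_left (finrank F V₁) (hy y3).1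
      have := Nat.mul_le_mul_right c ha
      rw [mul_add] at *
      omega
  by_cases y3 : y = 1
  · subst y3
    rw [← T.swap_kron, finrank_fx_kron_one] at h4
    have := Nat.mul_le_mul_left (finrank F V₂) (hx x3).1
    have := Nat.mul_le_mul_right c hb
    rw [mul_add, mul_comm _ (finrank F V₁)] at *
    omega
  have e1 := (hx x3).1
  by_cases c2 : c ≤ 2
  · have := fx_kron_le T.swap y (deg_two (g := x) fun z hz => x3 (LinearEquiv.ext fun v => ?_))
    · rw [T.swap_kron] at this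
      omega
    · rcases scalar_eq_or hβ x1 hz with rfl | rfl
      · rw [hz, one_smul]; rfl
      · obtain ⟨k, rfl⟩ := hr.out.odd_of_ne_two hr2
        rw [pow_succ, pow_mul, show x ^ 2 = 1 from LinearEquiv.ext fun v => by simp [pow_two, hz], one_pow,
          one_mul] at x2
        exact (x3 x2).elim
  · obtain ⟨j, rfl⟩ : ∃ j, i = j + 1 := ⟨i - 1, by omega⟩
    have := fx_kron_le T x (hy y3).2
    have := Nat.mul_le_mul_left (finrank F V₁) (show 2 ≤ j by
      split_ifs at hc with e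
      · omega
      · rw [Nat.even_iff] at e; omega)
    omega

end SpO

end CL.Elf
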