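/-
Non-singular points and invariant quadratic forms in characteristic two.
-/
import Cfsg.Agent.Cls.ElfTwo

set_option autoImplicit false

open Module QuadraticMap

namespace CL.Elf

open CL.Cls CL.Known CL.Elu

variable {F V : Type*} [Field F] [AddCommGroup V] [Module F V] [FiniteDimensional F V]

section Point

variable {Q : QuadraticForm F V}

/-- A non-singular point. -/
def NP (Q : QuadraticForm F V) (W : Submodule F V) : Prop := finrank F W = 1 ∧ ∃ v ∈ W, Q v ≠ 0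

omit [FiniteDimensional F V] in
theorem np_span {v : V} (hv : Q v ≠ 0) : NP Q (F ∙ v) :=
  ⟨finrank_span_singleton (by rintro rfl; exact hv (map_zero Q)), v, Submodule.mem_span_singleton_self v, hv⟩

theorem NP.eq_span {W : Submodule F V} (h : NP Q W) : ∃ v, Q v ≠ 0 ∧ W = F ∙ v := by
  obtain ⟨h1, v, hv, h2⟩ := h
  exact ⟨v, h2, (Submodule.eq_of_le_of_finrank_eq ((Submodule.span_singleton_le_iff_mem _ _).2 hv)
    ((np_span h2).1.trans h1.symm)).symm⟩

variable [CharP F 2]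

theorem fx_np_iff {g : V ≃ₗ[F] V} (hg : g ∈ OG Q) : Fx (NP Q) (g : End F V) ↔ ∃ v, g v = v ∧ Q v ≠ 0 := by
  constructor
  · rintro ⟨W, h1, h2⟩
    obtain ⟨v, hv, rfl⟩ := h1.eq_span
    obtain ⟨c, hc⟩ := Submodule.mem_span_singleton.1 (h2 v (Submodule.mem_span_singleton_self v))
    have h3 := hg v
    rw [show g v = c • v from hc.symm, map_smul', mul_eq_right₀ hv, sq_eq_one_iff, CharTwo.neg_eq, or_self] at h3
    exact ⟨v, by rw [show g v = c • v from hc.symm, h3, one_smul], hv⟩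
  · rintro ⟨v, h1, h2⟩
    refine ⟨_, np_span h2, inv_of_fix fun x hx => ?_⟩
    obtain ⟨c, rfl⟩ := Submodule.mem_span_singleton.1 hx
    rw [map_smul, show (g : End F V) v = v from h1]

variable [Finite F] (hQ : (polarBilin Q).Nondegenerate) {r : ℕ} [hr : Fact r.Prime]
include hQ

theorem exists_fpf_og (hr2 : r ≠ 2) {R : Subgroup (V ≃ₗ[F] V)} (hR : IsPGroup r R) (hG : R ≤ OG Q)
    (hf : fixSp R = ⊥) (hn : finrank F V ≠ 0) : ∃ g ∈ OG Q, g ^ r = 1 ∧ g ≠ 1 ∧ ¬ Fx (NP Q) (g : End F V) := by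
  have := Fintype.ofFinite F
  have h := isWittForm_of_nondeg hQ
  obtain ⟨i, hi⟩ : ∃ i, i = orderOf ((Fintype.card F : ℕ) : ZMod r) := ⟨_, rfl⟩
  obtain ⟨hrF, hi, hi0, ht⟩ := ord_facts 2 (F := F) rfl hr2 hi
  obtain ⟨N, e1, e2, -⟩ := real_og hQ hr2 hrF hi rfl Iff.rfl hR hG
  have e3 := finrank_prp h (fixSp R)
  rw [e1, hf, finrank_bot] at e3
  by_contra H
  push Not at H
  refine absurd ((semi_iff_og hQ hr2 hrF hi rfl Iff.rfl (NP Q) (fun N _ => N * i < finrank F V)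
    fun g g1 g2 N w hp _ _ => ?_).1 H N (N / 2) (by rintro rfl; omega) e2
    ⟨by omega, by generalize (r - 1) / i = t at *; omega, fun h => by obtain ⟨j, rfl⟩ := e2.1 h; omega⟩) (by omega)
  have e4 := finrank_prp h (fx g)
  rw [hp.dim] at e4
  refine (fx_np_iff g1).trans ⟨fun ⟨v, v1, v2⟩ => ?_, fun H => ?_⟩
  · have : finrank F (fx g) ≠ 0 := fun e => v2 (by
      rw [(Submodule.eq_bot_iff _).1 (Submodule.finrank_eq_zero.1 e) v (mem_fx.2 v1), map_zero])
    omega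
  · obtain ⟨v, v1, v2⟩ := (nd_fx (g := g) h hrF (OG.polar_app ⟨g, g1⟩) g2).exists_nonsingular (by omega)
    exact ⟨v, mem_fx.1 v1, v2⟩

theorem not_allOrd_np (hr2 : r ≠ 2) (hΩ : r ∣ Nat.card {W // NP Q W}) (hn : finrank F V ≠ 0) :
    ¬ AllOrd (OG Q) r (Fx (NP Q)) := by
  have : Finite V := Module.finite_of_finite F
  have := Fintype.ofFinite F
  obtain ⟨R, h1, h2, h3⟩ := exists_pgroup_no_fix_sub (OG Q) _ (fun g hg W ⟨a, v, b, c⟩ =>
    ⟨(LinearEquiv.finrank_map_eq g W).trans a, g v, ⟨v, b, rfl⟩, (hg v).trans_ne c⟩) (fun W W' a b => by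
      obtain ⟨v, hv, rfl⟩ := a.eq_span
      obtain ⟨w, hw, rfl⟩ := b.eq_span
      obtain ⟨c, hc⟩ := isSquare_of_two_eq_zero CharTwo.two_eq_zero (Q v / Q w)
      have hc0 : c ≠ 0 := by rintro rfl; exact div_ne_zero hv hw (by rw [hc, mul_zero])
      have e : Q (c • w) = Q v := by rw [map_smul', pow_two, ← hc, div_mul_cancel₀ _ hw]
      obtain ⟨g, hg⟩ := exists_OG_app_eq_of_nonsingular hQ e.symm hv
      exact ⟨g.1, g.2, by rw [Submodule.map_span, Set.image_singleton, LinearEquiv.coe_coe, hg,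
        Submodule.span_singleton_smul_eq hc0.isUnit]⟩) hΩ
  obtain ⟨g, g1, g2, g3, g4⟩ := exists_fpf_og hQ hr2 h2 h1 (Submodule.finrank_eq_zero.1 (by
    by_contra e
    obtain ⟨v, v1, v2⟩ := (nd_fixSp' (isWittForm_of_nondeg hQ) (ord_facts 2 (F := F) rfl hr2 rfl).1 h2
      (og_isom h1)).exists_nonsingular e
    exact h3 _ (np_span v2) (inv_of_le_fixSp ((Submodule.span_singleton_le_iff_mem _ _).2 v1)))) hn
  exact fun H => g4 (H g g1 g2 g3)

/-- Elements of prime order fixing non-singular points. -/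
theorem allEl_np {d : ℕ} (hd : finrank F V = 2 * d) (h3 : 3 ≤ d) (hΩ : r ∣ Nat.card {W // NP Q W}) :
    AllEl (Om Q) r (Fx (NP Q)) ↔ r = 2 ∧ (Pl Q ⊤ → Odd d) := by
  have : Nontrivial V := Module.nontrivial_of_finrank_pos (R := F) (by omega)
  by_cases hr2 : r = 2
  · subst hr2
    rw [allEl_char_two hQ.1 CharTwo.two_eq_zero (og_isom Om_le), and_iff_right rfl]
    refine ⟨fun H hp => ?_, fun H g g1 g2 _ => (fx_np_iff (Om_le g1)).2 ?_⟩
    · by_contra e
      rw [Nat.odd_iff] at e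
      obtain ⟨g, g1, g2, g3, g4, -⟩ := exists_alt_der hQ (by omega) (k := d / 2) (by omega) (by omega) fun _ => hp
      obtain ⟨v, v1, v2⟩ := (fx_np_iff (Om_le g1)).1 (H g g1 g2 g3)
      exact v2 (g4 (by omega) v v1)
    · by_contra e
      push Not at e
      obtain ⟨e1, e2⟩ := pl_of_fix_singular hQ (Om_le g1) (mul_self_eq_one_iff_app.1 ((pow_two g).symm.trans g2)) hd e
      have := (mem_Om_iff_even hQ (by omega) (Om_le g1)).1 g1
      have := Nat.odd_iff.1 (H e1)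
      omega
  · rw [allEl_Om_odd hQ (by omega) (hr.out.odd_of_ne_two hr2) fun _ => fx_neg]
    exact iff_of_false (not_allOrd_np hQ hr2 hΩ (by omega)) fun h => hr2 h.1

end Point

section Form

variable {Q Q' : QuadraticForm F V}

/-- A group which preserves `Q'` and acts trivially on the complement of `D` is conjugate into `O(Q)`. -/
theorem exists_conj_og [Finite F] (hQ : (polarBilin Q).Nondegenerate) (hA : (polarBilin Q).IsAlt)
    (hp : polarBilin Q' = polarBilin Q) {R : Subgroup (V ≃ₗ[F] V)} (hR : R ≤ OG Q') {D D' : Submodule F V}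
    (hD : ND (polarBilin Q) D) (hD' : ND (polarBilin Q) D') (hi : ∀ g ∈ R, Inv g D)
    (hf : prp (polarBilin Q) D ≤ fixSp R) (hd : finrank F D' = finrank F D) (ht : Pl Q D' ↔ Pl Q' D) :
    ∃ y ∈ CL.Sp.Isom (polarBilin Q), ∀ g ∈ R, y * g * y⁻¹ ∈ OG Q := by
  have h := isWittForm_alt _ (nondeg_iff.1 hQ) hA
  obtain ⟨k, hk⟩ := hD.even_of_alt hA
  rw [← two_mul] at hk
  obtain ⟨e, he⟩ := exists_equiv_of_isPlus_iff (hp ▸ hD : ND (polarBilin Q') D).nondeg hD'.nondeg hk (hd.trans hk)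
    (by rw [← pl_iff_isPlus hk, ← pl_iff_isPlus (hd.trans hk), ht])
  obtain ⟨y, y1, -, y3⟩ := h.exists_isometry_extend D (D'.subtype ∘ₗ e.toLinearMap)
    (D'.injective_subtype.comp e.injective) (fun a b => (polar_comp_subtype _ _).symm.trans
      ((polar_congr_of_equiv e he a b).trans ((polar_comp_subtype _ _).trans
        (LinearMap.congr_fun₂ hp (a : V) (b : V))))) fun _ => rfl
  refine ⟨y, y1, fun g hg v => ?_⟩
  obtain ⟨u, rfl⟩ := y.surjective v
  obtain ⟨a, ha, b, hb, rfl⟩ := hD.exists_add h u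
  have key : ∀ a ∈ D, Q (y (a + b)) = Q' a + Q (y b) := fun a ha => by
    rw [map_add, map_add', show polar Q (y a) (y b) = 0 from (y1 a b).trans (hb a ha), add_zero, y3 ⟨a, ha⟩]
    exact congrArg (· + _) (he ⟨a, ha⟩)
  rw [LinearEquiv.mul_apply, LinearEquiv.mul_apply, LinearEquiv.coe_inv, LinearEquiv.symm_apply_apply, map_add g,
    hf hb g hg, key _ (hi g hg a ha), key a ha, hR hg a]

omit [FiniteDimensional F V] in
theorem exists_average_form (R : Subgroup (V ≃ₗ[F] V)) [Finite R] (hR : R ≤ CL.Sp.Isom (polarBilin Q))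
    (h1 : (Nat.card R : F) = 1) : ∃ Q' : QuadraticForm F V, polarBilin Q' = polarBilin Q ∧ R ≤ OG Q' := by
  have := Fintype.ofFinite R
  refine ⟨∑ g : R, Q.comp (g.1 : V →ₗ[F] V), LinearMap.ext₂ fun u v => ?_, fun g hg v => ?_⟩
  · simp only [polarBilin_apply_apply, polar, sum_apply, ← Finset.sum_sub_distrib, comp_apply, map_add]
    refine (Finset.sum_congr rfl fun g _ => show _ = polar Q u v from hR g.2 u v).trans ?_
    rw [Finset.sum_const, Finset.card_univ, nsmul_eq_mul, ← Nat.card_eq_fintype_card, h1, one_mul, polar]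
  · simp only [sum_apply, comp_apply]
    exact Fintype.sum_equiv (Equiv.mulRight ⟨g, hg⟩) _ _ fun _ => rfl

/-- `f` is conjugate into `O(Q)`. -/
def ConjO (Q : QuadraticForm F V) (f : End F V) : Prop :=
  ∃ y ∈ CL.Sp.Isom (polarBilin Q), ∀ v, Q (y.symm (f (y v))) = Q v

variable [CharP F 2] [Finite F] (hQ : (polarBilin Q).Nondegenerate) {r : ℕ} [hr : Fact r.Prime]
include hQ

theorem not_allOrd_conjO (hr2 : r ≠ 2) (hΩ : r ∣ (OG Q).relIndex (CL.Sp.Isom (polarBilin Q))) :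
    ¬ AllOrd (CL.Sp.Isom (polarBilin Q)) r (ConjO Q) := by
  have : Finite V := Module.finite_of_finite F
  have : Finite (V ≃ₗ[F] V) := Finite.of_injective _ DFunLike.coe_injective
  have := Fintype.ofFinite F
  have hA := polar_isAlt_two Q
  have h := isWittForm_of_nondeg hQ
  obtain ⟨hrF, hi, hi0, -⟩ := ord_facts 2 (F := F) rfl hr2 rfl
  obtain ⟨P⟩ : Nonempty (Sylow r (CL.Sp.Isom (polarBilin Q))) := inferInstance
  have hR := P.isPGroup'.map (CL.Sp.Isom (polarBilin Q)).subtype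
  set R := (P : Subgroup (CL.Sp.Isom (polarBilin Q))).map (CL.Sp.Isom (polarBilin Q)).subtype
  have hG : R ≤ CL.Sp.Isom (polarBilin Q) := Subgroup.map_subtype_le _
  have key : ¬ ∃ y ∈ CL.Sp.Isom (polarBilin Q), ∀ g ∈ R, y * g * y⁻¹ ∈ OG Q := fun ⟨y, y1, y2⟩ =>
    ((⟨y, y1⟩ : CL.Sp.Isom (polarBilin Q)) • P).not_dvd_index (hΩ.trans (Subgroup.index_dvd_of_le (by
      rintro _ ⟨g, hg, rfl⟩
      exact y2 g ⟨g, hg, rfl⟩)))
  obtain ⟨Q', q1, q2⟩ := exists_average_form R hG (by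
    obtain ⟨k, hk⟩ := IsPGroup.iff_card.1 hR
    obtain ⟨j, hj⟩ := hr.out.odd_of_ne_two hr2
    rw [hk, hj]
    simp [CharTwo.two_eq_zero])
  have hQ' : (polarBilin Q').Nondegenerate := q1 ▸ hQ
  have hC := nd_fixSp' h hrF hR hG
  have hD := hC.perp h
  have e1 := finrank_prp h (fixSp R)
  have H : finrank F (fixSp R) = 0 ∧ ¬ (Pl Q ⊤ ↔ Pl Q' ⊤) := by
    by_contra H
    obtain ⟨D', -, d1, d2, d3⟩ := (nd_top h).exists_pl' (hD.even_of_alt hA) (Submodule.finrank_mono le_top)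
      (Pl Q' (prp (polarBilin Q) (fixSp R))) (fun e => by rw [Submodule.finrank_eq_zero.1 e]; exact pl_bot) fun e => by
        rw [Submodule.eq_top_of_finrank_eq (e.trans (finrank_top F V))]
        rw [finrank_top] at e
        exact of_not_not fun h => H ⟨by omega, h⟩
    exact key (exists_conj_og hQ hA q1 q2 hD d1 (inv_prp_fixSp hG) (prp_prp h _).le d2 d3)
  have hn : finrank F V ≠ 0 := fun e => H.2 (by
    rw [Submodule.finrank_eq_zero.1 ((finrank_top F V).trans e)]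
    exact iff_of_true pl_bot pl_bot)
  obtain ⟨g, g1, g2, g3, g4⟩ := exists_fpf_og hQ' hr2 hR q2 (Submodule.finrank_eq_zero.1 H.1) hn
  have g5 : g ∈ CL.Sp.Isom (polarBilin Q) := q1 ▸ OG.polar_app ⟨g, g1⟩
  have g6 : ∀ v, g v = v → v = 0 := fun v hv => by
    by_contra e
    obtain ⟨w, w1, w2⟩ := ND.exists_nonsingular (Q := Q') (q1 ▸ nd_fx h hrF g5 g2) fun e' =>
      e ((Submodule.eq_bot_iff _).1 (Submodule.finrank_eq_zero.1 e') v (mem_fx.2 hv))
    exact g4 ((fx_np_iff g1).2 ⟨w, mem_fx.1 w1, w2⟩)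
  intro H'
  obtain ⟨y, -, y2⟩ := H' g g5 g2 g3
  obtain ⟨j, a1, -, a2, -⟩ := fpf_quad hr2 hrF (isPGroup_zpowers g2) (Subgroup.zpowers_le.2 g1)
    (nd_top (isWittForm_of_nondeg hQ')) (fun _ _ => inv_top)
    (Submodule.disjoint_def.2 fun x _ hx => g6 x (mem_fx.1 hx)) hi
  obtain ⟨j', b1, -, b2, -⟩ := fpf_quad hr2 hrF (isPGroup_zpowers (g := y⁻¹ * g * y)
    (by rw [← inv_inv y, inv_inv y⁻¹, conj_pow, g2, mul_one, mul_inv_cancel])) (Subgroup.zpowers_le.2 y2)
    (nd_top h) (fun _ _ => inv_top) (Submodule.disjoint_def.2 fun x _ hx => y.map_eq_zero_iff.1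
      (g6 _ (y.symm.injective ((mem_fx.1 hx).trans (y.symm_apply_apply x).symm)))) hi
  exact H.2 (by rw [a2, b2, Nat.eq_of_mul_eq_mul_right (Nat.pos_of_ne_zero hi0) (a1.symm.trans b1)])

theorem allEl_conjO {d : ℕ} (hd : finrank F V = 2 * d) (h0 : d ≠ 0)
    (hΩ : r ∣ (OG Q).relIndex (CL.Sp.Isom (polarBilin Q))) :
    AllEl (CL.Sp.Isom (polarBilin Q)) r (ConjO Q) ↔ r = 2 ∧ (Pl Q ⊤ ∨ Odd d) := by
  have : Nontrivial V := Module.nontrivial_of_finrank_pos (R := F) (by omega)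
  have hA := polar_isAlt_two Q
  have h := isWittForm_alt _ hQ.1 hA
  by_cases hr2 : r = 2
  · subst hr2
    rw [allEl_char_two hQ.1 CharTwo.two_eq_zero le_rfl, and_iff_right rfl]
    refine ⟨fun H => ?_, fun H g g1 g2 g3 => ?_⟩
    · by_contra e
      rw [not_or, Nat.not_odd_iff_even] at e
      obtain ⟨g, g1, g2, g3, g4, g5, -⟩ := sp_two_der hQ.1 hA hd h0 e.2
      obtain ⟨y, y1, y2⟩ := H g g1 g2 g3
      refine e.1 ⟨rng (y⁻¹ * g * y), le_top, (alt_iff_singular ⟨y⁻¹ * g * y, y2⟩).1 fun v => ?_, ?_⟩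
      · exact (y1 _ _).symm.trans ((congrArg _ (y.apply_symm_apply _)).trans (g5 (y v)))
      · rw [finrank_top, hd, ← g4, ← map_rng (t := y⁻¹ * g * y) (s := g) (y := y) fun v => y.apply_symm_apply _,
          LinearEquiv.finrank_map_eq]
    · have g4 := mul_self_eq_one_iff_app.1 ((pow_two g).symm.trans g2)
      have e1 := (nd_top h).two_mul_le h le_top (inv_isotropic g1 g4)
      have e2 : finrank F (rng g) ≠ 0 := fun e => g3 (rng_eq_bot_iff.1 (Submodule.finrank_eq_zero.1 e))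
      obtain ⟨s, s1, s2, s3⟩ : ∃ s : OG Q, (∀ v, s.1 (s.1 v) = v) ∧ finrank F (rng s.1) = finrank F (rng g) ∧
          ((∀ v, polar Q v (s.1 v) = 0) ↔ ∀ v, polar Q v (g v) = 0) := by
        by_cases ha : ∀ v, polar Q v (g v) = 0
        · have e3 := even_rng_of_alt h hA g1 ha
          obtain ⟨X, -, x1, x2⟩ := ((nd_top h).exists_ts_iff hQ _).2 ⟨e1, fun e => H.resolve_right (by
            rw [finrank_top] at e
            rw [Nat.odd_iff, Nat.even_iff] at *
            omega)⟩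
          obtain ⟨s, s1, s2, s3⟩ := exists_OG_inv_alt hQ x1 (x2 ▸ e3)
          exact ⟨s, s1, s2 ▸ x2, iff_of_true s3 ha⟩
        · obtain ⟨s, s1, s2, s3⟩ := exists_OG_inv_nonalt hQ (Nat.pos_of_ne_zero e2) (finrank_top F V ▸ e1)
          exact ⟨s, s1, s2, iff_of_false s3 ha⟩
      obtain ⟨y, y1, -, y2⟩ := (inv_conj_iff h hA wallCompat_unit (OG.polar_app s) g1 (fun _ => rfl) (fun _ => rfl)
        s1 g4).2 ⟨s2, s3⟩
      exact ⟨y, y1, fun v => by rw [LinearEquiv.coe_coe, ← y2, y.symm_apply_apply, s.2]⟩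
  · rw [allEl_sp_odd hQ.1 (hr.out.odd_of_ne_two hr2) fun f ⟨y, y1, y2⟩ => ⟨y, y1, fun v => by
      rw [← y2 v, LinearMap.neg_apply, map_neg, QuadraticMap.map_neg]⟩]
    exact iff_of_false (not_allOrd_conjO hQ hr2 hΩ) fun h => hr2 h.1

end Form

end CL.Elf
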