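/-
Splitting of unipotent symplectic transformations into blocks in odd characteristic.
-/
import Cfsg.Agent.Cls.ElfUni

set_option autoImplicit false

open Module

namespace CL.Elf

open CL.Cls CL.Known CL.Elu

variable {F V : Type*} [Field F] [AddCommGroup V] [Module F V] [FiniteDimensional F V]
  {B : LinearMap.BilinForm F V} {g : V ≃ₗ[F] V} {S : Submodule F V}

theorem prk_eq_count {ν : Multiset ℕ} {e : ℕ} (h : ∀ a ∈ ν, a ≤ e + 1) : prk ν e = ν.count (e + 1) := by
  have h1 := prk_second ν e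
  rw [prk_eq_zero h, prk_eq_zero fun a ha => (h a ha).trans (Nat.le_succ _)] at h1
  omega

/-- The submodule generated by a subspace on which the top form is non-degenerate. -/
theorem exists_free (hg : ∀ u v, B (g u) (g v) = B u v) (hr : B.IsRefl) (hn : IsNilpotent ((g : End F V) - 1))
    (hi : Inv g S) {e : ℕ} (he : ∀ w ∈ S, (((g : End F V) - 1) ^ (e + 1)) w = 0) {X : Submodule F V} (hX : X ≤ S)
    (hβ : ∀ x ∈ X, (∀ y ∈ X, B x ((((g : End F V) - 1) ^ e) y) = 0) → x = 0)
    (hβ' : ∀ y ∈ X, (((g : End F V) - 1) ^ e) y = 0 → y = 0) :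
    ∃ U ≤ S, ND B U ∧ Inv g U ∧ JT g U (Multiset.replicate (finrank F X) (e + 1)) := by
  set N : End F V := (g : End F V) - 1 with hN
  let U := ⨆ k ∈ Finset.range (e + 1), X.map (N ^ k : End F V)
  have h1 : U ≤ S := iSup₂_le fun k _ => by rintro _ ⟨x, hx, rfl⟩; exact hi.pow_sub k x (hX hx)
  have h0 : ∀ k, ∀ x ∈ X, (N ^ k) x ∈ U := fun k x hx => by
    by_cases hk : k < e + 1
    · exact (le_iSup₂_of_le k (Finset.mem_range.2 hk) le_rfl : X.map (N ^ k : End F V) ≤ U) ⟨x, hx, rfl⟩
    · obtain ⟨j, rfl⟩ := Nat.exists_eq_add_of_le' (not_lt.1 hk)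
      rw [pow_add, End.mul_apply, he x (hX hx), map_zero]
      exact U.zero_mem
  have h2 : U ≤ U.comap N ⊓ (X ⊔ U.map N) := iSup₂_le fun k _ => by
    rintro _ ⟨x, hx, rfl⟩
    refine ⟨show N ((N ^ k) x) ∈ U from by rw [← End.mul_apply, ← pow_succ']; exact h0 _ x hx, ?_⟩
    rcases k with _ | k
    · exact Submodule.mem_sup_left hx
    · exact Submodule.mem_sup_right ⟨_, h0 k x hx, by rw [pow_succ', End.mul_apply]⟩
  have h3 : Inv g U := fun v hv => by
    have := U.add_mem (h2 hv).1 hv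
    rwa [hN, LinearMap.sub_apply, End.one_apply, sub_add_cancel] at this
  have h4 : ND B U := fun y hy H => by
    have key : ∀ j ≤ e + 1, ∃ u ∈ U, (N ^ j) u = y := by
      intro j
      induction j with
      | zero => exact fun _ => ⟨y, hy, rfl⟩
      | succ j ih =>
        intro hj
        obtain ⟨u, hu, rfl⟩ := ih (by omega)
        obtain ⟨x, hx, _, ⟨u', hu', rfl⟩, rfl⟩ := Submodule.mem_sup.1 (h2 hu).2
        obtain rfl := hβ x hx fun z hz => by
          have e1 := form_sub_one_pow hg j (x + N u') ((N ^ (e - j)) z)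
          have e2 : ((g : End F V) ^ j) ((N ^ (e - j)) z) ∈ U := by
            rw [End.pow_apply]
            exact Function.Iterate.rec (· ∈ U) (h0 _ z hz) h3 j
          rw [H _ e2, mul_zero, ← End.mul_apply, ← pow_add, show j + (e - j) = e by omega, map_add,
            LinearMap.add_apply, hr _ _ (form_fix_sub hg (by rw [← End.mul_apply, ← pow_succ', he z (hX hz)]) u'),
            add_zero] at e1
          exact e1
        exact ⟨u', hu', by rw [zero_add, pow_succ, End.mul_apply]⟩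
    obtain ⟨u, hu, rfl⟩ := key _ le_rfl
    exact he u (h1 hu)
  obtain ⟨ν, h5⟩ := exists_jt hn h3
  have h6 := (h5.pow_eq_zero_iff _).1 fun w hw => he w (h1 hw)
  have h7 : finrank F X ≤ ν.count (e + 1) := by
    rw [← prk_eq_count h6, ← h5.2, ← LinearMap.finrank_range_of_inj (f := (N ^ e).domRestrict X)
      ((injective_iff_map_eq_zero _).2 fun z hz => Subtype.ext (hβ' z z.2 hz)), LinearMap.range_domRestrict]
    exact Submodule.finrank_mono (Submodule.map_mono fun x hx => h0 0 x hx)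
  have h8 : ν.sum ≤ (e + 1) * finrank F X := by
    rw [h5.sum]
    refine (finrank_biSup_le _ _).trans ((Finset.sum_le_card_nsmul _ _ _ fun k _ =>
      Submodule.finrank_map_le _ _).trans (by simp))
  obtain ⟨t, rfl⟩ := Multiset.le_iff_exists_add.1 (Multiset.le_count_iff_replicate_le.1 h7)
  rw [Multiset.sum_add, Multiset.sum_replicate, smul_eq_mul, mul_comm] at h8
  obtain rfl : t = 0 := Multiset.eq_zero_of_forall_notMem fun a ha => by
    have := h5.1 a (Multiset.mem_add.2 (Or.inr ha))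
    have := Multiset.single_le_sum (fun _ _ => Nat.zero_le _) a ha
    omega
  exact ⟨U, h1, h4, h3, add_zero (Multiset.replicate _ _) ▸ h5⟩

variable (hB : ∀ x, (∀ y, B x y = 0) → x = 0) (hA : B.IsAlt) (h2 : (2 : F) ≠ 0) (hg : ∀ u v, B (g u) (g v) = B u v)
  (hn : IsNilpotent ((g : End F V) - 1))
include hA h2 hg hn

theorem sp_block (hS : ND B S) (hi : Inv g S) {μ : Multiset ℕ} (hμ : JT g S μ) {e : ℕ} (he : e + 1 ∈ μ)
    (hm : ∀ a ∈ μ, a ≤ e + 1) : ∃ U ≤ S, ND B U ∧ Inv g U ∧ ∃ c, c ≠ 0 ∧ c ≤ 2 ∧ (Odd e → c = 1) ∧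
      JT g U (Multiset.replicate c (e + 1)) := by
  have h3 := (hμ.pow_eq_zero_iff _).2 hm
  obtain ⟨v, hv, h4⟩ : ∃ v ∈ S, (((g : End F V) - 1) ^ e) v ≠ 0 := by
    by_contra H
    push Not at H
    exact absurd ((hμ.pow_eq_zero_iff _).1 H _ he) (by omega)
  obtain ⟨u, hu, h5⟩ : ∃ u ∈ S, B u ((((g : End F V) - 1) ^ e) v) ≠ 0 := by
    by_contra H
    push Not at H
    exact h4 (hS _ (hi.pow_sub e v hv) fun y hy => hA.isRefl _ _ (H y hy))
  have hs : ∀ x ∈ S, ∀ y, B x ((((g : End F V) - 1) ^ e) y) = -(-1) ^ e * B y ((((g : End F V) - 1) ^ e) x) :=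
    fun x hx y => by
      obtain ⟨z, hz⟩ := pow_apply_eq_add (g : End F V) e y
      rw [form_sub_one_pow hg, hz, map_add, form_fix_sub hg (by rw [← End.mul_apply, ← pow_succ', h3 x hx]), add_zero,
        ← hA.neg_eq, mul_neg, neg_mul]
  rcases Nat.even_or_odd e with he' | he'
  · simp only [he'.neg_one_pow, neg_mul, one_mul] at hs
    have h6 : ∀ x ∈ S, B x ((((g : End F V) - 1) ^ e) x) = 0 := fun x hx =>
      mul_left_cancel₀ h2 (by linear_combination hs x hx x)
    have h7 : ∀ x ∈ F ∙ u ⊔ F ∙ v, B u ((((g : End F V) - 1) ^ e) x) = 0 → B v ((((g : End F V) - 1) ^ e) x) = 0 →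
        x = 0 := fun x hx e1 e2 => by
      obtain ⟨a, b, rfl⟩ := mem_plane.1 hx
      simp only [map_add, map_smul, h6 u hu, h6 v hv, hs v hv u, smul_eq_mul, mul_zero, zero_add, add_zero,
        mul_eq_zero, h5, or_false, neg_eq_zero] at e1 e2
      rw [e1, e2, zero_smul, zero_smul, add_zero]
    obtain ⟨U, u1, u2, u3, u4⟩ := exists_free hg hA.isRefl hn hi h3 (plane_le hu hv) (fun x hx H => h7 x hx
      (by rw [hs u hu, H u (mem_plane.2 ⟨1, 0, by simp⟩), neg_zero])
      (by rw [hs v hv, H v (mem_plane.2 ⟨0, 1, by simp⟩), neg_zero])) fun x hx H => h7 x hx (by simp [H]) (by simp [H])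
    refine ⟨U, u1, u2, u3, _, fun e1 => h4 ?_, ?_, fun h => absurd he' (Nat.not_even_iff_odd.2 h), u4⟩
    · rw [(Submodule.eq_bot_iff _).1 (Submodule.finrank_eq_zero.1 e1) v (mem_plane.2 ⟨0, 1, by simp⟩), map_zero]
    · rw [← Submodule.span_insert]
      classical exact (finrank_span_le_card _).trans (by simpa using Finset.card_le_two)
  · simp only [he'.neg_one_pow, neg_neg, one_mul] at hs
    obtain ⟨x, hx, h6⟩ : ∃ x ∈ S, B x ((((g : End F V) - 1) ^ e) x) ≠ 0 := by
      by_contra H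
      push Not at H
      have := H _ (S.add_mem hu hv)
      simp only [map_add, LinearMap.add_apply, H u hu, H v hv, hs v hv u, zero_add, add_zero, ← two_mul] at this
      exact mul_ne_zero h2 h5 this
    have x0 : x ≠ 0 := by rintro rfl; simp at h6
    obtain ⟨U, u1, u2, u3, u4⟩ := exists_free hg hA.isRefl hn hi h3 ((Submodule.span_singleton_le_iff_mem _ _).2 hx)
      (fun y hy H => by
        obtain ⟨c, rfl⟩ := Submodule.mem_span_singleton.1 hy
        have := H x (Submodule.mem_span_singleton_self x)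
        rw [map_smul, LinearMap.smul_apply, smul_eq_mul, mul_eq_zero, or_iff_left h6] at this
        rw [this, zero_smul]) fun y hy H => by
        obtain ⟨c, rfl⟩ := Submodule.mem_span_singleton.1 hy
        rw [map_smul, smul_eq_zero, or_iff_left (by intro e; simp [e] at h6)] at H
        rw [H, zero_smul]
    rw [finrank_span_singleton x0] at u4
    exact ⟨U, u1, u2, u3, 1, one_ne_zero, one_le_two, fun _ => rfl, u4⟩

include hB in
/-- Every admissible sub-partition is the type of an invariant non-degenerate subspace. -/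
theorem sp_exists_of_le (n : ℕ) : ∀ S : Submodule F V, finrank F S = n → ND B S → Inv g S → ∀ μ, JT g S μ →
    ∀ ν ≤ μ, (∀ a, Odd a → Even (ν.count a)) → ∃ W ≤ S, ND B W ∧ Inv g W ∧ finrank F W = ν.sum := by
  have h := isWittForm_alt B hB hA
  induction n using Nat.strong_induction_on with
  | _ n ih =>
  intro S hd hS hi μ hμ ν hν ha
  by_cases h0 : μ = 0
  · obtain rfl := Multiset.le_zero.1 (h0 ▸ hν)
    exact ⟨⊥, bot_le, nd_bot, inv_bot (map_zero g), finrank_bot F V⟩
  obtain ⟨a, ha1, ha2⟩ := Multiset.exists_max_image id h0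
  obtain ⟨e, rfl⟩ : ∃ e, a = e + 1 := ⟨a - 1, by have := hμ.1 a ha1; omega⟩
  obtain ⟨U, u1, u2, u3, c, c0, c1, c2, u4⟩ := sp_block hA h2 hg hn hS hi hμ ha1 ha2
  obtain ⟨μ', m1, rfl⟩ := hμ.split h hg hn hi u4 u1 u2 u3
  have e1 := u2.finrank_inf_prp h u1
  have e2 := u4.sum
  rw [Multiset.sum_replicate, smul_eq_mul] at e2
  have e3 : c * (e + 1) ≠ 0 := mul_ne_zero c0 (by omega)
  have ih' := ih _ (by omega) _ rfl (hS.inf_prp h u2 u1) (hi.inf (u3.perp hg)) μ' m1
  by_cases he : e + 1 ∈ ν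
  · have e4 : Even e → c = 2 := fun h => by
      have := u4.even_alt hA hg u2 u3 _ h.add_one
      rw [Multiset.count_replicate_self, Nat.even_iff] at this
      omega
    obtain ⟨ν', rfl⟩ := Multiset.le_iff_exists_add.1 (Multiset.le_count_iff_replicate_le.1
      (show c ≤ ν.count (e + 1) by
        have := Multiset.count_pos.2 he
        rcases Nat.even_or_odd e with h | h
        · obtain ⟨j, hj⟩ := ha _ h.add_one
          omega
        · rw [c2 h]
          exact this))
    obtain ⟨W, w1, w2, w3, w4⟩ := ih' ν' (le_of_add_le_add_left hν) fun a h => by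
      have := ha a h
      rw [Multiset.count_add, Multiset.count_replicate] at this
      split_ifs at this with e5
      · subst e5
        rwa [e4 (Nat.odd_add_one.1 h |> Nat.not_odd_iff_even.1), Nat.even_add, iff_true_intro even_two, true_iff] at this
      · rwa [zero_add] at this
    have ho : Ort B U W := ort_prp.mono le_rfl (w1.trans inf_le_right)
    exact ⟨U ⊔ W, sup_le u1 (w1.trans inf_le_left), u2.sup h w2 ho, u3.sup' w3, by
      rw [u2.finrank_sup h ho, w4, Multiset.sum_add, u4.sum]⟩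
  · obtain ⟨W, w1, w2⟩ := ih' ν (Multiset.le_iff_count.2 fun a => by
      have := Multiset.count_le_of_le a hν
      rw [Multiset.count_add, Multiset.count_replicate] at this
      split_ifs at this with e5
      · rw [← e5, Multiset.count_eq_zero.2 he]
        exact Nat.zero_le _
      · rwa [zero_add] at this) ha
    exact ⟨W, w1.trans inf_le_left, w2⟩

omit hA h2 hg hn in
/-- Elements of order `p` of the symplectic group and non-degenerate subspaces. -/
theorem allOrd_sp_char (p : ℕ) [Fact p.Prime] [CharP F p] (h2 : (2 : F) ≠ 0) {d m : ℕ} (hm : Even m) (hmd : m ≤ 2 * d) :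
    AllOrd (CL.Sp.Isom (CL.Sp.stdForm (Fin d) F)) p (Fx fun W => finrank F W = m ∧ ND (CL.Sp.stdForm (Fin d) F) W) ↔
      ∀ μ : Multiset ℕ, (∀ a ∈ μ, 0 < a ∧ a ≤ p) → (∀ a, Odd a → Even (μ.count a)) → μ.sum = 2 * d →
        ∃ ν ≤ μ, ν.sum = m ∧ ∀ a, Odd a → Even (ν.count a) := by
  have hB := (CL.Sp.stdForm_nondegenerate (Fin d) F).1
  have hA := CL.Sp.stdForm_isAlt (Fin d) F
  have h := isWittForm_alt _ hB hA
  constructor
  · intro H μ h1 h3 h4
    by_cases e : ∀ a ∈ μ, a ≤ 1
    · have e1 : μ = Multiset.replicate (Multiset.card μ) 1 :=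
        Multiset.eq_replicate_card.2 fun a ha => le_antisymm (e a ha) (h1 a ha).1
      rw [e1, Multiset.sum_replicate, smul_eq_mul, mul_one] at h4
      refine ⟨Multiset.replicate m 1, e1 ▸ (Multiset.replicate_le_replicate _).2 (by omega), by simp, fun j _ => ?_⟩
      rw [Multiset.count_replicate]
      split_ifs
      exacts [hm, Even.zero]
    obtain ⟨A, hA'⟩ := (exists_sp_rank_iff (K := F) h4).2 h3
    have g2 : JT (CL.Sp.spLin _ F A) ⊤ μ :=
      jt_top_iff.2 ⟨fun a ha => (h1 a ha).1, fun k => (rk_of_mulVec (fun _ => rfl) k).trans (hA' k)⟩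
    have g1 := CL.Sp.spLin_mem A
    obtain ⟨W, ⟨w1, w2⟩, w3⟩ := H _ g1 ((g2.pow_char p).2 fun a ha => (h1 a ha).2) fun e' => e (g2.eq_one_iff.1 e')
    obtain ⟨ν, ν', n1, -, rfl⟩ := g2.types h g1 w2 w3
    exact ⟨ν, Multiset.le_add_right _ _, n1.sum.trans w1, n1.even_alt hA g1 w2 w3⟩
  · intro H g g1 g2 _
    have hn := isNilpotent_of_pow_char p g2
    obtain ⟨μ, hμ⟩ := exists_jt hn inv_top
    obtain ⟨ν, n1, n2, n3⟩ := H μ (fun a ha => ⟨hμ.1 a ha, (hμ.pow_char p).1 g2 a ha⟩)
      (hμ.even_alt hA g1 (nd_top h) inv_top) (by rw [hμ.sum]; simp [two_mul])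
    obtain ⟨W, -, w1, w2, w3⟩ := sp_exists_of_le hB hA h2 g1 hn _ ⊤ rfl (nd_top h) inv_top μ hμ ν n1 n3
    exact ⟨W, ⟨w3.trans n2, w1⟩, w2⟩

end CL.Elf
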