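/-
Elements of prime order of the linear groups and subfield subgroups.
-/
import Cfsg.Agent.Cls.PrimeOrderConj
import Cfsg.Agent.Cls.GeoProper
import Cfsg.Agent.Known.UnipRk

set_option autoImplicit false

open Polynomial Module Matrix

namespace CL.Elu

open CL.GLn CL.Known CL.SLn

variable {F : Type*} [Field F] {κ : Type} [Fintype κ] [DecidableEq κ] {F₀ : Subfield F}

theorem subfieldSubgroup_one (F₀ : Subfield F) : Cfsg.Geo.subfieldSubgroup F₀ (1 : GL κ F) = subfieldStd κ F₀ := by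
  rw [subfieldSubgroup_eq, map_one]
  exact Subgroup.map_id _

/-- `f` is similar to a matrix over the subfield `F₀`. -/
def IsRat (F₀ : Subfield F) (f : End F (κ → F)) : Prop := ∃ A : Matrix κ κ F₀, Sim (toLin' (A.map F₀.subtype)) f

theorem exists_map_of_mem {g : GL κ F} (hg : g ∈ subfieldStd κ F₀) :
    ∃ c : F, c ≠ 0 ∧ ∃ A : Matrix κ κ F₀, A.map F₀.subtype = c • (g : Matrix κ κ F) :=
  (mem_subfieldStd.1 hg).imp fun _ h => ⟨h.1, fun i j => ⟨_, h.2 i j⟩, rfl⟩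

theorem ConjIn.isRat {f : End F (κ → F)} (h : ConjIn (subfieldStd κ F₀) f) : ∃ c : F, c ≠ 0 ∧ IsRat F₀ (c • f) := by
  obtain ⟨g, hg, hs⟩ := h
  obtain ⟨c, hc, A, hA⟩ := exists_map_of_mem hg
  exact ⟨c, hc, A, by rw [hA, map_smul]; exact sim_smul hs c⟩

theorem IsRat.conjIn {f : End F (κ → F)} (hu : IsUnit f) {c : F} (hc : c ≠ 0) (h : IsRat F₀ (c • f)) :
    ConjIn (subfieldStd κ F₀) f := by
  obtain ⟨A, hA⟩ := h
  have h1 : (A.map F₀.subtype).det ≠ 0 := by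
    rw [← LinearMap.det_toLin', hA.det, LinearMap.det_smul]
    exact mul_ne_zero (pow_ne_zero _ hc) ((LinearMap.isUnit_iff_isUnit_det f).1 hu).ne_zero
  refine ConjIn.of_smul le_sup_right hc ⟨GeneralLinearGroup.mkOfDetNeZero _ h1,
    mem_subfieldStd.2 ⟨1, one_ne_zero, fun i j => ?_⟩, hA⟩
  rw [one_mul]
  exact (A i j).2

theorem IsRat.smul {f : End F (κ → F)} (h : IsRat F₀ f) {c : F} (hc : c ∈ F₀) : IsRat F₀ (c • f) := by
  obtain ⟨A, hA⟩ := h
  refine ⟨(⟨c, hc⟩ : F₀) • A, ?_⟩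
  rw [show ((⟨c, hc⟩ : F₀) • A).map F₀.subtype = c • A.map F₀.subtype from rfl, map_smul]
  exact sim_smul hA c

theorem isRat_of_prod {f : End F (κ → F)} {s : Multiset F[X]} (h : HasED f s) {Q₀ P₀ : F₀[X]} (hQ : Q₀.Separable)
    (hf : aeval f (Q₀.map F₀.subtype) = 0) (hP : P₀.Monic) (e : s.prod = P₀.map F₀.subtype) : IsRat F₀ f := by
  obtain ⟨B, rfl⟩ := toLin'.surjective f
  have hs := (hasED_elemDiv B).unique h
  obtain ⟨A, h1, h2⟩ := exists_semisimple_charpoly (n := κ) hP (by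
    rw [← natDegree_map F₀.subtype, ← e, ← hs, prod_elemDiv, charpoly_natDegree_eq_dim])
  have h3 : aeval A Q₀ = 0 := (aeval_eq_zero_iff_elemDiv A Q₀).2 fun P hP' => by
    have h4 : P.map F₀.subtype ∣ s.prod := by
      rw [e, ← h2, ← prod_elemDiv]
      exact Polynomial.map_dvd _ (Multiset.dvd_prod hP')
    have h5 : s.prod ∣ Q₀.map F₀.subtype ^ Multiset.card s := by
      rw [← Multiset.prod_replicate, ← Multiset.map_const', ← Multiset.map_id' s, Multiset.map_map]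
      exact Multiset.prod_dvd_prod_of_dvd _ _ ((h.aeval_eq_zero_iff _).1 hf)
    rw [← Polynomial.map_pow] at h5
    exact (h1 P hP').prime.dvd_of_dvd_pow ((map_dvd_map' _).1 (h4.trans h5))
  have h6 := (hQ.map (f := F₀.subtype)).squarefree
  refine ⟨A, isConj_iff_sim.1 (isConj_of_charpoly_eq (irreducible_elemDiv_of_aeval_eq_zero h6 ?_)
    (irreducible_elemDiv_of_aeval_eq_zero h6 ?_) ?_)⟩
  · rw [aeval_map_ringHom, h3, Matrix.map_zero _ (map_zero _)]
  · rwa [aeval_toLin', LinearEquiv.map_eq_zero_iff] at hf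
  · rw [charpoly_map, h2, ← e, ← hs, prod_elemDiv]

theorem isRat_of_jb {f : End F (κ → F)} {μ : Multiset ℕ} (hμ : ∀ a ∈ μ, 0 < a) (h : HasED f (jb F μ)) : IsRat F₀ f := by
  obtain ⟨B, rfl⟩ := toLin'.surjective f
  have h1 : μ.sum = Fintype.card κ := by
    rw [← sum_natDegree_jb (F := F), ← h.finrank_eq, finrank_fintype_fun_eq_card]
  obtain ⟨A, hA⟩ := exists_elemDiv_eq (n := κ) (jb F₀ μ) (primary_jb hμ) (by rw [sum_natDegree_jb, h1])
  refine ⟨A, isConj_iff_sim.1 (isConj_of_rank_eq_prk (t := μ) (fun k => ?_)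
    (rank_eq_prk ((hasED_elemDiv B).unique h) h1))⟩
  rw [← rank_eq_prk hA h1, ← rank_map_ringHom F₀.subtype, ← RingHom.mapMatrix_apply, ← RingHom.mapMatrix_apply,
    map_pow, map_sub, map_one]

theorem IsRat.mem_of_pow [Nonempty κ] {f : End F (κ → F)} (h : IsRat F₀ f) {r : ℕ} {c : F}
    (hf : f ^ r = c • (1 : End F (κ → F))) : c ∈ F₀ := by
  obtain ⟨A, hA⟩ := h
  have h1 := (hA.aeval_eq_zero_iff (X ^ r - C c)).2 (by simp [hf, Algebra.algebraMap_eq_smul_one])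
  rw [aeval_toLin', LinearEquiv.map_eq_zero_iff, map_sub, map_pow, aeval_X, aeval_C, sub_eq_zero,
    ← RingHom.mapMatrix_apply, ← map_pow] at h1
  obtain ⟨i⟩ := ‹Nonempty κ›
  have h2 := congrFun (congrFun h1 i) i
  rw [algebraMap_matrix_apply, if_pos rfl] at h2
  rw [show c = _ from h2.symm]
  exact ((A ^ r) i i).2

theorem map_map_fix {σ : F →+* F} (hσ : ∀ a ∈ F₀, σ a = a) (A : Matrix κ κ F₀) :
    (A.map F₀.subtype).map σ = A.map F₀.subtype := by
  ext i j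
  exact hσ _ (A i j).2

theorem IsRat.kd_map {σ : F →+* F} (hσ : ∀ a ∈ F₀, σ a = a) {f : End F (κ → F)} (h : IsRat F₀ f) (P : F[X]) :
    kd f (P.map σ) = kd f P := by
  obtain ⟨A, hA⟩ := h
  have h1 := kd_add_rank (A.map F₀.subtype) P
  have h2 := kd_add_rank (A.map F₀.subtype) (P.map σ)
  rw [← hA.kd, ← hA.kd]
  nth_rw 2 [← map_map_fix hσ A] at h2
  rw [aeval_map_ringHom, rank_map_ringHom] at h2
  omega

theorem ConjIn.sym_sub {σ : F →+* F} (hσ : ∀ a ∈ F₀, σ a = a) {f : End F (κ → F)}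
    (h : ConjIn (subfieldStd κ F₀) f) : Sym (σ : F →* F) f := by
  obtain ⟨c, hc, h⟩ := h.isRat
  refine Sym.of_smul hc ⟨1, one_ne_zero, fun a _ => ?_⟩
  rw [← h.kd_map hσ, Polynomial.map_sub, map_X, map_C, one_mul]; rfl

theorem IsRat.charpoly_map {σ : F →+* F} (hσ : ∀ a ∈ F₀, σ a = a) {f : End F (κ → F)} (h : IsRat F₀ f) :
    f.charpoly.map σ = f.charpoly := by
  obtain ⟨A, hA⟩ := h
  rw [← hA.charpoly, charpoly_toLin', ← Matrix.charpoly_map, map_map_fix hσ]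

variable [Fintype F]

theorem exists_frob (F₀ : Subfield F) : ∃ σ : F →+* F, (∀ a, σ a = a ^ Nat.card F₀) ∧ ∀ a, a ∈ F₀ ↔ σ a = a := by
  haveI := Fintype.ofFinite F₀
  have h : ∀ a, FiniteField.frobeniusAlgHom F₀ F a = a ^ Nat.card F₀ := fun a => by
    rw [Nat.card_eq_fintype_card]; rfl
  exact ⟨FiniteField.frobeniusAlgHom F₀ F, h, fun a => (CL.Asch.mem_subfield_iff_pow F₀).trans (by rw [← h]; rfl)⟩

theorem exists_map_of_fix {σ : F →+* F} (hσ : ∀ a, a ∈ F₀ ↔ σ a = a) {P : F[X]} (hP : P.Monic) (h : P.map σ = P) :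
    ∃ P₀ : F₀[X], P₀.Monic ∧ P = P₀.map F₀.subtype := by
  obtain ⟨P₀, h1, -, h2⟩ := lifts_and_natDegree_eq_and_monic ((lifts_iff_coeff_lifts (f := F₀.subtype) P).2 fun n =>
    ⟨⟨P.coeff n, (hσ _).2 (by rw [← coeff_map, h])⟩, rfl⟩) hP
  exact ⟨P₀, h2, h1.symm⟩

theorem exists_modEq_of_map_eq {σ : F →+* F} (hσ : ∀ a, σ a = a ^ Nat.card F₀) {r : ℕ} (hr : (r : F) ≠ 0) {P : F[X]}
    (hP : P ∈ ordFactors F r) (h : P.map σ = P) : ∃ m, Nat.card F₀ ≡ Nat.card F ^ m [MOD r] := by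
  have h0 := coeff_zero_ne_of_mem_ordFactors hr hP
  obtain ⟨h1, h2, h3⟩ := (mem_ordFactors hr).1 hP
  haveI := Fact.mk h2
  haveI := Fintype.ofFinite F₀
  have h4 : aeval (AdjoinRoot.root P ^ Nat.card F₀) P = 0 := by
    have h5 := hom_eval₂ P (algebraMap F (AdjoinRoot P)) (FiniteField.frobeniusAlgHom F₀ (AdjoinRoot P)).toRingHom
      (AdjoinRoot.root P)
    rw [← aeval_def, AdjoinRoot.aeval_eq, AdjoinRoot.mk_self, map_zero] at h5
    refine (congrArg (aeval _) h).symm.trans ?_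
    rw [aeval_def, eval₂_map, h5, Nat.card_eq_fintype_card]
    congr 1
    ext a
    simp [hσ]
  obtain ⟨m, hm⟩ := (aeval_eq_zero_iff_pow_card h2 _).1 h4
  let u := Units.mk0 _ (root_ne_zero_of_not_X_dvd h2 (mt X_dvd_iff.1 h0))
  refine ⟨m, ?_⟩
  rw [← h3, show ordP P = orderOf u from orderOf_units (y := u), ← pow_eq_pow_iff_modEq, Units.ext_iff]
  simpa [u] using hm

omit [Fintype F] in
theorem natCast_ne_zero_sub {r : ℕ} (hr : (r : F) ≠ 0) : (r : F₀) ≠ 0 := fun h =>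
  hr (by rw [← map_natCast F₀.subtype, h, map_zero])

theorem exists_map_of_mem_ordFactors {r : ℕ} (hr : (r : F) ≠ 0)
    (hi : orderOf ((Nat.card F₀ : ℕ) : ZMod r) = orderOf ((Nat.card F : ℕ) : ZMod r)) {P : F[X]}
    (hP : P ∈ ordFactors F r) : ∃ P₀ : F₀[X], P₀.Monic ∧ P = P₀.map F₀.subtype := by
  have hr0 := natCast_ne_zero_sub (F₀ := F₀) hr
  obtain ⟨h1, h2, h3⟩ := (mem_ordFactors hr).1 hP
  have h4 := (dvd_cyclotomic_iff_ordP h2 hr).2 h3
  rw [← map_cyclotomic r F₀.subtype, ← prod_ordFactors hr0, Polynomial.map_multiset_prod] at h4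
  obtain ⟨_, hQ, h5⟩ := h2.prime.exists_mem_multiset_dvd h4
  obtain ⟨P₀, hP₀, rfl⟩ := Multiset.mem_map.1 hQ
  have h6 := ((mem_ordFactors hr0).1 hP₀).1
  refine ⟨P₀, h6, (eq_of_monic_of_dvd_of_natDegree_le h1 (h6.map _) h5 ?_).symm⟩
  rw [natDegree_map, natDegree_of_mem_ordFactors hr0 hP₀, natDegree_of_mem_ordFactors hr hP, hi]

theorem isRat_of_fix {σ : F →+* F} (hσ : ∀ a, a ∈ F₀ ↔ σ a = a) {r : ℕ} (hr : (r : F) ≠ 0) {f : End F (κ → F)}
    {s : Multiset F[X]} (h : HasED f s) (hf : f ^ r = 1) (e : s.prod.map σ = s.prod) : IsRat F₀ f := by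
  obtain ⟨P₀, h1, h2⟩ := exists_map_of_fix hσ (monic_multiset_prod_of_monic s id fun P hP => (h.primary P hP).monic)
    (by simpa using e)
  exact isRat_of_prod h (separable_X_pow_sub_C (1 : F₀) (natCast_ne_zero_sub hr) one_ne_zero) (by simp [hf]) h1
    (by simpa using h2)

theorem isRat_of_ord {r : ℕ} (hr : (r : F) ≠ 0)
    (hi : orderOf ((Nat.card F₀ : ℕ) : ZMod r) = orderOf ((Nat.card F : ℕ) : ZMod r)) {u : Multiset F[X]}
    (hu : ∀ P ∈ u, P ∈ ordFactors F r) {a : ℕ} {f : End F (κ → F)} (h : HasED f (u + Multiset.replicate a (X - 1))) :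
    IsRat F₀ f := by
  obtain ⟨σ, -, hσ⟩ := exists_frob F₀
  refine isRat_of_fix hσ hr h (pow_eq_one_of_ord hr hu h) ?_
  rw [Polynomial.map_multiset_prod]
  refine congrArg _ ((Multiset.map_congr rfl fun P hP => ?_).trans (Multiset.map_id _))
  rcases Multiset.mem_add.1 hP with h1 | h1
  · obtain ⟨P₀, -, rfl⟩ := exists_map_of_mem_ordFactors hr hi (hu P h1)
    rw [Polynomial.map_map]
    congr 1
    exact RingHom.ext fun a => (hσ _).1 a.2
  · simp [Multiset.eq_of_mem_replicate h1]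

theorem card_units_pow {a : F} (ha : a ∈ F₀) (h0 : a ≠ 0) : a ^ (Nat.card F₀ - 1) = 1 := by
  refine mul_right_cancel₀ h0 ?_
  rw [← pow_succ, Nat.sub_add_cancel Nat.card_pos, one_mul]
  exact (CL.Asch.mem_subfield_iff_pow F₀).1 ha

theorem isSquare_of_mem_sub (hq : Fintype.card F = Nat.card F₀ ^ 2) (h2 : Odd (Fintype.card F)) {a : F} (ha : a ∈ F₀) :
    IsSquare a := by
  by_cases h0 : a = 0
  · exact h0 ▸ IsSquare.zero
  have h1 := card_units_pow ha h0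
  obtain ⟨m, hm⟩ : Odd (Nat.card F₀) := (Nat.odd_pow_iff two_ne_zero).1 (hq ▸ h2)
  rw [FiniteField.isSquare_iff (fun e => by
    have := FiniteField.even_card_of_char_two e
    rw [Nat.odd_iff] at h2; omega) h0, hq, hm,
    show (2 * m + 1) ^ 2 / 2 = (2 * m + 1 - 1) * (m + 1) by
      rw [show (2 * m + 1) ^ 2 = 1 + (2 * m * (m + 1)) * 2 by ring, Nat.add_mul_div_right _ _ two_pos]; simp,
    pow_mul, ← hm, h1, one_pow]

theorem exists_dvd_geom [Nonempty κ] {k r : ℕ} (hr : r.Prime) (hq : Fintype.card F = Nat.card F₀ ^ k)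
    (h : r ∣ ((subfieldStd κ F₀).comap (SpecialLinearGroup.toGL : SpecialLinearGroup κ F →* GL κ F)).index) :
    r ∣ Nat.card F₀ ∨ ∃ j, 2 ≤ j ∧ j ≤ Fintype.card κ ∧ r ∣ ∑ i ∈ Finset.range k, (Nat.card F₀ ^ j) ^ i := by
  haveI := Fintype.ofFinite F₀
  have h1 := mul_card_dvd_of_dvd_index (S := (SpecialLinearGroup.map (n := κ) F₀.subtype).range) (by
    rintro _ ⟨x, rfl⟩
    exact mem_subfieldStd.2 ⟨1, one_ne_zero, fun i j => by rw [one_mul]; exact (x.1 i j).2⟩) h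
  rw [← Nat.card_congr (MonoidHom.ofInjective (f := SpecialLinearGroup.map (n := κ) F₀.subtype) fun x y e =>
    Subtype.ext (Matrix.map_injective F₀.subtype.injective (congrArg Subtype.val e))).toEquiv, card_SL, card_SL, hq,
    ← Nat.card_eq_fintype_card (α := F₀)] at h1
  have h0 : 1 < Nat.card F₀ := Finite.one_lt_card
  obtain ⟨k, rfl⟩ : ∃ k', k = k' + 1 := ⟨k - 1, by
    rcases k with _ | k
    · have := Fintype.one_lt_card (α := F); simp [hq] at this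
    · rfl⟩
  generalize Nat.card F₀ = q at *
  have h2 : ∀ j, (q ^ (k + 1)) ^ (j + 2) - 1 = (q ^ (j + 2) - 1) * ∑ i ∈ Finset.range (k + 1), (q ^ (j + 2)) ^ i :=
    fun j => by
      have := geom_sum_mul_add (q ^ (j + 2) - 1) (k + 1)
      rw [Nat.sub_add_cancel (Nat.one_le_pow _ _ (by omega))] at this
      rw [← pow_mul, mul_comm (k + 1), pow_mul, ← this, mul_comm, Nat.add_sub_cancel]
  simp only [h2] at h1
  rw [Finset.prod_mul_distrib, pow_succ' q k, mul_pow, mul_mul_mul_comm, mul_comm r] at h1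
  have h3 := Nat.dvd_of_mul_dvd_mul_left (Nat.pos_of_ne_zero (mul_ne_zero (pow_ne_zero _ (by omega))
    (Finset.prod_ne_zero_iff.2 fun j _ => Nat.sub_ne_zero_of_lt (Nat.one_lt_pow (by omega) h0)))) h1
  refine ((Nat.Prime.dvd_mul hr).1 h3).imp (fun h => hr.dvd_of_dvd_pow (hr.dvd_of_dvd_pow h)) fun h => ?_
  obtain ⟨j, hj, h⟩ := (hr.prime.dvd_finsetProd_iff _).1 h
  exact ⟨j + 2, by omega, by have := Finset.mem_range.1 hj; omega, h⟩

theorem not_dvd_card_sub {r : ℕ} (hr : r.Prime) (hrF : (r : F) ≠ 0) : ¬ r ∣ Nat.card F₀ := fun h => by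
  haveI := Fintype.ofFinite F₀
  obtain ⟨p, hp⟩ := CharP.exists F₀
  obtain ⟨m, h1, hm⟩ := FiniteField.card F₀ p
  rw [Nat.card_eq_fintype_card, hm] at h
  refine natCast_ne_zero_sub (F₀ := F₀) hrF ?_
  rw [(Nat.prime_dvd_prime_iff_eq hr h1).1 (hr.dvd_of_dvd_pow h)]
  exact CharP.cast_eq_zero F₀ p

end CL.Elu
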