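/-
Elusivity of `PSL_n(q)` on the cosets of subfield subgroups.
-/
import Cfsg.Agent.Cls.PrimeOrderSub
import Cfsg.Agent.Cls.AschLinear
import Cfsg.Agent.Cls.AschSimilar

set_option autoImplicit false

open Polynomial Module Matrix

namespace CL.Elu

open CL.GLn CL.Known CL.SLn

variable {F : Type*} [Field F] [Fintype F] {κ : Type} [Fintype κ] [DecidableEq κ] {F₀ : Subfield F}

theorem finrank_fun_eq : finrank F (κ → F) = Fintype.card κ := finrank_fintype_fun_eq_card F

theorem conjIn_sub_char (p : ℕ) [Fact p.Prime] [CharP F p] {f : End F (κ → F)} (hf : PEl p f) :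
    ConjIn (subfieldStd κ F₀) f := by
  obtain ⟨c, hc⟩ := hf.pow
  obtain ⟨d, hd, -, μ, h1, -, -, hs⟩ := unipotent_cases p hf.isUnit hf.ns hc
  exact (isRat_of_jb (fun a ha => (h1 a ha).1) hs).conjIn hf.isUnit hd

theorem conjIn_sub_of_noB {r : ℕ} [hr : Fact r.Prime] (hrF : (r : F) ≠ 0) [Nonempty κ]
    (hi : orderOf ((Nat.card F₀ : ℕ) : ZMod r) = orderOf ((Nat.card F : ℕ) : ZMod r))
    (hB : r ∣ Fintype.card F - 1 → NoB r (Fintype.card F) (Fintype.card κ)) {f : End F (κ → F)} (hf : PEl r f) :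
    ConjIn (subfieldStd κ F₀) f := by
  rcases hf.cases hr.out hrF with ⟨d, hd, u, a, hu, -, hs⟩ | ⟨c, k, hc0, hcr, hk, hd, -⟩
  · exact (isRat_of_ord hrF hi hu hs).conjIn hf.isUnit hd
  · have h1 := dvd_of_forall_pow_ne hr.out hc0 hcr
    exact absurd (hB h1) ((exists_B_iff h1 Fintype.card_ne_zero).1 ⟨c, k, hc0, hcr, finrank_fun_eq.symm.trans hk, hd⟩)

theorem elus_sub_two [Nonempty κ] {k : ℕ} (hk : k.Prime) (hq : Fintype.card F = Nat.card F₀ ^ k)
    (h : 2 ∣ ((subfieldStd κ F₀).comap (SpecialLinearGroup.toGL : SpecialLinearGroup κ F →* GL κ F)).index) :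
    Elus 2 (subfieldStd κ F₀) ↔ (Odd (Fintype.card F) →
      k = 2 ∧ padicValNat 2 (Fintype.card κ) ≤ padicValNat 2 (Fintype.card F - 1)) := by
  rw [elus_iff Nat.prime_two (Or.inr rfl), odd_card_iff]
  by_cases h2 : ((2 : ℕ) : F) = 0
  · haveI : CharP F 2 := (CharP.charP_iff_prime_eq_zero Nat.prime_two).2 h2
    exact iff_of_true (fun f hf => conjIn_sub_char 2 hf) fun h => absurd h2 h
  have ho := odd_card_iff.2 h2
  have ho0 : Odd (Nat.card F₀) := (Nat.odd_pow_iff hk.ne_zero).1 (hq ▸ ho)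
  obtain rfl : k = 2 := by
    obtain ⟨j, -, -, h3⟩ := (exists_dvd_geom Nat.prime_two hq h).resolve_left (not_dvd_card_sub Nat.prime_two h2)
    rw [← ZMod.natCast_eq_zero_iff, Nat.cast_sum, Finset.sum_congr rfl (g := fun _ => 1) fun i _ =>
      (ZMod.natCast_eq_one_iff_odd.2 ho0.pow.pow), Finset.sum_const, Finset.card_range, nsmul_eq_mul, mul_one,
      ZMod.natCast_eq_zero_iff] at h3
    exact ((Nat.prime_dvd_prime_iff_eq Nat.prime_two hk).1 h3).symm
  have h4 : Fintype.card F % 4 = 1 := by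
    obtain ⟨m, hm⟩ := ho0
    rw [hq, hm, show (2 * m + 1) ^ 2 = 1 + 4 * (m * m + m) by ring, Nat.add_mul_mod_self_left]
  have h1 : 2 ∣ Fintype.card F - 1 := by omega
  simp only [h2, ne_eq, not_false_eq_true, forall_const, true_and]
  refine ⟨fun H => ?_, fun H f hf => conjIn_sub_of_noB h2 ((order_two (natCast_ne_zero_sub h2)).trans
    (order_two h2).symm) (fun _ => ⟨H, fun _ _ => h4⟩) hf⟩
  by_contra hn
  obtain ⟨c, k, hc0, hcr, hk, hd⟩ := (exists_B_iff h1 (n := Fintype.card κ) Fintype.card_ne_zero).2 fun e => hn e.1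
  obtain ⟨g, hg, hs⟩ := exists_pEl_B (V := κ → F) Nat.prime_two (k := k)
    (by rintro rfl; exact Fintype.card_ne_zero hk) hcr (finrank_fun_eq.trans hk) hd
  obtain ⟨e, he, hr⟩ := (H g hg).isRat
  have h5 := (HasED.pow_eq_iff hs 2 c).2 fun P hP => Multiset.eq_of_mem_replicate hP ▸ dvd_rfl
  obtain ⟨s, hs⟩ := isSquare_of_mem_sub hq ho (hr.mem_of_pow (r := 2) (c := e ^ 2 * c)
    (by rw [_root_.smul_pow, h5, smul_smul]))
  exact hcr (s / e) (by rw [div_pow, sq s, ← hs]; field_simp)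

theorem elus_sub_odd [Nontrivial κ] {k r : ℕ} (hk : k.Prime) [hr : Fact r.Prime] (hr2 : r ≠ 2) (hrF : (r : F) ≠ 0)
    (hq : Fintype.card F = Nat.card F₀ ^ k) (hgap : ¬ (Fintype.card κ = 6 ∧ r = 3))
    (hgk : r = k → r ∣ Nat.card F₀ - 1 → padicValNat r (Fintype.card κ) ≤ padicValNat r (Fintype.card F - 1))
    (h : r ∣ ((subfieldStd κ F₀).comap (SpecialLinearGroup.toGL : SpecialLinearGroup κ F →* GL κ F)).index) :
    Elus r (subfieldStd κ F₀) ↔ r = k ∨ (k = 2 ∧ r = Fintype.card κ ∧ (Fintype.card κ = 3 ∨ Fintype.card κ = 5) ∧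
      padicValNat r (Nat.card F₀ + 1) = 1) := by
  rw [elus_iff hr.out (Or.inl hrF)]
  obtain ⟨σ, hσ, hσ'⟩ := exists_frob F₀
  have h0 : 1 < Nat.card F₀ := Finite.one_lt_card
  have hv : k = 2 → r ∣ Nat.card F₀ + 1 → padicValNat r (Fintype.card F - 1) = padicValNat r (Nat.card F₀ + 1) := by
    rintro rfl h1
    have h2 : ¬ r ∣ Nat.card F₀ - 1 := fun h2 => hr2 ((Nat.prime_dvd_prime_iff_eq hr.out Nat.prime_two).1 (by
      have := Nat.dvd_sub h1 h2
      rwa [show Nat.card F₀ + 1 - (Nat.card F₀ - 1) = 2 by omega] at this))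
    rw [hq, ← one_pow 2, Nat.sq_sub_sq, one_pow, padicValNat.mul (by omega) (by omega),
      padicValNat.eq_zero_of_not_dvd h2, add_zero]
  by_cases hrk : r = k
  · subst hrk
    have h1 : ((Nat.card F : ℕ) : ZMod r) = Nat.card F₀ := by
      rw [Nat.card_eq_fintype_card, hq, Nat.cast_pow, ZMod.pow_card]
    refine iff_of_true (fun f hf => conjIn_sub_of_noB hrF (by rw [h1]) (fun h2 => ⟨hgk rfl ?_, fun e => absurd e hr2⟩) hf)
      (Or.inl rfl)
    rwa [← orderOf_eq_one_iff_dvd Fintype.card_pos, ← Nat.card_eq_fintype_card, h1,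
      orderOf_eq_one_iff_dvd h0.le] at h2
  rw [or_iff_right hrk]
  constructor
  swap
  · rintro ⟨rfl, h1, h2, h3⟩ f hf
    have h4 : r ∣ Nat.card F₀ + 1 := dvd_of_one_le_padicValNat h3.ge
    obtain ⟨d, hd, t, ht, h5, hs⟩ := exists_inv_sym (h1 ▸ h2) hrF (finrank_fun_eq.trans h1.symm)
      ((hv rfl h4).trans h3) hf
    refine (isRat_of_fix hσ' hrF hs ?_ ?_).conjIn hf.isUnit hd
    · rw [← one_smul F (1 : End F (κ → F)), HasED.pow_eq_iff hs]
      intro P hP
      obtain ⟨b, hb, rfl⟩ := Multiset.mem_map.1 hP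
      exact dvd_iff_isRoot.2 (by simp [ht b hb])
    · rw [Polynomial.map_multiset_prod, Multiset.map_map]
      conv_rhs => rw [← h5, Multiset.map_map]
      refine congrArg _ (Multiset.map_congr rfl fun b hb => ?_)
      obtain ⟨m, hm⟩ := h4
      have : σ b = b⁻¹ := eq_inv_of_mul_eq_one_left (by rw [hσ, ← pow_succ, hm, pow_mul, ht b hb, one_pow])
      simp [this]
  intro H
  obtain ⟨j, hj2, hjn, h3⟩ := (exists_dvd_geom hr.out hq h).resolve_left (not_dvd_card_sub hr.out hrF)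
  rw [← ZMod.natCast_eq_zero_iff] at h3
  push_cast at h3
  have h4 : ((Nat.card F₀ : ℕ) : ZMod r) ^ j ≠ 1 := fun e => by
    rw [e] at h3
    simp only [one_pow, Finset.sum_const, Finset.card_range, nsmul_eq_mul, mul_one, ZMod.natCast_eq_zero_iff] at h3
    exact hrk ((Nat.prime_dvd_prime_iff_eq hr.out hk).1 h3)
  have h5 : ((Fintype.card F : ℕ) : ZMod r) ^ j = 1 := by
    rw [hq, Nat.cast_pow, ← pow_mul, mul_comm, pow_mul, ← sub_eq_zero, ← geom_sum_mul, h3, zero_mul]
  by_cases h1 : r ∣ Fintype.card F - 1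
  · obtain ⟨⟨ω, e, hω⟩, h6⟩ := of_forall_sym hr2 hrF h1 (θ := σ) σ.injective (fun ω e h6 => h4 (by
      have h7 : ω ≠ 0 := by
        rintro rfl
        rw [orderOf_zero] at e
        exact hr.out.ne_zero e.symm
      rw [orderOf_eq_one_iff.1 ((orderOf_eq_one_iff_dvd h0.le).2 (e ▸ orderOf_dvd_of_pow_eq_one
        (card_units_pow ((hσ' ω).2 h6) h7))), one_pow])) finrank_fun_eq Fintype.one_lt_card hgap
      fun f hf => (H f hf).sym_sub fun a ha => (hσ' a).1 ha
    have h7 : ω ≠ 0 := by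
      rintro rfl
      rw [orderOf_zero] at e
      exact hr.out.ne_zero e.symm
    have h8 : r ∣ Nat.card F₀ + 1 := e ▸ orderOf_dvd_of_pow_eq_one (by
      rw [pow_succ, ← hσ]; exact (congrArg (· * ω) hω).trans (inv_mul_cancel₀ h7))
    have h9 : ((Nat.card F₀ : ℕ) : ZMod r) = -1 := by
      rw [← ZMod.natCast_eq_zero_iff] at h8
      exact eq_neg_of_add_eq_zero_left (by exact_mod_cast h8)
    obtain rfl : k = 2 := by
      by_contra h10
      have h11 := orderOf_eq_one_iff.1 ((orderOf_eq_one_iff_dvd Fintype.card_pos).2 h1)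
      rw [hq, Nat.cast_pow, h9, (hk.odd_of_ne_two h10).neg_one_pow] at h11
      exact h4 (by rw [h9, h11, one_pow])
    rcases h6 with h6 | ⟨h6, h10, h11⟩
    · obtain rfl : j = 2 := by omega
      exact absurd (by rw [h9]; ring) h4
    · exact ⟨rfl, h6, h10, (hv rfl h8).symm.trans h11⟩
  exfalso
  have h6 := Nat.le_of_dvd (by omega) (orderOf_dvd_of_pow_eq_one h5)
  rw [← Nat.card_eq_fintype_card (α := F)] at h6
  obtain ⟨g, u, hg, hu, hc, hs⟩ := exists_pEl_ord (V := κ → F) hr.out hrF h1 one_ne_zero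
    (a := Fintype.card κ - orderOf ((Nat.card F : ℕ) : ZMod r)) (by rw [finrank_fun_eq]; omega)
  obtain ⟨P, rfl⟩ := Multiset.card_eq_one.1 hc
  obtain ⟨e, he, hR⟩ := (H g hg).isRat
  have h7 := (hσ' _).1 (hR.mem_of_pow (r := r) (c := e ^ r) (by rw [_root_.smul_pow, pow_eq_one_of_ord hrF hu hs]))
  have h8 : e ∈ F₀ := (hσ' e).2 ((div_eq_one_iff_eq he).1 (eq_one_of_pow_eq_one hr.out h1
    (by rw [div_pow, ← map_pow, h7, div_self (pow_ne_zero _ he)])))
  have h9 := (hR.smul (F₀.inv_mem h8)).charpoly_map fun a ha => (hσ' a).1 ha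
  rw [smul_smul, inv_mul_cancel₀ he, one_smul, hs.charpoly_eq, Multiset.prod_add, Multiset.prod_singleton,
    Multiset.prod_replicate, Polynomial.map_mul, Polynomial.map_pow, Polynomial.map_sub, map_X, Polynomial.map_one,
    mul_left_inj' (pow_ne_zero _ monic_X_sub_one.ne_zero)] at h9
  obtain ⟨m, hm⟩ := exists_modEq_of_map_eq hσ hrF (hu P (by simp)) h9
  rw [← ZMod.natCast_eq_natCast_iff, Nat.cast_pow, Nat.card_eq_fintype_card (α := F)] at hm
  exact h4 (by rw [hm, ← pow_mul, mul_comm, pow_mul, h5, one_pow])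

omit [Fintype F] in
theorem isSquare_det_of_comm {V : Type*} [AddCommGroup V] [Module F V] [FiniteDimensional F V] {N B : End F V}
    (h : LinearMap.range N = LinearMap.ker N) (hB : B * N = N * B) : IsSquare (LinearMap.det B) := by
  have hc : ∀ v, B (N v) = N (B v) := fun v => DFunLike.congr_fun hB v
  have h1 : LinearMap.ker N ≤ (LinearMap.ker N).comap B := fun v hv => by
    rw [Submodule.mem_comap, LinearMap.mem_ker, ← hc, LinearMap.mem_ker.1 hv, map_zero]
  refine ⟨_, (B.det_eq_det_mul_det _ h1).trans (congrArg _ (Sim.det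
    ⟨N.quotKerEquivRange.trans (LinearEquiv.ofEq _ _ h), fun v => Subtype.ext ?_⟩))⟩
  obtain ⟨v, rfl⟩ := (LinearMap.ker N).mkQ_surjective v
  exact (hc v).symm

theorem not_isSquare_sub {k : ℕ} (hk : Odd k) (hq : Fintype.card F = Nat.card F₀ ^ k) {a : F₀} (ha : ¬ IsSquare a) :
    ¬ IsSquare (a : F) := by
  rintro ⟨b, hb⟩
  have h0 : a ≠ 0 := by rintro rfl; exact ha IsSquare.zero
  have h1 : finrank F₀ F = k := Nat.pow_right_injective (Finite.one_lt_card (α := F₀))
    ((CL.Asch.card_eq_pow_finrank_subfield F₀).symm.trans (Nat.card_eq_fintype_card.trans hq))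
  have h2 := congrArg (Algebra.norm F₀) hb
  obtain ⟨m, rfl⟩ := hk
  rw [show (a : F) = algebraMap F₀ F a from rfl, Algebra.norm_algebraMap, h1, map_mul] at h2
  exact ha ⟨Algebra.norm F₀ b / a ^ m, by rw [div_mul_div_comm, ← h2]; field_simp; ring⟩

omit [Fintype F] in
theorem exists_GL_det [Nonempty κ] {K : Type*} [Field K] {a : K} (ha : a ≠ 0) : ∃ g : GL κ K, g.val.det = a := by
  obtain ⟨i⟩ := ‹Nonempty κ›
  have h : (diagonal (Function.update (1 : κ → K) i a)).det = a := by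
    rw [det_diagonal, Finset.prod_update_of_mem (Finset.mem_univ i)]; simp
  exact ⟨GeneralLinearGroup.mkOfDetNeZero _ (h.trans_ne ha), h⟩

omit [Fintype F] in
theorem det_map_sub (A : Matrix κ κ F₀) : (A.map F₀.subtype).det = A.det := (F₀.subtype.map_det A).symm

omit [Fintype F] in
theorem rank_map_sub (A : Matrix κ κ F₀) (k : ℕ) : ((A.map F₀.subtype - 1) ^ k).rank = ((A - 1) ^ k).rank := by
  rw [← rank_map_ringHom F₀.subtype, ← RingHom.mapMatrix_apply, ← RingHom.mapMatrix_apply, map_pow, map_sub, map_one]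

theorem elus_sub_three [CharP F 3] [Nonempty κ] {k : ℕ} (hk : k.Prime) (hq : Fintype.card F = Nat.card F₀ ^ k) :
    Elus 3 (subfieldStd κ F₀) ↔ Odd (Fintype.card κ) ∨ (Even (Fintype.card κ) ∧ 2 < k) := by
  classical
  have h3 : ringChar F ≠ 2 := by rw [ringChar.eq F 3]; decide
  constructor
  · intro H
    by_contra hn
    rw [not_or, Nat.not_odd_iff_even] at hn
    obtain rfl : k = 2 := by have := hk.two_le; have := mt (And.intro hn.1) hn.2; omega
    obtain ⟨m, hm⟩ := hn.1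
    have hm0 : m ≠ 0 := by rintro rfl; exact Fintype.card_ne_zero hm
    have h1 : (Multiset.replicate m 2).sum = Fintype.card κ := by simp [hm, mul_two]
    obtain ⟨A, hA⟩ := exists_elemDiv_eq (n := κ) (jb F₀ (Multiset.replicate m 2)) (primary_jb fun a ha => by
      rw [Multiset.eq_of_mem_replicate ha]; exact two_pos) (by rw [sum_natDegree_jb, h1])
    have h2 := rank_eq_prk hA h1
    have h4 : A.det = 1 := by rw [← LinearMap.det_toLin']; exact det_jb (hA ▸ hasED_elemDiv A)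
    have h5 : (A.map F₀.subtype - 1) ^ 2 = 0 := by rw [← matrix_rank_eq_zero_iff, rank_map_sub, h2]; simp [prk]
    have h6 : (A.map F₀.subtype - 1).rank = m := by rw [← pow_one (_ - 1), rank_map_sub, h2]; simp [prk]
    obtain ⟨a, ha⟩ := FiniteField.exists_nonsquare h3
    obtain ⟨g, hg⟩ := exists_GL_det (κ := κ) (a := a) (by rintro rfl; exact ha IsSquare.zero)
    let x₀ : GL κ F := GeneralLinearGroup.mkOfDetNeZero (A.map F₀.subtype) (by rw [det_map_sub, h4]; exact one_ne_zero)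
    have h7 : x₀ ^ 3 = 1 := Units.ext (by
      have e := sub_pow_char_of_commute 3 (Commute.one_right (A.map F₀.subtype))
      rw [pow_succ, h5, Matrix.zero_mul, one_pow, eq_comm, sub_eq_zero] at e
      exact e)
    obtain ⟨x, hx⟩ := mem_sl_iff.1 (show g * x₀ * g⁻¹ ∈ _ from CL.Asch.mem_specialLinear_iff.2
      ((CL.Asch.det_conj g x₀).trans ((det_map_sub A).trans (by rw [h4]; rfl))))
    obtain ⟨P, hP⟩ := H x ⟨1, by
      have e : SpecialLinearGroup.toGL (x ^ 3) = 1 := by rw [map_pow, hx, conj_pow, h7]; group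
      rw [one_smul]; exact congrArg Units.val e⟩ fun c hc => hm0 (by
      have e : x₀ = g⁻¹ * SpecialLinearGroup.toGL x * g := by rw [hx]; group
      have e1 : A.map F₀.subtype = c • 1 := by
        refine (congrArg Units.val e).trans ?_
        rw [Units.val_mul, Units.val_mul, show (SpecialLinearGroup.toGL x).val = c • 1 from hc]
        simp
      rw [e1, ← one_smul F (1 : Matrix κ κ F), smul_smul, mul_one, ← sub_smul] at h5 h6
      rw [_root_.smul_pow, one_pow, smul_eq_zero, or_iff_left one_ne_zero, pow_eq_zero_iff two_ne_zero] at h5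
      rw [← h6, h5, zero_smul, rank_zero])
    rw [Subgroup.mem_comap, map_mul, map_mul, map_inv, hx] at hP
    set y := (SpecialLinearGroup.toGL P)⁻¹ * (g * x₀ * g⁻¹) * SpecialLinearGroup.toGL P with hy
    have hc : IsConj x₀ y := isConj_iff.2 ⟨(SpecialLinearGroup.toGL P)⁻¹ * g, by rw [hy]; group⟩
    obtain ⟨c, hc0, A', hA'⟩ := exists_map_of_mem hP
    obtain ⟨σ, -, hσ⟩ := exists_frob F₀
    have h8 : y ^ 3 = 1 := by
      obtain ⟨z, hz⟩ := isConj_iff.1 hc
      rw [← hz, conj_pow, h7]; group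
    have h9 : c ∈ F₀ := (hσ c).2 (frobenius_inj F 3 (by
      refine (map_pow σ c 3).symm.trans ((hσ _).1 (IsRat.mem_of_pow (r := 3) ⟨A', Sim.refl _⟩ ?_))
      rw [hA', ← toLin'_pow, toLin'_eq_smul_iff, _root_.smul_pow, ← Units.val_pow_eq_pow_val, h8, Units.val_one]))
    have h10 : ((⟨c, h9⟩ : F₀)⁻¹ • A').map F₀.subtype = y.val := by
      rw [show ((⟨c, h9⟩ : F₀)⁻¹ • A').map F₀.subtype = c⁻¹ • A'.map F₀.subtype from rfl, hA', smul_smul,
        inv_mul_cancel₀ hc0, one_smul]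
    obtain ⟨Q, hQ⟩ := isConj_of_rank_eq_prk h2 (B := (⟨c, h9⟩ : F₀)⁻¹ • A') fun k => by
      rw [← rank_map_sub, h10, ← rank_sub_one_pow_of_isConj (isConj_GL_iff.1 hc), ← h2, ← rank_map_sub]; rfl
    have h11 : Units.map F₀.subtype.mapMatrix.toMonoidHom Q * x₀ = y * Units.map F₀.subtype.mapMatrix.toMonoidHom Q :=
      Units.ext (by
        have e := congrArg F₀.subtype.mapMatrix hQ.eq
        rw [map_mul, map_mul, RingHom.mapMatrix_apply (M := _ • _), h10] at e
        exact e)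
    have h12 : (Units.map F₀.subtype.mapMatrix.toMonoidHom Q).val.det ∈ F₀ := by
      refine (det_map_sub Q.val).symm ▸ SetLike.coe_mem _
    generalize Units.map F₀.subtype.mapMatrix.toMonoidHom Q = Q' at h11 h12
    have h13 : g⁻¹ * SpecialLinearGroup.toGL P * Q' * x₀ = x₀ * (g⁻¹ * SpecialLinearGroup.toGL P * Q') := by
      rw [mul_assoc _ Q', h11, hy]; group
    obtain ⟨s, hs⟩ := isSquare_det_of_comm (N := toLin' (A.map F₀.subtype - 1))
      (B := toLin' (g⁻¹ * SpecialLinearGroup.toGL P * Q').val) (Submodule.eq_of_le_of_finrank_eq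
        (LinearMap.range_le_ker_iff.2 (by rw [← toLin'_mul, ← sq, h5, map_zero])) (by
        have e := finrank_ker_add_rank (A.map F₀.subtype - 1)
        change (A.map F₀.subtype - 1).rank = _
        omega)) (by
      have e := congrArg Units.val h13
      rw [Units.val_mul _ x₀, Units.val_mul x₀] at e
      rw [End.mul_eq_comp, End.mul_eq_comp, ← toLin'_mul, ← toLin'_mul, Matrix.mul_sub, Matrix.sub_mul, Matrix.mul_one,
        Matrix.one_mul]
      exact congrArg (fun M => toLin' (M - _)) e)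
    obtain ⟨t, ht⟩ := isSquare_of_mem_sub hq (odd_card_iff.2 fun e => h3 (ringChar.eq_iff.2
      ((CharP.charP_iff_prime_eq_zero Nat.prime_two).2 e))) h12
    have h14 : a * (s * s) = t * t := by
      rw [← hs, ← ht, ← hg, LinearMap.det_toLin', ← det_mul, ← Units.val_mul, ← mul_assoc, mul_inv_cancel_left,
        Units.val_mul, det_mul]
      exact (congrArg (· * _) P.2).trans (one_mul _)
    have h15 : s ≠ 0 := by
      rintro rfl
      rw [LinearMap.det_toLin', mul_zero] at hs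
      exact GeneralLinearGroup.det_ne_zero _ hs
    exact ha ⟨t / s, by rw [div_mul_div_comm, ← h14, mul_div_cancel_right₀ _ (mul_ne_zero h15 h15)]⟩
  intro hn x h1 h2
  have hf := pEl_SL h1 h2
  obtain ⟨c, hc⟩ := hf.pow
  obtain ⟨d, hd, -, μ, h4, ⟨e, he, he1⟩, h5, hs⟩ := unipotent_cases 3 hf.isUnit hf.ns hc
  by_cases h6 : ∃ e ∈ μ, e = 1 ∨ e = 3
  · obtain ⟨e, he, h6⟩ := h6
    exact (conj_iff_conjIn _ x ((centOnto_of_jb 3 hs he h6).of_smul hd)).2 (conjIn_sub_char 3 hf)
  have h7 : ∀ e ∈ μ, id e = 2 := fun e he => by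
    have := h4 e he
    have := mt (fun h => ⟨e, he, h⟩) h6
    change e = 2
    omega
  have h8 := sum_map_of_const id h7
  rw [Multiset.map_id, h5, finrank_fun_eq] at h8
  have h9 := (hn.resolve_left (by rw [h8]; simp)).2
  refine (exists_SL_conj_iff _ x fun c hc => ?_).2 (conjIn_sub_char 3 hf)
  have key : ∀ b : F, ∃ B : Matrix κ κ F, B * x = x * B ∧ B.det = b * b := fun b => by
    obtain ⟨g, h10, h11⟩ := exists_comm_det_pow hs (Multiset.mem_map_of_mem _ he) b
    obtain ⟨B, rfl⟩ := toLin'.surjective g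
    rw [mul_smul_comm, smul_mul_assoc, smul_right_inj hd] at h10
    rw [natDegree_pow, natDegree_X_sub_one', mul_one, show e = 2 from h7 e he, LinearMap.det_toLin', sq] at h11
    exact ⟨B, toLin'.injective (by rw [toLin'_mul, toLin'_mul]; exact h10), h11⟩
  by_cases h10 : IsSquare c
  · obtain ⟨b, rfl⟩ := h10
    obtain ⟨B, h11, h12⟩ := key b
    exact ⟨1, one_mem _, B, h11, by simpa using h12⟩
  haveI := Fintype.ofFinite F₀
  obtain ⟨a, ha⟩ := FiniteField.exists_nonsquare (F := F₀) (by rw [ringChar.eq F₀ 3]; decide)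
  have h11 := not_isSquare_sub (hk.odd_of_ne_two (by omega)) hq ha
  have h12 : (a : F) ≠ 0 := fun e => h11 (e ▸ IsSquare.zero)
  obtain ⟨b, hb⟩ : IsSquare (c * a) := (quadraticChar_one_iff_isSquare (mul_ne_zero hc h12)).1 (by
    rw [map_mul, quadraticChar_neg_one_iff_not_isSquare.2 h10, quadraticChar_neg_one_iff_not_isSquare.2 h11]; rfl)
  obtain ⟨B, h13, h14⟩ := key (b / a)
  obtain ⟨g, hg⟩ := exists_GL_det (κ := κ) (a := a) fun e => h12 (congrArg _ e)
  refine ⟨Units.map F₀.subtype.mapMatrix.toMonoidHom g, mem_subfieldStd.2 ⟨1, one_ne_zero, fun i j => ?_⟩, B, h13, ?_⟩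
  · rw [one_mul]; exact (g.val i j).2
  · refine (congrArg₂ (· * ·) h14 ((det_map_sub g.val).trans (congrArg _ hg))).trans ?_
    rw [div_mul_div_comm, ← hb]
    field_simp

end CL.Elu
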