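/-
Elements of prime order of `PSL_n(q)` and similarity groups of forms: general tools and the unitary case.
-/
import Cfsg.Agent.Cls.PrimeOrderSub2
import Cfsg.Agent.Known.ClassNo6

set_option autoImplicit false

open Polynomial Module Matrix

namespace CL.Elu

open CL.GLn CL.Known CL.SLn CL.Asch Cfsg.Geo

variable {F : Type*} [Field F] {κ : Type} [Fintype κ] [DecidableEq κ] {σ : F →+* F} {ε : F}
  {f f₀ : (κ → F) → (κ → F) → F} {g : End F (κ → F)}

theorem conjIn_of_similar {P : GL κ F} {c : F} (hc : c ≠ 0) (hP : ∀ u v, f (P.val *ᵥ u) (P.val *ᵥ v) = c * f₀ u v)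
    (h : ConjIn (similarityGroup f₀) g) : ConjIn (similarityGroup f) g := by
  obtain ⟨x, hx, hs⟩ := h
  exact ⟨_, (mem_similarityGroup_conj_iff hc hP x).2 hx,
    (isConj_iff_sim.1 (isConj_GL_iff.1 (isConj_iff.2 ⟨P, rfl⟩).symm)).trans hs⟩

theorem scalars_le_similarity (hf : IsSesq σ ε f) : scalars κ F ≤ similarityGroup f := by
  rintro _ ⟨z, rfl⟩
  refine ⟨z * Units.map σ.toMonoidHom z, fun u v => ?_⟩
  change f ((scal κ z).val *ᵥ u) ((scal κ z).val *ᵥ v) = _
  rw [coe_scal, smul_mulVec, smul_mulVec, one_mulVec, one_mulVec, hf.smul_left, hf.isSL.smul_right, ← mul_assoc]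
  rfl

theorem mult_pow [Nonempty κ] (hf : IsSesq σ ε f) {x : GL κ F} {l : F}
    (hx : ∀ u v, f (x.val *ᵥ u) (x.val *ᵥ v) = l * f u v) (hs : Sim (toLin' x.val) g) {r : ℕ} {c : F}
    (hg : g ^ r = c • (1 : End F (κ → F))) : l ^ r = c * σ c := by
  have h1 := (hs.aeval_eq_zero_iff (X ^ r - C c)).2 (by simp [hg, Algebra.algebraMap_eq_smul_one])
  rw [aeval_toLin', LinearEquiv.map_eq_zero_iff, map_sub, map_pow, aeval_X, aeval_C, sub_eq_zero,
    Algebra.algebraMap_eq_smul_one] at h1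
  have h2 : ∀ (k : ℕ) u v, f (x.val ^ k *ᵥ u) (x.val ^ k *ᵥ v) = l ^ k * f u v := fun k => by
    induction k with
    | zero => simp
    | succ k ih => intro u v; rw [pow_succ', ← mulVec_mulVec, ← mulVec_mulVec, hx, ih, pow_succ', mul_assoc]
  obtain ⟨i⟩ := ‹Nonempty κ›
  obtain ⟨u, hu⟩ := hf.exists_ne (v := Pi.single i 1) (by simp)
  refine mul_right_cancel₀ hu ?_
  rw [← h2, h1, smul_mulVec, smul_mulVec, one_mulVec, one_mulVec, hf.smul_left, hf.isSL.smul_right, mul_assoc]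

theorem mult_fixed [Nonempty κ] (hf : IsSesq σ ε f) {x : GL κ F} {l : F}
    (hx : ∀ u v, f (x.val *ᵥ u) (x.val *ᵥ v) = l * f u v) : σ l = l := by
  obtain ⟨i⟩ := ‹Nonempty κ›
  obtain ⟨u, hu⟩ := hf.exists_ne (v := Pi.single i 1) (by simp)
  refine mul_right_cancel₀ hu ?_
  rw [← hx, hf.symm (x.val *ᵥ _), hx, map_mul, hf.symm (Pi.single i 1)]
  ring

theorem kd_star (hf : IsSesq σ ε f) {x : GL κ F} {l : F} (hl : l ≠ 0)
    (hx : ∀ u v, f (x.val *ᵥ u) (x.val *ᵥ v) = l * f u v) (hs : Sim (toLin' x.val) g) {P : F[X]} (hP : P.coeff 0 ≠ 0) :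
    kd (l⁻¹ • g) P = kd g (recip σ P) := by
  have h1 : x ∈ similarityGroup (gform σ (gramMatrix f)) :=
    ⟨Units.mk0 l hl, fun u v => by rw [← hf.isSL.eq_gform, ← hf.isSL.eq_gform, hx]; rfl⟩
  have h2 : x.valᵀ * gramMatrix f * x.val.map σ = l • gramMatrix f := gform_injective σ fun u v => by
    rw [← gform_mulVec_right, ← gform_mulVec_left, ← hf.isSL.eq_gform, hx, hf.isSL.eq_gform, gform, gform,
      smul_mulVec, dotProduct_smul, smul_eq_mul]
  have h3 : IsUnit (x.val.map σ)ᵀ.det := by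
    rw [det_transpose, ← RingHom.mapMatrix_apply, ← RingHom.map_det]; exact (isUnits_det_units x).map σ
  have h4 : IsConj (l⁻¹ • x.val) ((x.val.map σ)ᵀ)⁻¹ := ⟨((isUnit_iff_isUnit_det _).2
    (show IsUnit (gramMatrix f)ᵀ.det by rw [det_transpose]; exact hf.isUnit_gram)).unit, by
      have e := congrArg (fun M => ((x.val.map σ)ᵀ)⁻¹ * Mᵀ) h2
      simp only [transpose_mul, transpose_transpose, transpose_smul, ← Matrix.mul_assoc, nonsing_inv_mul _ h3,
        Matrix.one_mul, Matrix.mul_smul] at e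
      rw [SemiconjBy, IsUnit.unit_spec, Matrix.mul_smul, e, smul_smul, inv_mul_cancel₀ hl, one_smul]⟩
  have h5 := kd_add_rank x.val (recip σ P)
  rw [← CL.ClassNo.rank_aeval_star hf.invol x.isUnit hP, ← kd_add_rank ((x.val.map σ)ᵀ)⁻¹ P,
    ← (isConj_iff_sim.1 h4).kd, map_smul, (sim_smul hs _).kd, hs.kd] at h5
  exact (Nat.add_right_cancel h5).symm

/-- The map `a ↦ σ(a)⁻¹`. -/
def invBar (σ : F →+* F) : F →* F := ((invMonoidWithZeroHom : F →*₀ F) : F →* F).comp σ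

theorem invBar_apply (a : F) : invBar σ a = (σ a)⁻¹ := rfl

theorem invBar_injective : Function.Injective (invBar σ) := fun _ _ e => σ.injective (inv_injective e)

theorem kd_star_linear (hf : IsSesq σ ε f) {x : GL κ F} {l : F} (hl : l ≠ 0)
    (hx : ∀ u v, f (x.val *ᵥ u) (x.val *ᵥ v) = l * f u v) (hs : Sim (toLin' x.val) g) {a : F} (ha : a ≠ 0) :
    kd g (X - C a) = kd g (X - C (l * (σ a)⁻¹)) := by
  have h1 : (σ a)⁻¹ ≠ 0 := inv_ne_zero ((map_ne_zero σ).2 ha)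
  rw [← kd_smul g (inv_ne_zero hl) (_ * _), inv_mul_cancel_left₀ hl, kd_star hf hl hx hs (by simpa using ha),
    recip_X_sub_C h1, map_inv₀ σ, hf.invol, inv_inv]

theorem ConjIn.sym_form (hf : IsSesq σ ε f) (h : ConjIn (similarityGroup f) g) : Sym (invBar σ) g := by
  obtain ⟨x, ⟨l, hx⟩, hs⟩ := h
  exact ⟨l, l.ne_zero, fun a ha => kd_star_linear hf l.ne_zero hx hs ha⟩

theorem ConjIn.exists_isom [Nonempty κ] (hf : IsSesq σ ε f) (h : ConjIn (similarityGroup f) g) {r : ℕ}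
    (hl : ∀ l : F, l ^ r = 1 → l = 1) (hg : g ^ r = 1) : ∃ x : GL κ F, Isom f x ∧ Sim (toLin' x.val) g := by
  obtain ⟨x, ⟨l, hx⟩, hs⟩ := h
  refine ⟨x, fun u v => ?_, hs⟩
  rw [hx, hl l ((mult_pow hf hx hs (c := 1) (by rw [hg, one_smul])).trans (by simp)), one_mul]

variable [Fintype F]

theorem exists_recip_eq [Nonempty κ] (hf : IsSesq σ ε f) {r : ℕ} (hr : r.Prime) (hrF : (r : F) ≠ 0)
    (hq : ¬ r ∣ Fintype.card F - 1) (hi : orderOf ((Nat.card F : ℕ) : ZMod r) ≤ Fintype.card κ)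
    (H : ∀ g, PEl r g → ConjIn (similarityGroup f) g) : ∃ P ∈ ordFactors F r, recip σ P = P := by
  obtain ⟨g, u, hg, hu, hc, hs⟩ := exists_pEl_ord (V := κ → F) hr hrF hq one_ne_zero
    (a := Fintype.card κ - orderOf ((Nat.card F : ℕ) : ZMod r)) (by rw [finrank_fintype_fun_eq_card]; omega)
  obtain ⟨P, rfl⟩ := Multiset.card_eq_one.1 hc
  obtain ⟨x, hx, hx'⟩ := (H g hg).exists_isom hf (fun l => eq_one_of_pow_eq_one hr hq) (pow_eq_one_of_ord hrF hu hs)
  have hP := hu P (by simp)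
  have h1 : ∀ Q ∈ ({P} + Multiset.replicate (Fintype.card κ - orderOf ((Nat.card F : ℕ) : ZMod r)) (X - 1) :
      Multiset F[X]), ¬ X ∣ Q := fun Q hQ h => by
    have := X_dvd_iff.1 (h.trans (irreducible_of_ord hrF hu _ Q hQ).2.2)
    simp [hr.ne_zero.symm] at this
  have h2 := CL.ClassNo.HasED.eq_map_recip hf.invol hs hs h1 h1 fun Q hQ => by
    rw [← kd_star hf one_ne_zero (fun u v => by rw [hx, one_mul]) hx' hQ, inv_one, one_smul]
  rw [Multiset.map_add, Multiset.map_replicate, recip_X_sub_one, add_left_inj, Multiset.map_singleton,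
    Multiset.singleton_inj] at h2
  exact ⟨P, hP, h2.symm⟩

omit [Fintype F] in
theorem inv_ne_self_of_orderOf {r : ℕ} (hr : r.Prime) (hr2 : r ≠ 2) {ω : F} (h : orderOf ω = r) : ω⁻¹ ≠ ω := fun e => by
  have h0 : ω ≠ 0 := by
    rintro rfl
    rw [orderOf_zero] at h
    exact hr.ne_zero h.symm
  have h1 : ω ^ 2 = 1 := by rw [sq]; nth_rw 1 [← e]; exact inv_mul_cancel₀ h0
  exact hr2 ((Nat.prime_dvd_prime_iff_eq hr Nat.prime_two).1 (h ▸ orderOf_dvd_of_pow_eq_one h1))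

theorem not_dvd_card {r : ℕ} (hr : r.Prime) (hrF : (r : F) ≠ 0) : ¬ r ∣ Fintype.card F := fun h => by
  refine not_dvd_card_sub (F₀ := ⊤) hr hrF ?_
  rwa [Nat.card_congr Subfield.topEquiv.toEquiv, Nat.card_eq_fintype_card]

section Unitary

open CL.Uni

variable {q n : ℕ} {f : (Fin n → F) → (Fin n → F) → F} {g : End F (Fin n → F)}

theorem conjIn_unitary (h : IsBar σ q) (hf : IsSesq σ 1 f) {s : Multiset F[X]} {d : F} (hd : d ≠ 0)
    (hs : HasED (d • g) s) (hX : ∀ P ∈ s, ¬ X ∣ P) (hρ : s.map (recip σ) = s) : ConjIn (similarityGroup f) g := by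
  obtain ⟨A, hA⟩ := CL.ClassNo.exists_GU_of_map_recip (n := n) h hs.primary hX hρ (by rw [← hs.finrank_eq]; simp)
  obtain ⟨P, hP⟩ := similar_of_herm h.ne_id (isSesq_hermForm n h.bar_bar h.apply) hf
  exact ConjIn.of_smul (scalars_le_similarity hf) hd (conjIn_of_similar one_ne_zero (fun u v => by rw [hP, one_mul])
    ⟨A.1, Isom.mem_similarityGroup A.2, (hA ▸ hasED_elemDiv _ : HasED _ s).sim hs⟩)

theorem conjIn_unitary_linear (h : IsBar σ q) (hf : IsSesq σ 1 f) {t : Multiset F} {d : F} (hd : d ≠ 0)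
    (hs : HasED (d • g) (t.map fun b => X - C b)) (h0 : ∀ b ∈ t, b ≠ 0) (hρ : (t.map fun b => (σ b)⁻¹) = t) :
    ConjIn (similarityGroup f) g := by
  refine conjIn_unitary h hf hd hs (fun P hP => ?_) ?_
  · obtain ⟨b, hb, rfl⟩ := Multiset.mem_map.1 hP
    simpa [X_dvd_iff] using h0 b hb
  · conv_rhs => rw [← hρ]
    rw [Multiset.map_map, Multiset.map_map]
    exact Multiset.map_congr rfl fun b hb => recip_X_sub_C (h0 b hb)

theorem elus_unitary_two [NeZero n] (h : IsBar σ q) (hf : IsSesq σ 1 f) : Elus 2 (similarityGroup f) ↔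
    ((2 : ℕ) : F) = 0 ∨ padicValNat 2 n ≤ padicValNat 2 (Fintype.card F - 1) := by
  rw [elus_iff Nat.prime_two (Or.inr rfl)]
  by_cases h2 : ((2 : ℕ) : F) = 0
  · haveI : CharP F 2 := (CharP.charP_iff_prime_eq_zero Nat.prime_two).2 h2
    refine iff_of_true (fun g hg => ?_) (Or.inl h2)
    obtain ⟨c, hc⟩ := hg.pow
    obtain ⟨d, hd, -, μ, h1, -, -, hs⟩ := unipotent_cases 2 hg.isUnit hg.ns hc
    refine conjIn_unitary h hf hd hs (fun P hP e => ?_) ?_
    · obtain ⟨a, -, rfl⟩ := Multiset.mem_map.1 hP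
      simpa [X_dvd_iff] using prime_X.dvd_of_dvd_pow e
    · rw [jb, Multiset.map_map]
      exact Multiset.map_congr rfl fun a _ => by simp [recip_pow, recip_X_sub_one]
  have ho := odd_card_iff.2 h2
  obtain ⟨m, hm⟩ : Odd q := (Nat.odd_pow_iff two_ne_zero).1 (h.fintype_card ▸ ho)
  have h4 : Fintype.card F % 4 = 1 := by
    rw [h.fintype_card, hm, show (2 * m + 1) ^ 2 = 1 + 4 * (m * m + m) by ring, Nat.add_mul_mod_self_left]
  have h1 : 2 ∣ Fintype.card F - 1 := by omega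
  rw [or_iff_right h2]
  constructor
  · intro H
    by_contra hn
    obtain ⟨c, k, hc0, hcr, hk, hd⟩ := (exists_B_iff h1 (NeZero.ne n)).2 fun e => hn e.1
    obtain ⟨g, hg, hs⟩ := exists_pEl_B (V := Fin n → F) Nat.prime_two (k := k)
      (by rintro rfl; exact NeZero.ne n hk) hcr ((finrank_fin_fun F).trans hk) hd
    obtain ⟨x, ⟨l, hx⟩, hx'⟩ := H g hg
    have h5 := mult_pow hf hx hx' ((HasED.pow_eq_iff hs 2 c).2 fun P hP => Multiset.eq_of_mem_replicate hP ▸ dvd_rfl)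
    have h6 := (h.fixed_iff l.ne_zero).1 (mult_fixed hf hx)
    obtain ⟨s, hs⟩ : IsSquare c := by
      rw [FiniteField.isSquare_iff (fun e => h2 (by rw [← e]; exact ringChar.Nat.cast_ringChar)) hc0, h.fintype_card,
        show q ^ 2 / 2 = (q + 1) * m by
          rw [hm, show (2 * m + 1) ^ 2 = 1 + ((2 * m + 1 + 1) * m) * 2 by ring, Nat.add_mul_div_right _ _ two_pos]; simp,
        pow_mul, ← h.norm_eq_pow, ← h5, ← pow_mul, show 2 * m = q - 1 by omega, h6]
    exact hcr s (by rw [hs, sq])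
  · intro H g hg
    rcases hg.cases Nat.prime_two h2 with ⟨d, hd, u, a, hu, -, hs⟩ | ⟨c, k, hc0, hcr, hk, hd, -⟩
    · obtain ⟨t, ht, e⟩ := exists_linear_of_order_one h2 (order_two h2) hu a
      refine conjIn_unitary_linear h hf hd (e ▸ hs) (fun b hb e => by simpa [e] using ht b hb)
        ((Multiset.map_congr rfl fun b hb => ?_).trans (Multiset.map_id _))
      rcases sq_eq_one_iff.1 (ht b hb) with rfl | rfl <;> simp
    · exact absurd ⟨H, fun _ _ => h4⟩ ((exists_B_iff h1 (NeZero.ne n)).1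
        ⟨c, k, hc0, hcr, (finrank_fin_fun F).symm.trans hk, hd⟩)

theorem exists_pow_eq_neg_one [NeZero n] (h : IsBar σ q) (hf : IsSesq σ 1 f) {r : ℕ} (hr : r.Prime) (hrF : (r : F) ≠ 0)
    (hΩ : r ∣ ((similarityGroup f).comap (SpecialLinearGroup.toGL : SpecialLinearGroup (Fin n) F →* GL (Fin n) F)).index) :
    ∃ j ≤ n, j ≠ 0 ∧ (-(q : ZMod r)) ^ j = -1 := by
  obtain ⟨P, hP⟩ := similar_of_herm h.ne_id (isSesq_hermForm n h.bar_bar h.apply) hf
  have h1 := mul_card_dvd_GL (I := (Cfsg.GU n F q).map (MulAut.conj P).toMonoidHom) (by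
    rintro _ ⟨x, hx, rfl⟩
    exact (mem_similarityGroup_conj_iff one_ne_zero (fun u v => by rw [hP, one_mul]) x).2
      (Isom.mem_similarityGroup hx)) hΩ
  have h0 := h.two_le
  have h2 : ∀ i, (q ^ 2) ^ (i + 1) - 1 = (if Even i then q ^ (i + 1) + 1 else q ^ (i + 1) - 1) *
      (if Even i then q ^ (i + 1) - 1 else q ^ (i + 1) + 1) := fun i => by
    rw [← pow_mul, mul_comm 2, pow_mul, ← one_pow 2, Nat.sq_sub_sq, one_pow]
    split_ifs
    · rfl
    · exact mul_comm _ _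
  rw [Subgroup.card_map_of_injective (MulAut.conj P).injective, card_GU h.fintype_card, card_GL', h.fintype_card,
    Fintype.card_fin, guOrder, Finset.prod_congr rfl fun i _ => h2 i, Finset.prod_mul_distrib, sq q, mul_pow,
    mul_mul_mul_comm, mul_comm r] at h1
  have h3 := Nat.dvd_of_mul_dvd_mul_left (Nat.pos_of_ne_zero (mul_ne_zero (pow_ne_zero _ (by omega))
    (Finset.prod_ne_zero_iff.2 fun j _ => by
      have : 1 < q ^ (j + 1) := Nat.one_lt_pow j.succ_ne_zero h0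
      split_ifs <;> omega))) h1
  rcases (Nat.Prime.dvd_mul hr).1 h3 with h4 | h4
  · exact absurd (h.fintype_card ▸ (hr.dvd_of_dvd_pow h4).trans (dvd_pow_self q two_ne_zero)) (not_dvd_card hr hrF)
  obtain ⟨j, hj, h4⟩ := (hr.prime.dvd_finsetProd_iff _).1 h4
  refine ⟨j + 1, Finset.mem_range.1 hj, j.succ_ne_zero, ?_⟩
  rw [← ZMod.natCast_eq_zero_iff] at h4
  split_ifs at h4 with h5
  · rw [Nat.cast_sub (Nat.one_le_pow _ _ (by omega)), sub_eq_zero] at h4
    rw [h5.add_one.neg_pow]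
    exact congrArg _ (by exact_mod_cast h4)
  · rw [(Nat.not_even_iff_odd.1 h5).add_one.neg_pow]
    exact eq_neg_of_add_eq_zero_left (by exact_mod_cast h4)

theorem elus_unitary_odd (hn : 3 ≤ n) (h : IsBar σ q) (hf : IsSesq σ 1 f) {r : ℕ} [hr : Fact r.Prime] (hr2 : r ≠ 2)
    (hrF : (r : F) ≠ 0) (hgap : ¬ (n = 6 ∧ r = 3))
    (hΩ : r ∣ ((similarityGroup f).comap (SpecialLinearGroup.toGL : SpecialLinearGroup (Fin n) F →* GL (Fin n) F)).index) :
    Elus r (similarityGroup f) ↔ (r = 3 ∨ r = 5) ∧ n = r ∧ padicValNat r (q - 1) = 1 := by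
  haveI : NeZero n := ⟨by omega⟩
  haveI : Fact (2 < r) := ⟨lt_of_le_of_ne hr.out.two_le hr2.symm⟩
  have h0 := h.two_le
  have hv : r ∣ q - 1 → padicValNat r (Fintype.card F - 1) = padicValNat r (q - 1) := fun h1 => by
    have h2 : ¬ r ∣ q + 1 := fun h2 => hr2 ((Nat.prime_dvd_prime_iff_eq hr.out Nat.prime_two).1 (by
      have := Nat.dvd_sub h2 h1
      rwa [show q + 1 - (q - 1) = 2 by omega] at this))
    rw [h.fintype_card, ← one_pow 2, Nat.sq_sub_sq, one_pow, padicValNat.mul (by omega) (by omega),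
      padicValNat.eq_zero_of_not_dvd h2, zero_add]
  have hfix : r ∣ q - 1 → ∀ b : F, b ^ r = 1 → σ b = b := fun ⟨m, hm⟩ b hb =>
    (h.fixed_iff (by rintro rfl; simp [hr.out.ne_zero] at hb)).2 (by rw [hm, pow_mul, hb, one_pow])
  rw [elus_iff hr.out (Or.inl hrF)]
  constructor
  swap
  · rintro ⟨h1, h2, h3⟩ g hg
    have h4 : r ∣ q - 1 := dvd_of_one_le_padicValNat h3.ge
    obtain ⟨d, hd, t, ht, h5, hs⟩ := exists_inv_sym h1 hrF ((finrank_fin_fun F).trans h2) ((hv h4).trans h3) hg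
    exact conjIn_unitary_linear h hf hd hs (fun b hb e => by simpa [e, hr.out.ne_zero] using ht b hb)
      ((Multiset.map_congr rfl fun b hb => by rw [hfix h4 b (ht b hb)]).trans h5)
  intro H
  obtain ⟨j, hj, hj0, h3⟩ := exists_pow_eq_neg_one h hf hr.out hrF hΩ
  have h4 : ((Fintype.card F : ℕ) : ZMod r) = (-(q : ZMod r)) ^ 2 := by rw [h.fintype_card]; simp
  have h5 : ((Fintype.card F : ℕ) : ZMod r) ^ j = 1 := by rw [h4, ← pow_mul, mul_comm, pow_mul, h3, neg_one_sq]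
  by_cases h1 : r ∣ Fintype.card F - 1
  · have h6 : r ∣ q - 1 := by
      have h6 := orderOf_eq_one_iff.1 ((orderOf_eq_one_iff_dvd Fintype.card_pos).2 h1)
      rw [h4, sq_eq_one_iff] at h6
      rcases h6 with h6 | h6
      · exact absurd (by rw [← h3, h6, one_pow]) (ZMod.neg_one_ne_one (n := r))
      · exact (orderOf_eq_one_iff_dvd (by omega)).1 (orderOf_eq_one_iff.2 (neg_injective h6))
    obtain ⟨-, h7 | ⟨h7, h8, h9⟩⟩ := of_forall_sym hr2 hrF h1 invBar_injective (fun ω e => by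
        rw [invBar_apply, hfix h6 ω (e ▸ pow_orderOf_eq_one ω)]
        exact inv_ne_self_of_orderOf hr.out hr2 e) (finrank_fin_fun F) (by omega) hgap fun g hg => (H g hg).sym_form hf
    · omega
    · exact ⟨by omega, h7.symm, (hv h6).symm.trans h9⟩
  obtain ⟨P, hP, e⟩ := exists_recip_eq hf hr.out hrF h1 (by
    rw [Nat.card_eq_fintype_card, Fintype.card_fin]
    exact (Nat.le_of_dvd (by omega) (orderOf_dvd_of_pow_eq_one h5)).trans hj) H
  obtain ⟨p, k, hp, hc, -, hk⟩ := h.exists_prime_pow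
  haveI := Fact.mk hp
  obtain ⟨m, hm⟩ := (recip_eq_self_iff h.bar_bar p (k := k) (fun a => by rw [h.apply, hk]) hrF hP).1 e
  rw [← hk, ← ZMod.natCast_eq_zero_iff, Nat.cast_add, Nat.cast_pow, Nat.card_eq_fintype_card,
    add_eq_zero_iff_eq_neg] at hm
  exact absurd (by rw [← h3, ← hm, ← pow_mul, mul_comm, pow_mul, h5, one_pow]) (ZMod.neg_one_ne_one (n := r))

end Unitary

end CL.Elu
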