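/-
Elementary divisors of isometries of hermitian spaces and the subspaces they fix.
-/
import Cfsg.Agent.Cls.PrimeOrderForm
import Cfsg.Agent.Cls.ElfTame
import Cfsg.Agent.Cls.UniMaxTI

set_option autoImplicit false

open Polynomial Module

namespace CL.Elh

open CL.GLn CL.Known CL.Uni CL.Elu

universe u v

variable {F : Type u} [Field F] {q : ℕ} {σ : F →+* F}

theorem sim_toMatrix {M ι : Type*} [Fintype ι] [DecidableEq ι] [AddCommGroup M] [Module F M] (e : Basis ι F M)
    (k : End F M) : Sim k (Matrix.toLin' (LinearMap.toMatrix e e k)) :=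
  ⟨e.equivFun, fun v => by
    rw [Matrix.toLin'_apply]
    exact (LinearMap.toMatrix_mulVec_repr e e k v).symm⟩

/-- The endomorphisms induced on the two sides of a perfect invariant pairing have reciprocal elementary
divisors. -/
theorem pair_ed (hσ : ∀ a, σ (σ a) = a) {U W : Type*} [AddCommGroup U] [Module F U] [AddCommGroup W] [Module F W]
    (β : U →ₛₗ[σ] W →ₗ[F] F) (hβ : ∀ x, (∀ y, β x y = 0) → x = 0) (hd : finrank F U = finrank F W)
    {f : End F U} {g : End F W} (hfg : ∀ x y, β (f x) (g y) = β x y) {s t : Multiset F[X]} (hf : HasED f s)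
    (hg : HasED g t) : t = s.map (recip σ) := by
  classical
  have := hf.finiteDimensional
  have := hg.finiteDimensional
  let b := Module.finBasisOfFinrankEq F U hd
  let c := Module.finBasis F W
  let G : Matrix (Fin (finrank F W)) (Fin (finrank F W)) F := Matrix.of fun i j => β (b i) (c j)
  have hG : G.det ≠ 0 := by
    intro h0
    obtain ⟨v, hv, hvG⟩ := Matrix.exists_vecMul_eq_zero_iff.2 h0
    have : ∑ i, σ (v i) • b i = 0 := by
      apply hβ
      intro y
      rw [← c.sum_repr y, map_sum]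
      refine Finset.sum_eq_zero fun j _ => ?_
      have := congrFun hvG j
      simp only [Matrix.vecMul, dotProduct, G, Matrix.of_apply, Pi.zero_apply] at this
      simp [map_smulₛₗ, hσ, this]
    apply hv
    funext i
    have h2 := Fintype.linearIndependent_iff.1 b.linearIndependent _ this i
    rw [← hσ (v i), h2, map_zero]; rfl
  set A := LinearMap.toMatrix b b f with hA'
  set D := LinearMap.toMatrix c c g with hD'
  have key : (A.map σ).transpose * (G * D) = G := by
    ext i j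
    have := hfg (b i) (c j)
    rw [← b.sum_repr (f (b i)), ← c.sum_repr (g (c j))] at this
    simp only [map_sum, map_smulₛₗ, LinearMap.sum_apply, LinearMap.smul_apply, RingHom.id_apply,
      smul_eq_mul] at this
    simp only [Matrix.mul_apply, Matrix.transpose_apply, Matrix.map_apply, LinearMap.toMatrix_apply, G, A, D,
      Matrix.of_apply, ← this, Finset.mul_sum]
    rw [Finset.sum_comm]
    exact Finset.sum_congr rfl fun k _ => Finset.sum_congr rfl fun l _ => by ring
  have hG' := isUnit_iff_ne_zero.2 hG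
  have hA : IsUnit A := by
    have h1 := congrArg Matrix.det key
    rw [Matrix.det_mul, Matrix.det_transpose, ← RingHom.mapMatrix_apply, ← RingHom.map_det] at h1
    refine (Matrix.isUnit_iff_isUnit_det _).2 (isUnit_iff_ne_zero.2 fun h => hG ?_)
    rw [← h1, h, map_zero, zero_mul]
  rw [hf.unique ((hasED_elemDiv A).of_sim (sim_toMatrix b f)), hg.unique ((hasED_elemDiv D).of_sim (sim_toMatrix c g)),
    ← CL.ClassNo.elemDiv_star hσ hA, Matrix.inv_eq_right_inv
    (B := G * D * G⁻¹) (by rw [← mul_assoc, key, Matrix.mul_nonsing_inv _ hG']), ← isConj_iff_elemDiv]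
  exact ⟨((Matrix.isUnit_iff_isUnit_det _).2 hG').unit, by
    simp [SemiconjBy, mul_assoc, Matrix.nonsing_inv_mul _ hG']⟩

variable {V : Type v} [AddCommGroup V] [Module F V] {B : V →ₛₗ[σ] V →ₗ[F] F} {f : End F V}
  {s t : Multiset F[X]}

/-- `f` preserves the form. -/
def Iso (B : V →ₛₗ[σ] V →ₗ[F] F) (f : End F V) : Prop := ∀ u v, B (f u) (f v) = B u v

theorem Iso.smul (hf : Iso B f) {d : F} (hd : d * σ d = 1) : Iso B (d • f) := fun u v => by
  simp only [LinearMap.smul_apply, map_smulₛₗ, RingHom.id_apply, smul_eq_mul, hf u v]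
  rw [← mul_assoc, hd, one_mul]

theorem Iso.pow (hf : Iso B f) (k : ℕ) : Iso B (f ^ k) := by
  induction k with
  | zero => exact fun _ _ => rfl
  | succ k ih => exact fun u v => by rw [pow_succ', End.mul_apply, End.mul_apply, hf, ih]

theorem Iso.map_recip (h : IsHerm B q) (hf : Iso B f) (hs : HasED f s) : s.map (recip σ) = s :=
  (pair_ed h.bar_bar B h.nondeg rfl hf hs hs).symm

theorem Iso.norm_eq [Nontrivial V] (h : IsHerm B q) (hf : Iso B f) {r : ℕ} {c : F}
    (hc : f ^ r = c • (1 : End F V)) : c * σ c = 1 := by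
  obtain ⟨v, hv⟩ := h.exists_self_ne_zero
  have := hf.pow r v v
  rw [hc] at this
  simp only [LinearMap.smul_apply, map_smulₛₗ, RingHom.id_apply, smul_eq_mul, End.one_apply] at this
  exact mul_right_cancel₀ hv (by rw [one_mul, mul_assoc, this])

variable [FiniteDimensional F V]

theorem Iso.norm_det (h : IsHerm B q) (hf : Iso B f) : LinearMap.det f * σ (LinearMap.det f) = 1 := by
  obtain ⟨g, hg, rfl⟩ := h.exists_mem_UG f hf
  exact dt_apply g ▸ h.dt_norm hg

theorem Iso.isUnit (h : IsHerm B q) (hf : Iso B f) : IsUnit f :=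
  (LinearMap.isUnit_iff_isUnit_det _).2 (IsUnit.of_mul_eq_one _ (hf.norm_det h))

theorem Iso.perp (h : IsHerm B q) (hf : Iso B f) {W : Submodule F V} (hW : ∀ v ∈ W, f v ∈ W) :
    ∀ v ∈ perp B W, f v ∈ perp B W := fun v hv => mem_perp.2 fun w hw => by
  rw [← map_eq_of_inv (hf.isUnit h) hW] at hw
  obtain ⟨w, hw, rfl⟩ := hw
  rw [hf, mem_perp.1 hv w hw]

theorem exists_iso (h : IsHerm B q) (hs : ∀ P ∈ s, IsPrimaryPoly P) (hX : ∀ P ∈ s, ¬ X ∣ P)
    (hρ : s.map (recip σ) = s) (hn : (s.map natDegree).sum = finrank F V) : ∃ f, Iso B f ∧ HasED f s := by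
  obtain ⟨A, hA⟩ := CL.ClassNo.exists_GU_of_map_recip h.bar hs hX hρ hn
  obtain ⟨e, he⟩ := h.exists_equiv_std rfl
  refine ⟨e.symm.conj (Matrix.toLin' A.1.1), fun u v => ?_, (hA ▸ hasED_elemDiv _).of_sim ⟨e, fun v => by simp⟩⟩
  rw [← he, ← he, ← (glEquiv_mem_UG h.bar A.1).2 A.2 (e u)]
  simp [glEquiv_apply]

omit [FiniteDimensional F V] in
theorem exists_transport (h : IsHerm B q) (hf : Iso B f) (hs : HasED f s) {M : Type*} [AddCommGroup M] [Module F M]
    {B' : M →ₛₗ[σ] M →ₗ[F] F} (h' : IsHerm B' q) {g : End F M} (hg : Iso B' g) (hs' : HasED g s) :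
    ∃ y : M ≃ₗ[F] V, (∀ v, y (g v) = f (y v)) ∧ ∀ u v, B (y u) (y v) = B' u v := by
  have := hs'.finiteDimensional
  have := h.bar.finite
  obtain ⟨x, hx⟩ := hs'.sim hs
  obtain ⟨g, hg', rfl⟩ := h'.exists_mem_UG g hg
  exact wall_conj h.bar_bar (ε := 1) B' h'.nondeg (fun x y => by rw [one_mul, h'.symm]) B h.nondeg
    (fun x y => by rw [one_mul, h.symm]) g hg f hf (Or.inl h.bar.exists_ne) x hx

theorem Iso.not_X_dvd (h : IsHerm B q) (hf : Iso B f) (hs : HasED f s) : ∀ P ∈ s, ¬ X ∣ P := fun P hP hX => by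
  refine (hf.isUnit h).map LinearMap.det |>.ne_zero ?_
  rw [HasED.det_eq hs, X_dvd_iff.1 (hX.trans (Multiset.dvd_prod hP)), mul_zero]

theorem map_eq_of_add {α : Type*} {ρ : α → α} {t t' : Multiset α} (h : (t + t').map ρ = t + t')
    (ht : t.map ρ = t) : t'.map ρ = t' := by
  rwa [Multiset.map_add, ht, add_right_inj] at h

theorem exists_nd_sub (h : IsHerm B q) (hf : Iso B f) (hs : HasED f s) (hts : t ≤ s) (ht : t.map (recip σ) = t) :
    ∃ W, Disjoint W (perp B W) ∧ SubED f W t := by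
  obtain ⟨t', rfl⟩ := Multiset.le_iff_exists_add.1 hts
  have hX := hf.not_X_dvd h hs
  have h1 := isHerm_stdB h.bar (Fin (t.map natDegree).sum)
  have h2 := isHerm_stdB h.bar (Fin (t'.map natDegree).sum)
  obtain ⟨g₁, a1, a2⟩ := exists_iso h1 (fun P hP => hs.primary P (by simp [hP])) (fun P hP => hX P (by simp [hP])) ht
    (by simp)
  obtain ⟨g₂, b1, b2⟩ := exists_iso h2 (s := t') (fun P hP => hs.primary P (by simp [hP]))
    (fun P hP => hX P (by simp [hP])) (map_eq_of_add (hf.map_recip h hs) ht) (by simp)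
  let B' : (_ × _) →ₛₗ[σ] (_ × _) →ₗ[F] F :=
    ((stdB σ (Fin (t.map natDegree).sum)).comp (LinearMap.fst F _ _)).compl₂ (LinearMap.fst F _ _) +
    ((stdB σ (Fin (t'.map natDegree).sum)).comp (LinearMap.snd F _ _)).compl₂ (LinearMap.snd F _ _)
  have e : ∀ x y, B' x y = stdB σ _ x.1 y.1 + stdB σ _ x.2 y.2 := fun _ _ => rfl
  obtain ⟨y, y1, y2⟩ := exists_transport h hf hs (B' := B')
    ⟨h.bar, fun x y => by rw [e, e, map_add, h1.symm, h2.symm], fun x hx => Prod.ext
      (h1.nondeg _ fun z => by simpa [e] using hx (z, 0)) (h2.nondeg _ fun z => by simpa [e] using hx (0, z))⟩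
    (g := g₁.prodMap g₂) (fun u v => by rw [e, e]; exact congrArg₂ (· + ·) (a1 _ _) (b1 _ _)) (hasED_prodMap a2 b2)
  refine ⟨_, h.disjoint_perp_iff.2 ?_, subED_of_intertwine (y.toLinearMap ∘ₗ LinearMap.inl F _ _)
    (y.injective.comp LinearMap.inl_injective) (fun w => by simp [← y1]) a2⟩
  rintro _ ⟨x, rfl⟩ hx
  rw [h1.nondeg x fun z => by simpa [y2, e] using hx _ ⟨z, rfl⟩, map_zero]

theorem exists_pair (h : IsHerm B q) (hf : Iso B f) (hs : HasED f (t + t.map (recip σ))) :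
    ∃ W W', IsUPair B W W' ∧ SubED f W t ∧ ∀ v ∈ W', f v ∈ W' := by
  have hX := hf.not_X_dvd h hs
  have h1 := isHerm_stdB h.bar (Fin (t.map natDegree).sum)
  obtain ⟨g, a2⟩ := exists_end_hasED (V := Fin (t.map natDegree).sum → F) t
    (fun P hP => hs.primary P (by simp [hP])) (by simp)
  obtain ⟨g, rfl⟩ : IsUnit g := (LinearMap.isUnit_iff_isUnit_det _).2 (isUnit_iff_ne_zero.2 (by
    rw [HasED.det_eq a2]
    exact mul_ne_zero (by simp) fun h0 => by
      obtain ⟨P, h1, h2⟩ := prime_X.exists_mem_multiset_dvd (X_dvd_iff.2 h0)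
      exact hX P (by simp [h1]) h2))
  set g' := sadj h.bar_bar _ h1.nondeg (g⁻¹ : (End F (Fin (t.map natDegree).sum → F))ˣ).1
  have a1 : ∀ x y, stdB σ _ (g.1 x) (g' y) = stdB σ _ x y := fun x y => by
    rw [← h1.symm, sadj_spec, ← End.mul_apply, Units.inv_mul, End.one_apply, h1.symm]
  obtain ⟨t', b2⟩ := exists_hasED g'
  rw [pair_ed h.bar_bar _ h1.nondeg rfl a1 a2 b2] at b2
  let B' : (_ × _) →ₛₗ[σ] (_ × _) →ₗ[F] F :=
    ((stdB σ (Fin (t.map natDegree).sum)).comp (LinearMap.fst F _ _)).compl₂ (LinearMap.snd F _ _) +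
    ((stdB σ (Fin (t.map natDegree).sum)).comp (LinearMap.snd F _ _)).compl₂ (LinearMap.fst F _ _)
  have e : ∀ x y, B' x y = stdB σ _ x.1 y.2 + stdB σ _ x.2 y.1 := fun _ _ => rfl
  obtain ⟨y, y1, y2⟩ := exists_transport h hf hs (B' := B')
    ⟨h.bar, fun x y => by rw [e, e, map_add, h1.symm, h1.symm, add_comm], fun x hx => Prod.ext
      (h1.nondeg _ fun z => by simpa [e] using hx (0, z)) (h1.nondeg _ fun z => by simpa [e] using hx (z, 0))⟩
    (g := g.1.prodMap g') (fun u v => by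
      rw [e, e, ← h1.symm v.1, ← a1 v.1, h1.symm]; exact congrArg₂ (· + ·) (a1 _ _) rfl) (hasED_prodMap a2 b2)
  refine ⟨_, LinearMap.range (y.toLinearMap ∘ₗ LinearMap.inr F _ _), ⟨?_, ?_, ?_⟩,
    subED_of_intertwine (y.toLinearMap ∘ₗ LinearMap.inl F _ _)
    (y.injective.comp LinearMap.inl_injective) (fun w => by simp [← y1]) a2, ?_⟩
  · rintro _ ⟨x, rfl⟩ _ ⟨z, rfl⟩
    simp [y2, e]
  · rintro _ ⟨x, rfl⟩ _ ⟨z, rfl⟩
    simp [y2, e]
  · rw [LinearMap.range_comp, LinearMap.range_comp]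
    exact (Submodule.orderIsoMapComap y).isCompl LinearMap.isCompl_range_inl_inr
  · rintro _ ⟨x, rfl⟩
    exact ⟨g' x, by simp [← y1]⟩

/-- `f` fixes a nondegenerate `m`-space. -/
def FxN (B : V →ₛₗ[σ] V →ₗ[F] F) (m : ℕ) (f : End F V) : Prop :=
  ∃ W : Submodule F V, finrank F W = m ∧ Disjoint W (perp B W) ∧ ∀ v ∈ W, f v ∈ W

/-- `f` fixes a totally isotropic `m`-space. -/
def FxT (B : V →ₛₗ[σ] V →ₗ[F] F) (m : ℕ) (f : End F V) : Prop :=
  ∃ W : Submodule F V, finrank F W = m ∧ W ≤ perp B W ∧ ∀ v ∈ W, f v ∈ W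

theorem fxN_iff (h : IsHerm B q) {d : F} (hf : Iso B (d • f)) (hd : d ≠ 0) (hs : HasED (d • f) s) (m : ℕ) :
    FxN B m f ↔ ∃ t ≤ s, t.map (recip σ) = t ∧ (t.map natDegree).sum = m := by
  constructor
  · rintro ⟨W, rfl, h2, h3⟩
    rw [← forall_smul_mem_iff hd] at h3
    obtain ⟨t, ht⟩ := exists_subED h3
    obtain ⟨t', ht'⟩ := exists_subED (hf.perp h h3)
    refine ⟨t, ?_, Iso.map_recip (h.restrict h2) (fun u v => hf u v) ht.2, ht.finrank_eq.symm⟩
    rw [hs.unique (hasED_add_of_isCompl (h.isCompl_perp h2) ht ht')]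
    exact Multiset.le_add_right _ _
  · rintro ⟨t, h1, h2, rfl⟩
    obtain ⟨W, h3, h4⟩ := exists_nd_sub h hf hs h1 h2
    exact ⟨W, h4.finrank_eq, h3, (forall_smul_mem_iff hd).1 h4.inv⟩

theorem subED_dual (h : IsHerm B q) (hf : Iso B f) {W W' : Submodule F V} (hc : IsCompl (perp B W) W')
    {t t' : Multiset F[X]} (ht : SubED f W t) (ht' : SubED f W' t') : t' = t.map (recip σ) := by
  refine pair_ed h.bar_bar (B.domRestrict₁₂ W W') (fun x hx => Subtype.ext (h.nondeg _ fun y => ?_)) ?_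
    (fun x y => hf x y) ht.2 ht'.2
  · obtain ⟨a, b, rfl⟩ := Uni.exists_add_of_isCompl hc y
    rw [map_add, mem_perp.1 a.2 x x.2, zero_add]
    exact hx b
  · have := h.finrank_add_finrank_perp W
    have := Submodule.finrank_add_eq_of_isCompl hc
    omega

theorem fxT_iff (h : IsHerm B q) {d : F} (hf : Iso B (d • f)) (hd : d ≠ 0) (hs : HasED (d • f) s)
    (hi : ∀ P ∈ s, Irreducible P) (m : ℕ) :
    FxT B m f ↔ ∃ t, t + t.map (recip σ) ≤ s ∧ (t.map natDegree).sum = m := by
  constructor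
  · rintro ⟨W, rfl, h2, h3⟩
    rw [← forall_smul_mem_iff hd] at h3
    have hss := isSemisimple_of_hasED hs hi
    obtain ⟨t, ht⟩ := exists_subED h3
    obtain ⟨W', c1, c2⟩ := exists_inv_isCompl hss (hf.perp h h3)
    obtain ⟨t', ht'⟩ := exists_subED c2
    refine ⟨t, ?_, ht.finrank_eq.symm⟩
    rw [← subED_dual h hf c1 ht ht']
    exact (ht.sup (c1.disjoint.mono_left h2) ht').le_of_hasED hss hs
  · rintro ⟨t, h1, rfl⟩
    have hX := hf.not_X_dvd h hs
    obtain ⟨U, h3, h4⟩ := exists_nd_sub h hf hs h1 (by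
      rw [Multiset.map_add, Multiset.map_map, add_comm, add_left_inj]
      refine (Multiset.map_congr rfl fun P hP => ?_).trans (Multiset.map_id t)
      have := Multiset.mem_of_le h1 (Multiset.mem_add.2 (Or.inl hP))
      exact recip_recip h.bar_bar (hs.primary P this).monic (mt X_dvd_iff.2 (hX P this)))
    obtain ⟨W, W', c1, c2, -⟩ := exists_pair (h.restrict h3) (fun u v => hf u v) h4.2
    have c3 := c2.map (f := d • f) U.subtype U.injective_subtype fun _ => rfl
    refine ⟨_, c3.finrank_eq, ?_, (forall_smul_mem_iff hd).1 c3.inv⟩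
    rintro _ ⟨x, hx, rfl⟩ _ ⟨z, hz, rfl⟩
    exact c1.left hx z hz

theorem IsUPair.perp_eq (h : IsHerm B q) {W W' : Submodule F V} (hP : IsUPair B W W') :
    perp B W = W ∧ finrank F V = 2 * finrank F W := by
  have a1 := h.finrank_add_finrank_perp W
  have a2 := h.finrank_add_finrank_perp W'
  have a3 := Submodule.finrank_add_eq_of_isCompl hP.compl
  have a4 := Submodule.finrank_mono hP.left
  have a5 := Submodule.finrank_mono hP.right
  exact ⟨(Submodule.eq_of_le_of_finrank_eq hP.left (by omega)).symm, by omega⟩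

theorem ed_of_pair (h : IsHerm B q) (hf : Iso B f) (hs : HasED f s) {W W' : Submodule F V} (hP : IsUPair B W W')
    (hW : ∀ v ∈ W, f v ∈ W) (hW' : ∀ v ∈ W', f v ∈ W') : ∃ t, s = t + t.map (recip σ) := by
  obtain ⟨t, ht⟩ := exists_subED hW
  obtain ⟨t', ht'⟩ := exists_subED hW'
  refine ⟨t, ?_⟩
  rw [← subED_dual h hf ((IsUPair.perp_eq h hP).1.symm ▸ hP.compl) ht ht']
  exact hs.unique (hasED_add_of_isCompl hP.compl ht ht')

end CL.Elh
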