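/-
Arithmetic and combinatorics for the elements of prime order of unitary groups.
-/
import Cfsg.Agent.Cls.ElhED

set_option autoImplicit false

open Polynomial Module

namespace CL.Elh

open CL.GLn CL.Known CL.Uni CL.Elu

section Arith

theorem arN {c n m : ℕ} (hmn : m ≤ n) (h : n % c < m) :
    (∀ N a, N ≠ 0 → n = a + N * c → ∃ k ≤ N, ∃ j ≤ a, m = j + k * c) ↔ c ≤ m ∧ m % c ≤ n % c := by
  refine ⟨fun H => ?_, fun H N a _ e => exists_jk (e ▸ hmn) (H.2.trans (mod_le_of_eq e))⟩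
  have h1 := Nat.mod_add_div' n c
  obtain ⟨k, -, j, hj, rfl⟩ := H (n / c) (n % c) (fun e => by rw [e] at h1; omega) h1.symm
  refine ⟨?_, by rw [Nat.add_mul_mod_self_right]; exact (Nat.mod_le _ _).trans hj⟩
  rcases k with _ | k
  · omega
  · rw [add_mul]; omega

theorem arT1 {b n m : ℕ} (hb : b ≠ 0) (hmn : 2 * m ≤ n) (h : n % (2 * b) < 2 * m) :
    (∀ N a, N ≠ 0 → n = a + N * (2 * b) → ∃ k ≤ N, ∃ j, 2 * j ≤ a ∧ m = j + k * b) ↔
      b ≤ m ∧ 2 * (m % b) ≤ n % (2 * b) := by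
  constructor
  · intro H
    have h1 := Nat.mod_add_div' n (2 * b)
    have h2 := Nat.mod_lt n (show 0 < 2 * b by omega)
    obtain ⟨k, -, j, hj, rfl⟩ := H (n / (2 * b)) _ (fun e => by rw [e] at h1; omega) h1.symm
    refine ⟨?_, by rw [Nat.add_mul_mod_self_right, Nat.mod_eq_of_lt (show j < b by omega)]; exact hj⟩
    rcases k with _ | k
    · omega
    · rw [add_mul]; omega
  · intro H N a _ e
    have h1 := mod_le_of_eq e
    obtain ⟨k, hk, j, hj, e'⟩ := exists_jk (a := a / 2) (c := N) (i := b) (m := m)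
      (by rw [mul_left_comm] at e; omega) (by omega)
    exact ⟨k, hk, j, by omega, e'⟩

theorem arT2 {b T n m : ℕ} (hb : b ≠ 0) (hT : T ≠ 0) (hmn : 2 * m ≤ n) (h : n % b < 2 * m) :
    (∀ w e a, e ≤ T → w + w + e ≠ 0 → n = a + (w + w + e) * b → ∃ k ≤ w, ∃ j, 2 * j ≤ a ∧ m = j + k * b) ↔
      b ≤ m ∧ 2 * (m % b) ≤ n % b ∧ T + 2 * (m / b) ≤ n / b := by
  have h0 := Nat.pos_of_ne_zero hb
  have h1 := Nat.mod_add_div' n b
  have h2 := Nat.mod_lt n h0
  have h3 := Nat.mod_add_div' m b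
  have key : ∀ j k, j < b → m = j + k * b → j = m % b ∧ k = m / b := by
    rintro j k hj rfl
    rw [Nat.add_mul_mod_self_right, Nat.mod_eq_of_lt hj, Nat.add_mul_div_right _ _ h0, Nat.div_eq_of_lt hj, zero_add]
    exact ⟨rfl, rfl⟩
  constructor
  · intro H
    have h4 : n / b ≠ 0 := fun e => by rw [e] at h1; omega
    have h5 : T < n / b := lt_of_not_ge fun h5 => by
      obtain ⟨k, hk, j, hj, e⟩ := H 0 (n / b) (n % b) h5 (by omega) (by rw [add_zero, zero_add, h1])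
      rw [Nat.le_zero.1 hk] at e
      omega
    obtain ⟨k, hk, j, hj, e⟩ := H ((n / b - T + 1) / 2) (T - (n / b - T) % 2) (n % b) (by omega) (by omega)
      (by rw [show (n / b - T + 1) / 2 + (n / b - T + 1) / 2 + (T - (n / b - T) % 2) = n / b by omega, h1])
    obtain ⟨rfl, rfl⟩ := key j k (by omega) e
    refine ⟨(Nat.div_ne_zero_iff.1 fun e' => by rw [e'] at e; omega).2, hj, le_of_not_gt fun h6 => ?_⟩
    obtain ⟨k, hk, j, hj, e⟩ := H (m / b - 1) T (n % b + b) le_rfl (by omega) (by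
      have : m / b ≠ 0 := fun e' => by rw [e'] at e; omega
      rw [show m / b - 1 + (m / b - 1) + T = n / b - 1 by omega, add_assoc, ← one_add_mul,
        show 1 + (n / b - 1) = n / b by omega, h1])
    have h7 : (k + 1) * b ≤ m / b * b := Nat.mul_le_mul_right _ (by omega)
    rw [add_mul] at h7
    omega
  · rintro ⟨-, a1, a2⟩ w e a he _ hn
    obtain ⟨x, hx⟩ : ∃ x, n / b = w + w + e + x := Nat.exists_eq_add_of_le ((Nat.le_div_iff_mul_le h0).2 (by omega))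
    rw [hx, add_mul (w + w + e)] at h1
    rcases le_total (m / b) w with h4 | h4
    · exact ⟨_, h4, _, by omega, h3.symm⟩
    · obtain ⟨y, hy⟩ := Nat.exists_eq_add_of_le h4
      have h5 : 2 * y * b ≤ x * b := Nat.mul_le_mul_right _ (by omega)
      rw [hy, add_mul] at h3
      rw [mul_assoc] at h5
      exact ⟨w, le_rfl, m % b + y * b, by omega, by omega⟩

end Arith

section Multi

variable {α : Type*} {ρ : α → α} {T : α → Prop} {x : α} {d : α → ℕ} {b : ℕ} {u : Multiset α}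

theorem le_split {u' : Multiset α} (h : x ∉ u) (h' : x ∉ u') {j a : ℕ}
    (H : u' + Multiset.replicate j x ≤ u + Multiset.replicate a x) : u' ≤ u ∧ j ≤ a := by
  classical
  rw [Multiset.le_iff_count] at H ⊢
  refine ⟨fun y => ?_, by simpa [Multiset.count_eq_zero.2 h, Multiset.count_eq_zero.2 h'] using H x⟩
  by_cases e : x = y
  · rw [← e, Multiset.count_eq_zero.2 h']; exact Nat.zero_le _
  · simpa [Multiset.count_replicate, e] using H y

theorem le_of_add_add_le {t v s : Multiset α} (hs : s.Nodup) (h : t + t ≤ v + v + s) : t ≤ v := by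
  classical
  rw [Multiset.le_iff_count] at h ⊢
  intro y
  have h1 := h y
  have h2 := Multiset.nodup_iff_count_le_one.1 hs y
  simp only [Multiset.count_add] at h1
  omega

theorem map_eq_self {t : Multiset α} (h : ∀ y ∈ t, ρ y = y) : t.map ρ = t :=
  (Multiset.map_congr rfl h).trans (Multiset.map_id t)

theorem nd_split (hu : ∀ P ∈ u, d P = b) (hρ : ρ x = x) (hx : d x = 1) (a m : ℕ) :
    (∃ t ≤ u + Multiset.replicate a x, t.map ρ = t ∧ (t.map d).sum = m) ↔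
      ∃ t ≤ u, t.map ρ = t ∧ ∃ j ≤ a, m = j + Multiset.card t * b := by
  have e : ∀ t ≤ u, ∀ j, ((t + Multiset.replicate j x).map d).sum = j + Multiset.card t * b := fun t ht j => by
    rw [Multiset.map_add, Multiset.sum_add, sum_map_of_const d fun P hP => hu P (Multiset.mem_of_le ht hP)]
    simp [hx, add_comm]
  constructor
  · rintro ⟨t, h1, h2, rfl⟩
    obtain ⟨t₁, h3, t₂, h4, rfl⟩ := le_add_iff_exists.1 h1
    obtain ⟨j, h5, rfl⟩ := Multiset.le_replicate_iff.1 h4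
    exact ⟨t₁, h3, map_eq_of_add (add_comm t₁ _ ▸ h2) (by simp [hρ]), j, h5, e _ h3 _⟩
  · rintro ⟨t, h1, h2, j, hj, rfl⟩
    exact ⟨_, add_le_add h1 ((Multiset.replicate_le_replicate x).2 hj), by simp [h2, hρ], e _ h1 _⟩

theorem ti_split (hu : ∀ P ∈ u, d P = b) (hx0 : x ∉ u) (hx1 : ∀ P ∈ u, ρ P ≠ x) (hρ : ρ x = x) (hx : d x = 1)
    (a m : ℕ) : (∃ t, t + t.map ρ ≤ u + Multiset.replicate a x ∧ (t.map d).sum = m) ↔
      ∃ t, t + t.map ρ ≤ u ∧ ∃ j, 2 * j ≤ a ∧ m = j + Multiset.card t * b := by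
  have e : ∀ t ≤ u, ∀ j, ((t + Multiset.replicate j x).map d).sum = j + Multiset.card t * b := fun t ht j => by
    rw [Multiset.map_add, Multiset.sum_add, sum_map_of_const d fun P hP => hu P (Multiset.mem_of_le ht hP)]
    simp [hx, add_comm]
  have e' : ∀ (t : Multiset α) j, t + Multiset.replicate j x + (t + Multiset.replicate j x).map ρ =
      t + t.map ρ + Multiset.replicate (2 * j) x := fun t j => by
    rw [Multiset.map_add, Multiset.map_replicate, hρ, two_mul, Multiset.replicate_add, add_add_add_comm]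
  constructor
  · rintro ⟨t, h1, rfl⟩
    obtain ⟨t₁, h3, t₂, h4, rfl⟩ := le_add_iff_exists.1 ((Multiset.le_add_right _ _).trans h1)
    obtain ⟨j, h5, rfl⟩ := Multiset.le_replicate_iff.1 h4
    rw [e'] at h1
    obtain ⟨h6, h7⟩ := le_split hx0 (fun h => (Multiset.mem_add.1 h).elim (fun h => hx0 (Multiset.mem_of_le h3 h))
      fun h => by
        obtain ⟨y, hy, e⟩ := Multiset.mem_map.1 h
        exact hx1 y (Multiset.mem_of_le h3 hy) e) h1
    exact ⟨t₁, h6, j, h7, e _ h3 _⟩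
  · rintro ⟨t, h1, j, hj, rfl⟩
    exact ⟨t + Multiset.replicate j x, e' t j ▸ add_le_add h1 ((Multiset.replicate_le_replicate x).2 hj),
      e _ ((Multiset.le_add_right _ _).trans h1) _⟩

end Multi

section Field

theorem pow_dvd_orderOf {M : Type*} [Monoid M] {x : M} {r n : ℕ} [hr : Fact r.Prime] (hn : n ≠ 0)
    (h1 : x ^ (r * n) = 1) (h2 : x ^ n ≠ 1) : r ^ (padicValNat r n + 1) ∣ orderOf x := by
  by_contra h
  refine h2 (orderOf_dvd_iff_pow_eq_one.1 ((Nat.dvd_iff_prime_pow_dvd_dvd _ _).2 fun p k hp hk => ?_))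
  by_cases e : p = r
  · subst e
    exact (padicValNat_dvd_iff_le hn).2 (le_of_not_gt fun h' => h ((pow_dvd_pow p h').trans hk))
  · exact (Nat.Coprime.pow_left k ((Nat.coprime_primes hp hr.out).2 e)).dvd_of_dvd_mul_left
      (hk.trans (orderOf_dvd_of_pow_eq_one h1))

variable {F : Type*} [Field F] {q : ℕ} {σ : F →+* F}

theorem exists_orderOf (h : IsBar σ q) {k : ℕ} (hk : k ∣ (q - 1) * (q + 1)) : ∃ c : F, c ≠ 0 ∧ orderOf c = k := by
  have := h.finite
  have := Fintype.ofFinite F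
  refine exists_orderOf_eq ?_
  rwa [h.fintype_card, ← one_pow 2, Nat.sq_sub_sq, mul_comm]

theorem odd_q (h : IsBar σ q) (h2 : ((2 : ℕ) : F) ≠ 0) : Odd q :=
  Nat.not_even_iff_odd.1 fun ⟨k, hk⟩ => by
    obtain ⟨p, f, hp, _, -, rfl⟩ := h.exists_prime_pow
    have := (Nat.prime_dvd_prime_iff_eq Nat.prime_two hp).1 (Nat.prime_two.dvd_of_dvd_pow (n := f) ⟨k, by omega⟩)
    exact h2 (this ▸ CharP.cast_eq_zero F p)

theorem neg_one_ne_one (h2 : ((2 : ℕ) : F) ≠ 0) : (-1 : F) ≠ 1 := fun e => h2 (by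
  rw [Nat.cast_ofNat, ← one_add_one_eq_two]; exact add_eq_zero_iff_neg_eq.2 e)

theorem pow_eq_neg_one {w : F} {n : ℕ} (h : orderOf w = 2 ^ (padicValNat 2 n + 1)) (hn : n ≠ 0) : w ^ n = -1 := by
  refine (sq_eq_one_iff.1 ?_).resolve_left fun e => ?_
  · rw [← pow_mul, ← orderOf_dvd_iff_pow_eq_one, h, pow_succ]
    exact mul_dvd_mul_right pow_padicValNat_dvd 2
  · exact pow_succ_padicValNat_not_dvd hn (h ▸ orderOf_dvd_of_pow_eq_one e)

theorem exists_normOne_iff (h : IsBar σ q) (h2 : ((2 : ℕ) : F) ≠ 0) {n : ℕ} (hn : n ≠ 0) :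
    (∃ w : F, w * σ w = 1 ∧ w ^ n = -1) ↔ padicValNat 2 n < padicValNat 2 (q + 1) := by
  simp only [h.norm_eq_pow]
  constructor
  · rintro ⟨w, h1, h3⟩
    exact (padicValNat_dvd_iff_le q.succ_ne_zero).1 ((pow_dvd_orderOf hn (by rw [mul_comm, pow_mul, h3, neg_one_sq])
      (h3 ▸ neg_one_ne_one h2)).trans (orderOf_dvd_of_pow_eq_one h1))
  · intro H
    have h1 := (padicValNat_dvd_iff_le q.succ_ne_zero).2 (Nat.succ_le_of_lt H)
    obtain ⟨w, -, hw⟩ := exists_orderOf h (h1.mul_left (q - 1))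
    exact ⟨w, orderOf_dvd_iff_pow_eq_one.1 (hw ▸ h1), pow_eq_neg_one hw hn⟩

theorem exists_normNeg_iff (h : IsBar σ q) (h2 : ((2 : ℕ) : F) ≠ 0) {k : ℕ} (hk : k ≠ 0) :
    (∃ w : F, w * σ w = -1 ∧ (-w ^ 2) ^ k = 1) ↔ q % 4 = 1 ∨ padicValNat 2 (q + 1) < padicValNat 2 (2 * k) := by
  obtain ⟨l, hl⟩ := odd_q h h2
  simp only [h.norm_eq_pow]
  constructor
  · rintro ⟨w, h1, h3⟩
    refine or_iff_not_imp_left.2 fun h4 => (padicValNat_dvd_iff_le (by omega)).1 ?_
    have h5 := pow_dvd_orderOf (r := 2) q.succ_ne_zero (by rw [mul_comm, pow_mul, h1, neg_one_sq])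
      (h1 ▸ neg_one_ne_one h2)
    have h6 : 2 ≤ padicValNat 2 (q + 1) := (padicValNat_dvd_iff_le q.succ_ne_zero).1 (by omega)
    have h7 : 2 ^ 3 ∣ 2 * k * 2 := ((pow_dvd_pow 2 (Nat.succ_le_succ h6)).trans h5).trans
      (orderOf_dvd_of_pow_eq_one (by rw [mul_assoc, pow_mul, mul_comm k, pow_mul, ← neg_sq, ← pow_mul, mul_comm,
        pow_mul, h3, one_pow]))
    rw [Even.neg_pow (Nat.even_iff.2 (by omega)), ← pow_mul] at h3
    exact h5.trans (orderOf_dvd_of_pow_eq_one h3)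
  · rintro (H | H)
    · obtain ⟨w, -, hw⟩ := exists_orderOf h (k := 2 ^ (padicValNat 2 2 + 1)) (by
        rw [padicValNat_self]; exact Dvd.dvd.mul_right (by omega) _)
      have h1 := pow_eq_neg_one hw two_ne_zero
      refine ⟨w, ?_, by rw [h1, neg_neg, one_pow]⟩
      rw [show q + 1 = 2 * (l + 1) by omega, pow_mul, h1, Odd.neg_one_pow (Nat.odd_iff.2 (by omega))]
    · obtain ⟨w, -, hw⟩ := exists_orderOf h (k := 2 ^ (padicValNat 2 (q + 1) + 1)) (by
        rw [pow_succ']; exact mul_dvd_mul (by omega) pow_padicValNat_dvd)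
      have h1 := (padicValNat_dvd_iff_le (by omega)).2 (Nat.succ_le_of_lt H)
      have h6 : 1 ≤ padicValNat 2 (q + 1) := (padicValNat_dvd_iff_le q.succ_ne_zero).1 (by omega)
      have h7 : 2 ^ 2 ∣ 2 * k := (pow_dvd_pow 2 (Nat.succ_le_succ h6)).trans h1
      refine ⟨w, pow_eq_neg_one hw q.succ_ne_zero, ?_⟩
      rw [Even.neg_pow (Nat.even_iff.2 (by omega)), ← pow_mul, ← orderOf_dvd_iff_pow_eq_one, hw]
      exact h1

theorem exists_typeB_iff (h : IsBar σ q) {r : ℕ} [hr : Fact r.Prime] (hr2 : r ≠ 2) {n : ℕ} (hn : n ≠ 0) :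
    (∃ (c : F) (k : ℕ), c * σ c = 1 ∧ (∀ d, d ^ r ≠ c) ∧ n = r * k ∧ c ^ k = 1) ↔
      r ∣ q + 1 ∧ padicValNat r (q + 1) < padicValNat r n := by
  have := h.finite
  have := Fintype.ofFinite F
  have h0 := h.two_le
  have hF : Fintype.card F - 1 = (q - 1) * (q + 1) := by
    rw [h.fintype_card, ← one_pow 2, Nat.sq_sub_sq, one_pow, mul_comm]
  have h1 : (q - 1) * (q + 1) ≠ 0 := mul_ne_zero (by omega) (by omega)
  simp only [h.norm_eq_pow]
  constructor
  · rintro ⟨c, k, h2, h3, rfl, h4⟩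
    have hc : c ≠ 0 := fun e => by simp [e] at h2
    have hk := right_ne_zero_of_mul hn
    have h5 := dvd_of_forall_pow_ne hr.out hc h3
    have h6 := (forall_pow_ne_iff h5 hc).1 h3
    rw [hF] at h5 h6
    refine ⟨(dvd_pow_self r ((dvd_iff_padicValNat_ne_zero h1).1 h5)).trans
      (h6.trans (orderOf_dvd_of_pow_eq_one h2)), ?_⟩
    have h7 := (padicValNat_dvd_iff_le hk).1 (h6.trans (orderOf_dvd_of_pow_eq_one h4))
    rw [padicValNat.mul (by omega) (by omega)] at h7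
    rw [padicValNat.mul hr.out.ne_zero hk, padicValNat_self]
    omega
  · rintro ⟨h2, h3⟩
    have h4 : ¬ r ∣ q - 1 := fun h4 => hr2 ((Nat.prime_dvd_prime_iff_eq hr.out Nat.prime_two).1 (by
      have := Nat.dvd_sub h2 h4
      rwa [show q + 1 - (q - 1) = 2 by omega] at this))
    obtain ⟨k, rfl⟩ : r ∣ n := (dvd_iff_padicValNat_ne_zero hn).2 (by omega)
    have hk := right_ne_zero_of_mul hn
    rw [padicValNat.mul hr.out.ne_zero hk, padicValNat_self] at h3
    obtain ⟨c, hc, ho⟩ := exists_orderOf h ((pow_padicValNat_dvd (p := r) (n := q + 1)).mul_left _)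
    refine ⟨c, k, orderOf_dvd_iff_pow_eq_one.1 (ho ▸ pow_padicValNat_dvd),
      (forall_pow_ne_iff (hF ▸ h2.mul_left _) hc).2 ?_, rfl,
      orderOf_dvd_iff_pow_eq_one.1 (ho ▸ (padicValNat_dvd_iff_le hk).2 (by omega))⟩
    rw [ho, hF, padicValNat.mul (by omega) (by omega), padicValNat.eq_zero_of_not_dvd h4, zero_add]

theorem eq_one_of_norm (h : IsBar σ q) {r : ℕ} (hr : r.Prime) (hq : ¬ r ∣ q + 1) {z : F} (h1 : z * σ z = 1)
    (h2 : z ^ r = 1) : z = 1 := by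
  rw [h.norm_eq_pow] at h1
  exact (pow_eq_one_iff_of_coprime ((Nat.Prime.coprime_iff_not_dvd hr).2 hq)).1 ⟨h2, h1⟩

theorem exists_norm_one_root (h : IsBar σ q) {r : ℕ} (hr : Odd r) {c d : F} (h1 : c * σ c = 1) (h2 : d ^ r * c = 1) :
    ∃ d : F, d * σ d = 1 ∧ d ^ r * c = 1 := by
  obtain ⟨k, hk⟩ := hr
  have h3 : (d * σ d) ^ r = 1 := by
    have := congrArg σ h2
    rw [map_mul, map_pow, map_one] at this
    linear_combination (-(d * σ d) ^ r) * h1 + (σ d ^ r * σ c) * h2 + this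
  refine ⟨d * (d * σ d) ^ k, ?_, by rw [mul_pow, ← pow_mul, mul_comm k, pow_mul, h3, one_pow, mul_one, h2]⟩
  rw [map_mul, map_pow, h.norm_fixed, ← h3, hk]
  ring

theorem exists_sq_eq (h : IsBar σ q) (h2 : ((2 : ℕ) : F) ≠ 0) {c : F} (h1 : c * σ c = 1) : ∃ w, w ^ 2 = c := by
  obtain ⟨l, hl⟩ := odd_q h h2
  obtain ⟨y, hy, e⟩ := h.exists_div_bar_eq h1
  refine ⟨y / y ^ (l + 1), ?_⟩
  rw [div_pow, ← pow_mul, show (l + 1) * 2 = q + 1 by omega, ← h.norm_eq_pow, div_eq_iff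
    (mul_ne_zero hy ((map_ne_zero σ).2 hy))]
  linear_combination y * e

variable {r : ℕ} [hr : Fact r.Prime]

theorem recip_eq_iff (h : IsBar σ q) (hr2 : r ≠ 2) (hrF : (r : F) ≠ 0) {P : F[X]} (hP : P ∈ ordFactors F r) :
    recip σ P = P ↔ orderOf (q : ZMod r) % 4 = 2 := by
  have := h.finite
  obtain ⟨p, f, hp, _, -, rfl⟩ := h.exists_prime_pow
  have := Fact.mk hp
  rw [recip_eq_self_iff h.bar_bar p h.apply hrF hP, h.card, exists_dvd_sq_pow_add_iff hr.out hr2 fun e => ?_]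
  have := orderOf_card_ne_zero hrF
  rw [h.card, Nat.cast_pow, orderOf_pow' _ two_ne_zero, e, Nat.zero_div] at this
  exact this rfl

theorem orderOf_sq_eq (x : ZMod r) : orderOf (x ^ 2) = if Even (orderOf x) then orderOf x / 2 else orderOf x := by
  rw [orderOf_pow' _ two_ne_zero]
  split_ifs with h
  · rw [Nat.gcd_eq_right h.two_dvd]
  · rw [(Nat.coprime_two_right.2 (Nat.not_even_iff_odd.1 h)).gcd_eq_one, Nat.div_one]

theorem dvd_of_neg_pow (hr2 : r ≠ 2) {j : ℕ} (hj : j ≠ 0) (h : (-(q : ZMod r)) ^ j = 1) :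
    orderOf ((q : ZMod r) ^ 2) ∣ j ∧ (orderOf (q : ZMod r) % 4 ≠ 2 → 2 * orderOf ((q : ZMod r) ^ 2) ∣ j) := by
  have h1 : ((q : ZMod r) ^ 2) ^ j = 1 := by rw [← neg_sq, ← pow_mul, mul_comm, pow_mul, h, one_pow]
  refine ⟨orderOf_dvd_of_pow_eq_one h1, fun h2 => ?_⟩
  rcases Nat.even_or_odd' j with ⟨k, rfl | rfl⟩
  · exact mul_dvd_mul_left 2 (orderOf_dvd_of_pow_eq_one (by rwa [pow_mul, neg_sq] at h))
  · refine absurd ((exists_dvd_sq_pow_add_iff hr.out hr2 (isOfFinOrder_iff_pow_eq_one.2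
      ⟨2 * (2 * k + 1), by omega, by rw [pow_mul, h1]⟩).orderOf_pos.ne').1 ⟨k + 1, ?_⟩) h2
    rw [← ZMod.natCast_eq_zero_iff]
    rw [pow_succ, pow_mul, neg_sq] at h
    push_cast
    linear_combination (-(q : ZMod r)) * h

theorem orderOf_eq_two_iff (hr2 : r ≠ 2) : orderOf (q : ZMod r) = 2 ↔ r ∣ q + 1 := by
  have : Fact (2 < r) := ⟨lt_of_le_of_ne hr.out.two_le hr2.symm⟩
  rw [← ZMod.natCast_eq_zero_iff, Nat.cast_succ, add_eq_zero_iff_eq_neg]
  refine ⟨fun h => (sq_eq_one_iff.1 (h ▸ pow_orderOf_eq_one _)).resolve_left fun e => by simp [e] at h, fun h => ?_⟩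
  rw [h]
  exact orderOf_eq_prime neg_one_sq ZMod.neg_one_ne_one

end Field

end CL.Elh
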