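/-
Normal forms of the elements of prime order of the projective special unitary groups.
-/
import Cfsg.Agent.Cls.ElhNum
import Cfsg.Agent.Cls.ElfCore

set_option autoImplicit false

open Polynomial Module

namespace CL.Elh

open CL.GLn CL.Known CL.Uni CL.Elu

universe u v

variable {F : Type u} [Field F] {q : ℕ} {σ : F →+* F} {V : Type v} [AddCommGroup V] [Module F V]
  {B : V →ₛₗ[σ] V →ₗ[F] F} {f : End F V}

/-- Every element of order `r` of the projective special unitary group has the property `Φ`. -/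
def UEl (B : V →ₛₗ[σ] V →ₗ[F] F) (r : ℕ) (Φ : End F V → Prop) : Prop := ∀ f, PEl r f → Iso B f → Φ f

/-- The elementary divisors of a diagonalizable map. -/
noncomputable def lin (t : Multiset F) : Multiset F[X] := t.map fun z => X - C z

theorem xc_inj : Function.Injective fun z : F => X - C z := fun _ _ h => C_injective (sub_right_injective h)

theorem lin_injective : Function.Injective (lin (F := F)) := Multiset.map_injective xc_inj

theorem lin_add (s t : Multiset F) : lin (s + t) = lin s + lin t := Multiset.map_add _ _ _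

theorem lin_le_iff {s t : Multiset F} : lin s ≤ lin t ↔ s ≤ t := Multiset.map_le_map_iff xc_inj

theorem exists_eq_lin {s : Multiset F[X]} {t : Multiset F} (h : s ≤ lin t) : ∃ t' ≤ t, s = lin t' := by
  obtain ⟨t', rfl⟩ : ∃ t', s = lin t' := ⟨s.map fun P => -P.coeff 0, by
    rw [lin, Multiset.map_map]
    refine (Multiset.map_id s).symm.trans (Multiset.map_congr rfl fun P hP => ?_)
    obtain ⟨e, -, rfl⟩ := Multiset.mem_map.1 (Multiset.mem_of_le h hP)
    simp⟩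
  exact ⟨t', lin_le_iff.1 h, rfl⟩

theorem map_recip_lin {t : Multiset F} (h : ∀ z ∈ t, z ≠ 0) : (lin t).map (recip σ) = lin (t.map (invBar σ)) := by
  rw [lin, lin, Multiset.map_map, Multiset.map_map]
  exact Multiset.map_congr rfl fun z hz => recip_X_sub_C (h z hz)

theorem irreducible_lin (t : Multiset F) : ∀ P ∈ lin t, Irreducible P := fun P hP => by
  obtain ⟨z, -, rfl⟩ := Multiset.mem_map.1 hP
  exact irreducible_X_sub_C z

theorem invBar_of_norm {w c : F} (h : w * σ w = c) (hc : c * c = 1) : invBar σ w = c * w ∧ invBar σ (-w) = -(c * w) := by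
  have : invBar σ w = c * w := (invBar_apply w).trans (eq_inv_of_mul_eq_one_left (by rw [mul_assoc, h, hc])).symm
  exact ⟨this, by rw [← this, invBar_apply, invBar_apply, map_neg, inv_neg]⟩

theorem recip_X_pow_sub_C {c : F} (h : c * σ c = 1) {r : ℕ} (hr : r ≠ 0) : recip σ (X ^ r - C c) = X ^ r - C c := by
  have h0 : (X ^ r - C c).coeff 0 = -c := by simp [hr.symm]
  have h1 : (σ (-c))⁻¹ = -c := (eq_inv_of_mul_eq_one_left (by rw [map_neg, neg_mul_neg, h])).symm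
  rw [recip, h0, h1, Polynomial.map_sub, Polynomial.map_pow, map_X, map_C, reverse, natDegree_X_pow_sub_C,
    reflect_sub, reflect_C, reflect_monomial, revAt_le le_rfl, Nat.sub_self,
    pow_zero, mul_sub, mul_one, ← mul_assoc, ← C_mul, neg_mul c, h]
  simp [sub_eq_neg_add, add_comm]

theorem map_recip_jb (μ : Multiset ℕ) : ∀ P ∈ jb F μ, recip σ P = P := fun P hP => by
  obtain ⟨a, -, rfl⟩ := Multiset.mem_map.1 hP
  rw [recip_pow, recip_X_sub_one]

variable [FiniteDimensional F V]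

theorem Iso.ne_zero (h : IsHerm B q) (hf : Iso B f) {t : Multiset F} (hs : HasED f (lin t)) : ∀ z ∈ t, z ≠ 0 :=
  fun z hz e => hf.not_X_dvd h hs _ (Multiset.mem_map_of_mem _ hz) (by simp [e])

theorem fxN_lin (h : IsHerm B q) {d : F} (hf : Iso B (d • f)) (hd : d ≠ 0) {t : Multiset F}
    (hs : HasED (d • f) (lin t)) (m : ℕ) :
    FxN B m f ↔ ∃ t' ≤ t, t'.map (invBar σ) = t' ∧ Multiset.card t' = m := by
  have h0 := fun t' (h' : t' ≤ t) => map_recip_lin (σ := σ) fun z hz => hf.ne_zero h hs z (Multiset.mem_of_le h' hz)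
  rw [fxN_iff h hf hd hs]
  constructor
  · rintro ⟨s, h1, h2, rfl⟩
    obtain ⟨t', h3, rfl⟩ := exists_eq_lin h1
    exact ⟨t', h3, lin_injective ((h0 _ h3).symm.trans h2), (sum_natDegree_linear _).symm⟩
  · rintro ⟨t', h1, h2, rfl⟩
    exact ⟨_, lin_le_iff.2 h1, by rw [h0 _ h1, h2], sum_natDegree_linear _⟩

theorem fxT_lin (h : IsHerm B q) {d : F} (hf : Iso B (d • f)) (hd : d ≠ 0) {t : Multiset F}
    (hs : HasED (d • f) (lin t)) (m : ℕ) :
    FxT B m f ↔ ∃ t', t' + t'.map (invBar σ) ≤ t ∧ Multiset.card t' = m := by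
  have h0 := fun t' (h' : t' ≤ t) => map_recip_lin (σ := σ) fun z hz => hf.ne_zero h hs z (Multiset.mem_of_le h' hz)
  rw [fxT_iff h hf hd hs (irreducible_lin t)]
  constructor
  · rintro ⟨s, h1, rfl⟩
    obtain ⟨t', h3, rfl⟩ := exists_eq_lin ((Multiset.le_add_right _ _).trans h1)
    exact ⟨t', by rwa [h0 _ h3, ← lin_add, lin_le_iff] at h1, (sum_natDegree_linear _).symm⟩
  · rintro ⟨t', h1, rfl⟩
    exact ⟨lin t', by rwa [h0 _ ((Multiset.le_add_right _ _).trans h1), ← lin_add, lin_le_iff], sum_natDegree_linear _⟩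

theorem not_fxT_lin (h : IsHerm B q) (hf : Iso B f) {v s : Multiset F} (hs : HasED f (lin (v + v + s)))
    (h1 : ∀ z ∈ v + v + s, invBar σ z = z) (h2 : s.Nodup) {m : ℕ} (hm : Multiset.card v < m) : ¬ FxT B m f := by
  rw [fxT_lin h (d := 1) (by rwa [one_smul]) one_ne_zero (by rwa [one_smul])]
  rintro ⟨t, h3, rfl⟩
  rw [map_eq_self fun z hz => h1 z (Multiset.mem_of_le h3 (Multiset.mem_add.2 (Or.inl hz)))] at h3
  exact hm.not_ge (Multiset.card_le_card (le_of_add_add_le h2 h3))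

theorem exists_pEl_lin (h : IsHerm B q) {t : Multiset F} (h1 : t.map (invBar σ) = t)
    (hn : Multiset.card t = finrank F V) (h2 : t.prod = 1) {r : ℕ} {c : F} (h3 : ∀ z ∈ t, z ^ r = c)
    {x y : F} (hx : x ∈ t) (hy : y ∈ t) (hxy : x ≠ y) : ∃ g, PEl r g ∧ Iso B g ∧ HasED g (lin t) := by
  have h0 : ∀ z ∈ t, z ≠ 0 := fun z hz e => zero_ne_one ((Multiset.prod_eq_zero (e ▸ hz)).symm.trans h2)
  obtain ⟨g, a1, a2⟩ := exists_iso h (s := lin t) (fun P hP => by
      obtain ⟨z, -, rfl⟩ := Multiset.mem_map.1 hP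
      exact isPrimaryPoly_of_irreducible (monic_X_sub_C z) (irreducible_X_sub_C z))
    (fun P hP => by
      obtain ⟨z, hz, rfl⟩ := Multiset.mem_map.1 hP
      simpa [X_dvd_iff] using h0 z hz) (by rw [map_recip_lin h0, h1]) ((sum_natDegree_linear _).trans hn)
  refine ⟨g, ⟨(det_of_linear a2).trans h2, ⟨c, (HasED.pow_eq_iff a2 r c).2 fun P hP => ?_⟩, fun e he => hxy ?_⟩, a1, a2⟩
  · obtain ⟨z, hz, rfl⟩ := Multiset.mem_map.1 hP
    simp [dvd_iff_isRoot, h3 z hz]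
  · have := (HasED.eq_smul_iff a2 e).1 he
    exact xc_inj ((this _ (Multiset.mem_map_of_mem _ hx)).trans (this _ (Multiset.mem_map_of_mem _ hy)).symm)

omit [FiniteDimensional F V] in
theorem PEl.nontrivial {r : ℕ} (hf : PEl r f) : Nontrivial V :=
  not_subsingleton_iff_nontrivial.1 fun _ => hf.ns 1 (Subsingleton.elim _ _)

theorem cases_two (h : IsHerm B q) (h2 : ((2 : ℕ) : F) ≠ 0) (hf : PEl 2 f) (hi : Iso B f) :
    ∃ (w : F) (a b : ℕ), a + b = finrank F V ∧ w ^ a * (-w) ^ b = 1 ∧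
      HasED f (lin (Multiset.replicate a w + Multiset.replicate b (-w))) ∧
      (w * σ w = 1 ∨ w * σ w = -1 ∧ a = b) := by
  classical
  have := h.bar.finite
  have := PEl.nontrivial hf
  obtain ⟨c, hc⟩ := hf.pow
  have h1 := hi.norm_eq h hc
  obtain ⟨d, hd, e, u, a, hu, -, hs⟩ := (semisimple_cases Nat.prime_two h2 hf.isUnit hf.ns hc).resolve_right
    fun e => (exists_sq_eq h.bar h2 h1).elim e.2.1
  have h3 : HasED f (lin (Multiset.replicate a d⁻¹ + Multiset.replicate (Multiset.card u) (-d⁻¹))) := by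
    have := hasED_smul_linear (g := d • f) (t := Multiset.replicate a 1 + Multiset.replicate (Multiset.card u) (-1))
      (by rw [eq_replicate_of_two h2 hu, add_comm] at hs; simpa using hs) d⁻¹
    rwa [inv_smul_smul₀ hd, Multiset.map_add (d⁻¹ * ·), Multiset.map_replicate, Multiset.map_replicate, mul_one,
      mul_neg_one] at this
  have h4 : (d⁻¹ * σ d⁻¹) ^ 2 = 1 := by
    rw [mul_pow, ← map_pow, inv_pow, ← eq_inv_of_mul_eq_one_right e, h1]
  refine ⟨_, _, _, ?_, ?_, h3, (sq_eq_one_iff.1 h4).imp_right fun h5 => ⟨h5, ?_⟩⟩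
  · simpa [lin] using h3.finrank_eq.symm
  · simpa using (det_of_linear h3).symm.trans hf.det
  · have h6 := hi.map_recip h h3
    have h7 : d⁻¹ ≠ -d⁻¹ := fun e => neg_one_ne_one h2 (mul_left_cancel₀ (inv_ne_zero hd) (by
      rw [mul_neg_one, ← e, mul_one]))
    rw [map_recip_lin (hi.ne_zero h h3), lin_injective.eq_iff, Multiset.map_add, Multiset.map_replicate,
      Multiset.map_replicate, (invBar_of_norm h5 (by simp)).1, (invBar_of_norm h5 (by simp)).2, neg_one_mul,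
      neg_neg] at h6
    simpa [Multiset.count_replicate, h7, h7.symm] using (congrArg (Multiset.count d⁻¹) h6).symm

theorem cases_char (h : IsHerm B q) (p : ℕ) [Fact p.Prime] [CharP F p] (hf : PEl p f) (hi : Iso B f) :
    ∃ d : F, d ≠ 0 ∧ Iso B (d • f) ∧ ∃ μ : Multiset ℕ, (∀ a ∈ μ, 0 < a ∧ a ≤ p) ∧ μ.sum = finrank F V ∧
      HasED (d • f) (jb F μ) := by
  have := h.bar.finite
  have := PEl.nontrivial hf
  obtain ⟨c, hc⟩ := hf.pow
  have h1 := hi.norm_eq h hc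
  obtain ⟨d, hd, e, μ, h2, -, h3⟩ := unipotent_cases p hf.isUnit hf.ns hc
  refine ⟨d, hd, hi.smul (frobenius_inj F p ?_), μ, h2, h3⟩
  have := congrArg σ e
  rw [map_mul, map_pow, map_one] at this
  rw [frobenius_def, map_one]
  linear_combination (-(d * σ d) ^ p) * h1 + (σ d ^ p * σ c) * e + this

theorem exists_pEl_jb (h : IsHerm B q) (p : ℕ) [Fact p.Prime] [CharP F p] {μ : Multiset ℕ}
    (h1 : ∀ a ∈ μ, 0 < a ∧ a ≤ p) (h2 : ∃ a ∈ μ, 1 < a) (h3 : μ.sum = finrank F V) :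
    ∃ g, PEl p g ∧ Iso B g ∧ HasED g (jb F μ) := by
  obtain ⟨g, a1, a2⟩ := exists_iso h (primary_jb fun a ha => (h1 a ha).1) (fun P hP e => by
      obtain ⟨a, -, rfl⟩ := Multiset.mem_map.1 hP
      simpa [X_dvd_iff] using prime_X.dvd_of_dvd_pow e) (map_eq_self (map_recip_jb μ))
    ((sum_natDegree_jb μ).trans h3)
  exact ⟨g, pEl_of_jb p (fun a ha => (h1 a ha).2) h2 a2, a1, a2⟩

variable {r : ℕ} [hr : Fact r.Prime]

theorem cases_odd (h : IsHerm B q) (hr2 : r ≠ 2) (hrF : (r : F) ≠ 0) (hf : PEl r f) (hi : Iso B f) :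
    (∃ d : F, d ≠ 0 ∧ Iso B (d • f) ∧ ∃ (u : Multiset F[X]) (a : ℕ), (∀ P ∈ u, P ∈ ordFactors F r) ∧ u ≠ 0 ∧
      HasED (d • f) (u + Multiset.replicate a (X - 1))) ∨
    ∃ (c : F) (k : ℕ), c * σ c = 1 ∧ (∀ d, d ^ r ≠ c) ∧ finrank F V = r * k ∧ c ^ k = 1 ∧
      HasED f (Multiset.replicate k (X ^ r - C c)) := by
  have := PEl.nontrivial hf
  have ho := hr.out.odd_of_ne_two hr2
  obtain ⟨c, hc⟩ := hf.pow
  have h1 := hi.norm_eq h hc
  rcases semisimple_cases hr.out hrF hf.isUnit hf.ns hc with ⟨d, -, e, -⟩ | ⟨-, h2, k, h3⟩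
  · obtain ⟨d, h2, e⟩ := exists_norm_one_root h.bar ho h1 e
    have hd := left_ne_zero_of_mul_eq_one h2
    obtain ⟨u, a, h3, h4⟩ := exists_hasED_of_pow hr.out hrF (g := d • f)
      (by rw [_root_.smul_pow, hc, smul_smul, e, one_smul])
    refine Or.inl ⟨d, hd, hi.smul h2, u, a, h3, ?_, h4⟩
    rintro rfl
    refine smul_ne_smul_one hf.ns hd 1 ((HasED.eq_smul_iff h4 1).2 fun P hP => ?_)
    rw [zero_add] at hP
    rw [Multiset.eq_of_mem_replicate hP, C_1]
  · obtain ⟨h4, h5⟩ := det_replicate hr.out.ne_zero h3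
    exact Or.inr ⟨c, k, h1, h2, h4, by rwa [hf.det, ho.add_one.neg_one_pow, one_mul, eq_comm] at h5, h3⟩

theorem exists_pEl_B (h : IsHerm B q) (hr2 : r ≠ 2) {c : F} {k : ℕ} (hk : k ≠ 0) (h1 : c * σ c = 1)
    (h2 : ∀ d, d ^ r ≠ c) (h3 : finrank F V = r * k) (h4 : c ^ k = 1) :
    ∃ g, PEl r g ∧ Iso B g ∧ HasED g (Multiset.replicate k (X ^ r - C c)) := by
  obtain ⟨g, a1, a2⟩ := Elu.exists_pEl_B hr.out hk h2 h3
    (by rwa [(hr.out.odd_of_ne_two hr2).add_one.neg_one_pow, one_mul])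
  obtain ⟨g', b1, b2⟩ := exists_iso h a2.primary (fun P hP => by
      simpa [Multiset.eq_of_mem_replicate hP, X_dvd_iff, hr.out.ne_zero.symm] using left_ne_zero_of_mul_eq_one h1)
    (by rw [Multiset.map_replicate, recip_X_pow_sub_C h1 hr.out.ne_zero]) a2.finrank_eq.symm
  obtain ⟨c', hc⟩ := a1.pow
  exact ⟨g', ⟨(b2.sim a2).det.trans a1.det, ⟨c', (HasED.pow_eq_iff b2 r c').2 ((HasED.pow_eq_iff a2 r c').1 hc)⟩,
    fun e he => a1.ns e ((HasED.eq_smul_iff a2 e).2 ((HasED.eq_smul_iff b2 e).1 he))⟩, b1, b2⟩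

theorem exists_pEl_ord (h : IsHerm B q) (hrF : (r : F) ≠ 0) (hq : ¬ r ∣ q + 1) {u : Multiset F[X]}
    (hu : ∀ P ∈ u, P ∈ ordFactors F r) (hu0 : u ≠ 0) (hρ : u.map (recip σ) = u) {a : ℕ}
    (hn : finrank F V = a + Multiset.card u * orderOf ((q : ZMod r) ^ 2)) :
    ∃ g, PEl r g ∧ Iso B g ∧ HasED g (u + Multiset.replicate a (X - 1)) := by
  have := h.bar.finite
  have h0 := irreducible_of_ord hrF hu a
  obtain ⟨g, a1, a2⟩ := exists_iso h (fun P hP => isPrimaryPoly_of_irreducible (h0 P hP).1 (h0 P hP).2.1)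
    (fun P hP e => by simpa [X_dvd_iff, hr.out.ne_zero.symm] using e.trans (h0 P hP).2.2)
    (by simp [hρ, recip_X_sub_one]) (by rw [sum_natDegree_ord hrF hu, hn, h.bar.card, Nat.cast_pow])
  have h1 := pow_eq_one_of_ord hrF hu a2
  refine ⟨g, ⟨eq_one_of_norm h.bar hr.out hq (a1.norm_det h) (by rw [← map_pow, h1, map_one]),
    ⟨1, by rw [h1, one_smul]⟩, fun c hc => ?_⟩, a1, a2⟩
  obtain ⟨P, hP⟩ := Multiset.exists_mem_of_ne_zero hu0
  have h2 := (HasED.eq_smul_iff a2 c).1 hc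
  have h3 := h2 P (Multiset.mem_add.2 (Or.inl hP))
  have h4 := h2 _ (Multiset.mem_add.2 (Or.inl (hρ ▸ Multiset.mem_map_of_mem (recip σ) hP)))
  have h5 : c ^ r = 1 := by simpa [h3, dvd_iff_isRoot, sub_eq_zero] using dvd_of_mem_ordFactors hrF (hu P hP)
  have h6 : c ≠ 0 := fun e => by simp [e, hr.out.ne_zero] at h5
  rw [h3, recip_X_sub_C h6, sub_right_inj, C_inj] at h4
  refine X_sub_one_not_mem_ordFactors hr.out.ne_one hrF ?_
  rw [← C_1, ← eq_one_of_norm h.bar hr.out hq (by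
    nth_rewrite 1 [← h4]; exact inv_mul_cancel₀ ((map_ne_zero σ).2 h6)) h5, ← h3]
  exact hu P hP

theorem uEl_iff_ord (h : IsHerm B q) (hr2 : r ≠ 2) (hrF : (r : F) ≠ 0) (hq : ¬ r ∣ q + 1) {Φ : End F V → Prop}
    {Ψ : Multiset F[X] → ℕ → Prop} (H : ∀ (f : End F V) (d : F) u a, d ≠ 0 → Iso B (d • f) →
      (∀ P ∈ u, P ∈ ordFactors F r) → HasED (d • f) (u + Multiset.replicate a (X - 1)) → (Φ f ↔ Ψ u a)) :
    UEl B r Φ ↔ ∀ u a, (∀ P ∈ u, P ∈ ordFactors F r) → u ≠ 0 → u.map (recip σ) = u →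
      finrank F V = a + Multiset.card u * orderOf ((q : ZMod r) ^ 2) → Ψ u a := by
  have := h.bar.finite
  constructor
  · intro h1 u a hu hu0 hρ hn
    obtain ⟨g, a1, a2, a3⟩ := exists_pEl_ord h hrF hq hu hu0 hρ hn
    exact (H g 1 u a one_ne_zero (by rwa [one_smul]) hu (by rwa [one_smul])).1 (h1 g a1 a2)
  · intro h1 f hf hi
    rcases cases_odd h hr2 hrF hf hi with ⟨d, hd, h2, u, a, hu, hu0, hs⟩ | ⟨c, k, h2, h3, h4, h5, -⟩
    · refine (H f d u a hd h2 hu hs).2 (h1 u a hu hu0 (map_eq_of_add (add_comm u _ ▸ h2.map_recip h hs)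
        (by simp [recip_X_sub_one])) ?_)
      rw [hs.finrank_eq, sum_natDegree_ord hrF hu, h.bar.card, Nat.cast_pow]
    · have := PEl.nontrivial hf
      exact absurd ((exists_typeB_iff h.bar hr2 finrank_pos.ne').1 ⟨c, k, h2, h3, h4, h5⟩).1 hq

theorem cases_lin (h : IsHerm B q) (hr2 : r ≠ 2) (hrF : (r : F) ≠ 0) (hq : r ∣ q + 1) (hf : PEl r f) (hi : Iso B f) :
    (∃ d : F, d ≠ 0 ∧ Iso B (d • f) ∧ ∃ t : Multiset F, (∀ z ∈ t, z ^ r = 1 ∧ invBar σ z = z) ∧
      HasED (d • f) (lin t)) ∨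
    padicValNat r (q + 1) < padicValNat r (finrank F V) ∧ ∃ (c : F) (k : ℕ), c * σ c = 1 ∧ (∀ d, d ^ r ≠ c) ∧
      finrank F V = r * k ∧ HasED f (Multiset.replicate k (X ^ r - C c)) := by
  have := h.bar.finite
  have := PEl.nontrivial hf
  rcases cases_odd h hr2 hrF hf hi with ⟨d, hd, h2, u, a, hu, -, hs⟩ | ⟨c, k, h2, h3, h4, h5, h6⟩
  · obtain ⟨t, ht, e⟩ := exists_linear_of_order_one hrF (by
      rw [h.bar.card, Nat.cast_pow, orderOf_eq_one_iff, ← (orderOf_eq_two_iff hr2).2 hq, pow_orderOf_eq_one]) hu a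
    refine Or.inl ⟨d, hd, h2, t, fun z hz => ⟨ht z hz, ?_⟩, by rwa [e] at hs⟩
    obtain ⟨l, hl⟩ := hq
    rw [(invBar_of_norm (c := 1) (by rw [h.bar.norm_eq_pow, hl, pow_mul, ht z hz, one_pow]) (one_mul _)).1, one_mul]
  · exact Or.inr ⟨((exists_typeB_iff h.bar hr2 finrank_pos.ne').1 ⟨c, k, h2, h3, h4, h5⟩).2, c, k, h2, h3, h4, h6⟩

end CL.Elh
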