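/-
Elements of prime order of the projective special unitary groups fixing no nondegenerate or totally isotropic
subspace of a given dimension.
-/
import Cfsg.Agent.Cls.ElhCases

set_option autoImplicit false

open Polynomial Module

namespace CL.Elh

open CL.GLn CL.Known CL.Uni CL.Elu

universe u v

variable {F : Type u} [Field F] {q : ℕ} {σ : F →+* F} {V : Type v} [AddCommGroup V] [Module F V]
  {B : V →ₛₗ[σ] V →ₗ[F] F} {f : End F V} [FiniteDimensional F V] (h : IsHerm B q) {n m : ℕ} (hn : finrank F V = n)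

theorem ne_neg_self (h2 : ((2 : ℕ) : F) ≠ 0) {w : F} (hw : w ≠ 0) : w ≠ -w := fun e =>
  neg_one_ne_one h2 (mul_left_cancel₀ hw (by rw [mul_neg_one, ← e, mul_one]))

theorem invBar_invBar (hσ : ∀ a, σ (σ a) = a) (z : F) : invBar σ (invBar σ z) = z := by
  rw [invBar_apply, invBar_apply, map_inv₀, hσ, inv_inv]

include h

theorem fxN_of_self {d : F} (hf : Iso B (d • f)) (hd : d ≠ 0) {s : Multiset F[X]} (hs : HasED (d • f) s)
    (hρ : ∀ P ∈ s, recip σ P = P) : FxN B m f ↔ ∃ t ≤ s, (t.map natDegree).sum = m := by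
  rw [fxN_iff h hf hd hs]
  exact exists_congr fun t => and_congr_right fun ht =>
    and_iff_right (map_eq_self fun P hP => hρ P (Multiset.mem_of_le ht hP))

include hn

theorem nd_char (p : ℕ) [Fact p.Prime] [CharP F p] (hmn : m ≤ n) : UEl B p (FxN B m) ↔
    ∀ μ : Multiset ℕ, (∀ a ∈ μ, 0 < a ∧ a ≤ p) → μ.sum = n → ∃ ν ≤ μ, ν.sum = m := by
  constructor
  · intro H μ h1 h2
    by_cases h3 : ∃ a ∈ μ, 1 < a
    · obtain ⟨g, a1, a2, a3⟩ := exists_pEl_jb h p h1 h3 (h2.trans hn.symm)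
      exact (exists_le_jb_iff μ m).1 ((fxN_of_self h (d := 1) (by rwa [one_smul]) one_ne_zero (by rwa [one_smul])
        (map_recip_jb μ)).1 (H g a1 a2))
    · push Not at h3
      have h4 : ∀ a ∈ μ, id a = 1 := fun a ha => le_antisymm (h3 a ha) (h1 a ha).1
      have h5 := sum_map_of_const id h4
      rw [Multiset.map_id, mul_one] at h5
      obtain ⟨ν, hν, e⟩ := exists_le_card_eq μ (k := m) (by omega)
      have h6 := sum_map_of_const id fun a ha => h4 a (Multiset.mem_of_le hν ha)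
      rw [Multiset.map_id, mul_one] at h6
      exact ⟨ν, hν, h6.trans e⟩
  · intro H f hf hi
    obtain ⟨d, hd, h1, μ, h2, h3, h4⟩ := cases_char h p hf hi
    exact (fxN_of_self h h1 hd h4 (map_recip_jb μ)).2 ((exists_le_jb_iff μ m).2 (H μ h2 (h3.trans hn)))

theorem nd_two (h2 : ((2 : ℕ) : F) ≠ 0) (h0 : n ≠ 0) (hmn : m ≤ n) : UEl B 2 (FxN B m) ↔
    Odd n ∨ Even m ∨ (padicValNat 2 n ≤ padicValNat 2 (q + 1) ∧ q % 4 = 3) := by
  obtain ⟨l, hl⟩ := odd_q h.bar h2
  constructor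
  · intro H
    by_contra h3
    simp only [not_or, Nat.not_odd_iff_even, Nat.not_even_iff_odd] at h3
    obtain ⟨⟨k, rfl⟩, h4, h5⟩ := h3
    obtain ⟨w, h6, h7⟩ := (exists_normNeg_iff h.bar h2 (k := k) (by omega)).2 (by rw [two_mul]; omega)
    obtain ⟨e1, e2⟩ := invBar_of_norm h6 (by simp)
    rw [neg_one_mul] at e1 e2
    have h8 := ne_neg_self h2 (left_ne_zero_of_mul (h6 ▸ neg_ne_zero.2 one_ne_zero))
    obtain ⟨g, a1, a2, a3⟩ := exists_pEl_lin h (t := Multiset.replicate k w + Multiset.replicate k (-w))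
      (by simp [e1, e2, add_comm]) (by simp [hn]) (by rw [← h7]; simp [← mul_pow, sq]) (r := 2) (c := w ^ 2)
      (by simp +contextual [Multiset.mem_replicate, or_imp]) (by simp [Multiset.mem_replicate]; omega)
      (by simp [Multiset.mem_replicate]; omega) h8
    obtain ⟨t, b1, b2, rfl⟩ := (fxN_lin h (d := 1) (by rwa [one_smul]) one_ne_zero (by rwa [one_smul]) m).1 (H g a1 a2)
    obtain ⟨v, rfl⟩ := Elf.exists_split_of_ne _ _ t rfl b2 (fun z _ => invBar_invBar h.bar_bar z) fun z hz => by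
      rcases Multiset.mem_add.1 (Multiset.mem_of_le b1 hz) with e | e <;> rw [Multiset.eq_of_mem_replicate e]
      · exact e1 ▸ h8.symm
      · rwa [e2, neg_neg]
    exact (Nat.not_odd_iff_even.2 ⟨Multiset.card v, by simp⟩) h4
  · intro H f hf hi
    obtain ⟨w, a, b, h3, h4, h5, h6 | ⟨h6, rfl⟩⟩ := cases_two h h2 hf hi
    all_goals
      rw [fxN_lin h (d := 1) (by rwa [one_smul]) one_ne_zero (by rwa [one_smul])]
      obtain ⟨e1, e2⟩ := invBar_of_norm h6 (by simp)
    · obtain ⟨t, b1, b2⟩ := exists_le_card_eq (Multiset.replicate a w + Multiset.replicate b (-w)) (k := m)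
        (by simp; omega)
      refine ⟨t, b1, map_eq_self fun z hz => ?_, b2⟩
      rcases Multiset.mem_add.1 (Multiset.mem_of_le b1 hz) with e | e <;>
        simp [Multiset.eq_of_mem_replicate e, e1, e2]
    · rcases H with ⟨k, H⟩ | ⟨k, rfl⟩ | H
      · omega
      · exact ⟨Multiset.replicate k w + Multiset.replicate k (-w), add_le_add
          ((Multiset.replicate_le_replicate _).2 (by omega)) ((Multiset.replicate_le_replicate _).2 (by omega)),
          by simp [e1, e2, add_comm], by simp⟩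
      · have := (exists_normNeg_iff h.bar h2 (k := a) (by omega)).1 ⟨w, h6, by rw [← h4]; simp [← mul_pow, sq]⟩
        rw [two_mul, h3, hn] at this
        omega

theorem exists_two (h2 : ((2 : ℕ) : F) ≠ 0) (hm : n = 2 * m + 2) (H : padicValNat 2 n < padicValNat 2 (q + 1)) :
    ∃ w : F, w ≠ 0 ∧ invBar σ w = w ∧ invBar σ (-w) = -w ∧ ∃ g, PEl 2 g ∧ Iso B g ∧
      HasED g (lin (Multiset.replicate m (-w) + Multiset.replicate m (-w) + {w, -w})) := by
  obtain ⟨w, h6, h7⟩ := (exists_normOne_iff h.bar h2 (n := n) (by omega)).2 H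
  obtain ⟨e1, e2⟩ := invBar_of_norm h6 (by simp)
  rw [one_mul] at e1 e2
  have h0 := left_ne_zero_of_mul_eq_one h6
  refine ⟨w, h0, e1, e2, exists_pEl_lin h (by simp [e1, e2]) (by simp; omega) ?_ (c := w ^ 2)
    (by simp +contextual [Multiset.mem_replicate, or_imp]) (by simp) (by simp) (ne_neg_self h2 h0)⟩
  rw [hm, pow_add, pow_mul, ← neg_sq, ← pow_mul, two_mul, pow_add] at h7
  simp only [Multiset.prod_add, Multiset.prod_replicate, Multiset.insert_eq_cons, Multiset.prod_cons,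
    Multiset.prod_singleton]
  linear_combination -h7

omit hn [FiniteDimensional F V] in
theorem even_of_two (h2 : ((2 : ℕ) : F) ≠ 0) {w : F} (h6 : w * σ w = 1) {a b : ℕ} (h0 : a + b ≠ 0)
    (h4 : w ^ a * (-w) ^ b = 1) (H : padicValNat 2 (q + 1) ≤ padicValNat 2 (a + b)) : Even b :=
  Nat.not_odd_iff_even.1 fun ho => H.not_gt ((exists_normOne_iff h.bar h2 h0).1 ⟨w, h6, by
    rw [ho.neg_pow] at h4
    rw [pow_add]
    linear_combination -h4⟩)

theorem ti_two (h2 : ((2 : ℕ) : F) ≠ 0) (hm : 1 ≤ m) (hmn : 2 * m ≤ n) : UEl B 2 (FxT B m) ↔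
    2 * m < n ∨ padicValNat 2 (q + 1) ≤ padicValNat 2 n := by
  constructor
  · intro H
    by_contra h3
    obtain ⟨w, h4, e1, e2, g, a1, a2, a3⟩ := exists_two h hn (m := m - 1) h2 (by omega) (by omega)
    exact not_fxT_lin h a2 a3 (by simp +contextual [Multiset.mem_replicate, or_imp, e1, e2])
      (by simpa using ne_neg_self h2 h4) (by simp; omega) (H g a1 a2)
  · intro H f hf hi
    obtain ⟨w, a, b, h3, h4, h5, h6 | ⟨h6, rfl⟩⟩ := cases_two h h2 hf hi
    all_goals
      rw [fxT_lin h (d := 1) (by rwa [one_smul]) one_ne_zero (by rwa [one_smul])]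
      obtain ⟨e1, e2⟩ := invBar_of_norm h6 (by simp)
    · have h7 : m ≤ a / 2 + b / 2 := by
        by_cases e : 2 * m < n
        · omega
        · obtain ⟨k, hk⟩ := even_of_two h h2 h6 (by omega) h4 (h3.trans hn ▸ H.resolve_left e)
          omega
      refine ⟨Multiset.replicate (min m (a / 2)) w + Multiset.replicate (m - a / 2) (-w), ?_, by simp; omega⟩
      rw [Multiset.map_add, Multiset.map_replicate, Multiset.map_replicate, e1, e2, one_mul, add_add_add_comm,
        ← Multiset.replicate_add, ← Multiset.replicate_add]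
      exact add_le_add ((Multiset.replicate_le_replicate _).2 (by omega))
        ((Multiset.replicate_le_replicate _).2 (by omega))
    · refine ⟨Multiset.replicate m w, ?_, by simp⟩
      rw [Multiset.map_replicate, e1, neg_one_mul]
      exact add_le_add ((Multiset.replicate_le_replicate _).2 (by omega))
        ((Multiset.replicate_le_replicate _).2 (by omega))

variable {r : ℕ} [hr : Fact r.Prime] (hr2 : r ≠ 2) (hrF : (r : F) ≠ 0)
include hr2 hrF

omit hrF in
theorem exists_B (h0 : n ≠ 0) (hq : r ∣ q + 1) (H : padicValNat r (q + 1) < padicValNat r n) :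
    ∃ (c : F) (k : ℕ), c * σ c = 1 ∧ (∀ d, d ^ r ≠ c) ∧ ∃ g, PEl r g ∧ Iso B g ∧
      HasED g (Multiset.replicate k (X ^ r - C c)) := by
  obtain ⟨c, k, h1, h2, h3, h4⟩ := (exists_typeB_iff h.bar hr2 h0).2 ⟨hq, H⟩
  exact ⟨c, k, h1, h2, exists_pEl_B h hr2 (by rintro rfl; omega) h1 h2 (hn.trans h3) h4⟩

theorem nd_lin (hq : r ∣ q + 1) (h0 : n ≠ 0) (hmn : m ≤ n) :
    UEl B r (FxN B m) ↔ r ∣ m ∨ padicValNat r n ≤ padicValNat r (q + 1) := by
  constructor
  · refine fun H => or_iff_not_imp_right.2 fun h1 => ?_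
    obtain ⟨c, k, h2, h3, g, a1, a2, a3⟩ := exists_B h hn hr2 h0 hq (not_le.1 h1)
    obtain ⟨t, b1, -, rfl⟩ := (fxN_iff h (d := 1) (by rwa [one_smul]) one_ne_zero (by rwa [one_smul]) m).1 (H g a1 a2)
    exact sum_of_le_replicate b1 ▸ dvd_mul_left _ _
  · intro H f hf hi
    rcases cases_lin h hr2 hrF hq hf hi with ⟨d, hd, h1, t, h2, h3⟩ | ⟨h1, c, k, h2, h3, h4, h5⟩
    · obtain ⟨t', b1, b2⟩ := exists_le_card_eq t (k := m)
        (by rwa [← sum_natDegree_linear, ← lin, ← h3.finrank_eq, hn])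
      exact (fxN_lin h h1 hd h3 m).2 ⟨t', b1, map_eq_self fun z hz => (h2 z (Multiset.mem_of_le b1 hz)).2, b2⟩
    · obtain ⟨j, rfl⟩ := H.resolve_right (hn ▸ h1.not_ge)
      refine (fxN_iff h (d := 1) (by rwa [one_smul]) one_ne_zero (by rwa [one_smul]) _).2
        ⟨Multiset.replicate j _, (Multiset.replicate_le_replicate _).2 ?_, ?_, ?_⟩
      · exact Nat.le_of_mul_le_mul_left (h4 ▸ hn ▸ hmn) hr.out.pos
      · rw [Multiset.map_replicate, recip_X_pow_sub_C h2 hr.out.ne_zero]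
      · rw [sum_of_le_replicate le_rfl, Multiset.card_replicate, mul_comm]

theorem ti_lin (hq : r ∣ q + 1) (hm : 1 ≤ m) (hmn : 2 * m ≤ n) :
    UEl B r (FxT B m) ↔ r - 1 + 2 * m ≤ n ∧ (r ∣ m ∨ padicValNat r n ≤ padicValNat r (q + 1)) := by
  have ho := hr.out.odd_of_ne_two hr2
  constructor
  · refine fun H => ⟨le_of_not_gt fun h1 => ?_, or_iff_not_imp_right.2 fun h1 => ?_⟩
    · obtain ⟨z, z0, hz⟩ := exists_orderOf h.bar (hq.mul_left _)
      obtain ⟨k, hk⟩ : ∃ k, n = 2 * m + k := Nat.exists_eq_add_of_le hmn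
      have z1 : z ^ r = 1 := hz ▸ pow_orderOf_eq_one z
      have z2 : orderOf (z ^ 2) = r := by rw [Nat.Coprime.orderOf_pow (hz ▸ Nat.coprime_two_right.2 ho), hz]
      have hinj : ∀ i ∈ Multiset.range (k + 2), ∀ j ∈ Multiset.range (k + 2),
          (z ^ 2) ^ i / z ^ (k + 1) = (z ^ 2) ^ j / z ^ (k + 1) → i = j := fun i hi j hj e =>
        pow_injOn_Iio_orderOf (by rw [z2]; simp at hi ⊢; omega) (by rw [z2]; simp at hj ⊢; omega)
          ((div_left_inj' (pow_ne_zero _ z0)).1 e)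
      set s := (Multiset.range (k + 2)).map fun i => (z ^ 2) ^ i / z ^ (k + 1) with hs
      have h2 : ∀ y ∈ Multiset.replicate (m - 1) (1 : F) + Multiset.replicate (m - 1) 1 + s, y ^ r = 1 := fun y hy => by
        simp only [hs, Multiset.mem_add, Multiset.mem_replicate, Multiset.mem_map] at hy
        rcases hy with (⟨-, rfl⟩ | ⟨-, rfl⟩) | ⟨i, -, rfl⟩
        exacts [one_pow _, one_pow _, by
          rw [div_pow, ← pow_mul z, ← pow_mul z, ← pow_mul z, pow_mul' z _ r, pow_mul' z _ r, z1, one_pow, one_pow,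
            div_one]]
      have h3 : ∀ y ∈ Multiset.replicate (m - 1) (1 : F) + Multiset.replicate (m - 1) 1 + s, invBar σ y = y :=
        fun y hy => by
          obtain ⟨l, hl⟩ := hq
          rw [(invBar_of_norm (c := 1) (by rw [h.bar.norm_eq_pow, hl, pow_mul, h2 y hy, one_pow]) (one_mul _)).1, one_mul]
      obtain ⟨g, a1, a2, a3⟩ := exists_pEl_lin h (map_eq_self h3) (by simp [hs]; omega) (by
          have := Finset.sum_range_id_mul_two (k + 2)
          rw [Multiset.prod_add, Multiset.prod_add, Multiset.prod_replicate, one_pow, one_mul, one_mul, hs,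
            ← Finset.range_val, ← Finset.prod_eq_multiset_prod, Finset.prod_div_distrib, Finset.prod_pow_eq_pow_sum,
            Finset.prod_const, Finset.card_range, ← pow_mul, ← pow_mul, mul_comm 2, this, mul_comm]
          exact div_self (pow_ne_zero _ z0)) h2
        (Multiset.mem_add.2 (Or.inr (Multiset.mem_map_of_mem _ (Multiset.mem_range.2 (by omega)))))
        (Multiset.mem_add.2 (Or.inr (Multiset.mem_map_of_mem _ (Multiset.mem_range.2 (by omega)))))
        fun e => zero_ne_one (hinj 0 (Multiset.mem_range.2 (by omega)) 1 (Multiset.mem_range.2 (by omega)) e)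
      exact not_fxT_lin h a2 a3 h3 ((Multiset.nodup_range _).map_on hinj) (by simp; omega) (H g a1 a2)
    · obtain ⟨c, k, h2, h3, g, a1, a2, a3⟩ := exists_B h hn hr2 (by omega) hq (not_le.1 h1)
      obtain ⟨t, b1, rfl⟩ := (fxT_iff h (d := 1) (by rwa [one_smul]) one_ne_zero (by rwa [one_smul])
        (irreducible_replicate hr.out h3 k) m).1 (H g a1 a2)
      exact sum_of_le_replicate ((Multiset.le_add_right _ _).trans b1) ▸ dvd_mul_left _ _
  · rintro ⟨H1, H⟩ f hf hi
    rcases cases_lin h hr2 hrF hq hf hi with ⟨d, hd, h1, t, h2, h3⟩ | ⟨h1, c, k, h2, h3, h4, h5⟩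
    · obtain ⟨v, s, h4, rfl⟩ := Elf.exists_split_nodup t
      have h5 : Multiset.card s ≤ r := (Multiset.card_le_card ((Multiset.le_iff_subset h4).2 fun z hz =>
        (mem_nthRoots hr.out.pos).2 (h2 z (Multiset.mem_add.2 (Or.inr hz))).1)).trans (card_nthRoots r 1)
      have h6 := h3.finrank_eq
      rw [hn, lin, sum_natDegree_linear, Multiset.card_add, Multiset.card_add] at h6
      obtain ⟨t', b1, b2⟩ := exists_le_card_eq v (k := m) (by omega)
      refine (fxT_lin h h1 hd h3 m).2 ⟨t', ?_, b2⟩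
      rw [map_eq_self fun z hz => (h2 z (by simp [Multiset.mem_of_le b1 hz])).2]
      exact (add_le_add b1 b1).trans (Multiset.le_add_right _ _)
    · obtain ⟨j, rfl⟩ := H.resolve_right (hn ▸ h1.not_ge)
      refine (fxT_iff h (d := 1) (by rwa [one_smul]) one_ne_zero (by rwa [one_smul])
        (irreducible_replicate hr.out h3 k) _).2 ⟨Multiset.replicate j (X ^ r - C c), ?_, ?_⟩
      · rw [Multiset.map_replicate, recip_X_pow_sub_C h2 hr.out.ne_zero, ← Multiset.replicate_add,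
          Multiset.replicate_le_replicate]
        exact Nat.le_of_mul_le_mul_left (by rw [← h4, hn, mul_add]; omega) hr.out.pos
      · rw [sum_of_le_replicate le_rfl, Multiset.card_replicate, mul_comm]

variable (hq : ¬ r ∣ q + 1) {b : ℕ} (hb : b = orderOf ((q : ZMod r) ^ 2))
include hq hb

omit hn hr2 hq [FiniteDimensional F V] in
theorem ord_facts : b ≠ 0 ∧ (∀ P ∈ ordFactors F r, P.natDegree = b ∧ recip σ (recip σ P) = P ∧
    recip σ P ∈ ordFactors F r) ∧ X - 1 ∉ ordFactors F r ∧ (ordFactors F r).card = (r - 1) / b := by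
  have := h.bar.finite
  rw [← Nat.cast_pow, ← h.bar.card] at hb
  exact ⟨hb ▸ orderOf_card_ne_zero hrF, fun P hP => ⟨hb ▸ natDegree_of_mem_ordFactors hrF hP, recip_recip h.bar_bar
    ((mem_ordFactors hrF).1 hP).1 (coeff_zero_ne_of_mem_ordFactors hrF hP), recip_mem_ordFactors h.bar_bar hrF hP⟩,
    X_sub_one_not_mem_ordFactors hr.out.ne_one hrF, Elf.card_ordFactors_eq hrF hb⟩

theorem nd_ord_iff : UEl B r (FxN B m) ↔ ∀ u a, (∀ P ∈ u, P ∈ ordFactors F r) → u ≠ 0 → u.map (recip σ) = u →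
    n = a + Multiset.card u * b → ∃ t ≤ u, t.map (recip σ) = t ∧ ∃ j ≤ a, m = j + Multiset.card t * b := by
  obtain ⟨-, o1, -, -⟩ := ord_facts h hrF hb
  rw [← hn, hb]
  exact uEl_iff_ord h hr2 hrF hq fun f d u a hd h1 hu hs => (fxN_iff h h1 hd hs m).trans
    (nd_split (fun P hP => hb ▸ (o1 P (hu P hP)).1) recip_X_sub_one natDegree_X_sub_one' a m)

theorem ti_ord_iff : UEl B r (FxT B m) ↔ ∀ u a, (∀ P ∈ u, P ∈ ordFactors F r) → u ≠ 0 → u.map (recip σ) = u →
    n = a + Multiset.card u * b → ∃ t, t + t.map (recip σ) ≤ u ∧ ∃ j, 2 * j ≤ a ∧ m = j + Multiset.card t * b := by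
  obtain ⟨-, o1, o2, -⟩ := ord_facts h hrF hb
  rw [← hn, hb]
  exact uEl_iff_ord h hr2 hrF hq fun f d u a hd h1 hu hs =>
    (fxT_iff h h1 hd hs (fun P hP => (irreducible_of_ord hrF hu a P hP).2.1) m).trans
    (ti_split (fun P hP => hb ▸ (o1 P (hu P hP)).1) (mt (hu _) o2) (fun P hP e => o2 (e ▸ (o1 P (hu P hP)).2.2))
      recip_X_sub_one natDegree_X_sub_one' a m)

theorem nd_self (hi : orderOf (q : ZMod r) % 4 = 2) (hmn : m ≤ n) (hΩ : n % b < m) :
    UEl B r (FxN B m) ↔ b ≤ m ∧ m % b ≤ n % b := by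
  have := h.bar.finite
  obtain ⟨P, hP⟩ := exists_mem_ordFactors hrF
  have e : ∀ P ∈ ordFactors F r, recip σ P = P := fun P hP => (recip_eq_iff h.bar hr2 hrF hP).2 hi
  rw [nd_ord_iff h hn hr2 hrF hq hb, ← arN hmn hΩ]
  constructor
  · intro H N a h0 h1
    obtain ⟨t, b1, -, j, b2, b3⟩ := H (Multiset.replicate N P) a (fun Q hQ => Multiset.eq_of_mem_replicate hQ ▸ hP)
      (fun e => h0 (by simpa using congrArg Multiset.card e)) (by simp [e P hP]) (by simpa using h1)
    exact ⟨_, by simpa using Multiset.card_le_card b1, j, b2, b3⟩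
  · intro H u a hu h0 _ h1
    obtain ⟨k, b1, j, b2, b3⟩ := H _ a (by simpa using h0) h1
    obtain ⟨t, b4, rfl⟩ := exists_le_card_eq u b1
    exact ⟨t, b4, map_eq_self fun Q hQ => e Q (hu Q (Multiset.mem_of_le b4 hQ)), j, b2, b3⟩

theorem ti_self (hi : orderOf (q : ZMod r) % 4 = 2) (hmn : 2 * m ≤ n) (hΩ : n % b < 2 * m) :
    UEl B r (FxT B m) ↔ b ≤ m ∧ 2 * (m % b) ≤ n % b ∧ (r - 1) / b + 2 * (m / b) ≤ n / b := by
  have := h.bar.finite
  obtain ⟨o0, -, -, o3⟩ := ord_facts h hrF hb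
  obtain ⟨P, hP⟩ := exists_mem_ordFactors hrF
  have e : ∀ P ∈ ordFactors F r, recip σ P = P := fun P hP => (recip_eq_iff h.bar hr2 hrF hP).2 hi
  rw [ti_ord_iff h hn hr2 hrF hq hb, ← arT2 o0 (o3 ▸ Finset.card_ne_zero_of_mem hP) hmn hΩ]
  constructor
  · intro H w l a h2 h0 h1
    obtain ⟨s, s1, rfl⟩ := Finset.exists_subset_card_eq (o3 ▸ h2)
    have hu : ∀ Q ∈ Multiset.replicate w P + Multiset.replicate w P + s.1, Q ∈ ordFactors F r := fun Q hQ => by
      simp only [Multiset.mem_add, Multiset.mem_replicate] at hQ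
      rcases hQ with (⟨-, rfl⟩ | ⟨-, rfl⟩) | hQ
      exacts [hP, hP, s1 hQ]
    obtain ⟨t, b1, j, b2, b3⟩ := H _ a hu (fun e => h0 (by simpa using congrArg Multiset.card e))
      (map_eq_self fun Q hQ => e Q (hu Q hQ)) (by simpa using h1)
    rw [map_eq_self fun Q hQ => e Q (hu Q (Multiset.mem_of_le b1 (Multiset.mem_add.2 (Or.inl hQ))))] at b1
    exact ⟨_, by simpa using Multiset.card_le_card (le_of_add_add_le s.2 b1), j, b2, b3⟩
  · intro H u a hu h0 _ h1
    obtain ⟨v, s, h4, rfl⟩ := Elf.exists_split_nodup u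
    obtain ⟨k, b1, j, b2, b3⟩ := H (Multiset.card v) (Multiset.card s) a (o3 ▸ Multiset.card_le_card
      ((Multiset.le_iff_subset h4).2 fun Q hQ => hu Q (Multiset.mem_add.2 (Or.inr hQ))))
      (fun e => h0 (Multiset.card_eq_zero.1 (by simpa using e))) (by simpa using h1)
    obtain ⟨t, b4, rfl⟩ := exists_le_card_eq v b1
    refine ⟨t, ?_, j, b2, b3⟩
    rw [map_eq_self fun Q hQ => e Q (hu Q (by simp [Multiset.mem_of_le b4 hQ]))]
    exact (add_le_add b4 b4).trans (Multiset.le_add_right _ _)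

omit hn hq [FiniteDimensional F V] in
theorem forall_paired (hi : orderOf (q : ZMod r) % 4 ≠ 2) {Ψ : Multiset F[X] → ℕ → Prop} {Ψ' : ℕ → ℕ → Prop}
    (H : ∀ v a, (∀ P ∈ v + v.map (recip σ), P ∈ ordFactors F r) → (Ψ (v + v.map (recip σ)) a ↔ Ψ' (Multiset.card v) a)) :
    (∀ u a, (∀ P ∈ u, P ∈ ordFactors F r) → u ≠ 0 → u.map (recip σ) = u → n = a + Multiset.card u * b → Ψ u a) ↔
      ∀ N a, N ≠ 0 → n = a + N * (2 * b) → Ψ' N a := by
  have := h.bar.finite
  obtain ⟨-, o1, -, -⟩ := ord_facts h hrF hb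
  constructor
  · intro H1 N a h0 h1
    obtain ⟨P, hP⟩ := exists_mem_ordFactors hrF
    have hu : ∀ Q ∈ Multiset.replicate N P + (Multiset.replicate N P).map (recip σ), Q ∈ ordFactors F r :=
      fun Q hQ => by
        simp only [Multiset.map_replicate, Multiset.mem_add, Multiset.mem_replicate] at hQ
        rcases hQ with ⟨-, rfl⟩ | ⟨-, rfl⟩
        exacts [hP, (o1 P hP).2.2]
    simpa using (H _ a hu).1 (H1 _ a hu (fun e => h0 (by simpa using congrArg Multiset.card e))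
      (by simp [(o1 P hP).2.1, add_comm])
      (by rw [h1]; simp; ring))
  · intro H1 u a hu h0 h1 h2
    obtain ⟨v, rfl⟩ := Elf.exists_split_of_ne _ _ u rfl h1 (fun P hP => (o1 P (hu P hP)).2.1) fun P hP =>
      mt (recip_eq_iff h.bar hr2 hrF (hu P hP)).1 hi
    exact (H v a hu).2 (H1 _ a (by simpa using h0) (by rw [h2]; simp; ring))

theorem nd_paired (hi : orderOf (q : ZMod r) % 4 ≠ 2) (hmn : m ≤ n) (hΩ : n % (2 * b) < m) :
    UEl B r (FxN B m) ↔ 2 * b ≤ m ∧ m % (2 * b) ≤ n % (2 * b) := by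
  obtain ⟨-, o1, -, -⟩ := ord_facts h hrF hb
  rw [nd_ord_iff h hn hr2 hrF hq hb, ← arN hmn hΩ]
  refine forall_paired h hr2 hrF hb hi fun v a hv => ⟨?_, ?_⟩
  · rintro ⟨t, b1, b2, j, b3, b4⟩
    have hu := fun P hP => hv P (Multiset.mem_of_le b1 hP)
    obtain ⟨w, rfl⟩ := Elf.exists_split_of_ne _ _ t rfl b2 (fun P hP => (o1 P (hu P hP)).2.1) fun P hP =>
      mt (recip_eq_iff h.bar hr2 hrF (hu P hP)).1 hi
    have := Multiset.card_le_card b1
    simp only [Multiset.card_add, Multiset.card_map] at this b4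
    exact ⟨Multiset.card w, by omega, j, b3, by rw [b4]; ring⟩
  · rintro ⟨k, b1, j, b2, b3⟩
    obtain ⟨t, b4, rfl⟩ := exists_le_card_eq v b1
    refine ⟨t + t.map (recip σ), add_le_add b4 (Multiset.map_le_map b4), ?_, j, b2, by rw [b3]; simp; ring⟩
    rw [Multiset.map_add, Multiset.map_map, add_comm, add_left_inj]
    exact map_eq_self fun P hP => (o1 P (hv P (by simp [Multiset.mem_of_le b4 hP]))).2.1

theorem ti_paired (hi : orderOf (q : ZMod r) % 4 ≠ 2) (hmn : 2 * m ≤ n) (hΩ : n % (2 * b) < 2 * m) :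
    UEl B r (FxT B m) ↔ b ≤ m ∧ 2 * (m % b) ≤ n % (2 * b) := by
  rw [ti_ord_iff h hn hr2 hrF hq hb, ← arT1 (ord_facts h hrF hb).1 hmn hΩ]
  refine forall_paired h hr2 hrF hb hi fun v a hv => ⟨?_, ?_⟩
  · rintro ⟨t, b1, j, b3, b4⟩
    have := Multiset.card_le_card b1
    simp only [Multiset.card_add, Multiset.card_map] at this
    exact ⟨Multiset.card t, by omega, j, b3, b4⟩
  · rintro ⟨k, b1, j, b2, b3⟩
    obtain ⟨t, b4, rfl⟩ := exists_le_card_eq v b1
    exact ⟨t, add_le_add b4 (Multiset.map_le_map b4), j, b2, b3⟩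

end CL.Elh
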