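/-
Prime divisors of the numbers of nondegenerate and totally isotropic subspaces of hermitian spaces; pairs of
complementary totally isotropic subspaces.
-/
import Cfsg.Agent.Cls.ElhMain
import Cfsg.Agent.Cls.ElfExt

set_option autoImplicit false

open Polynomial Module

namespace CL.Elh

open CL.GLn CL.Known CL.Uni CL.Elu

universe u v

variable {F : Type u} [Field F] {q : ℕ} {σ : F →+* F} {V : Type v} [AddCommGroup V] [Module F V]
  {B : V →ₛₗ[σ] V →ₗ[F] F} {f : End F V} [FiniteDimensional F V] {n m r : ℕ}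

theorem neg_pow_of_dvd {j : ℕ} (h : (r : ℤ) ∣ (q : ℤ) ^ j - (-1) ^ j) : (-(q : ZMod r)) ^ j = 1 := by
  rw [← ZMod.intCast_zmod_eq_zero_iff_dvd] at h
  push_cast at h
  rw [neg_pow, sub_eq_zero.1 h, ← mul_pow, neg_mul_neg, one_mul, one_pow]

theorem mod_lt_of_dvd {c j x : ℕ} (h : c ∣ j) (h1 : n < j + x) (h2 : j ≤ n) : n % c < x := by
  obtain ⟨k, rfl⟩ := h
  have := mod_le_of_eq (a := n - c * k) (c := k) (i := c) (n := n) (by rw [mul_comm k]; omega)
  omega

theorem card_ti_int (h : IsHerm B q) (hn : finrank F V = n) (hm : 2 * m ≤ n) :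
    (Nat.card {W : Submodule F V // finrank F W = m ∧ W ≤ perp B W} : ℤ) *
      ∏ i ∈ Finset.range m, ((q : ℤ) ^ (2 * (m - i)) - 1) = ∏ i ∈ Finset.range m,
        ((q : ℤ) ^ (n - 2 * i) - (-1) ^ (n - 2 * i)) * ((q : ℤ) ^ (n - 2 * i - 1) - (-1) ^ (n - 2 * i - 1)) := by
  have h0 := h.bar.two_le
  have h1 := congrArg (Nat.cast (R := ℤ)) (h.card_ti_mul m)
  rw [Fin.prod_univ_eq_prod_range (fun i => (q ^ 2) ^ m - (q ^ 2) ^ i), hn, Nat.cast_mul, Nat.cast_prod, Nat.cast_prod,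
    Finset.prod_congr rfl (g := fun i => ((q : ℤ) ^ 2) ^ i * ((q : ℤ) ^ (2 * (m - i)) - 1)) fun i hi => by
      have := (Finset.mem_range.1 hi).le
      rw [Nat.cast_sub (Nat.pow_le_pow_right (by positivity) this), mul_sub, pow_mul, ← pow_add,
        Nat.add_sub_cancel' this]
      simp,
    Finset.prod_congr rfl (f := fun i => (((q ^ 2) ^ i * isoCount q (n - 2 * i) : ℕ) : ℤ)) (g := fun i =>
      ((q : ℤ) ^ 2) ^ i * (((q : ℤ) ^ (n - 2 * i) - (-1) ^ (n - 2 * i)) *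
        ((q : ℤ) ^ (n - 2 * i - 1) - (-1) ^ (n - 2 * i - 1)))) fun i hi => by
      have := Finset.mem_range.1 hi
      obtain ⟨k, hk⟩ : ∃ k, n - 2 * i = k + 1 := ⟨n - 2 * i - 1, by omega⟩
      rw [hk, Nat.cast_mul, isoCount_int (by omega), Nat.add_sub_cancel]
      simp,
    Finset.prod_mul_distrib, Finset.prod_mul_distrib (f := fun i => ((q : ℤ) ^ 2) ^ i), mul_left_comm] at h1
  exact mul_left_cancel₀ (Finset.prod_ne_zero_iff.2 fun i _ => by positivity) h1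

theorem ti_count (h : IsHerm B q) (hn : finrank F V = n) (hm : 2 * m ≤ n) (hr : r.Prime)
    (hΩ : r ∣ Nat.card {W : Submodule F V // finrank F W = m ∧ W ≤ perp B W}) :
    ∃ j, n < j + 2 * m ∧ j ≤ n ∧ (-(q : ZMod r)) ^ j = 1 := by
  have hp := Nat.prime_iff_prime_int.1 hr
  obtain ⟨i, hi, h1⟩ := (hp.dvd_finsetProd_iff _).1
    (card_ti_int h hn hm ▸ (Int.natCast_dvd_natCast.2 hΩ).mul_right _)
  have := Finset.mem_range.1 hi
  rcases hp.dvd_or_dvd h1 with h2 | h2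
  exacts [⟨_, by omega, by omega, neg_pow_of_dvd h2⟩, ⟨_, by omega, by omega, neg_pow_of_dvd h2⟩]

theorem ti_count_half (h : IsHerm B q) (hn : finrank F V = 2 * m) (hr : r.Prime)
    (hΩ : r ∣ Nat.card {W : Submodule F V // finrank F W = m ∧ W ≤ perp B W}) :
    ∃ j, Odd j ∧ j ≤ 2 * m ∧ (-(q : ZMod r)) ^ j = 1 := by
  have hp := Nat.prime_iff_prime_int.1 hr
  have h0 := h.bar.two_le
  have h1 := card_ti_int h hn le_rfl
  rw [Finset.prod_mul_distrib, mul_comm, Finset.prod_congr rfl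
    (f := fun i => (q : ℤ) ^ (2 * m - 2 * i) - (-1) ^ (2 * m - 2 * i))
    (g := fun i => (q : ℤ) ^ (2 * (m - i)) - 1) fun i _ => by rw [← mul_tsub, (even_two_mul _).neg_one_pow]] at h1
  obtain ⟨i, hi, h2⟩ := (hp.dvd_finsetProd_iff _).1 (mul_left_cancel₀ (Finset.prod_ne_zero_iff.2 fun i hi => by
    have := Finset.mem_range.1 hi
    exact (sub_pos.2 (one_lt_pow₀ (by exact_mod_cast h0) (by omega))).ne') h1 ▸ Int.natCast_dvd_natCast.2 hΩ)
  have := Finset.mem_range.1 hi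
  exact ⟨_, Nat.odd_iff.2 (by omega), by omega, neg_pow_of_dvd h2⟩

theorem guOrder_add (q k m : ℕ) :
    guOrder q (k + m) = guOrder q k * ∏ i ∈ Finset.range m, normCount q (k + i + 1) := by
  induction m with
  | zero => simp
  | succ m ih => rw [← add_assoc, guOrder_succ, ih, Finset.prod_range_succ]; ring

open scoped Pointwise in
theorem nd_count (h : IsHerm B q) (hn : finrank F V = n) (hm : m ≤ n) (hr : r.Prime) (hq : ¬ r ∣ q)
    (hΩ : r ∣ Nat.card {W : Submodule F V // finrank F W = m ∧ Disjoint W (perp B W)}) :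
    ∃ j, n < j + m ∧ j ≤ n ∧ (-(q : ZMod r)) ^ j = 1 := by
  have h0 := h.bar.two_le
  obtain ⟨W, hW, h1⟩ := exists_nd_sub h (f := (1 : F) • 1) (fun _ _ => by simp) (hasED_smul_one 1)
    ((Multiset.replicate_le_replicate _).2 (hn ▸ hm)) (by simp [recip_X_sub_one])
  have h2 : finrank F W = m := by simpa [natDegree_X_sub_one'] using h1.finrank_eq
  have h3 := CL.Sp.card_eq_ncard_mul (UG B) (stabSet F (W : Set V) ⊓ UG B) W
    {X | finrank F X = m ∧ Disjoint X (perp B X)} (fun X => ⟨fun hX => by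
      obtain ⟨e, he⟩ := (h.restrict hW).exists_equiv (h.restrict hX.2) (h2.trans hX.1.symm)
      obtain ⟨g, g1, g2⟩ := h.exists_mem_UG_extend W (X.subtype ∘ₗ e.toLinearMap)
        (X.injective_subtype.comp e.injective) he
      exact ⟨g, g1, map_eq_of_glue g e g2⟩, by
      rintro ⟨g, hg, rfl⟩
      refine ⟨(LinearEquiv.finrank_map_eq g W).trans h2, ?_⟩
      change Disjoint (W.map (g : V →ₗ[F] V)) (perp B (W.map (g : V →ₗ[F] V)))
      rw [← map_perp hg]
      exact Submodule.disjoint_map g.injective hW⟩)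
    fun g => and_comm.trans (and_congr_right fun _ => mem_stabSet_iff_map)
  obtain ⟨e⟩ := h.nonempty_stab_equiv_prod hW
  obtain ⟨k, rfl⟩ := Nat.exists_eq_add_of_le' hm
  rw [h.card_UG, Nat.card_congr e.toEquiv, Nat.card_prod, (h.restrict hW).card_UG,
    (h.restrict (h.disjoint_perp_perp hW)).card_UG, h.finrank_perp, hn, h2, Nat.add_sub_cancel, guOrder_add,
    mul_comm, ← mul_assoc, ← Nat.card_coe_set_eq] at h3
  obtain ⟨i, hi, h4⟩ := (hr.prime.dvd_finsetProd_iff _).1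
    (Nat.eq_of_mul_eq_mul_right (guOrder_pos h0 k) h3 ▸ hΩ.mul_right _)
  have := Finset.mem_range.1 hi
  rw [← Int.natCast_dvd_natCast, normCount_int (by omega)] at h4
  exact ⟨_, by omega, by omega, neg_pow_of_dvd (((Nat.prime_iff_prime_int.1 hr).dvd_or_dvd h4).resolve_left
    fun e => hq (hr.dvd_of_dvd_pow (by exact_mod_cast e)))⟩

/-! ### Pairs of complementary totally isotropic subspaces -/

theorem upair_ext (h : IsHerm B q) {U W U' W' : Submodule F V} (hP : IsUPair B U W) (hP' : IsUPair B U' W')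
    (e : U ≃ₗ[F] U') : ∃ g ∈ UG B, (∀ u : U, g u = e u) ∧ (∀ u ∈ U, g u ∈ U') ∧ ∀ w ∈ W, g w ∈ W' := by
  let b := Module.finBasis F U
  let c := Module.finBasis F W
  choose y y1 y2 using fun j => h.exists_dual hP' (x := fun i => (e (b i) : V))
    (b.linearIndependent.map' (U'.subtype ∘ₗ e.toLinearMap)
      (LinearMap.ker_eq_bot.2 (U'.injective_subtype.comp e.injective))) (fun i => (e _).2) fun i => B (b i) (c j)
  let φ : W →ₗ[F] W' := c.constr F fun j => ⟨y j, y1 j⟩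
  have hφ : ∀ (u : U) (w : W), B (e u) (φ w) = B u w := fun u w => by
    rw [← b.sum_repr u, ← c.sum_repr w]
    simp only [φ, map_sum, map_smulₛₗ, Submodule.coe_sum, Submodule.coe_smul, LinearMap.sum_apply,
      LinearMap.smul_apply, Basis.constr_basis, y2, RingHom.id_apply]
  let f : V →ₗ[F] V := LinearMap.ofIsCompl hP.compl (U'.subtype ∘ₗ e.toLinearMap) (W'.subtype ∘ₗ φ)
  have f1 : ∀ u : U, f u = e u := fun u => by simp [f]
  have f2 : ∀ w : W, f w = φ w := fun w => by simp [f]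
  obtain ⟨g, hg, eg⟩ := h.exists_mem_UG f fun x y => by
    obtain ⟨u, w, rfl⟩ := Uni.exists_add_of_isCompl hP.compl x
    obtain ⟨u', w', rfl⟩ := Uni.exists_add_of_isCompl hP.compl y
    simp only [map_add, f1, f2, LinearMap.add_apply, hP.left u'.2 u u.2, hP.right w'.2 w w.2,
      hP'.left (e u').2 _ (e u).2, hP'.right (φ w').2 _ (φ w).2, hφ, ← h.symm (e u' : V), ← h.symm (u' : V) w]
  rw [← eg] at f1 f2
  exact ⟨g, hg, f1, fun u hu => (f1 ⟨u, hu⟩).symm ▸ (e _).2, fun w hw => (f2 ⟨w, hw⟩).symm ▸ (φ _).2⟩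

theorem exists_pair_dt [Nontrivial V] (h : IsHerm B q) {U W : Submodule F V} (hP : IsUPair B U W) {a : F}
    (ha : a * σ a = 1) : ∃ g ∈ UG B, (∀ u ∈ U, g u ∈ U) ∧ (∀ w ∈ W, g w ∈ W) ∧ dt g = a := by
  have h0 := (IsUPair.perp_eq h hP).2
  obtain ⟨e, he, he0⟩ := U.exists_mem_ne_zero_of_ne_bot (by
    rintro rfl
    exact finrank_pos.ne' (h0.trans (by simp)))
  obtain ⟨f, hf, hef⟩ := h.exists_dual hP (x := fun _ : Unit => e) (linearIndependent_unique_iff.2 he0)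
    (fun _ => he) fun _ => 1
  obtain ⟨y, hy0, hy⟩ := h.bar.exists_div_bar_eq ha
  have hee := hP.left he e he
  have hff := hP.right hf f hf
  obtain ⟨g, hg, g1, g2, g3, g4⟩ := h.exists_diag hee hff (hef ()) hy0
  refine ⟨g, hg, fun x hx => ?_, fun x hx => ?_, by rwa [g4, mul_inv_eq_iff_eq_mul₀ ((map_ne_zero σ).2 hy0)]⟩
  · have h1 := g3 (x - B f x • e) (by simp [hee, hP.left hx e he]) (by simp [h.flip_one (hef ())])
    rw [map_sub, map_smul, g1, sub_eq_iff_eq_add] at h1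
    exact h1 ▸ U.add_mem (U.sub_mem hx (U.smul_mem _ he)) (U.smul_mem _ (U.smul_mem _ he))
  · have h1 := g3 (x - B e x • f) (by simp [hef ()]) (by simp [hff, hP.right hx f hf])
    rw [map_sub, map_smul, g2, sub_eq_iff_eq_add] at h1
    exact h1 ▸ W.add_mem (W.sub_mem hx (W.smul_mem _ hf)) (W.smul_mem _ (W.smul_mem _ hf))

/-- `f` fixes or interchanges the members of a pair of complementary totally isotropic subspaces. -/
def FxP (B : V →ₛₗ[σ] V →ₗ[F] F) (f : End F V) : Prop :=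
  ∃ U W, IsUPair B U W ∧ ((∀ v ∈ U, f v ∈ U) ∧ (∀ v ∈ W, f v ∈ W) ∨ (∀ v ∈ U, f v ∈ W) ∧ ∀ v ∈ W, f v ∈ U)

variable {D : Fin 2 → Submodule F V}

theorem mem_decStab_pair [Nontrivial V] (h : IsHerm B q) (hP : IsUPair B (D 0) (D 1)) {g : V ≃ₗ[F] V} :
    g ∈ decStab D ↔ (∀ v ∈ D 0, g v ∈ D 0) ∧ (∀ v ∈ D 1, g v ∈ D 1) ∨
      (∀ v ∈ D 0, g v ∈ D 1) ∧ ∀ v ∈ D 1, g v ∈ D 0 := by
  have h0 := (IsUPair.perp_eq h hP).2
  have h1 := (IsUPair.perp_eq h hP.symm).2
  constructor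
  · rintro ⟨τ, hτ⟩
    have e : ∀ i, ∀ v ∈ D i, g v ∈ D (τ i) := fun i v hv => hτ i ▸ Submodule.mem_map_of_mem hv
    have : τ 0 = 0 ∧ τ 1 = 1 ∨ τ 0 = 1 ∧ τ 1 = 0 := by clear hτ e; revert τ; decide
    rcases this with t | t
    exacts [Or.inl ⟨by simpa [t.1] using e 0, by simpa [t.2] using e 1⟩,
      Or.inr ⟨by simpa [t.1] using e 0, by simpa [t.2] using e 1⟩]
  · intro H
    have h2 : D 0 ≠ D 1 := fun e => finrank_pos.ne' (h0.trans (by
      rw [disjoint_self.1 (e ▸ hP.compl.disjoint : Disjoint (D 0) (D 0)), finrank_bot]))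
    refine mem_decStab_of_le (k := finrank F (D 0)) (Fin.forall_fin_two.2 ⟨rfl, by omega⟩)
      (Fin.forall_fin_two.2 ⟨Fin.forall_fin_two.2 ⟨fun _ => rfl, fun e => absurd e h2⟩,
        Fin.forall_fin_two.2 ⟨fun e => absurd e.symm h2, fun _ => rfl⟩⟩) (Fin.forall_fin_two.2 ?_)
    exact H.elim (fun t => ⟨⟨0, map_le_iff_forall.2 t.1⟩, 1, map_le_iff_forall.2 t.2⟩)
      fun t => ⟨⟨1, Submodule.map_le_iff_le_comap.2 t.1⟩, 0, Submodule.map_le_iff_le_comap.2 t.2⟩

theorem cj_iff_fxP [Nontrivial V] (h : IsHerm B q) (hP : IsUPair B (D 0) (D 1)) {g : V ≃ₗ[F] V} :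
    Elf.Cj (SUG B) (decStab D) (g : End F V) ↔ FxP B (g : End F V) := by
  constructor
  · rintro ⟨y, y1, k, k1, e⟩
    have m : ∀ X : Submodule F V, X ≤ perp B X → X.map (y : V →ₗ[F] V) ≤ perp B (X.map (y : V →ₗ[F] V)) :=
      fun X hX => map_perp (SUG_le_UG y1) X ▸ Submodule.map_mono hX
    have m' : ∀ X Y : Submodule F V, (∀ v ∈ X, k v ∈ Y) →
        ∀ v ∈ X.map (y : V →ₗ[F] V), (g : End F V) v ∈ Y.map (y : V →ₗ[F] V) := by
      rintro X Y H _ ⟨v, hv, rfl⟩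
      exact ⟨_, H v hv, (e v).symm⟩
    exact ⟨_, _, ⟨m _ hP.left, m _ hP.right, (Submodule.orderIsoMapComap y).isCompl hP.compl⟩,
      ((mem_decStab_pair h hP).1 k1).imp (fun t => ⟨m' _ _ t.1, m' _ _ t.2⟩) fun t => ⟨m' _ _ t.1, m' _ _ t.2⟩⟩
  · rintro ⟨U, W, hQ, H⟩
    have h0 := (IsUPair.perp_eq h hP).2
    have h1 := (IsUPair.perp_eq h hQ).2
    obtain ⟨y, y1, -, y2, y3⟩ := upair_ext h hQ hP (LinearEquiv.ofFinrankEq _ _ (by omega))
    obtain ⟨z, z1, z2, z3, z4⟩ := exists_pair_dt h hP (a := σ (dt y)) (by rw [h.bar_bar, mul_comm, h.dt_norm y1])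
    have h2 : z * y ∈ SUG B := mem_SUG.2 ⟨mul_mem z1 y1, by rw [map_mul, z4, mul_comm, h.dt_norm y1]⟩
    have m : ∀ {X X' : Submodule F V}, finrank F X = finrank F X' → (∀ v ∈ X, (z * y) v ∈ X') →
        ∀ v ∈ X', (z * y)⁻¹ v ∈ X := fun {X X'} e H v hv => by
      rw [← Submodule.eq_of_le_of_finrank_eq (Submodule.map_le_iff_le_comap.2 H : X.map (z * y).toLinearMap ≤ X')
        ((LinearEquiv.finrank_map_eq _ _).trans e)] at hv
      obtain ⟨v, hv, rfl⟩ := hv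
      simpa using hv
    have a1 : ∀ v ∈ U, (z * y) v ∈ D 0 := fun v hv => z2 _ (y2 v hv)
    have a2 : ∀ v ∈ W, (z * y) v ∈ D 1 := fun v hv => z3 _ (y3 v hv)
    have a3 := m (by omega) a1
    have a4 := m (by have := (IsUPair.perp_eq h hP.symm).2; have := (IsUPair.perp_eq h hQ.symm).2; omega) a2
    refine ⟨_, inv_mem h2, z * y * g * (z * y)⁻¹, (mem_decStab_pair h hP).2 (H.imp
      (fun t => ⟨fun v hv => a1 _ (t.1 _ (a3 v hv)), fun v hv => a2 _ (t.2 _ (a4 v hv))⟩)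
      fun t => ⟨fun v hv => a2 _ (t.1 _ (a3 v hv)), fun v hv => a1 _ (t.2 _ (a4 v hv))⟩), fun v => ?_⟩
    rw [mul_assoc, ← LinearEquiv.mul_apply, inv_mul_cancel_left]
    rfl

theorem pair_count [Nontrivial V] (h : IsHerm B q) (hP : IsUPair B (D 0) (D 1)) (hr : r.Prime) (hq : ¬ r ∣ q)
    (hΩ : r ∣ (decStab D).relIndex (SUG B)) : ∃ j, Odd j ∧ j ≤ finrank F V ∧ (-(q : ZMod r)) ^ j = 1 := by
  have := h.bar.finite
  have h0 := (IsUPair.perp_eq h hP).2
  set L := (stabSet F (D 0 : Set V) ⊓ stabSet F (D 1 : Set V)) ⊓ UG B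
  have h1 := Elf.mul_card_dvd_relIndex (L ⊓ SUG B).subtype Subtype.val_injective (fun s => s.2.2)
    (fun s => mem_decStab_of_stab (Fin.forall_fin_two.2 s.2.1.1)) hΩ
  have h2 := h.card_inf_SUG (H := L) inf_le_right fun a ha => by
    obtain ⟨g, g1, g2, g3, g4⟩ := exists_pair_dt h hP ha
    exact ⟨g, ⟨⟨mem_stabSet_of_forall g2, mem_stabSet_of_forall g3⟩, g1⟩, g4⟩
  have h3 : Nat.card (D 0 ≃ₗ[F] D 0) ∣ Nat.card L := Subgroup.card_dvd_of_surjective
    (MonoidHom.mk' (fun g : L => restrictTo g.1 g.2.1.1) fun _ _ => rfl) fun e => by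
      obtain ⟨g, g1, g2, g3, g4⟩ := upair_ext h hP hP e
      exact ⟨⟨g, ⟨mem_stabSet_of_forall g3, mem_stabSet_of_forall g4⟩, g1⟩,
        LinearEquiv.ext fun u => Subtype.ext (g2 u)⟩
  have h4 := (mul_dvd_mul_left r h3).trans (show r * Nat.card L ∣ guOrder q (finrank F V) by
    rw [← h2, ← h.card_SUG, mul_left_comm]; exact mul_dvd_mul_left _ h1)
  rw [← h.card_ti_mul_card_stab hP.left, h.card_stab_ti hP.left rfl, CL.Sp.card_linearEquiv, h.bar.card,
    show finrank F V - 2 * finrank F (D 0) = 0 by omega, guOrder_zero, mul_one, ← mul_assoc] at h4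
  rw [h0]
  refine ti_count_half h h0 hr (((Nat.Prime.dvd_mul hr).1 (Nat.dvd_of_mul_dvd_mul_right
    (Finset.prod_pos fun i _ => Nat.sub_pos_of_lt (Nat.pow_lt_pow_right ?_ i.2)) h4)).resolve_right
      fun e => hq (hr.dvd_of_dvd_pow e))
  exact Nat.one_lt_pow two_ne_zero h.bar.two_le

theorem fxP_of_ed (h : IsHerm B q) (hf : Iso B f) {t : Multiset F[X]} (hs : HasED f (t + t.map (recip σ))) :
    FxP B f := by
  obtain ⟨U, W, h1, h2, h3⟩ := exists_pair h hf hs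
  exact ⟨U, W, h1, Or.inl ⟨h2.inv, h3⟩⟩

theorem not_fxP [DecidableEq F[X]] (h : IsHerm B q) (hf : Iso B f) {s : Multiset F[X]} (hs : HasED f s)
    (h1 : ∀ P ∈ s, recip σ P = P) {P : F[X]} (h2 : s.count P = 1) (h3 : ∀ U W, IsUPair B U W → (∀ v ∈ U, f v ∈ W) →
      ¬ ∀ v ∈ W, f v ∈ U) : ¬ FxP B f := by
  rintro ⟨U, W, hP, ⟨a1, a2⟩ | ⟨a1, a2⟩⟩
  · obtain ⟨t, rfl⟩ := ed_of_pair h hf hs hP a1 a2
    rw [map_eq_self fun Q hQ => h1 Q (Multiset.mem_add.2 (Or.inl hQ)), Multiset.count_add] at h2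
    omega
  · exact h3 U W hP a1 a2

theorem not_swap_of_kd (h : IsHerm B q) {z : F} (hz : z ≠ 0) (H : finrank F V < 2 * kd f (X - C z)) {U W : Submodule F V}
    (hP : IsUPair B U W) : ¬ ∀ v ∈ U, f v ∈ W := fun h1 => by
  have h2 := (IsUPair.perp_eq h hP).2
  have h3 : Disjoint U (LinearMap.ker (aeval f (X - C z))) := Submodule.disjoint_def.2 fun v h4 h5 =>
    Submodule.disjoint_def.1 hP.compl.disjoint v h4
      ((W.smul_mem_iff hz).1 (mem_ker_X_sub_C.1 h5 ▸ h1 v h4))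
  have h4 := Submodule.finrank_le (U ⊔ LinearMap.ker (aeval f (X - C z)))
  rw [finrank_sup_of_disjoint h3] at h4
  rw [kd] at H
  omega

theorem not_swap_of_odd (h : IsHerm B q) (hf : PEl r f) (hr : Odd r) {U W : Submodule F V} (hP : IsUPair B U W)
    (h1 : ∀ v ∈ U, f v ∈ W) : ¬ ∀ v ∈ W, f v ∈ U := fun h2 => by
  have := PEl.nontrivial hf
  obtain ⟨k, rfl⟩ := hr
  obtain ⟨c, hc⟩ := hf.pow
  have h3 : ∀ j, ∀ v ∈ U, (f ^ (2 * j + 1)) v ∈ W := fun j => by
    induction j with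
    | zero => simpa using h1
    | succ j ih => exact fun v hv => by simpa [mul_add, pow_succ] using ih _ (h2 _ (h1 v hv))
  have h4 : U = ⊥ := hP.compl.disjoint.eq_bot_of_le fun v hv =>
    (W.smul_mem_iff (ne_zero_of_pow_eq hf.isUnit hf.ns hc)).1 (by simpa [hc] using h3 k v hv)
  exact finrank_pos.ne' ((IsUPair.perp_eq h hP).2.trans (by rw [h4, finrank_bot]))

theorem pair_two (h : IsHerm B q) (hn : finrank F V = 2 * m + 4) (h2 : ((2 : ℕ) : F) ≠ 0) :
    UEl B 2 (FxP B) ↔ padicValNat 2 (q + 1) ≤ padicValNat 2 (2 * m + 4) := by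
  classical
  constructor
  · refine fun H => le_of_not_gt fun h3 => ?_
    obtain ⟨w, h4, e1, e2, g, a1, a2, a3⟩ := exists_two h hn (m := m + 1) h2 (by omega) h3
    have h5 := ne_neg_self h2 h4
    refine not_fxP h a2 a3 (fun P hP => ?_) (P := X - C w) ?_ (fun U W hP h6 _ =>
      not_swap_of_kd h (neg_ne_zero.2 h4) ?_ hP h6) (H g a1 a2)
    · obtain ⟨z, hz, rfl⟩ := Multiset.mem_map.1 hP
      rw [recip_X_sub_C (a2.ne_zero h a3 z hz), ← invBar_apply]
      simp only [Multiset.mem_add, Multiset.mem_replicate, Multiset.insert_eq_cons, Multiset.mem_cons,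
        Multiset.mem_singleton] at hz
      rcases hz with (⟨-, rfl⟩ | ⟨-, rfl⟩) | rfl | rfl <;> simp only [e1, e2]
    · rw [lin, Multiset.count_map_eq_count' _ _ xc_inj]
      simp [Multiset.count_replicate, h5, h5.symm]
    · rw [kd_linear a3]
      simp [h5.symm]
      omega
  · intro H f hf hi
    obtain ⟨w, a, b, h3, h4, h5, h6 | ⟨h6, rfl⟩⟩ := cases_two h h2 hf hi
    all_goals obtain ⟨e1, e2⟩ := invBar_of_norm h6 (by simp)
    · obtain ⟨k, rfl⟩ := even_of_two h h2 h6 (by omega) h4 (h3.trans hn ▸ H)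
      obtain ⟨l, rfl⟩ : Even a := ⟨m + 2 - k, by omega⟩
      have h0 := left_ne_zero_of_mul_eq_one h6
      refine fxP_of_ed h hi (t := lin (Multiset.replicate l w + Multiset.replicate k (-w))) ?_
      rwa [map_recip_lin (by simp +contextual [Multiset.mem_replicate, or_imp, h0]), ← lin_add, Multiset.map_add,
        Multiset.map_replicate, Multiset.map_replicate, e1, e2, one_mul, add_add_add_comm, ← Multiset.replicate_add,
        ← Multiset.replicate_add]
    · have h0 : w ≠ 0 := left_ne_zero_of_mul (h6 ▸ neg_ne_zero.2 one_ne_zero)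
      refine fxP_of_ed h hi (t := lin (Multiset.replicate a w)) ?_
      rwa [map_recip_lin (by simp +contextual [Multiset.mem_replicate, h0]), ← lin_add, Multiset.map_replicate, e1,
        neg_one_mul]

theorem not_pair_char (h : IsHerm B q) (hn : finrank F V = m + 3) (p : ℕ) [hp : Fact p.Prime] [CharP F p] :
    ¬ UEl B p (FxP B) := fun H => by
  classical
  have h0 : ∀ a ∈ ({2} : Multiset ℕ) + Multiset.replicate (m + 1) 1, 0 < a ∧ a ≤ p := by
    simp +contextual [Multiset.mem_replicate, or_imp, hp.out.two_le, hp.out.one_le]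
  obtain ⟨g, a1, a2, a3⟩ := exists_pEl_jb h p h0 ⟨2, by simp⟩ (by simp; omega)
  refine not_fxP h a2 a3 (map_recip_jb _) (P := (X - 1) ^ 2) ?_ (fun U W hP h6 _ =>
    not_swap_of_kd h one_ne_zero ?_ hP h6) (H g a1 a2)
  · rw [jb, Multiset.count_map_eq_count' _ _ X_sub_one_pow_injective]
    simp [Multiset.count_replicate]
  · rw [kd_jb (fun a ha => (h0 a ha).1) a3]
    simp
    omega

theorem not_pair_odd (h : IsHerm B q) (h3 : 3 ≤ finrank F V) [hr : Fact r.Prime] (hr2 : r ≠ 2) (hrF : (r : F) ≠ 0)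
    {j : ℕ} (hj : Odd j) (hj' : j ≤ finrank F V) (hq : (-(q : ZMod r)) ^ j = 1) : ¬ UEl B r (FxP B) := fun H => by
  classical
  have := h.bar.finite
  have ho := hr.out.odd_of_ne_two hr2
  obtain ⟨h1, h2⟩ := dvd_of_neg_pow hr2 hj.pos.ne' hq
  have hi : orderOf (q : ZMod r) % 4 = 2 := by_contra fun e =>
    Nat.not_even_iff_odd.2 hj (even_iff_two_dvd.2 ((dvd_mul_right _ _).trans (h2 e)))
  by_cases h4 : r ∣ q + 1
  · obtain ⟨z, z0, hz⟩ := exists_orderOf h.bar (h4.mul_left _)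
    have z1 : z ^ r = 1 := hz ▸ pow_orderOf_eq_one z
    have z2 := inv_ne_self_of_orderOf hr.out hr2 hz
    have z3 : z ≠ 1 := fun e => z2 (by rw [e, inv_one])
    have h5 : ∀ y ∈ ({z, z⁻¹} : Multiset F) + Multiset.replicate (finrank F V - 2) 1, y ^ r = 1 := by
      simp +contextual [Multiset.mem_replicate, or_imp, z1]
    have h6 : ∀ y ∈ ({z, z⁻¹} : Multiset F) + Multiset.replicate (finrank F V - 2) 1, invBar σ y = y := fun y hy => by
      obtain ⟨l, hl⟩ := h4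
      rw [(invBar_of_norm (c := 1) (by rw [h.bar.norm_eq_pow, hl, pow_mul, h5 y hy, one_pow]) (one_mul _)).1, one_mul]
    obtain ⟨g, a1, a2, a3⟩ := exists_pEl_lin h (map_eq_self h6) (by simp; omega) (by simp [z0]) h5 (by simp)
      (by simp) z2
    refine not_fxP h a2 a3 (fun P hP => ?_) (P := X - C z) ?_ (fun U W => not_swap_of_odd h a1 ho) (H g a1 a2)
    · obtain ⟨y, hy, rfl⟩ := Multiset.mem_map.1 hP
      rw [recip_X_sub_C (a2.ne_zero h a3 y hy), ← invBar_apply, h6 y hy]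
    · rw [lin, Multiset.count_map_eq_count' _ _ xc_inj]
      simp [Multiset.count_replicate, z2.symm, z3.symm]
  · obtain ⟨P, hP⟩ := exists_mem_ordFactors hrF
    have e := (recip_eq_iff h.bar hr2 hrF hP).2 hi
    obtain ⟨g, a1, a2, a3⟩ := exists_pEl_ord h hrF h4 (u := {P}) (by simpa using hP) (by simp) (by simp [e])
      (a := finrank F V - orderOf ((q : ZMod r) ^ 2)) (by have := Nat.le_of_dvd hj.pos h1; simp; omega)
    refine not_fxP h a2 a3 (by simp +contextual [Multiset.mem_replicate, or_imp, e, recip_X_sub_one]) (P := P) ?_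
      (fun U W => not_swap_of_odd h a1 ho) (H g a1 a2)
    have : X - 1 ≠ P := fun e => X_sub_one_not_mem_ordFactors hr.out.ne_one hrF (e ▸ hP)
    simp [Multiset.count_replicate, this]

/-! ### Bridges -/

theorem allEl_SUG_iff (h : IsHerm B q) (Φ : End F V → Prop) : Elf.AllEl (SUG B) r Φ ↔ UEl B r Φ := by
  have e : ∀ (g : V ≃ₗ[F] V) v, ((g : End F V) ^ r) v = (g ^ r) v := fun g v => by
    rw [End.pow_apply, LinearEquiv.pow_apply]; rfl
  constructor
  · intro H f hf hi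
    obtain ⟨g, hg, rfl⟩ := h.exists_mem_UG f hi
    obtain ⟨c, hc⟩ := hf.pow
    exact H g (mem_SUG.2 ⟨hg, (dt_apply g).trans hf.det⟩) ⟨c, fun v => (e g v).symm.trans congr($hc v)⟩
      fun z e => hf.ns z (LinearMap.ext e)
  · rintro H g hg ⟨c, hc⟩ h1
    exact H g ⟨(dt_apply g).symm.trans (mem_SUG.1 hg).2, ⟨c, LinearMap.ext fun v => (e g v).trans (hc v)⟩,
      fun z e => h1 z fun v => congr($e v)⟩ (mem_SUG.1 hg).1

theorem su_iff_uEl (h : IsBar σ q) (Φ : End F (Fin n → F) → Prop) :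
    (∀ x : Matrix.SpecialLinearGroup (Fin n) F, x ∈ Cfsg.SU n F q →
      (∃ z : F, ((x ^ r : Matrix.SpecialLinearGroup (Fin n) F) : Matrix (Fin n) (Fin n) F) =
        z • (1 : Matrix (Fin n) (Fin n) F)) →
      (∀ z : F, (x : Matrix (Fin n) (Fin n) F) ≠ z • (1 : Matrix (Fin n) (Fin n) F)) →
      Φ (Matrix.toLin' (x : Matrix (Fin n) (Fin n) F))) ↔ UEl (stdB σ (Fin n)) r Φ := by
  rw [UEl, ← forall_SL_iff fun f => Iso (stdB σ (Fin n)) f → Φ f]
  refine forall_congr' fun x => ?_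
  rw [mem_SU_iff, ← glEquiv_mem_UG h]
  exact ⟨fun H a b c => H c a b, fun H c a b => H a b c⟩

theorem not_dvd_iff (h : IsBar σ q) (p : ℕ) [Fact p.Prime] [CharP F p] [hr : Fact r.Prime] : ¬ r ∣ q ↔ r ≠ p := by
  obtain ⟨p', f, hp, _, hf, rfl⟩ := h.exists_prime_pow
  rw [CharP.eq F ‹CharP F p› ‹CharP F p'›, hr.out.prime.dvd_pow_iff_dvd hf.ne', Nat.prime_dvd_prime_iff_eq hr.out hp]

theorem bc_facts [Fact r.Prime] {i b c : ℕ} (hi : i = orderOf (q : ZMod r)) (hb : b = if Even i then i / 2 else i)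
    (hc : c = if i % 4 = 0 then i else if i % 4 = 2 then i / 2 else 2 * i) :
    b = orderOf ((q : ZMod r) ^ 2) ∧ (i % 4 = 2 → c = b) ∧ (i % 4 ≠ 2 → c = 2 * b) := by
  refine ⟨by rw [orderOf_sq_eq, ← hi, hb], ?_⟩
  simp only [Nat.even_iff] at hb
  split_ifs at hb hc <;> omega

end CL.Elh
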