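/-
Eigenspaces of elements of prime order normalising an extraspecial group.
-/
import Cfsg.Agent.Cls.PrimeOrderDec
import Cfsg.Agent.Cls.AschIdem

set_option autoImplicit false

open Module Polynomial Finset

namespace CL.ExtraEig

/-- polarisation of `B (δ x) (φ (δ x)) = 0`, where `δ x = φ x * x⁻¹` -/
theorem polar {N C : Type*} [Group N] [AddCommGroup C] (B : N → N → C) (hl : ∀ a b c, B (a * b) c = B a c + B b c)
    (hr : ∀ a b c, B a (b * c) = B a b + B a c) (hs : ∀ a b, B a b + B b a = 0) (φ : N ≃* N)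
    (hφ : ∀ a b, B (φ a) (φ b) = B a b) (H : ∀ x, B (φ x * x⁻¹) (φ (φ x * x⁻¹)) = 0)
    (hB : ∀ x, (∀ a, B a (φ (φ x * x⁻¹) * (φ x * x⁻¹)⁻¹) = 0) → ∀ a, B a (φ x * x⁻¹) = 0) {m : ℕ} (hm : Odd m)
    (hφm : ∀ x, φ^[m] x = x) (x a : N) : B a (φ x * x⁻¹) = 0 := by
  have il : ∀ a c, B a⁻¹ c = -B a c := fun a c => by
    have h1 := hl 1 1 c
    have h2 := hl a a⁻¹ c
    rw [mul_one] at h1
    rw [mul_inv_cancel] at h2
    linear_combination (norm := abel) -h1 - h2
  have ir : ∀ a c, B a c⁻¹ = -B a c := fun a c => by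
    have h1 := hr a 1 1
    have h2 := hr a c c⁻¹
    rw [mul_one] at h1
    rw [mul_inv_cancel] at h2
    linear_combination (norm := abel) -h1 - h2
  have s1 : ∀ x y, B (φ x * x⁻¹) (φ (φ y * y⁻¹)) + B (φ y * y⁻¹) (φ (φ x * x⁻¹)) = 0 := fun x y => by
    have h1 := H (x * y)
    have h2 := H x
    have h3 := H y
    simp only [map_mul, map_inv, mul_inv_rev, hl, hr, il, ir] at h1 h2 h3 ⊢
    linear_combination (norm := abel) h1 - h2 - h3
  have s2 : ∀ x y, B (φ x * x⁻¹) (φ (φ (φ y * y⁻¹)) * (φ y * y⁻¹)⁻¹) = 0 := fun x y => by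
    have h1 := s1 x (φ y)
    have h2 := hs (φ x * x⁻¹) (φ y * y⁻¹)
    rw [← map_inv, ← map_mul, hφ] at h1
    rw [hr, ir]
    linear_combination (norm := abel) h1 - h2
  have s3 : ∀ y a, B a (φ (φ y)) = B a y := fun y a => by
    have h := hB (φ y * y) (hB _ fun a => ?_) a
    · simp only [map_mul, mul_inv_rev, hr, ir] at h
      linear_combination (norm := abel) h
    · obtain ⟨x, rfl⟩ := φ.surjective a
      have h1 := s2 x y
      have h2 := hφ x (φ (φ (φ y * y⁻¹)) * (φ y * y⁻¹)⁻¹)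
      rw [hl, il, ← h2] at h1
      simp only [map_mul, map_inv, mul_inv_rev, inv_inv, hr, ir] at h1 ⊢
      linear_combination (norm := abel) -h1
  obtain ⟨k, rfl⟩ := hm
  have s4 : ∀ k y, B a (φ^[2 * k] y) = B a y := fun k y => by
    induction k with
    | zero => rfl
    | succ k ih => rw [mul_add, mul_one, add_comm, Function.iterate_add_apply, ← ih]; exact s3 _ a
  have := s4 k (φ x)
  rw [← Function.iterate_succ_apply, Nat.succ_eq_add_one, hφm] at this
  rw [hr, ir, ← this, add_neg_cancel]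

variable {F V : Type*} [Field F] [AddCommGroup V] [Module F V] [FiniteDimensional F V]

theorem finrank_le_sum (A : End F V) (s : Finset F) (W : Submodule F V) (hW : ∀ w ∈ W, A w ∈ W)
    (h : ∀ w ∈ W, aeval A (∏ β ∈ s, (X - C β)) w = 0) :
    finrank F W ≤ ∑ β ∈ s, finrank F (A.eigenspace β ⊓ W : Submodule F V) := by
  classical
  induction s using Finset.induction_on generalizing W with
  | empty =>
    have : W = ⊥ := (Submodule.eq_bot_iff _).2 fun w hw => by simpa using h w hw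
    simp [this]
  | insert β s hβ ih =>
    let T : End F V := A - algebraMap F _ β
    have hT : W.map T ≤ W := by
      rintro _ ⟨w, hw, rfl⟩
      exact W.sub_mem (hW w hw) (W.smul_mem β hw)
    have h1 := ih (W.map T) (by
      rintro _ ⟨w, hw, rfl⟩
      exact ⟨A w, hW w hw, by simp [T]⟩) (by
      rintro _ ⟨w, hw, rfl⟩
      have := h w hw
      rwa [prod_insert hβ, mul_comm, map_mul, map_sub, aeval_X, aeval_C] at this)
    have h2 := LinearMap.finrank_range_add_finrank_ker (T.domRestrict W)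
    rw [LinearMap.range_domRestrict, LinearMap.ker_domRestrict, ← Submodule.finrank_map_subtype_eq W,
      Submodule.map_comap_subtype, inf_comm] at h2
    have h3 : LinearMap.ker T = A.eigenspace β := by
      rw [End.eigenspace_def]
      rfl
    have h4 : ∑ β ∈ s, finrank F (A.eigenspace β ⊓ W.map T : Submodule F V) ≤
        ∑ β ∈ s, finrank F (A.eigenspace β ⊓ W : Submodule F V) :=
      sum_le_sum fun γ _ => Submodule.finrank_mono (inf_le_inf_left _ hT)
    rw [h3] at h2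
    rw [sum_insert hβ]
    omega

theorem sum_le_finrank (G : End F V) (U : Submodule F V) (s : Finset F) :
    ∑ γ ∈ s, finrank F (U ⊓ G.eigenspace γ : Submodule F V) ≤ finrank F U := by
  rw [← CL.Elu.finrank_biSup_of_indep (G.eigenspaces_iSupIndep.mono fun γ => inf_le_right)]
  exact Submodule.finrank_mono (iSup₂_le fun _ _ => inf_le_left)

theorem sum_le_finrank' (G : End F V) (s : Finset F) : ∑ γ ∈ s, finrank F (G.eigenspace γ) ≤ finrank F V := by
  rw [← CL.Elu.finrank_biSup_of_indep G.eigenspaces_iSupIndep]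
  exact Submodule.finrank_le _

theorem finrank_le_of_map {T : End F V} (hT : Function.Injective T) {U W : Submodule F V} (h : ∀ u ∈ U, T u ∈ W) :
    finrank F U ≤ finrank F W := by
  rw [(Submodule.equivMapOfInjective _ hT U).finrank_eq]
  exact Submodule.finrank_mono (Submodule.map_le_iff_le_comap.2 h)

theorem mul_finrank_le {A T : End F V} (hT : Function.Injective T) {ζ c : F} {r : ℕ} (hζ : IsPrimitiveRoot ζ r)
    (h : A * T = ζ • (T * A)) (hc : c ≠ 0) : r * finrank F (A.eigenspace c) ≤ finrank F V := by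
  classical
  have h1 : ∀ j, finrank F (A.eigenspace c) ≤ finrank F (A.eigenspace (ζ ^ j * c)) := fun j => by
    induction j with
    | zero => rw [pow_zero, one_mul]
    | succ j ih =>
      refine ih.trans (finrank_le_of_map hT fun u hu => ?_)
      rw [End.mem_eigenspace_iff] at hu ⊢
      rw [← End.mul_apply, h, LinearMap.smul_apply, End.mul_apply, hu, map_smul, smul_smul, pow_succ', mul_assoc]
  have h2 := sum_le_finrank' A ((range r).image fun j => ζ ^ j * c)
  rw [sum_image fun i hi j hj e => hζ.pow_inj (mem_range.1 hi) (mem_range.1 hj) (mul_right_cancel₀ hc e)] at h2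
  have h3 := card_nsmul_le_sum (range r) _ _ fun j _ => h1 j
  rw [card_range, smul_eq_mul] at h3
  exact h3.trans h2

theorem two_mul_le {G A T : End F V} (hT : Function.Injective T) {ζ ω c : F} {r : ℕ} (hr : r.Prime) (h5 : 5 ≤ r)
    (hω : IsPrimitiveRoot ω r) (hζ : ζ ^ r = 1) (hA : A ^ r = 1) (h1 : G * A = A * G) (h2 : G * T = A * T * G)
    (h3 : A * T = ζ • (T * A)) (h4 : r * finrank F (A.eigenspace 1) ≤ finrank F V) (hc : c ≠ 0) :
    2 * finrank F (G.eigenspace c) ≤ finrank F V := by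
  classical
  let μ := nthRootsFinset r (1 : F)
  have hμ : ∀ β, β ∈ μ ↔ β ^ r = 1 := fun β => mem_nthRootsFinset hr.pos 1
  have h0 : ∀ β : F, β ^ r = 1 → β ≠ 0 := fun β h e => by simp [e, hr.ne_zero] at h
  have hζ0 := h0 ζ hζ
  have hk : ∀ β : F, β ^ r = 1 → ∀ k, 0 < k → k < 5 → β ^ k = 1 → β = 1 := fun β h k k0 k5 e => by
    have := pow_gcd_eq_one.2 ⟨e, h⟩
    rwa [(Nat.coprime_of_lt_prime k0.ne' (by omega) hr).symm.gcd_eq_one, pow_one] at this
  let e : F → F → ℕ := fun β γ => finrank F (A.eigenspace β ⊓ G.eigenspace γ : Submodule F V)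
  let m : F → ℕ := fun β => finrank F (A.eigenspace β)
  have hm : ∑ β ∈ μ, m β ≤ finrank F V := sum_le_finrank' A μ
  have s0 : finrank F (G.eigenspace c) ≤ ∑ β ∈ μ, e β c := finrank_le_sum A μ _ (fun w hw => by
      rw [End.mem_eigenspace_iff] at hw ⊢
      rw [← End.mul_apply, h1, End.mul_apply, hw, map_smul]) fun w _ => by
    rw [← X_pow_sub_one_eq_prod hr.pos hω]
    simp [hA]
  have shift : ∀ f : F → F, ∑ β ∈ μ, e β (f β) ≤ ∑ β ∈ μ, e β (f (ζ⁻¹ * β) * β) := fun f => by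
    have : ∑ β ∈ μ, e β (f (ζ⁻¹ * β) * β) = ∑ β ∈ μ, e (ζ * β) (f β * (ζ * β)) := by
      refine sum_nbij' (ζ⁻¹ * ·) (ζ * ·) ?_ ?_ ?_ ?_ ?_ <;> intro β hβ <;> simp_all [mul_pow]
    rw [this]
    refine sum_le_sum fun β _ => finrank_le_of_map hT fun u hu => ?_
    obtain ⟨u1, u2⟩ := hu
    rw [SetLike.mem_coe, End.mem_eigenspace_iff] at u1 u2
    have u3 : A (T u) = (ζ * β) • T u := by
      rw [← End.mul_apply, h3, LinearMap.smul_apply, End.mul_apply, u1, map_smul, smul_smul]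
    refine ⟨End.mem_eigenspace_iff.2 u3, End.mem_eigenspace_iff.2 ?_⟩
    rw [← End.mul_apply, h2, End.mul_apply, End.mul_apply, u2, map_smul, map_smul, u3, smul_smul]
  have s1 := shift fun _ => c
  have s2 := shift fun β => c * β
  have s3 := shift fun β => c * (ζ⁻¹ * β) * β
  have e1 : ∀ β γ, e β γ ≤ m β := fun β γ => Submodule.finrank_mono inf_le_left
  have e2 : ∀ β γ γ', γ ≠ γ' → e β γ + e β γ' ≤ m β := fun β γ γ' h => by
    simpa [h] using sum_le_finrank G (A.eigenspace β) {γ, γ'}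
  by_cases hζ1 : ζ = 1
  · subst hζ1
    simp only [inv_one, one_mul] at s2
    have t : ∑ β ∈ μ, (e β c + e β (c * β) + e β (c * β * β)) ≤ ∑ β ∈ μ, (m β + if β = 1 then 2 * m 1 else 0) := by
      refine sum_le_sum fun β hβ => ?_
      split_ifs with hβ1
      · subst hβ1
        have := e1 1 c
        simp only [mul_one]
        omega
      · have b0 := h0 β ((hμ β).1 hβ)
        have b2 : β * β ≠ 1 := fun h => hβ1 (hk β ((hμ β).1 hβ) 2 (by omega) (by omega) (by rwa [sq]))
        have := sum_le_finrank G (A.eigenspace β) {c, c * β, c * β * β}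
        rwa [sum_insert (by simp [hc, hβ1, mul_assoc, b2]), sum_pair (by simp [hc, hβ1, b0]), ← add_assoc] at this
    simp only [sum_add_distrib, sum_ite_eq', (hμ 1).2 (one_pow r), if_true] at t
    have : 5 * m 1 ≤ finrank F V := (Nat.mul_le_mul_right _ h5).trans h4
    omega
  · have t : ∑ β ∈ μ, (e β c + e β (c * β) + e β (c * (ζ⁻¹ * β) * β) +
        e β (c * (ζ⁻¹ * (ζ⁻¹ * β)) * (ζ⁻¹ * β) * β)) ≤ ∑ β ∈ μ, 2 * m β := by
      refine sum_le_sum fun β hβ => ?_
      have b0 := h0 β ((hμ β).1 hβ)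
      have z3 : ζ ^ 3 ≠ 1 := fun h => hζ1 (hk ζ hζ 3 (by omega) (by omega) h)
      have z1 : ζ - 1 ≠ 0 := sub_ne_zero.2 hζ1
      by_cases hb : β = 1 ∨ β = ζ ^ 2
      · have p1 := e2 β c (c * (ζ⁻¹ * β) * β) fun h => by
          field_simp at h
          rcases hb with rfl | rfl
          · exact hζ1 (by simpa using h)
          · exact z3 (mul_left_cancel₀ hζ0 (by linear_combination -h))
        have p2 := e2 β (c * β) (c * (ζ⁻¹ * (ζ⁻¹ * β)) * (ζ⁻¹ * β) * β) fun h => by
          field_simp at h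
          rcases hb with rfl | rfl
          · exact z3 (by simpa using h)
          · exact hζ1 (mul_left_cancel₀ (pow_ne_zero 3 hζ0) (by linear_combination -h))
        omega
      · push Not at hb
        have p1 := e2 β c (c * β) fun h => hb.1 (by field_simp at h; exact h.symm)
        have p2 := e2 β (c * (ζ⁻¹ * β) * β) (c * (ζ⁻¹ * (ζ⁻¹ * β)) * (ζ⁻¹ * β) * β) fun h =>
          hb.2 (by field_simp at h; exact h.symm)
        omega
    simp only [sum_add_distrib, ← mul_sum] at t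
    omega

variable {Γ : Type*} [Group Γ]

theorem bound (ρ : Γ →* End F V) (hρ : Function.Injective ρ) (N : Subgroup Γ) {r m : ℕ} (hr : r.Prime)
    (hm : m.Prime) (hc : ∀ a b : N, ∃ z : F, z ^ r = 1 ∧ ρ (a * b) = z • ρ (b * a))
    (hS : ∀ h : Γ, (∀ a ∈ N, h * a = a * h) → ∃ c : F, ρ h = c • 1) {g : Γ}
    (hg : g ∈ Subgroup.normalizer (N : Set Γ)) (hgm : g ^ m = 1) (hns : ¬ ∃ c : F, ρ g = c • 1) (c : F) :
    2 * r * finrank F ((ρ g).eigenspace c) ≤ (r + 1) * finrank F V ∧ r ∣ finrank F V ∧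
      (Odd m → m ≠ r ∨ 5 ≤ r → 2 * finrank F ((ρ g).eigenspace c) ≤ finrank F V) := by
  have inj : ∀ h, Function.Injective (ρ h) := fun h => (End.isUnit_iff _).1 (Group.isUnit h |>.map ρ) |>.1
  have : Nontrivial V := by
    by_contra hV
    have := not_nontrivial_iff_subsingleton.1 hV
    exact hns ⟨0, Subsingleton.elim _ _⟩
  have ne0 : ∀ h, ρ h ≠ 0 := fun h => (Group.isUnit h |>.map ρ).ne_zero
  choose z z1 z2 using hc
  have z0 : ∀ a b, z a b ≠ 0 := fun a b e => by simpa [e, hr.ne_zero] using z1 a b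
  have zu : ∀ {a b : N} {t : F}, ρ (a * b) = t • ρ (b * a) → z a b = t := fun h =>
    smul_left_injective F (ne0 _) ((z2 _ _).symm.trans h)
  have zc : ∀ {a b : N}, z a b = 1 → (a : Γ) * b = b * a := fun h => hρ (by rw [z2, h, one_smul])
  have sc : ∀ {h : Γ}, (∃ c : F, ρ h = c • 1) → ∀ a, h * a = a * h := by
    rintro h ⟨c, hc⟩ a
    exact hρ (by simp [hc])
  have prim : ∀ a : N, ¬ (∃ c : F, ρ a = c • 1) → ∃ x : N, IsPrimitiveRoot (z a x) r := fun a ha => by
    have : Fact r.Prime := ⟨hr⟩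
    by_contra hn
    refine ha (hS a fun x hx => zc (b := ⟨x, hx⟩) ?_)
    by_contra h1
    exact hn ⟨_, orderOf_eq_prime (z1 _ _) h1 ▸ IsPrimitiveRoot.orderOf _⟩
  have lemA : ∀ a : N, ¬ (∃ c : F, ρ a = c • 1) → r * finrank F ((ρ a).eigenspace 1) ≤ finrank F V := fun a ha => by
    obtain ⟨x, hx⟩ := prim a ha
    exact mul_finrank_le (inj x) hx (by rw [← map_mul, z2, map_mul]) one_ne_zero
  let φ : N ≃* N := N.normalizerMonoidHom ⟨g, hg⟩
  have hφ : ∀ x : N, (φ x : Γ) = g * x * g⁻¹ := fun x => rfl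
  obtain ⟨x₀, hx₀⟩ : ∃ x : N, φ x * x⁻¹ ≠ 1 := by
    by_contra hn
    push Not at hn
    refine hns (hS g fun a ha => ?_)
    have := congrArg Subtype.val (mul_inv_eq_one.1 (hn ⟨a, ha⟩))
    exact mul_inv_eq_iff_eq_mul.1 this
  have fix : ∀ x : N, ∀ w, ρ g w = c • w → ρ g (ρ (x⁻¹ : N) w) = c • ρ (x⁻¹ : N) w → ρ (φ x * x⁻¹ : N) w = w := by
    intro x w w1 w2
    by_cases h0 : c = 0
    · rw [h0, zero_smul, ← map_zero (ρ g)] at w1
      rw [inj g w1, map_zero]
    have w3 : ρ g⁻¹ (ρ (x⁻¹ : N) w) = c⁻¹ • ρ (x⁻¹ : N) w := by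
      rw [eq_inv_smul_iff₀ h0, ← map_smul, ← w2, ← End.mul_apply, ← map_mul, inv_mul_cancel, map_one, End.one_apply]
    rw [Subgroup.coe_mul, hφ, map_mul, map_mul, map_mul, End.mul_apply, End.mul_apply, End.mul_apply, w3, map_smul,
      ← End.mul_apply (ρ x), ← map_mul, Subgroup.coe_inv, mul_inv_cancel, map_one, End.one_apply, map_smul, w1,
      inv_smul_smul₀ h0]
  have dim : ∀ x : N, 2 * finrank F ((ρ g).eigenspace c) ≤
      finrank F V + finrank F ((ρ g).eigenspace c ⊓ (ρ (φ x * x⁻¹ : N)).eigenspace 1 : Submodule F V) := by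
    intro x
    have h1 := Submodule.finrank_sup_add_finrank_inf_eq ((ρ g).eigenspace c) (((ρ g).eigenspace c).map (ρ x))
    have h2 := (Submodule.equivMapOfInjective _ (inj x) ((ρ g).eigenspace c)).finrank_eq
    have h3 := Submodule.finrank_le ((ρ g).eigenspace c ⊔ ((ρ g).eigenspace c).map (ρ x))
    have h4 : (ρ g).eigenspace c ⊓ ((ρ g).eigenspace c).map (ρ x) ≤
        (ρ g).eigenspace c ⊓ (ρ (φ x * x⁻¹ : N)).eigenspace 1 := by
      rintro _ ⟨h1, u, hu, rfl⟩
      refine ⟨h1, End.mem_eigenspace_iff.2 ?_⟩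
      rw [one_smul]
      refine fix x _ (End.mem_eigenspace_iff.1 h1) ?_
      rw [← End.mul_apply (ρ (x⁻¹ : N)), ← map_mul, Subgroup.coe_inv, inv_mul_cancel, map_one, End.one_apply]
      exact End.mem_eigenspace_iff.1 hu
    have h5 := Submodule.finrank_mono h4
    omega
  have one : ∀ {h : Γ} {w : V}, w ≠ 0 → ρ h w = w → (∃ c : F, ρ h = c • 1) → h = 1 := by
    rintro h w w0 hw ⟨t, ht⟩
    rw [ht, LinearMap.smul_apply, End.one_apply] at hw
    have : t = 1 := smul_left_injective F w0 (hw.trans (one_smul F w).symm)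
    exact hρ (by rw [ht, this, one_smul, map_one])
  refine ⟨?_, ?_, fun ho hmr => ?_⟩
  · have h1 := dim x₀
    have h2 : r * finrank F ((ρ g).eigenspace c ⊓ (ρ (φ x₀ * x₀⁻¹ : N)).eigenspace 1 : Submodule F V) ≤
        finrank F V := by
      by_cases h : ∃ c : F, ρ (φ x₀ * x₀⁻¹ : N) = c • 1
      · rw [Submodule.finrank_eq_zero.2, mul_zero]
        · exact Nat.zero_le _
        refine (Submodule.eq_bot_iff _).2 fun w hw => by_contra fun w0 => hx₀ (Subtype.ext (one w0 ?_ h))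
        simpa using End.mem_eigenspace_iff.1 hw.2
      · exact (Nat.mul_le_mul_left _ (Submodule.finrank_mono inf_le_right)).trans (lemA _ h)
    nlinarith
  · obtain ⟨a, ha⟩ : ∃ a : N, ¬ ∃ c : F, ρ a = c • 1 := by
      by_contra hn
      push Not at hn
      exact hns (hS g fun a ha => (sc (hn ⟨a, ha⟩) g).symm)
    obtain ⟨x, hx⟩ := prim a ha
    have h1 := congrArg LinearMap.det (z2 a x)
    rw [LinearMap.det_smul, map_mul, map_mul, map_mul, map_mul, mul_comm (LinearMap.det (ρ x))] at h1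
    have h2 : ∀ h, LinearMap.det (ρ h) ≠ 0 := fun h => (((Group.isUnit h).map ρ).map LinearMap.det).ne_zero
    exact hx.dvd_of_pow_eq_one _ (mul_right_cancel₀ (mul_ne_zero (h2 a) (h2 x)) (by rw [← h1, one_mul]))
  by_contra hlt
  have vec : ∀ x : N, ∃ w, w ≠ 0 ∧ ρ g w = c • w ∧ ρ (φ x * x⁻¹ : N) w = w := fun x => by
    have h1 := dim x
    obtain ⟨w, hw, w0⟩ := Submodule.exists_mem_ne_zero_of_ne_bot
      (p := (ρ g).eigenspace c ⊓ (ρ (φ x * x⁻¹ : N)).eigenspace 1) fun e => by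
      rw [e, finrank_bot] at h1
      omega
    exact ⟨w, w0, End.mem_eigenspace_iff.1 hw.1, by simpa using End.mem_eigenspace_iff.1 hw.2⟩
  have hc0 : c ≠ 0 := by
    rintro rfl
    obtain ⟨w, w0, w1, -⟩ := vec 1
    exact w0 (inj g (by rw [w1, zero_smul, map_zero]))
  let B : N → N → Additive Fˣ := fun a b => Additive.ofMul (Units.mk0 (z a b) (z0 a b))
  have B0 : ∀ a b, B a b = 0 ↔ z a b = 1 := fun a b => Units.ext_iff
  have hl : ∀ a b c, B (a * b) c = B a c + B b c := fun a b c => Units.ext (zu (t := z a c * z b c) (by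
    rw [Subgroup.coe_mul, mul_assoc, map_mul, z2, mul_smul_comm, ← map_mul, ← mul_assoc, map_mul, z2, smul_mul_assoc,
      smul_smul, ← map_mul, mul_comm (z b c), mul_assoc]))
  have hr' : ∀ a b c, B a (b * c) = B a b + B a c := fun a b c => Units.ext (zu (t := z a b * z a c) (by
    rw [Subgroup.coe_mul, ← mul_assoc, map_mul, z2, smul_mul_assoc, ← map_mul, mul_assoc, map_mul, z2, mul_smul_comm,
      smul_smul, ← map_mul, mul_assoc]))
  have hs : ∀ a b, B a b + B b a = 0 := fun a b => Units.ext (smul_left_injective F (ne0 (a * b)) (by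
    change (z a b * z b a) • _ = (1 : F) • _
    rw [mul_smul, ← z2, ← z2, one_smul]))
  have hB : ∀ a b, B (φ a) (φ b) = B a b := fun a b => Units.ext (zu (t := z a b) (by
    rw [hφ, hφ, conj_mul, conj_mul, map_mul, map_mul, z2, mul_smul_comm, smul_mul_assoc, ← map_mul, ← map_mul]))
  have rad : ∀ y : N, (∀ a, B a y = 0) ↔ ∃ c : F, ρ y = c • 1 := fun y =>
    ⟨fun h => hS y fun a ha => (zc (a := ⟨a, ha⟩) ((B0 _ _).1 (h _))).symm,
      fun h a => (B0 _ _).2 (zu (by rw [sc h, one_smul]))⟩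
  have triv : ∀ x : N, (∀ a, B a (φ x * x⁻¹) = 0) → φ x * x⁻¹ = 1 := fun x h => by
    obtain ⟨w, w0, -, w2⟩ := vec x
    exact Subtype.ext (one w0 w2 ((rad _).1 h))
  have it : ∀ k (x : N), (φ^[k] x : Γ) = g ^ k * x * (g ^ k)⁻¹ := fun k x => by
    induction k with
    | zero => simp
    | succ k ih =>
      rw [Function.iterate_succ_apply', hφ, ih]
      group
  obtain ⟨x, h1, h2⟩ : ∃ x, (∀ a, B a (φ (φ x * x⁻¹) * (φ x * x⁻¹)⁻¹) = 0) ∧ ¬ ∀ a, B a (φ x * x⁻¹) = 0 := by
    by_contra hn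
    push Not at hn
    refine hx₀ (triv _ (polar B hl hr' hs φ hB (fun x => ?_) hn ho (fun x => Subtype.ext (by simp [it, hgm])) x₀))
    obtain ⟨w, w0, w1, w2⟩ := vec x
    generalize φ x * x⁻¹ = y at w2
    have w3 : ρ (φ y) w = w := by
      have : ρ g⁻¹ w = c⁻¹ • w := by
        rw [eq_inv_smul_iff₀ hc0, ← map_smul, ← w1, ← End.mul_apply, ← map_mul, inv_mul_cancel, map_one, End.one_apply]
      rw [hφ, map_mul, map_mul, End.mul_apply, End.mul_apply, this, map_smul, w2, map_smul, w1, inv_smul_smul₀ hc0]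
    have := LinearMap.congr_fun (z2 y (φ y)) w
    rw [map_mul, map_mul, LinearMap.smul_apply, End.mul_apply, End.mul_apply, w3, w2, w3] at this
    exact (B0 _ _).2 (smul_left_injective F w0 (this.symm.trans (one_smul F w).symm))
  have h3 := congrArg Subtype.val (mul_inv_eq_one.1 (triv _ h1))
  set a := φ x * x⁻¹ with ha
  have h4 : g * x = a * x * g := by rw [ha, Subgroup.coe_mul, hφ, Subgroup.coe_inv]; group
  have h5 : g * a = a * g := mul_inv_eq_iff_eq_mul.1 h3
  have h6 : ∀ k, g ^ k * x = a ^ k * x * g ^ k := fun k => by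
    induction k with
    | zero => simp
    | succ k ih =>
      rw [pow_succ', mul_assoc, ih, ← mul_assoc, ← mul_assoc, ((show Commute g a from h5).pow_right k).eq,
        mul_assoc _ g, h4, pow_succ]
      simp only [mul_assoc]
  have h7 : a ^ m = 1 := by
    have := h6 m
    rw [hgm, one_mul, mul_one, eq_comm, mul_eq_right] at this
    exact Subtype.ext this
  have hp : ∀ y k, z y (a ^ k) = z y a ^ k := fun y k => by
    induction k with
    | zero => exact zu (by simp)
    | succ k ih =>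
      rw [pow_succ, pow_succ, ← ih]
      exact congrArg Units.val (hr' y _ _)
  obtain rfl : m = r := by
    by_contra hne
    refine h2 fun y => (B0 _ _).2 ?_
    have e := hp y m
    rw [h7, zu (t := 1) (by simp)] at e
    have := pow_gcd_eq_one.2 ⟨e.symm, z1 y a⟩
    rwa [((Nat.coprime_primes hm hr).2 hne).gcd_eq_one, pow_one] at this
  have h8 : ¬ ∃ c : F, ρ a = c • 1 := fun h => h2 ((rad _).2 h)
  obtain ⟨y, hy⟩ := prim a h8
  exact hlt (two_mul_le (A := ρ a) (inj x) hr (hmr.resolve_left (by simp)) hy (z1 a x)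
    (by rw [← map_pow, ← Subgroup.coe_pow, h7, Subgroup.coe_one, map_one]) (by rw [← map_mul, h5, map_mul])
    (by rw [← map_mul, h4, map_mul, map_mul]) (by rw [← map_mul, z2, map_mul]) (lemA a h8) hc0)

open Matrix Cfsg.Geo CL.Asch in
theorem bound_gl {F : Type*} [Field F] {n r m : ℕ} (R : Subgroup (GL (Fin n) F)) (hr : r.Prime)
    (hZ : Nat.card (Subgroup.center R) = r) (hext : commutator R = Subgroup.center R)
    (hirr : ActsAbsolutelyIrreducibly (matrixSet R)) {g : GL (Fin n) F}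
    (hg : g ∈ subgroupNormalizer (R ⊔ scalars (Fin n) F)) (hm : m.Prime) (hord : orderOf g = m)
    (hns : g ∉ scalars (Fin n) F) (c : F) :
    2 * r * finrank F (End.eigenspace (toLin' (g : Matrix (Fin n) (Fin n) F)) c) ≤ (r + 1) * n ∧ r ∣ n ∧
      (Odd m → m ≠ r ∨ 5 ≤ r → 2 * finrank F (End.eigenspace (toLin' (g : Matrix (Fin n) (Fin n) F)) c) ≤ n) := by
  let ρ : GL (Fin n) F →* End F (Fin n → F) :=
    (toLinAlgEquiv' : Matrix (Fin n) (Fin n) F ≃ₐ[F] _).toMonoidHom.comp (Units.coeHom _)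
  have hρ : ∀ h, ρ h = toLinAlgEquiv' (h : Matrix (Fin n) (Fin n) F) := fun _ => rfl
  have hsc : ∀ {h : GL (Fin n) F} {c : F}, ρ h = c • 1 ↔ (h : Matrix (Fin n) (Fin n) F) = c • 1 := by
    intro h c
    rw [hρ, ← (toLinAlgEquiv' (R := F) (n := Fin n)).injective.eq_iff, map_smul, map_one]
  have hS : ∀ h : GL (Fin n) F, (∀ a ∈ R, h * a = a * h) → ∃ c : F, ρ h = c • 1 := fun h hh => by
    obtain ⟨c, hc⟩ := hirr.2 h (by
      rintro _ ⟨a, ha, rfl⟩
      exact congrArg Units.val (hh a ha))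
    exact ⟨c, hsc.2 hc⟩
  have hcen : ∀ s ∈ scalars (Fin n) F, ∀ a, a * s = s * a := fun s hs a => by
    obtain ⟨c, hc⟩ := mem_scalars_iff'.1 hs
    exact Units.ext (by simp [hc])
  have : (scalars (Fin n) F).Normal := ⟨fun s hs a => by rwa [hcen s hs, mul_inv_cancel_right]⟩
  have := bound ρ (toLinAlgEquiv'.injective.comp Units.val_injective) (R ⊔ scalars (Fin n) F) hr hm ?_
    (fun h hh => hS h fun a ha => hh a (Subgroup.mem_sup_left ha)) hg (hord ▸ pow_orderOf_eq_one g)
    (fun ⟨c, hc⟩ => hns (mem_scalars_of_eq_smul (hsc.1 hc))) c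
  · rwa [finrank_fin_fun] at this
  rintro ⟨a, ha⟩ ⟨b, hb⟩
  obtain ⟨x, hx, s, hs, rfl⟩ := Subgroup.mem_sup_of_normal_right.1 ha
  obtain ⟨y, hy, t, ht, rfl⟩ := Subgroup.mem_sup_of_normal_right.1 hb
  have h1 : (⟨x, hx⟩ * ⟨y, hy⟩ * ⟨x, hx⟩⁻¹ * ⟨y, hy⟩⁻¹ : R) ∈ Subgroup.center R :=
    hext ▸ Subgroup.commutator_mem_commutator (Subgroup.mem_top _) (Subgroup.mem_top _)
  obtain ⟨z, hz⟩ := hS (x * y * x⁻¹ * y⁻¹) fun a ha =>
    (congrArg Subtype.val (Subgroup.mem_center_iff.1 h1 ⟨a, ha⟩)).symm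
  have h2 : (x * y * x⁻¹ * y⁻¹) ^ r = 1 := by
    have := pow_card_eq_one' (x := (⟨_, h1⟩ : Subgroup.center R))
    rw [hZ] at this
    exact congrArg (fun u : Subgroup.center R => ((u : R) : GL (Fin n) F)) this
  rcases subsingleton_or_nontrivial (End F (Fin n → F)) with h | h
  · exact ⟨1, one_pow r, Subsingleton.elim _ _⟩
  refine ⟨z, smul_left_injective F (one_ne_zero (α := End F (Fin n → F))) ?_, ?_⟩
  · simp only [one_smul]
    rw [← one_pow (M := End F (Fin n → F)) r, ← _root_.smul_pow, ← hz, ← map_pow, h2, map_one, one_pow]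
  · have e : x * s * (y * t) = x * y * x⁻¹ * y⁻¹ * (y * t * (x * s)) := by
      rw [mul_assoc y t, ← hcen t ht, ← mul_assoc (x * s), mul_assoc x s y, ← hcen s hs y]
      group
    simp only
    rw [e, map_mul, hz, smul_mul_assoc, one_mul]

end CL.ExtraEig
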