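/-
Orthonormal frames: the reflections of a proper overgroup of the monomial part of `Ω` are monomial.
-/
import Cfsg.Agent.Cls.OrthFrameTri

set_option autoImplicit false
set_option linter.unusedSectionVars false

open scoped Matrix commutatorElement
open QuadraticMap Module

namespace CL.Cls

open CL.Known

namespace Fr

variable {F : Type*} [Field F] {ι : Type*} [Fintype ι] [DecidableEq ι]

theorem supp_cut_add (v : ι → F) {i j : ι} (hij : i ≠ j) (hi : v i ≠ 0) (t : F) :
    ((supp v).erase i).erase j ⊆ supp (cut v i j + t • fe i) ∧ supp (cut v i j + t • fe i) ⊆ (supp v).erase j := by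
  refine ⟨fun k hk => ?_, fun k hk => ?_⟩
  · simp only [Finset.mem_erase, mem_supp] at hk
    simp [cut_of_ne v hk.2.1 hk.1, fe_ne hk.2.1, hk.2.2]
  · by_cases h1 : k = j
    · simp [h1, fe_ne hij.symm] at hk
    by_cases h2 : k = i
    · simp [h2, hij, hi]
    · simpa [h1, cut_of_ne v h2 h1, fe_ne h2] using hk

theorem exists_third {v : ι → F} (h : 3 ≤ (supp v).card) (i j : ι) : ∃ k, k ≠ i ∧ k ≠ j ∧ v k ≠ 0 := by
  obtain ⟨k, hk⟩ := Finset.card_pos.1 (show 0 < (((supp v).erase i).erase j).card by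
    have h1 := Finset.pred_card_le_card_erase (s := supp v) (a := i)
    have h2 := Finset.pred_card_le_card_erase (s := (supp v).erase i) (a := j)
    omega)
  simp only [Finset.mem_erase, mem_supp] at hk
  exact ⟨k, hk.2.1, hk.1, hk.2.2⟩

theorem cut_ne_zero {v : ι → F} (h : 3 ≤ (supp v).card) (i j : ι) : cut v i j ≠ 0 := by
  obtain ⟨k, h1, h2, h3⟩ := exists_third h i j
  exact fun h0 => h3 (by rw [← cut_of_ne v h1 h2, h0]; rfl)

namespace Ctx

variable [Finite F] {G : Subgroup (OG (sQ ι F))} (C : Ctx G)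
include C

theorem le_of_sub {v : ι → F} (hq : sQ ι F v ≠ 0) (hv : refl (sQ ι F) v ∈ G) {n : ℕ} (hn : Even n) (h3 : 3 ≤ n)
    (hlt : n < (supp v).card) {c : F} (hc : ∀ i ∈ supp v, v i ^ 2 = c) (h : sQ ι F v = n * c) :
    commutator (OG (sQ ι F)) ≤ G := by
  obtain ⟨T, hT, rfl⟩ := Finset.exists_subset_card_eq hlt.le
  obtain ⟨k, hk, hk'⟩ := Finset.exists_mem_notMem_of_card_lt_card hlt
  obtain ⟨a, ha⟩ := Finset.card_pos.1 (show 0 < T.card by omega)
  refine C.le_of_set hq hv (S := Tᶜ) (Or.inr (Or.inl (by rwa [compl_compl]))) ?_ (Finset.mem_compl.2 hk')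
    (mem_supp.1 hk) (by rwa [compl_compl]) (by simpa using ha) (mem_supp.1 (hT ha))
  have := Finset.sum_add_sum_compl T fun i => v i ^ 2
  rw [← sQ_app, h, Finset.sum_congr rfl fun i hi => hc i (hT hi), Finset.sum_const, nsmul_eq_mul] at this
  linear_combination this

theorem le_of_three (h8 : Fintype.card ι ≠ 8) (h3 : (3 : F) = 0) {v : ι → F} (hq : sQ ι F v ≠ 0)
    (hv : refl (sQ ι F) v ∈ G) (h4 : 4 ≤ (supp v).card) : commutator (OG (sQ ι F)) ≤ G := by
  have h1 : ∀ a ∈ supp v, v a ^ 2 = 1 := fun a ha => sq_eq_one_of_three C.prime h3 (mem_supp.1 ha)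
  have h7 := C.seven
  have key : ∀ n : ℕ, 0 < n → 3 * n < (supp v).card → 3 * n + 3 ≤ Fintype.card ι →
      (Even (3 * n) ∨ Even (Fintype.card ι - 3 * n) ∨ ∃ l, v l = 0) → commutator (OG (sQ ι F)) ≤ G :=
    fun n h0 hlt hle hp => by
      obtain ⟨S, hS, hn⟩ := Finset.exists_subset_card_eq hlt.le
      obtain ⟨a, ha, ha'⟩ := Finset.exists_mem_notMem_of_card_lt_card (hn ▸ hlt)
      obtain ⟨k, hk⟩ := Finset.card_pos.1 (show 0 < S.card by omega)
      refine C.le_of_set hq hv (S := S) (by rwa [Finset.card_compl, hn]) ?_ hk (mem_supp.1 (hS hk))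
        (by rw [Finset.card_compl, hn]; omega) ha' (mem_supp.1 ha)
      rw [Finset.sum_congr rfl fun i hi => h1 i (hS hi), Finset.sum_const, hn, nsmul_eq_mul]
      push_cast
      rw [h3, zero_mul, zero_mul]
  by_cases h0 : ∃ l, v l = 0
  · exact key 1 one_pos (by omega) (by omega) (Or.inr (Or.inr h0))
  have hs : supp v = Finset.univ := Finset.eq_univ_iff_forall.2 fun l => mem_supp.2 fun h => h0 ⟨l, h⟩
  rcases Nat.even_or_odd (Fintype.card ι) with h | h
  · have : 10 ≤ Fintype.card ι := by obtain ⟨r, hr⟩ := h; omega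
    exact key 2 two_pos (by rw [hs, Finset.card_univ]; omega) (by omega) (Or.inl (by decide))
  · exact key 1 one_pos (by omega) (by omega) (Or.inr (Or.inl (Nat.Odd.sub_odd h (by decide))))

variable (hc : ¬ commutator (OG (sQ ι F)) ≤ G) (h3 : (3 : F) ≠ 0) {s r : ℕ}
  (hmin : ∀ y, sQ ι F y ≠ 0 → refl (sQ ι F) y ∈ G → (supp y).card < s → (supp y).card ≤ r)
include hc h3 hmin

theorem not_reduce (hr : r + 2 < s) {v : ι → F} (hs : (supp v).card = s) {i j : ι} (hij : i ≠ j) (hi : v i ≠ 0)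
    (hj : v j ≠ 0) {a : ι → F} (ha : a ∈ Submodule.span F ({fe i, fe j, cut v i j} : Set (ι → F)))
    (hqa : sQ ι F a ≠ 0) (ra : refl (sQ ι F) a ∈ G) (hq : sQ ι F (cut v i j) ≠ 0) :
    ¬ refl (sQ ι F) (cut v i j) ∈ G ∧ ¬ Full G (Submodule.span F {fe i, fe j, cut v i j}) := by
  have key : ∀ t : F, sQ ι F (cut v i j + t • fe i) ≠ 0 → ¬ refl (sQ ι F) (cut v i j + t • fe i) ∈ G := fun t h1 h2 => by
    obtain ⟨h4, h5⟩ := supp_cut_add v hij hi t
    have h6 := Finset.card_le_card h4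
    have h7 := Finset.card_le_card h5
    rw [Finset.card_erase_of_mem (by simp [hij.symm, hj]), Finset.card_erase_of_mem (by simp [hi]), hs] at h6
    rw [Finset.card_erase_of_mem (by simp [hj]), hs] at h7
    have := hmin _ h1 h2 (by omega)
    omega
  refine ⟨fun h => key 0 (by simpa using hq) (by simpa using h), fun h => ?_⟩
  obtain ⟨t, h1, h2⟩ := (C.exists_of_full hc h3 hij hq (cut_left _ _ _) (cut_right _ _ _) h ha hqa ra).2
  exact key t h1 h2

end Ctx

namespace Ctx

section TypeD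

variable [Finite F] {G : Subgroup (OG (sQ ι F))} (C : Ctx G) (hc : ¬ commutator (OG (sQ ι F)) ≤ G) (h3 : (3 : F) ≠ 0)
  (hT : ∀ i j, i ≠ j → refl (sQ ι F) (fe i - fe j) ∈ G) {s : ℕ}
  (hmin : ∀ y, sQ ι F y ≠ 0 → refl (sQ ι F) y ∈ G → (supp y).card < s → (supp y).card ≤ 2)
include C hc h3 hT hmin

theorem sq_eq_of_min (h5 : 5 ≤ s) {v : ι → F} (hv : sQ ι F v ≠ 0) (rv : refl (sQ ι F) v ∈ G) (hs : (supp v).card = s)
    {i j : ι} (hi : v i ≠ 0) (hj : v j ≠ 0) : v i ^ 2 = v j ^ 2 := by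
  by_contra h
  have hij : i ≠ j := by rintro rfl; exact h rfl
  obtain ⟨hq, h1⟩ := C.triD hc hT hij hv rv h (cut_ne_zero (by omega) i j)
  obtain ⟨m1, m2, -⟩ := mem_span3 (F := F) (fe i) (fe j) (cut v i j)
  obtain ⟨h4, h6⟩ := C.not_reduce hc h3 hmin (by omega) hs hij hi hj (Submodule.sub_mem _ m1 m2)
    (by rw [sQ_fe_sub hij]; exact C.two) (hT i j hij) hq
  obtain ⟨h7, h8⟩ := (h1.resolve_left h4).resolve_right h6
  exact mul_ne_zero (mul_ne_zero (mul_ne_zero C.two C.two) C.two) (mul_ne_zero hi hj) (by linear_combination h8 - h7)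

theorem eq_eight (h5 : 5 ≤ s) {v : ι → F} (hv : sQ ι F v ≠ 0) (rv : refl (sQ ι F) v ∈ G) (hs : (supp v).card = s) :
    (s : F) = 8 := by
  obtain ⟨i, hi⟩ := Function.ne_iff.1 (ne_zero_of_map_ne_zero hv)
  obtain ⟨j, hji, -, hj⟩ := exists_third (v := v) (by omega) i i
  obtain ⟨k, hki, hkj, hk⟩ := exists_third (v := v) (by omega) i j
  rw [Pi.zero_apply] at hi
  have hq : sQ ι F v = s * v i ^ 2 := by
    rw [sQ_of_const fun a ha => C.sq_eq_of_min hc h3 hT hmin h5 hv rv hs (mem_supp.1 ha) hi, hs]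
  have hji' := C.sq_eq_of_min hc h3 hT hmin h5 hv rv hs hj hi
  have hε : (v j / v i) ^ 2 = 1 := by rw [div_pow, hji', div_self (pow_ne_zero _ hi)]
  have hu := refl_app_mem rv (C.refl_add_mem hT hji.symm hε)
  have hqu : sQ ι F ((refl (sQ ι F) v).1 (fe i + (v j / v i) • fe j)) ≠ 0 := by
    rw [OG.map_app, sQ_pair hji.symm, hε, one_add_one_eq_two]; exact C.two
  obtain ⟨c, hc0, hcs, hcu⟩ : ∃ c : F, c ≠ 0 ∧ c * s * v i = 4 ∧
      (refl (sQ ι F) v).1 (fe i + (v j / v i) • fe j) = fe i + (v j / v i) • fe j - c • v := by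
    have h1 : polar (sQ ι F) v (fe i + (v j / v i) • fe j) = 2 * 2 * v i := by
      rw [polar_add_right, polar_smul_right, polar_fe', polar_fe', smul_eq_mul]
      field_simp
      linear_combination 2 * hji'
    refine ⟨_, ?_, ?_, refl_app _ _⟩ <;> rw [h1]
    · exact mul_ne_zero (inv_ne_zero hv) (mul_ne_zero (mul_ne_zero C.two C.two) hi)
    · have : (s : F) ≠ 0 := fun h => hv (by rw [hq, h, zero_mul])
      rw [hq]; field_simp; norm_num
  rw [hcu] at hu hqu
  have h1 : supp (fe i + (v j / v i) • fe j - c • v) ⊆ supp v := fun a ha => by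
    by_contra h
    rw [mem_supp, not_not] at h
    have hai : a ≠ i := by rintro rfl; exact hi h
    have haj : a ≠ j := by rintro rfl; exact hj h
    simp [fe_ne hai, fe_ne haj, h] at ha
  have h2 : ((supp v).erase i).erase j ⊆ supp (fe i + (v j / v i) • fe j - c • v) := fun a ha => by
    simp only [Finset.mem_erase, mem_supp] at ha
    simp [fe_ne ha.1, fe_ne ha.2.1, ha.2.2, hc0]
  have h4 := Finset.card_le_card h2
  rw [Finset.card_erase_of_mem (by simp [hji, hj]), Finset.card_erase_of_mem (by simp [hi]), hs] at h4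
  have h6 : (supp (fe i + (v j / v i) • fe j - c • v)).card = s := by
    have := hmin _ hqu hu
    have := Finset.card_le_card h1
    omega
  have h7 := Finset.eq_of_subset_of_card_le h1 (by omega)
  have h8 := C.sq_eq_of_min hc h3 hT hmin h5 hqu hu h6 (mem_supp.1 (h7 ▸ mem_supp.2 hi)) (mem_supp.1 (h7 ▸ mem_supp.2 hk))
  have h9 := C.sq_eq_of_min hc h3 hT hmin h5 hv rv hs hk hi
  simp only [Pi.sub_apply, Pi.add_apply, Pi.smul_apply, fe_self, fe_ne hji.symm, fe_ne hki, fe_ne hkj, smul_eq_mul] at h8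
  linear_combination s * h8 + (s * c ^ 2) * h9 + 2 * hcs

theorem false_of_min_five (h8 : Fintype.card ι ≠ 8) (h5 : 5 ≤ s) {v : ι → F} (hv : sQ ι F v ≠ 0)
    (rv : refl (sQ ι F) v ∈ G) (hs : (supp v).card = s) : False := by
  have h1 := C.eq_eight hc h3 hT hmin h5 hv rv hs
  have h2 := C.two
  obtain ⟨i, hi⟩ := Function.ne_iff.1 (ne_zero_of_map_ne_zero hv)
  rw [Pi.zero_apply] at hi
  have hsq : ∀ a ∈ supp v, v a ^ 2 = v i ^ 2 := fun a ha => C.sq_eq_of_min hc h3 hT hmin h5 hv rv hs (mem_supp.1 ha) hi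
  have hq : sQ ι F v = 8 * v i ^ 2 := by rw [sQ_of_const hsq, hs, h1]
  rcases lt_trichotomy s 8 with h | rfl | h
  · interval_cases s <;> push_cast at h1
    · exact h3 (by linear_combination -h1)
    · exact h2 (by linear_combination -h1)
    · exact one_ne_zero (α := F) (by linear_combination -h1)
  swap
  · exact hc (C.le_of_sub hv rv (n := 8) (by decide) (by decide) (by omega) hsq (by simpa using hq))
  obtain ⟨l, -, hl⟩ := Finset.exists_mem_notMem_of_card_lt_card (s := supp v) (t := Finset.univ)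
    (lt_of_le_of_ne (Finset.card_le_univ _) (by rw [hs, Finset.card_univ]; omega))
  have hl' := hl
  rw [mem_supp, not_not] at hl
  have hil : i ≠ l := by rintro rfl; exact hi hl
  obtain ⟨hw, h4⟩ := C.triD hc hT hil hv rv (by rw [hl]; simpa using hi) (cut_ne_zero (by omega) i l)
  have h6 : ((supp v).erase i).erase l = (supp v).erase i := Finset.erase_eq_of_notMem fun h =>
    hl' (Finset.mem_of_mem_erase h)
  rcases h4 with h | ⟨h, -⟩ | h
  · have := hmin _ hw h
    rw [supp_cut, h6, Finset.card_erase_of_mem (mem_supp.2 hi), hs] at this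
    omega
  · rw [hl, hq] at h
    exact mul_ne_zero (mul_ne_zero h2 h3) (pow_ne_zero 2 hi) (by linear_combination -h)
  obtain ⟨m1, m2, -⟩ := mem_span3 (F := F) (fe i) (fe l) (cut v i l)
  have hqw : sQ ι F (cut v i l) = 7 * v i ^ 2 := by
    have := congrArg (sQ ι F) (eq_add_cut v hil)
    rw [hl, zero_smul, add_zero, add_comm, sQ_add_smul, cut_left, hq] at this
    linear_combination -this
  have h4 : (4 : F) * v i ≠ 0 := mul_ne_zero (by rw [show (4 : F) = 2 * 2 by norm_num]; exact mul_ne_zero h2 h2) hi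
  have hy := (C.exists_of_full hc h3 hil hw (cut_left _ _ _) (cut_right _ _ _) h (Submodule.sub_mem _ m1 m2)
    (by rwa [sQ_fe_sub hil]) (hT i l hil)).1 (5 * v i) (4 * v i) h4 (by rw [hqw, sQ_fe_sub hil]; ring)
  have hqy : sQ ι F (cut v i l + (5 * v i) • fe i) ≠ 0 := by
    rw [sQ_add_smul, hqw, cut_left]
    exact fun h0 => mul_ne_zero h2 (pow_ne_zero 2 h4) (by linear_combination h0)
  obtain ⟨h7, h9⟩ := supp_cut_add v hil hi (5 * v i)
  rw [Finset.erase_eq_of_notMem hl'] at h9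
  have h10 := Finset.card_le_card h7
  rw [h6, Finset.card_erase_of_mem (mem_supp.2 hi), hs] at h10
  have h11 : (supp (cut v i l + (5 * v i) • fe i)).card = 8 := by
    have := hmin _ hqy hy
    have := Finset.card_le_card h9
    omega
  have h12 := Finset.eq_of_subset_of_card_le h9 (by omega)
  obtain ⟨k, hki, hkl, hk⟩ := exists_third (v := v) (by omega) i l
  have h13 := C.sq_eq_of_min hc h3 hT hmin h5 hqy hy h11 (mem_supp.1 (h12 ▸ mem_supp.2 hi))
    (mem_supp.1 (h12 ▸ mem_supp.2 hk))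
  simp only [Pi.add_apply, Pi.smul_apply, cut_left, cut_of_ne v hki hkl, fe_self, fe_ne hki, smul_eq_mul] at h13
  exact mul_ne_zero (mul_ne_zero (mul_ne_zero h2 h3) h4) hi (by linear_combination h13 + hsq k (mem_supp.2 hk))

theorem false_of_min_four (h4 : s = 4) {v : ι → F} (hv : sQ ι F v ≠ 0) (rv : refl (sQ ι F) v ∈ G)
    (hs : (supp v).card = s) : False := by
  subst h4
  obtain ⟨l, hl, m, hm, n, hn, hlm, hln, hmn⟩ := Finset.two_lt_card.1 (show 2 < (supp v)ᶜ.card by
    rw [Finset.card_compl, hs]; have := C.seven; omega)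
  have hl' := Finset.mem_compl.1 hl
  rw [Finset.mem_compl, mem_supp, not_not] at hl hm hn
  have key : ∀ i ∈ supp v, v i ^ 2 = sQ ι F v / 2 := fun i hi' => by
    have hi := mem_supp.1 hi'
    have hne : ∀ {a}, v a = 0 → a ≠ i := fun h => by rintro rfl; exact hi h
    obtain ⟨hw, h4⟩ := C.triD hc hT (hne hl).symm hv rv (by rw [hl]; simpa using hi) (cut_ne_zero (by omega) i l)
    rcases h4 with h | ⟨h, -⟩ | h
    · have := hmin _ hw h
      rw [supp_cut, Finset.erase_eq_of_notMem fun h => hl' (Finset.mem_of_mem_erase h),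
        Finset.card_erase_of_mem hi', hs] at this
      omega
    · rw [hl] at h
      rw [eq_div_iff C.two]
      linear_combination h
    · obtain ⟨m1, m2, -⟩ := mem_span3 (F := F) (fe i) (fe l) (cut v i l)
      exact (hc (C.le_of_full h3 (hne hl).symm (hne hm) hlm.symm (hne hn) hln.symm hmn hw (cut_left _ _ _)
        (cut_right _ _ _) (cut_of_zero _ _ hm) (cut_of_zero _ _ hn) h (Submodule.sub_mem _ m1 m2)
        (by rw [sQ_fe_sub (hne hl).symm]; exact C.two) (hT i l (hne hl).symm))).elim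
  have := sQ_of_const key
  rw [hs] at this
  have h2 := C.two
  push_cast at this
  field_simp at this
  exact h2 (by linear_combination -this)

end TypeD

section TypeE

variable [Finite F] {G : Subgroup (OG (sQ ι F))} (C : Ctx G) (hc : ¬ commutator (OG (sQ ι F)) ≤ G) (h3 : (3 : F) ≠ 0)
  (hT : ∀ i, refl (sQ ι F) (fe i) ∈ G) {s : ℕ}
  (hmin : ∀ y, sQ ι F y ≠ 0 → refl (sQ ι F) y ∈ G → (supp y).card < s → (supp y).card ≤ 1)
include C hc h3 hT hmin

theorem false_of_min (h4 : 4 ≤ s) {v : ι → F} (hv : sQ ι F v ≠ 0) (rv : refl (sQ ι F) v ∈ G)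
    (hs : (supp v).card = s) : False := by
  have h2 := C.two
  have h22 : (4 : F) ≠ 0 := by rw [show (4 : F) = 2 * 2 by norm_num]; exact mul_ne_zero h2 h2
  have hsq : ∀ i ∈ supp v, v i ^ 2 = sQ ι F v / 4 := fun i hi' => by
    have hi := mem_supp.1 hi'
    obtain ⟨j, hji, -, hj⟩ := exists_third (v := v) (by omega) i i
    obtain ⟨hq, h1⟩ := C.triE hc hT hji.symm hv rv hi hj (cut_ne_zero (by omega) i j)
    obtain ⟨h5, h6⟩ := C.not_reduce hc h3 hmin (by omega) hs hji.symm hi hj (mem_span3 _ _ _).1 (by simp) (hT i) hq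
    rw [eq_div_iff h22]
    linear_combination (h1.resolve_left h5).resolve_right h6
  rcases h4.eq_or_lt with rfl | h5
  swap
  · exact hc (C.le_of_sub hv rv (n := 4) (by decide) (by decide) (by omega) hsq (by push_cast; field_simp))
  obtain ⟨l, hl, m, hm, n, hn, hlm, hln, hmn⟩ := Finset.two_lt_card.1 (show 2 < (supp v)ᶜ.card by
    rw [Finset.card_compl, hs]; have := C.seven; omega)
  rw [Finset.mem_compl, mem_supp, not_not] at hl hm hn
  obtain ⟨a, b, c, d, hab, hac, had, hbc, hbd, hcd, h⟩ := Finset.card_eq_four.1 hs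
  have ha : v a ≠ 0 := mem_supp.1 (h ▸ by simp)
  have hb : v b ≠ 0 := mem_supp.1 (h ▸ by simp)
  have hc' : v c ≠ 0 := mem_supp.1 (h ▸ by simp)
  have hd : v d ≠ 0 := mem_supp.1 (h ▸ by simp)
  have hne : ∀ {x y}, v x = 0 → v y ≠ 0 → x ≠ y := fun h h' => by rintro rfl; exact h' h
  have h1 : (prm F (Equiv.swap d l) * prm F (Equiv.swap m n)).1 v = v - v d • fe d + v d • fe l := by
    rw [OG.mul_app, swap_app_of (hm.trans hn.symm)]
    funext k
    rw [prm_app, Equiv.symm_swap, Equiv.swap_apply_def]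
    by_cases hk : k = d
    · simp [hk, hl, fe_ne (hne hl hd).symm]
    · by_cases hk' : k = l <;> simp [hk, hk', fe_app, hl, hne hl hd]
  have rv' := refl_app_mem (C.swap_mul_mem (hne hl hd).symm hmn) rv
  have hq' := OG.map_app (prm F (Equiv.swap d l) * prm F (Equiv.swap m n)) v
  rw [h1] at rv' hq'
  have hu := refl_app_mem rv' rv
  have hqu := OG.map_app (refl (sQ ι F) (v - v d • fe d + v d • fe l)) v
  have h5 : (refl (sQ ι F) (v - v d • fe d + v d • fe l)).1 v = v - (3 / 2 : F) • (v - v d • fe d + v d • fe l) := by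
    rw [refl_app, hq', polar_add_left, polar_sub_left, polar_self', polar_smul_left, polar_smul_left, polar_fe, polar_fe,
      hl]
    congr 2
    have := hsq d (mem_supp.2 hd)
    simp only [smul_eq_mul]
    field_simp at this ⊢
    linear_combination -this
  rw [h5] at hu hqu
  set u := v - (3 / 2 : F) • (v - v d • fe d + v d • fe l) with hu'
  have hk : ∀ k, k ≠ d → k ≠ l → u k = -(v k / 2) := fun k h6 h7 => by
    simp only [hu', Pi.sub_apply, Pi.add_apply, Pi.smul_apply, fe_ne h6, fe_ne h7, smul_eq_mul]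
    field_simp
    ring
  have hud : u d = v d := by simp [hu', fe_ne (hne hl hd).symm]
  have hk0 : ∀ k, v k ≠ 0 → k ≠ d → u k ≠ 0 := fun k h6 h7 => by
    rw [hk k h7 (hne hl h6).symm]
    exact neg_ne_zero.2 (div_ne_zero h6 h2)
  have hwc : cut u a b c ≠ 0 := by rw [cut_of_ne _ hac.symm hbc.symm]; exact hk0 c hc' hcd
  have hwd : cut u a b d ≠ 0 := by rwa [cut_of_ne _ had.symm hbd.symm, hud]
  obtain ⟨hw, h6⟩ := C.triE hc hT hab (hqu ▸ hv) hu (hk0 a ha had) (hk0 b hb hbd) fun h0 => hwc (congrFun h0 c)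
  rcases h6 with h6 | h6 | h6
  · have h7 : supp (cut u a b) ⊆ {c, d, l} := fun k hk' => by
      by_contra h8
      simp only [Finset.mem_insert, Finset.mem_singleton, not_or] at h8
      rw [supp_cut, Finset.mem_erase, Finset.mem_erase, mem_supp, hk k h8.2.1 h8.2.2] at hk'
      have : k ∈ supp v := mem_supp.2 fun h0 => hk'.2.2 (by simp [h0])
      simp [h, hk'.1, hk'.2.1, h8.1, h8.2.1] at this
    have h8 := hmin _ hw h6 (lt_of_le_of_lt ((Finset.card_le_card h7).trans Finset.card_le_three) (by norm_num))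
    exact hcd (Finset.card_le_one.1 h8 c (mem_supp.2 hwc) d (mem_supp.2 hwd))
  · have := hsq a (mem_supp.2 ha)
    rw [hk a had (hne hl ha).symm, hqu] at h6
    field_simp at this h6
    exact mul_ne_zero (mul_ne_zero h3 h22) (pow_ne_zero 2 ha) (by linear_combination 4 * this - h6)
  · have hz : ∀ k, v k = 0 → k ≠ l → cut u a b k = 0 := fun k h7 h8 =>
      cut_of_zero _ _ (by rw [hk k (hne h7 hd) h8, h7]; simp)
    exact hc (C.le_of_full h3 hab (hne hm ha) (hne hm hb) (hne hn ha) (hne hn hb) hmn hw (cut_left _ _ _)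
      (cut_right _ _ _) (hz m hm hlm.symm) (hz n hn hln.symm) h6 (mem_span3 _ _ _).1 (by simp) (hT a))

end TypeE

variable [Finite F] {G : Subgroup (OG (sQ ι F))} (C : Ctx G)
include C

theorem type_cases {v : ι → F} (hv : sQ ι F v ≠ 0) (rv : refl (sQ ι F) v ∈ G) (h : refl (sQ ι F) v ∈ Mon ι F) :
    ((supp v).card ≤ 1 ∧ ∀ i, refl (sQ ι F) (fe i) ∈ G) ∨ ∀ i j, i ≠ j → refl (sQ ι F) (fe i - fe j) ∈ G := by
  rcases root_cases hv C.two h with ⟨i, c, hc, rfl⟩ | ⟨i, j, c, ε, hij, hc, hε, rfl⟩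
  · exact Or.inl ⟨(Finset.card_le_card (supp_smul_fe i c)).trans (by simp), fun k =>
      C.mem_of_root rv h (refl_fe_mem_Mon k) hv (inv_ne_zero hc) (by rw [map_smul']; simp [hc])⟩
  · exact Or.inr fun k l hkl => C.mem_of_root rv h (refl_sub_mem_Mon C.two hkl) hv (inv_ne_zero hc) (by
      rw [map_smul', sQ_pair hij, sQ_fe_sub hkl, hε]; field_simp; norm_num)

/-- If `G` contains the reflection in a root but not `Ω`, all its reflections are monomial. -/
theorem refl_mem_Mon (h8 : Fintype.card ι ≠ 8) (hc : ¬ commutator (OG (sQ ι F)) ≤ G) {b : ι → F} (hb : sQ ι F b ≠ 0)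
    (rb : refl (sQ ι F) b ∈ G) (hb' : refl (sQ ι F) b ∈ Mon ι F) {v : ι → F} (hv : sQ ι F v ≠ 0)
    (rv : refl (sQ ι F) v ∈ G) : refl (sQ ι F) v ∈ Mon ι F := by
  have hT := (C.type_cases hb rb hb').imp_left And.right
  induction h : (supp v).card using Nat.strong_induction_on generalizing v with
  | _ s ih =>
    by_cases h4 : s ≤ 3
    · exact C.small hc hT hv rv (h ▸ h4)
    exfalso
    by_cases h3 : (3 : F) = 0
    · exact hc (C.le_of_three h8 h3 hv rv (by omega))
    by_cases hD : ∀ i j, i ≠ j → refl (sQ ι F) (fe i - fe j) ∈ G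
    · have hmin : ∀ y, sQ ι F y ≠ 0 → refl (sQ ι F) y ∈ G → (supp y).card < s → (supp y).card ≤ 2 :=
        fun y h1 h2 h5 => card_supp_le_two h1 C.two (ih _ h5 h1 h2 rfl)
      by_cases h5 : s = 4
      · exact C.false_of_min_four hc h3 hD hmin h5 hv rv h
      · exact C.false_of_min_five hc h3 hD hmin h8 (by omega) hv rv h
    · exact C.false_of_min hc h3 (hT.resolve_right hD) (fun y h1 h2 h5 =>
        ((C.type_cases h1 h2 (ih _ h5 h1 h2 rfl)).resolve_right hD).1) (by omega) hv rv h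

end Ctx

end Fr

end CL.Cls
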