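/-
The stabiliser in `Ω` of an orthogonal frame of isometric lines over a prime field is maximal (`n ≥ 7`, `n ≠ 8`).
-/
import Cfsg.Agent.Cls.OrthFrameGen

set_option autoImplicit false
set_option linter.unusedSectionVars false

open scoped Matrix commutatorElement
open QuadraticMap Module

namespace CL.Cls

open CL.Known

namespace Fr

section General

variable {F V : Type*} [Field F] [AddCommGroup V] [Module F V] {Q : QuadraticForm F V}

theorem refl_mul_refl_app {a b : V} (h : polar Q a b = 0) (x : V) :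
    (refl Q a * refl Q b).1 x = x - ((Q a)⁻¹ * polar Q a x) • a - ((Q b)⁻¹ * polar Q b x) • b := by
  rw [OG.mul_app, refl_app b, map_sub, map_smul, refl_app_of_polar h, refl_app]

theorem refl_mul_refl_sq {a b : V} (h : polar Q a b = 0) : refl Q a * refl Q b * (refl Q a * refl Q b) = 1 := by
  rw [mul_assoc, ← mul_assoc (refl Q b), ← refl_comm_of_polar h, mul_assoc, refl_mul_self, mul_one, refl_mul_self]

theorem polar_eq_zero_of_eigen (h2 : (2 : F) ≠ 0) {z : OG Q} {x y : V} {ε : F} (hε : ε ^ 2 = 1) (hx : z.1 x = ε • x)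
    (hy : z.1 y = (-ε) • y) : polar Q x y = 0 := by
  have := OG.polar_app z x y
  rw [hx, hy, polar_smul_left, polar_smul_right, smul_eq_mul, smul_eq_mul] at this
  exact mul_left_cancel₀ h2 (by linear_combination -this - polar Q x y * hε)

/-- The extension of the stabiliser of a class of reflections by one of them. -/
def clGrp {G : Type*} [Group G] (H : Subgroup G) {ρ : G} (hρ : ρ * ρ = 1) : Subgroup G where
  carrier := {g | (g ∈ H ∨ ρ * g ∈ H) ∧ ρ * (g * ρ * g⁻¹) ∈ H}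
  one_mem' := ⟨Or.inl H.one_mem, by simp [hρ]⟩
  mul_mem' := by
    have hi : ρ⁻¹ = ρ := inv_eq_of_mul_eq_one_right hρ
    have h0 : ∀ x, ρ * (ρ * x) = x := fun x => by rw [← mul_assoc, hρ, one_mul]
    rintro g h ⟨hg | hg, hg'⟩ ⟨hh, hh'⟩
    · refine ⟨hh.imp (H.mul_mem hg) fun hh => ?_, ?_⟩
      · simpa [mul_assoc, h0] using H.mul_mem (H.mul_mem hg' hg) hh
      · simpa [mul_assoc, h0] using H.mul_mem (H.mul_mem (H.mul_mem hg' hg) hh') (H.inv_mem hg)
    · have h1 : ρ * g⁻¹ ∈ H := by simpa [mul_assoc, h0, hi] using H.mul_mem (H.inv_mem hg) hg'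
      refine ⟨hh.symm.imp (fun hh => ?_) fun hh => ?_, ?_⟩
      · simpa [mul_assoc, h0, hi] using H.mul_mem (H.inv_mem h1) hh
      · simpa [mul_assoc] using H.mul_mem hg hh
      · simpa [mul_assoc, h0, hi] using H.mul_mem (H.mul_mem hg (H.inv_mem hh')) h1
  inv_mem' := by
    have hi : ρ⁻¹ = ρ := inv_eq_of_mul_eq_one_right hρ
    have h0 : ∀ x, ρ * (ρ * x) = x := fun x => by rw [← mul_assoc, hρ, one_mul]
    rintro g ⟨hg | hg, hg'⟩
    · exact ⟨Or.inl (H.inv_mem hg), by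
        simpa [mul_assoc, h0, hi] using H.mul_mem (H.mul_mem (H.inv_mem hg) hg') hg |> H.inv_mem⟩
    · have h1 : ρ * g⁻¹ ∈ H := by simpa [mul_assoc, h0, hi] using H.mul_mem (H.inv_mem hg) hg'
      exact ⟨Or.inr h1, by simpa [mul_assoc] using H.mul_mem h1 hg⟩

theorem isConj_of_odd {G : Type*} [Group G] {s t : G} (hs : s * s = 1) (ht : t * t = 1) {m : ℕ}
    (h : (s * t) ^ (2 * m + 1) = 1) : (s * t) ^ (m + 1) * t * ((s * t) ^ (m + 1))⁻¹ = s := by
  have h1 : ∀ k : ℕ, t * ((s * t) ^ k)⁻¹ = (s * t) ^ k * t := fun k => by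
    rw [← inv_pow, ← mul_inv_eq_iff_eq_mul, ← conj_pow, mul_inv_rev, inv_eq_of_mul_eq_one_right hs,
      inv_eq_of_mul_eq_one_right ht, ← mul_assoc, ht, one_mul]
  rw [mul_assoc, h1, ← mul_assoc, ← pow_add, show m + 1 + (m + 1) = 2 * m + 1 + 1 by ring, pow_succ, h, one_mul,
    mul_assoc, ht, mul_one]

theorem commute_of_even {G : Type*} [Group G] {s t : G} (hs : s * s = 1) (ht : t * t = 1) {m : ℕ}
    (h : (s * t) ^ m * (s * t) ^ m = 1) : (s * t) ^ m * s = s * (s * t) ^ m ∧ t * (s * t) ^ m = (s * t) ^ m * t := by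
  have h1 : t * (s * t) ^ m * t⁻¹ = ((s * t) ^ m)⁻¹ := by
    rw [← conj_pow, ← inv_pow, mul_inv_rev, inv_eq_of_mul_eq_one_right hs, inv_eq_of_mul_eq_one_right ht,
      mul_assoc, mul_assoc, ht, mul_one]
  have h2 : s * (s * t) ^ m * s⁻¹ = ((s * t) ^ m)⁻¹ := by
    rw [← conj_pow, ← inv_pow, mul_inv_rev, inv_eq_of_mul_eq_one_right hs, inv_eq_of_mul_eq_one_right ht,
      ← mul_assoc, hs, one_mul]
  rw [inv_eq_of_mul_eq_one_right h, mul_inv_eq_iff_eq_mul] at h1 h2
  exact ⟨h2.symm, h1⟩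

end General

variable {F : Type*} [Field F] {ι : Type*} [Fintype ι] [DecidableEq ι]

theorem three_le_card {x : ι → F} {i j l : ι} (hij : i ≠ j) (hil : i ≠ l) (hjl : j ≠ l) (hi : x i ≠ 0) (hj : x j ≠ 0)
    (hl : x l ≠ 0) : 3 ≤ (supp x).card :=
  Finset.two_lt_card.2 ⟨i, mem_supp.2 hi, j, mem_supp.2 hj, l, mem_supp.2 hl, hij, hil, hjl⟩

theorem invol_perm {g : OG (sQ ι F)} {σ : Equiv.Perm ι} {η : ι → F} (h : ∀ x i, g.1 x (σ i) = η i * x i)
    (hg : g * g = 1) (i : ι) : σ (σ i) = i ∧ η (σ i) * η i = 1 := by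
  have h1 : (g * g).1 (fe i) = fe i := by rw [hg]; rfl
  rw [OG.mul_app, app_fe h, map_smul, app_fe h, smul_smul] at h1
  have h2 := congrFun h1 i
  by_cases h3 : i = σ (σ i)
  · rw [← h3] at h2
    exact ⟨h3.symm, by simpa [mul_comm] using h2⟩
  · simp [fe_ne h3] at h2

theorem not_supp_subset (h2 : (2 : F) ≠ 0) (g : OG (sQ ι F)) {S : Finset ι} (hS : S.card < Fintype.card ι) :
    ¬ ∀ k, supp (g.1 (fe k)) ⊆ S := fun h => by
  obtain ⟨m, -, hm⟩ := Finset.exists_mem_notMem_of_card_lt_card (s := S) (t := Finset.univ) (by simpa using hS)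
  refine OG.app_ne_zero g⁻¹ (v := fe m) (fun h0 => by simpa using congrFun h0 m) (funext fun k => ?_)
  have := OG.polar_app_left g (fe k) (fe m)
  rw [polar_fe', polar_fe, show g.1 (fe k) m = 0 by by_contra h0; exact hm (h k (mem_supp.2 h0))] at this
  simpa [h2] using this.symm

/-- Two commuting monomial products of reflections with a common reflection. -/
theorem root_or_half (h2 : (2 : F) ≠ 0) {x y w : ι → F} (hx : sQ ι F x ≠ 0) (hy : sQ ι F y ≠ 0) (_ : sQ ι F w ≠ 0)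
    (hxy : polar (sQ ι F) x y = 0) (hxw : polar (sQ ι F) x w = 0) (hyw : polar (sQ ι F) y w = 0)
    (h1 : refl (sQ ι F) x * refl (sQ ι F) y ∈ Mon ι F) (h3 : refl (sQ ι F) x * refl (sQ ι F) w ∈ Mon ι F) :
    refl (sQ ι F) x ∈ Mon ι F ∨ ((supp x).card = 4 ∧ (∀ j ∈ supp x, 4 * x j ^ 2 = sQ ι F x) ∧ supp y ⊆ supp x ∧
      ∀ u : ι → F, polar (sQ ι F) x u = 0 → polar (sQ ι F) y u = 0 → polar (sQ ι F) w u = 0 → ∀ j ∈ supp x, u j ≠ 0 →
        3 ≤ (supp u).card) := by
  obtain ⟨σ, η, hη, hσ⟩ := h1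
  obtain ⟨τ, θ, hθ, hτ⟩ := h3
  have hne : ∀ {η : ι → F}, (∀ i, η i ^ 2 = 1) → ∀ i, η i ≠ 0 := fun h i h0 => by simpa [h0] using h i
  have hsq : ∀ {y : ι → F} {σ : Equiv.Perm ι} {η : ι → F}, polar (sQ ι F) x y = 0 → (∀ i, η i ^ 2 = 1) →
      (∀ u i, (refl (sQ ι F) x * refl (sQ ι F) y).1 u (σ i) = η i * u i) → ∀ i, x (σ i) ^ 2 = x i ^ 2 :=
    fun {y σ η} hxy hη hσ i => by
      have := hσ x i
      rw [OG.mul_app, refl_app_of_polar ((polar_comm _ _ _).trans hxy), refl_app_self hx, Pi.neg_apply] at this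
      linear_combination (η i * x i - x (σ i)) * this + x i ^ 2 * hη i
  have hsub : ∀ {y w : ι → F} {σ τ : Equiv.Perm ι} {η θ : ι → F}, polar (sQ ι F) x y = 0 → polar (sQ ι F) x w = 0 →
      polar (sQ ι F) y w = 0 → (∀ u i, (refl (sQ ι F) x * refl (sQ ι F) y).1 u (σ i) = η i * u i) →
      (∀ u i, (refl (sQ ι F) x * refl (sQ ι F) w).1 u (τ i) = θ i * u i) → ∀ i, x i ≠ 0 →
      supp x ⊆ {i, σ i, τ i, σ (τ i)} := fun {y w σ τ η θ} hxy hxw hyw hσ hτ i hi k hk => by
    by_contra h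
    simp only [Finset.mem_insert, Finset.mem_singleton, not_or] at h
    have h4 : fe i - (refl (sQ ι F) x * refl (sQ ι F) w).1 (fe i) - (refl (sQ ι F) x * refl (sQ ι F) y).1
        (fe i - (refl (sQ ι F) x * refl (sQ ι F) w).1 (fe i)) = (2 * ((sQ ι F x)⁻¹ * (2 * x i))) • x := by
      rw [refl_mul_refl_app hxw, sub_sub (fe i) (_ • x), sub_sub_cancel, map_add, map_smul, map_smul, OG.mul_app, OG.mul_app,
        refl_app_of_polar ((polar_comm _ _ _).trans hxy), refl_app_self hx, refl_app_of_polar hyw,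
        refl_app_of_polar hxw, polar_fe']
      module
    rw [app_fe hτ, map_sub, map_smul, app_fe hσ, app_fe hσ] at h4
    have := congrFun h4 k
    simp [fe_ne h.1, fe_ne h.2.1, fe_ne h.2.2.1, fe_ne h.2.2.2, h2, hx, hi, mem_supp.1 hk] at this
  have hσ2 := fun i => (invol_perm hσ (refl_mul_refl_sq hxy) i).1
  have hσx := hsq hxy hη hσ
  have hτx := hsq hxw hθ hτ
  have hmem : ∀ {σ : Equiv.Perm ι}, (∀ i, x (σ i) ^ 2 = x i ^ 2) → ∀ i, x i ≠ 0 → x (σ i) ≠ 0 := fun h i hi h0 =>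
    pow_ne_zero 2 hi (by rw [← h i, h0]; ring)
  by_cases h : ∃ i, x i ≠ 0 ∧ (σ i = i ∨ τ i = i ∨ σ i = τ i)
  · obtain ⟨i, hi, h | h | h⟩ := h
    · have := hsub hxw hxy ((polar_comm _ _ _).trans hyw) hτ hσ i hi
      rw [h] at this
      exact Or.inl (refl_mem_Mon_of_supp h2 (i := i) (j := τ i) (fun k hk => by simpa [or_comm] using this hk)
        fun _ _ => (hτx i).symm)
    · have := hsub hxy hxw hyw hσ hτ i hi
      rw [h] at this
      exact Or.inl (refl_mem_Mon_of_supp h2 (i := i) (j := σ i) (fun k hk => by simpa [or_comm] using this hk)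
        fun _ _ => (hσx i).symm)
    · have := hsub hxy hxw hyw hσ hτ i hi
      rw [← h, hσ2] at this
      exact Or.inl (refl_mem_Mon_of_supp h2 (i := i) (j := σ i) (fun k hk => by simpa [or_comm] using this hk)
        fun _ _ => (hσx i).symm)
  simp only [not_exists, not_and, not_or] at h
  have hall : ∀ i, x i ≠ 0 → supp x = {i, σ i, τ i, σ (τ i)} := fun i hi =>
    (hsub hxy hxw hyw hσ hτ i hi).antisymm fun k hk => by
      simp only [Finset.mem_insert, Finset.mem_singleton] at hk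
      rcases hk with rfl | rfl | rfl | rfl
      exacts [mem_supp.2 hi, mem_supp.2 (hmem hσx i hi), mem_supp.2 (hmem hτx i hi),
        mem_supp.2 (hmem hσx _ (hmem hτx i hi))]
  obtain ⟨i, hi⟩ := Function.ne_iff.1 (show x ≠ 0 by rintro rfl; exact hx (map_zero _))
  rw [Pi.zero_apply] at hi
  have h4 : (supp x).card = 4 := Finset.card_eq_four.2 ⟨i, σ i, τ i, σ (τ i), Ne.symm (h i hi).1, Ne.symm (h i hi).2.1,
    fun h0 => (h i hi).2.2 (by rw [h0, hσ2, ← h0]), (h i hi).2.2, fun h0 => (h i hi).2.1 (σ.injective h0).symm,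
    Ne.symm (h _ (hmem hτx i hi)).1, hall i hi⟩
  refine Or.inr ⟨h4, fun j hj => ?_, fun k hk => ?_, fun u h5 h6 h7 j hj hu => ?_⟩
  · rw [sQ_of_const (c := x j ^ 2) fun k hk => ?_, h4]
    · norm_num
    rw [hall j (mem_supp.1 hj)] at hk
    simp only [Finset.mem_insert, Finset.mem_singleton] at hk
    rcases hk with rfl | rfl | rfl | rfl
    exacts [rfl, hσx j, hτx j, (hσx _).trans (hτx j)]
  · by_contra hk'
    have h5 := refl_mul_refl_app hxy (fe i)
    rw [app_fe hσ, polar_fe', polar_fe'] at h5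
    have h6 := congrFun h5 (τ i)
    have h7 := congrFun h5 k
    have hki : k ≠ i := by rintro rfl; exact hk' (mem_supp.2 hi)
    have hki' : k ≠ σ i := by rintro rfl; exact hk' (mem_supp.2 (hmem hσx i hi))
    rw [mem_supp, not_not] at hk'
    simp [fe_ne hki, fe_ne hki', hk', hy, h2, mem_supp.1 hk] at h7
    simp [fe_ne (h i hi).2.1, fe_ne (Ne.symm (h i hi).2.2), h7, hx, h2, hi, hmem hτx i hi] at h6
  · have hj' := mem_supp.1 hj
    have h8 := hσ u j
    have h9 := hτ u j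
    rw [OG.mul_app, refl_app_of_polar h6, refl_app_of_polar h5] at h8
    rw [OG.mul_app, refl_app_of_polar h7, refl_app_of_polar h5] at h9
    exact three_le_card (Ne.symm (h j hj').1) (Ne.symm (h j hj').2.1) (h j hj').2.2 hu
      (h8 ▸ mul_ne_zero (hne hη j) hu) (h9 ▸ mul_ne_zero (hne hθ j) hu)

theorem root_of_all (h2 : (2 : F) ≠ 0) (h5 : 5 ≤ Fintype.card ι) (g : OG (sQ ι F)) (a : ι)
    (h : ∀ k, k ≠ a → refl (sQ ι F) (g.1 (fe a)) * refl (sQ ι F) (g.1 (fe k)) ∈ Mon ι F) :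
    refl (sQ ι F) (g.1 (fe a)) ∈ Mon ι F := by
  by_contra hn
  have key : ∀ k, k ≠ a → (supp (g.1 (fe a))).card = 4 ∧ supp (g.1 (fe k)) ⊆ supp (g.1 (fe a)) := fun k hk => by
    obtain ⟨l, hl⟩ := exists_not_mem [a, k] (by simp; omega)
    simp only [List.mem_cons, List.not_mem_nil, or_false, not_or] at hl
    have := (root_or_half h2 (by simp [OG.map_app]) (by simp [OG.map_app]) (by simp [OG.map_app])
      (by rw [OG.polar_app, polar_fe, fe_ne hk.symm, mul_zero])
      (by rw [OG.polar_app, polar_fe, fe_ne (Ne.symm hl.1), mul_zero])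
      (by rw [OG.polar_app, polar_fe, fe_ne (Ne.symm hl.2), mul_zero]) (h k hk) (h l hl.1)).resolve_left hn
    exact ⟨this.1, this.2.2.1⟩
  obtain ⟨k, hk⟩ := exists_not_mem [a] (by simp; omega)
  refine not_supp_subset h2 g (S := supp (g.1 (fe a))) (by rw [(key k (by simpa using hk)).1]; omega) fun l => ?_
  by_cases hl : l = a
  · rw [hl]
  · exact (key l hl).2

theorem mem_Mon_of_D (h2 : (2 : F) ≠ 0) (h5 : 5 ≤ Fintype.card ι) {g : OG (sQ ι F)}
    (h : ∀ a k, a ≠ k → ∀ c : F, c ^ 2 = 1 → refl (sQ ι F) (g.1 (fe a + c • fe k)) ∈ Mon ι F) : g ∈ Mon ι F := by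
  have h1 : ∀ a, refl (sQ ι F) (g.1 (fe a)) ∈ Mon ι F := fun a => root_of_all h2 h5 g a fun k hk => by
    have h3 : refl (sQ ι F) (fe a) * refl (sQ ι F) (fe k) =
        refl (sQ ι F) (fe a + (1 : F) • fe k) * refl (sQ ι F) (fe a + (-1 : F) • fe k) := OG.ext' fun x => by
      rw [refl_mul_refl_app (by simp [fe_ne hk]), refl_mul_refl_app (by simp [polar_add_left, fe_ne hk, fe_ne hk.symm]),
        sQ_pair hk.symm, sQ_pair hk.symm]
      simp only [polar_add_left, polar_smul_left, polar_fe, sQ_fe, smul_eq_mul, neg_sq, one_pow, one_add_one_eq_two]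
      match_scalars <;> field_simp <;> ring
    have h4 : ∀ x y, refl (sQ ι F) (g.1 x) * refl (sQ ι F) (g.1 y) = g * (refl (sQ ι F) x * refl (sQ ι F) y) * g⁻¹ :=
      fun x y => by rw [← refl_conj, ← refl_conj]; group
    rw [h4, h3, ← h4]
    exact mul_mem (h a k hk.symm 1 (by simp)) (h a k hk.symm (-1) (by simp))
  refine mem_Mon_of h2 fun a => ?_
  rcases root_cases (by simp [OG.map_app]) h2 (h1 a) with ⟨i, c, -, h3⟩ | ⟨i, j, c, ε, hij, hc, hε, h3⟩
  · exact ⟨i, c, h3⟩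
  refine (not_supp_subset h2 g (S := {i, j}) (lt_of_le_of_lt Finset.card_le_two (by omega)) fun k l hl => ?_).elim
  by_cases hk : a = k
  · rw [← hk, h3] at hl
    exact supp_smul_pair _ _ _ _ hl
  by_contra hl'
  simp only [Finset.mem_insert, Finset.mem_singleton, not_or] at hl'
  have hε0 : ε ≠ 0 := by rintro rfl; simp at hε
  have hi : g.1 (fe a) i = c := by simp [h3, fe_ne hij]
  have hj : g.1 (fe a) j = c * ε := by simp [h3, fe_ne hij.symm]
  have hl0 : g.1 (fe a) l = 0 := by simp [h3, fe_ne hl'.1, fe_ne hl'.2]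
  have key : ∀ y, sQ ι F y ≠ 0 → refl (sQ ι F) y ∈ Mon ι F → y l ≠ 0 → y i = 0 ∨ y j = 0 := fun y h4 h6 h7 => by
    by_contra! h8
    have := three_le_card hij (Ne.symm hl'.1) (Ne.symm hl'.2) h8.1 h8.2 h7
    have := card_supp_le_two h4 h2 h6
    omega
  have h4 := key _ (by simp [OG.map_app]) (h1 k) (mem_supp.1 hl)
  have h6 := key _ (by rw [OG.map_app, sQ_pair hk]; simpa [one_add_one_eq_two] using h2) (h a k hk 1 (by simp))
    (by simpa [hl0] using hl)
  have h7 := key _ (by rw [OG.map_app, sQ_pair hk]; simpa [one_add_one_eq_two] using h2) (h a k hk (-1) (by simp))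
    (by simpa [hl0] using hl)
  simp only [map_add, map_smul, Pi.add_apply, Pi.smul_apply, hi, hj, smul_eq_mul] at h6 h7
  have hcε := mul_ne_zero hc hε0
  rcases h4 with h4 | h4 <;> rw [h4] at h6 h7
  · exact mul_ne_zero h2 hcε (by
      linear_combination (h6.resolve_left (by simpa using hc)) + (h7.resolve_left (by simpa using hc)))
  · exact mul_ne_zero h2 hc (by
      linear_combination (h6.resolve_right (by simpa using hcε)) + (h7.resolve_right (by simpa using hcε)))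

namespace Ctx

variable [Finite F] {H : Subgroup (OG (sQ ι F))} (C : Ctx H) (h8 : Fintype.card ι ≠ 8)
  (hc : ¬ commutator (OG (sQ ι F)) ≤ H) (hH : H ≤ commutator (OG (sQ ι F)))
include C h8 hc hH

theorem root_of_cl {b v : ι → F} (hb : sQ ι F b ≠ 0) (rb : refl (sQ ι F) b ∈ Mon ι F) (hv : sQ ι F v ≠ 0)
    (h : refl (sQ ι F) b * refl (sQ ι F) v ∈ H) : refl (sQ ι F) v ∈ Mon ι F := by
  have C' : Ctx (clGrp H (refl_mul_self b)) := ⟨C.two, C.prime, C.seven, fun m hm => ⟨Or.inl (C.le hm), by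
    rw [refl_conj]
    exact C.refl_mul_mem rb (refl_app_mem hm.1 rb) hb (by rwa [OG.map_app]) (by rw [OG.map_app])⟩⟩
  refine C'.refl_mem_Mon h8 (fun h0 => hc fun g hg => (h0 hg).1.resolve_right fun h1 => ?_) hb
    ⟨Or.inr (by rw [refl_mul_self]; exact one_mem _), by rw [refl_mul_self, one_mul, mul_inv_cancel]; exact one_mem _⟩
    rb hv ⟨Or.inr h, by simpa [refl_inv, mul_assoc] using H.mul_mem h h⟩
  have h2 := dickson_eq_one_of_mem_commutator C.nd (hH h1)
  rw [map_mul, dickson_refl _ hb, dickson_eq_one_of_mem_commutator C.nd hg] at h2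
  exact absurd h2 (by decide)

/-- An element of `H` mapping a root to a root is monomial. -/
theorem rigid {h : OG (sQ ι F)} (hh : h ∈ H) {b : ι → F} (hb : sQ ι F b ≠ 0) (rb : refl (sQ ι F) b ∈ Mon ι F)
    (rb' : refl (sQ ι F) (h.1 b) ∈ Mon ι F) : h ∈ Mon ι F := by
  have h0 := C.refl_mul_mem rb rb' hb (by rwa [OG.map_app]) (by rw [OG.map_app])
  have h1 : ∀ v, refl (sQ ι F) b * refl (sQ ι F) v ∈ H → refl (sQ ι F) b * refl (sQ ι F) (h.1 v) ∈ H := fun v hv => by
    have := H.mul_mem (H.mul_mem (H.mul_mem h0 hh) hv) (H.inv_mem hh)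
    rw [← refl_conj] at this ⊢
    simpa [mul_assoc, ← mul_assoc (refl (sQ ι F) b) (refl (sQ ι F) b), refl_mul_self] using this
  have h2 : ∀ {d v : ι → F} {t : F}, refl (sQ ι F) b * refl (sQ ι F) d ∈ H → refl (sQ ι F) d ∈ Mon ι F →
      refl (sQ ι F) v ∈ Mon ι F → sQ ι F v ≠ 0 → t ≠ 0 → sQ ι F d = t ^ 2 * sQ ι F v →
      refl (sQ ι F) b * refl (sQ ι F) (h.1 v) ∈ H := fun {d v t} hd rd rv hv ht hq => by
    have hqd : sQ ι F d ≠ 0 := hq ▸ mul_ne_zero (pow_ne_zero _ ht) hv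
    have := H.mul_mem hd (C.refl_mul_mem rd rv hqd hv (isSquare_iff_of_mul hqd hv ⟨t * sQ ι F v, by rw [hq]; ring⟩))
    rw [mul_assoc, ← mul_assoc (refl (sQ ι F) d), refl_mul_self, one_mul] at this
    exact h1 v this
  have hD : ∀ {i j : ι} {c ε : F}, i ≠ j → c ≠ 0 → ε ^ 2 = 1 →
      refl (sQ ι F) b * refl (sQ ι F) (c • (fe i + ε • fe j)) ∈ H → h ∈ Mon ι F := fun {i j c ε} hij hc0 hε hd =>
    mem_Mon_of_D C.two (by have := C.seven; omega) fun a k hak e he => by
      have hq : sQ ι F (fe a + e • fe k) ≠ 0 := by rw [sQ_pair hak, he, one_add_one_eq_two]; exact C.two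
      exact C.root_of_cl h8 hc hH hb rb (by rwa [OG.map_app]) (h2 hd (by
        rw [refl_smul hc0]; exact refl_pair_mem_Mon C.two hij hε) (refl_pair_mem_Mon C.two hak he) hq hc0
          (by rw [map_smul', sQ_pair hij, sQ_pair hak, he, hε]))
  have hbb : refl (sQ ι F) b * refl (sQ ι F) b ∈ H := by rw [refl_mul_self]; exact one_mem _
  rcases root_cases hb C.two rb with ⟨i, c, hc0, h3⟩ | ⟨i, j, c, ε, hij, hc0, hε, h3⟩
  swap
  · exact hD hij hc0 hε (h3 ▸ hbb)
  by_contra hn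
  refine hn (mem_Mon_of C.two fun a => ?_)
  have h4 := h2 hbb rb (refl_fe_mem_Mon a) (by simp) hc0 (by rw [h3, map_smul']; simp)
  rcases root_cases (by simp [OG.map_app]) C.two (C.root_of_cl h8 hc hH hb rb (by simp [OG.map_app]) h4) with
    ⟨k, d, -, h5⟩ | ⟨k, l, d, ε, hkl, hd, hε, h5⟩
  · exact ⟨k, d, h5⟩
  · exact (hn (hD hkl hd hε (h5 ▸ h4))).elim

section Cent

variable {z h : OG (sQ ι F)} {σ : Equiv.Perm ι} {η : ι → F} (hη : ∀ i, η i ^ 2 = 1)
  (hσ : ∀ x i, z.1 x (σ i) = η i * x i) (hz : z * z = 1) (h1 : z ≠ 1) (h1' : z ≠ negOG _) (hh : h ∈ H)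
  (hzh : h * z = z * h) (hn : h ∉ Mon ι F)
include hη hσ hz h1 h1' hh hzh hn

theorem cent_core {ε : F} (hε : ε ^ 2 = 1) {x y w : ι → F} (hx : sQ ι F x ≠ 0) (hy : sQ ι F y = sQ ι F x)
    (hw : sQ ι F w = sQ ι F x) (hxy : polar (sQ ι F) x y = 0) (hxw : polar (sQ ι F) x w = 0)
    (hyw : polar (sQ ι F) y w = 0) (rx : refl (sQ ι F) x ∈ Mon ι F) (ry : refl (sQ ι F) y ∈ Mon ι F)
    (rw' : refl (sQ ι F) w ∈ Mon ι F) (zx : z.1 x = ε • x) (zy : z.1 y = ε • y) (zw : z.1 w = ε • w) :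
    (∀ j, h.1 x j ≠ 0 → 4 * h.1 x j ^ 2 = sQ ι F x) ∧ ∃ S : Finset ι, S.card = 4 ∧ ∀ j ∈ S, z.1 (fe j) = ε • fe j := by
  have hε0 : ε ≠ 0 := by rintro rfl; simp at hε
  obtain ⟨b, hb, rb, zb⟩ : ∃ b, sQ ι F b ≠ 0 ∧ refl (sQ ι F) b ∈ Mon ι F ∧ z.1 b = (-ε) • b := by
    obtain ⟨i, hi⟩ : ∃ i, z.1 (fe i) ≠ ε • fe i := by
      by_contra! h0
      have h3 : ∀ u, z.1 u = ε • u := fun u => by
        have : (z.1 : (ι → F) →ₗ[F] (ι → F)) = ε • LinearMap.id := (Pi.basisFun F ι).ext fun i => by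
          simpa [fe] using h0 i
        exact LinearMap.congr_fun this u
      rcases sq_eq_one_iff.1 hε with rfl | rfl
      · exact h1 (OG.ext' fun u => by rw [h3, one_smul]; rfl)
      · exact h1' (OG.ext' fun u => by rw [h3, neg_one_smul]; rfl)
    by_cases h3 : σ i = i
    · refine ⟨fe i, by simp, refl_fe_mem_Mon i, ?_⟩
      rw [app_fe hσ, h3] at hi ⊢
      rw [(sq_eq_sq_iff_eq_or_eq_neg.1 ((hη i).trans hε.symm)).resolve_left fun h0 => hi (by rw [h0])]
    · have h4 : (-ε * η i) ^ 2 = 1 := by rw [mul_pow, neg_sq, hε, hη, mul_one]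
      refine ⟨fe i + (-ε * η i) • fe (σ i), by rw [sQ_pair (Ne.symm h3), h4, one_add_one_eq_two]; exact C.two,
        refl_pair_mem_Mon C.two (Ne.symm h3) h4, ?_⟩
      rw [map_add, map_smul, app_fe hσ, app_fe hσ, (invol_perm hσ hz i).1]
      match_scalars
      · linear_combination (-η i) * hε
      · linear_combination (-ε) * (invol_perm hσ hz i).2
  have hzz : ∀ {u}, z.1 u = ε • u → z.1 (h.1 u) = ε • h.1 u := fun {u} hu => by
    rw [← OG.mul_app, ← hzh, OG.mul_app, hu, map_smul]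
  have key : ∀ {u}, sQ ι F u = sQ ι F x → refl (sQ ι F) u ∈ Mon ι F → z.1 u = ε • u →
      refl (sQ ι F) (h.1 x) * refl (sQ ι F) (h.1 u) ∈ Mon ι F := fun {u} hu ru zu => by
    refine C.rigid h8 hc hH ?_ hb rb ?_
    · have := H.mul_mem (H.mul_mem hh (C.refl_mul_mem rx ru hx (hu ▸ hx) (by rw [hu]))) (H.inv_mem hh)
      rw [← refl_conj, ← refl_conj]
      simpa [mul_assoc] using this
    · rwa [OG.mul_app, refl_app_of_polar (polar_eq_zero_of_eigen C.two hε (hzz zu) zb),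
        refl_app_of_polar (polar_eq_zero_of_eigen C.two hε (hzz zx) zb)]
  obtain ⟨h4, h5, -, h6⟩ := (root_or_half C.two (by rwa [OG.map_app]) (by rwa [OG.map_app, hy]) (by rwa [OG.map_app, hw])
    (by rwa [OG.polar_app]) (by rwa [OG.polar_app]) (by rwa [OG.polar_app]) (key hy ry zy) (key hw rw' zw)).resolve_left
      fun h0 => hn (C.rigid h8 hc hH hh hx rx h0)
  refine ⟨fun j hj => by rw [h5 j (mem_supp.2 hj), OG.map_app], _, h4, fun j hj => ?_⟩
  have h7 : z.1 (z.1 (fe j) - ε • fe j) = (-ε) • (z.1 (fe j) - ε • fe j) := by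
    rw [map_sub, map_smul, ← OG.mul_app, hz, OG.one_app]
    match_scalars
    · linear_combination -hε
    · ring
  have h9 : (z.1 (fe j) - ε • fe j : ι → F) j = 0 := by
    by_contra h0
    have h3 := h6 _ (polar_eq_zero_of_eigen C.two hε (hzz zx) h7) (polar_eq_zero_of_eigen C.two hε (hzz zy) h7)
      (polar_eq_zero_of_eigen C.two hε (hzz zw) h7) j hj h0
    have : supp (z.1 (fe j) - ε • fe j : ι → F) ⊆ {j, σ j} := fun k hk => by
      by_contra h10
      simp only [Finset.mem_insert, Finset.mem_singleton, not_or] at h10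
      simp [app_fe hσ, fe_ne h10.1, fe_ne h10.2] at hk
    have := (Finset.card_le_card this).trans Finset.card_le_two
    omega
  rw [app_fe hσ] at h9 ⊢
  by_cases h3 : j = σ j
  · rw [← h3] at h9 ⊢
    simp only [Pi.sub_apply, Pi.smul_apply, fe_self, smul_eq_mul, mul_one, sub_eq_zero] at h9
    rw [h9]
  · simp [fe_ne h3, hε0] at h9

theorem cent_four {ε : F} (hε : ε ^ 2 = 1) {S : Finset ι} (hS : S.card = 4) (h4 : ∀ j ∈ S, z.1 (fe j) = ε • fe j) :
    False := by
  obtain ⟨a, b, c, d, hab, hac, had, hbc, hbd, hcd, rfl⟩ := Finset.card_eq_four.1 hS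
  have za := h4 a (by simp)
  have zb := h4 b (by simp)
  have zc := h4 c (by simp)
  have zd := h4 d (by simp)
  have h2 := C.two
  have ha := (C.cent_core h8 hc hH hη hσ hz h1 h1' hh hzh hn hε (by simp) (by simp) (by simp) (by simp [fe_ne hab.symm])
    (by simp [fe_ne hac.symm]) (by simp [fe_ne hbc.symm]) (refl_fe_mem_Mon a) (refl_fe_mem_Mon b) (refl_fe_mem_Mon c)
    za zb zc).1
  have hb := (C.cent_core h8 hc hH hη hσ hz h1 h1' hh hzh hn hε (by simp) (by simp) (by simp) (by simp [fe_ne hab])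
    (by simp [fe_ne hbc.symm]) (by simp [fe_ne hac.symm]) (refl_fe_mem_Mon b) (refl_fe_mem_Mon a) (refl_fe_mem_Mon c)
    zb za zc).1
  have hd := (C.cent_core h8 hc hH hη hσ hz h1 h1' hh hzh hn hε (x := fe a - fe b) (y := fe a + (1 : F) • fe b)
    (w := fe c - fe d) (by rwa [sQ_fe_sub hab]) (by rw [one_smul, sQ_fe_sub hab, sQ_fe_add hab])
    (by rw [sQ_fe_sub hab, sQ_fe_sub hcd]) (by simp [polar_sub_left, fe_ne hab, fe_ne hab.symm])
    (by simp [fe_ne hac.symm, fe_ne had.symm, fe_ne hbc.symm, fe_ne hbd.symm])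
    (by simp [fe_ne hac.symm, fe_ne had.symm, fe_ne hbc.symm, fe_ne hbd.symm]) (refl_sub_mem_Mon h2 hab)
    (refl_pair_mem_Mon h2 hab (by simp)) (refl_sub_mem_Mon h2 hcd) (by rw [map_sub, za, zb, smul_sub])
    (by rw [one_smul, map_add, za, zb, smul_add]) (by rw [map_sub, zc, zd, smul_sub])).1
  obtain ⟨k, hk⟩ := Function.ne_iff.1 (OG.app_ne_zero h (v := fe a - fe b) fun h0 => by
    simpa [fe_ne hab] using congrFun h0 a)
  have h5 := hd k hk
  rw [sQ_fe_sub hab, map_sub, Pi.sub_apply] at h5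
  simp only [sQ_fe] at ha hb
  by_cases h6 : h.1 (fe a) k = 0 <;> by_cases h7 : h.1 (fe b) k = 0
  · rw [h6, h7] at h5; exact h2 (by linear_combination -h5)
  · rw [h6] at h5; exact one_ne_zero (α := F) (by linear_combination hb k h7 - h5)
  · rw [h7] at h5; exact one_ne_zero (α := F) (by linear_combination ha k h6 - h5)
  · exact mul_ne_zero (mul_ne_zero (mul_ne_zero h2 h2) h2) (mul_ne_zero h6 h7)
      (by linear_combination ha k h6 + hb k h7 - h5)

theorem cent_D {ε : F} (hε : ε ^ 2 = 1) {i i' j j' k k' : ι} {a b c : F} (hi : i ≠ i') (hj : j ≠ j') (hk : k ≠ k')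
    (ha : a ^ 2 = 1) (hb : b ^ 2 = 1) (hc' : c ^ 2 = 1) (hij : j ∉ [i, i'] ∧ j' ∉ [i, i'])
    (hik : k ∉ [i, i', j, j'] ∧ k' ∉ [i, i', j, j']) (zi : z.1 (fe i + a • fe i') = ε • (fe i + a • fe i'))
    (zj : z.1 (fe j + b • fe j') = ε • (fe j + b • fe j')) (zk : z.1 (fe k + c • fe k') = ε • (fe k + c • fe k')) :
    False := by
  simp only [List.mem_cons, List.not_mem_nil, or_false, not_or] at hij hik
  obtain ⟨⟨h3, h4⟩, h5, h6⟩ := hij
  obtain ⟨⟨h7, h9, h10, h11⟩, h12, h13, h14, h15⟩ := hik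
  obtain ⟨S, hS, hS'⟩ := (C.cent_core h8 hc hH hη hσ hz h1 h1' hh hzh hn hε
    (by rw [sQ_pair hi, ha, one_add_one_eq_two]; exact C.two) (by rw [sQ_pair hi, sQ_pair hj, ha, hb])
    (by rw [sQ_pair hi, sQ_pair hk, ha, hc']) (by simp [polar_add_right, fe_ne h3, fe_ne h4, fe_ne h5, fe_ne h6])
    (by simp [polar_add_right, fe_ne h7, fe_ne h9, fe_ne h12, fe_ne h13])
    (by simp [polar_add_right, fe_ne h10, fe_ne h11, fe_ne h14, fe_ne h15]) (refl_pair_mem_Mon C.two hi ha)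
    (refl_pair_mem_Mon C.two hj hb) (refl_pair_mem_Mon C.two hk hc') zi zj zk).2
  exact C.cent_four h8 hc hH hη hσ hz h1 h1' hh hzh hn hε hS hS'

theorem cent_false : False := by
  classical
  have hfix : ∀ {ε : F} {i}, i ∈ Finset.univ.filter (fun i => σ i = i ∧ η i = ε) → z.1 (fe i) = ε • fe i :=
    fun {ε i} hi => by
      rw [Finset.mem_filter] at hi
      rw [app_fe hσ, hi.2.1, hi.2.2]
  have hA : ∀ ε : F, ε ^ 2 = 1 → (Finset.univ.filter fun i => σ i = i ∧ η i = ε).card ≤ 2 := fun ε hε => by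
    by_contra! h0
    obtain ⟨a, ha, b, hb, c, hc', hab, hac, hbc⟩ := Finset.two_lt_card.1 h0
    obtain ⟨S, hS, hS'⟩ := (C.cent_core h8 hc hH hη hσ hz h1 h1' hh hzh hn hε (by simp) (by simp) (by simp)
      (by simp [fe_ne hab.symm]) (by simp [fe_ne hac.symm]) (by simp [fe_ne hbc.symm]) (refl_fe_mem_Mon a)
      (refl_fe_mem_Mon b) (refl_fe_mem_Mon c) (hfix ha) (hfix hb) (hfix hc')).2
    exact C.cent_four h8 hc hH hη hσ hz h1 h1' hh hzh hn hε hS hS'
  have hσ2 := fun i => (invol_perm hσ hz i).1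
  have hD : ∀ {ε : F}, ε ^ 2 = 1 → ∀ i, (ε * η i) ^ 2 = 1 ∧
      z.1 (fe i + (ε * η i) • fe (σ i)) = ε • (fe i + (ε * η i) • fe (σ i)) := fun {ε} hε i => by
    refine ⟨by rw [mul_pow, hε, hη, mul_one], ?_⟩
    rw [map_add, map_smul, app_fe hσ, app_fe hσ, hσ2]
    match_scalars
    · linear_combination (-η i) * hε
    · linear_combination ε * (invol_perm hσ hz i).2
  have hN : ∀ l : List ι, l.length < (Finset.univ.filter fun i => i ≠ σ i).card → (∀ a ∈ l, σ a ∈ l) →
      ∃ i, i ≠ σ i ∧ i ∉ l ∧ σ i ∉ l := fun l hl hl' => by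
    obtain ⟨i, hi, hi'⟩ := Finset.exists_mem_notMem_of_card_lt_card ((List.toFinset_card_le l).trans_lt hl)
    rw [List.mem_toFinset] at hi'
    exact ⟨i, (Finset.mem_filter.1 hi).2, hi', fun h0 => hi' (hσ2 i ▸ hl' _ h0)⟩
  have hcard : Fintype.card ι ≤ (Finset.univ.filter fun i => i ≠ σ i).card +
      ((Finset.univ.filter fun i => σ i = i ∧ η i = 1).card + (Finset.univ.filter fun i => σ i = i ∧ η i = -1).card) := by
    rw [← Finset.card_univ]
    refine (Finset.card_le_card fun i _ => ?_).trans ((Finset.card_union_le _ _).trans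
      (Nat.add_le_add_left (Finset.card_union_le _ _) _))
    by_cases h0 : i = σ i
    · simpa [h0.symm] using sq_eq_one_iff.1 (hη i)
    · simp [h0]
  have h7 := C.seven
  have h3 := hA 1 (by simp)
  have h4 := hA (-1) (by simp)
  obtain ⟨i, hi, -⟩ := hN [] (by simp only [List.length_nil]; omega) (by simp)
  obtain ⟨j, hj, hij⟩ := hN [i, σ i] (by simp only [List.length_cons, List.length_nil]; omega) (by simp [hσ2])
  by_cases h5 : 4 < (Finset.univ.filter fun i => i ≠ σ i).card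
  · obtain ⟨k, hk, hik⟩ := hN [i, σ i, j, σ j] h5 (by simp [hσ2])
    exact C.cent_D h8 hc hH hη hσ hz h1 h1' hh hzh hn (one_pow 2) hi hj hk (hD (one_pow 2) i).1 (hD (one_pow 2) j).1
      (hD (one_pow 2) k).1 hij hik (hD (one_pow 2) i).2 (hD (one_pow 2) j).2 (hD (one_pow 2) k).2
  obtain ⟨ε, hε, h6⟩ : ∃ ε : F, ε ^ 2 = 1 ∧ 1 < (Finset.univ.filter fun i => σ i = i ∧ η i = ε).card := by
    by_cases h0 : 1 < (Finset.univ.filter fun i => σ i = i ∧ η i = 1).card
    · exact ⟨1, by simp, h0⟩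
    · exact ⟨-1, by simp, by omega⟩
  obtain ⟨a, ha, b, hb, hab⟩ := Finset.one_lt_card.1 h6
  have h9 : ∀ {a}, a ∈ Finset.univ.filter (fun i => σ i = i ∧ η i = ε) → a ∉ [i, σ i, j, σ j] := fun {a} ha h0 => by
    have := (Finset.mem_filter.1 ha).2.1
    simp only [List.mem_cons, List.not_mem_nil, or_false] at h0
    rcases h0 with rfl | rfl | rfl | rfl
    exacts [hi this.symm, hi ((hσ2 i).symm.trans this), hj this.symm, hj ((hσ2 j).symm.trans this)]
  exact C.cent_D h8 hc hH hη hσ hz h1 h1' hh hzh hn hε hi hj hab (hD hε i).1 (hD hε j).1 (one_pow 2) hij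
    ⟨h9 ha, h9 hb⟩ (hD hε i).2 (hD hε j).2 (by rw [one_smul, map_add, hfix ha, hfix hb, smul_add])

end Cent

theorem cent {z h : OG (sQ ι F)} (hz : z ∈ Mon ι F) (hz2 : z * z = 1) (h1 : z ≠ 1) (h1' : z ≠ negOG _) (hh : h ∈ H)
    (hzh : h * z = z * h) : h ∈ Mon ι F := by
  obtain ⟨σ, η, hη, hσ⟩ := hz
  by_contra hn
  exact C.cent_false h8 hc hH hη hσ hz2 h1 h1' hh hzh hn

theorem le_Mon : H ≤ Mon ι F := fun g hg => by
  classical
  have := Fintype.ofFinite F
  have := finite_OG (sQ ι F)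
  have h7 := C.seven
  have h2 := C.two
  obtain ⟨S, -, hS⟩ := Finset.exists_subset_card_eq (s := (Finset.univ : Finset ι)) (n := 4) (by simp; omega)
  obtain ⟨a, b, c, d, hab, hac, had, hbc, hbd, hcd, h0⟩ := Finset.card_eq_four.1 hS
  have hs := C.flip_mem (S := S) (by rw [hS]; decide)
  have hfl : ∀ k ∈ S, (flip F S).1 (fe k) - fe k = (-2 : F) • fe k := fun k hk => funext fun l => by
    by_cases hl : l = k
    · simp [flip_app, hl, hk]; ring
    · simp [flip_app, fe_ne hl]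
  refine C.rigid h8 hc hH hg (b := fe a) (by simp) (refl_fe_mem_Mon a) (root_of_all h2 (by omega) g a fun k hk => ?_)
  set x := g.1 (fe a)
  set y := g.1 (fe k)
  have hxy : polar (sQ ι F) x y = 0 := by rw [OG.polar_app, polar_fe, fe_ne hk.symm, mul_zero]
  have ht : refl (sQ ι F) x * refl (sQ ι F) y ∈ H := by
    have := H.mul_mem (H.mul_mem hg (C.flip_two_mem hk.symm)) (H.inv_mem hg)
    rw [flip_pair hk.symm] at this
    rw [← refl_conj, ← refl_conj]
    simpa [mul_assoc] using this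
  have ht2 := refl_mul_refl_sq hxy
  set t := refl (sQ ι F) x * refl (sQ ι F) y with ht'
  rcases Nat.even_or_odd' (orderOf (flip F S * t)) with ⟨m, hm | hm⟩
  swap
  · have h3 := isConj_of_odd (flip_mul_self S) ht2 (hm ▸ pow_orderOf_eq_one _)
    set u := (flip F S * t) ^ (m + 1)
    have h4 : flip F S ∈ movIn _ (Submodule.span F {u.1 x, u.1 y}) := by
      have := refl_mul_refl_mem_movIn_pair (Q := sQ ι F) (u.1 x) (u.1 y)
      rw [← refl_conj u x, ← refl_conj u y] at this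
      rw [← h3, ht']
      simpa [mul_assoc] using this
    have h5 : ∀ k ∈ S, fe k ∈ Submodule.span F {u.1 x, u.1 y} := fun k hk => by
      have := h4 (fe k)
      rwa [hfl k hk, Submodule.smul_mem_iff _ (neg_ne_zero.2 h2)] at this
    have h6 := (C.span_coord hab (w := fe c) (by simp) (fe_ne hac) (fe_ne hbc)).2
    have h9 := Submodule.finrank_mono (show Submodule.span F {fe a, fe b, fe c} ≤ Submodule.span F {u.1 x, u.1 y} by
      rw [Submodule.span_le]
      rintro _ (rfl | rfl | rfl) <;> exact h5 _ (by simp [h0]))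
    have := finrank_span_pair_le_two (F := F) (u.1 x) (u.1 y)
    omega
  have hm0 : 0 < m := by have := orderOf_pos (flip F S * t); omega
  have h3 : (flip F S * t) ^ m * (flip F S * t) ^ m = 1 := by rw [← pow_add, ← two_mul, ← hm, pow_orderOf_eq_one]
  obtain ⟨h4, h5⟩ := commute_of_even (flip_mul_self S) ht2 h3
  obtain ⟨l, -, hl⟩ := Finset.exists_mem_notMem_of_card_lt_card (s := S) (t := Finset.univ) (by simp; omega)
  have h6 := C.cent h8 hc hH (flip_mem_Mon S) (flip_mul_self S) (fun h => by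
    have := hfl a (by simp [h0])
    rw [h, OG.one_app, sub_self] at this
    simpa [h2] using congrFun this a) (fun h => by
    have := congrArg (fun g : OG (sQ ι F) => g.1 (fe l) l) h
    simp only [flip_app, if_neg hl, negOG_app, Pi.neg_apply, fe_self] at this
    exact h2 (by linear_combination this)) (H.pow_mem (H.mul_mem hs ht) m) h4
  refine C.cent h8 hc hH h6 h3 (pow_ne_one_of_lt_orderOf hm0.ne' (by omega)) (fun h => ?_) ht h5
  set R := Submodule.span F (([fe a, fe b, fe c, fe d, x, y] : List (ι → F)).toFinset : Set (ι → F))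
  have h9 : (flip F S * t) ^ m ∈ movIn _ R := by
    refine pow_mem (mul_mem (mem_movIn.2 fun v => mem_of_coord fun l hl => Submodule.subset_span ?_)
      (mul_mem (refl_mem_movIn (Submodule.subset_span (by simp))) (refl_mem_movIn (Submodule.subset_span (by simp))))) m
    have : l ∈ S := by
      by_contra h
      simp [flip_app, h] at hl
    simp only [h0, Finset.mem_insert, Finset.mem_singleton] at this
    rcases this with rfl | rfl | rfl | rfl <;> simp
  have h10 : R = ⊤ := eq_top_iff.2 fun v _ => by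
    have := h9 v
    rwa [h, negOG_app, show -v - v = (-2 : F) • v by module, Submodule.smul_mem_iff _ (neg_ne_zero.2 h2)] at this
  have h11 : finrank F R ≤ 6 := (finrank_span_finset_le_card _).trans (List.toFinset_card_le _)
  rw [h10, finrank_top, C.rank] at h11
  omega

end Ctx

end Fr

section Transport

variable {F V : Type*} [Field F] [AddCommGroup V] [Module F V] {Q : QuadraticForm F V} [Finite F]
  [FiniteDimensional F V] {ι : Type*} [Fintype ι] [DecidableEq ι] {D : ι → Submodule F V}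

theorem ODec.exists_frame_equiv (hD : ODec Q D) (h2 : (2 : F) ≠ 0) (h1 : ∀ i, finrank F (D i) = 1) (i₀ : ι) :
    ∃ (d : F) (e : (ι → F) ≃ₗ[F] V), d ≠ 0 ∧ (∀ x, Q (e x) = d * Fr.sQ ι F x) ∧ ∀ i, e (Fr.fe i) ∈ D i := by
  obtain ⟨b₀, hb₀, hd⟩ := (hD.nd i₀).exists_nonsingular (hD.ne_bot i₀)
  choose b hb hb0 hq using fun j => hD.exists_map_eq j hb₀ (ne_zero_of_map_ne_zero hd)
  have hp : ∀ i x, polar Q (b i) (Fintype.linearCombination F b x) = 2 * Q b₀ * x i := fun i x => by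
    rw [Fintype.linearCombination_apply, ← polarBilin_apply_apply, map_sum, Finset.sum_eq_single i
      (fun j _ hj => by simp [hD.polar_eq_zero hj.symm (hb i) (hb j)]) (by simp)]
    simp [hq]; ring
  refine ⟨Q b₀, LinearEquiv.ofBijective (Fintype.linearCombination F b) ⟨(injective_iff_map_eq_zero _).2
    fun x hx => funext fun i => by simpa [hx, h2, hd] using (hp i x).symm, fun v => ?_⟩, hd, fun x => ?_, fun i => ?_⟩
  · choose c hc using fun i => exists_smul_of_finrank_one (h1 i) (hb i) (hb0 i) (hD.cmp_mem i v)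
    exact ⟨c, by rw [Fintype.linearCombination_apply, ← hD.sum_cmp v]; exact Finset.sum_congr rfl fun i _ => (hc i).symm⟩
  · refine mul_left_cancel₀ h2 ?_
    change 2 * Q (Fintype.linearCombination F b x) = _
    rw [← polar_self', Fr.sQ_app, Finset.mul_sum, Finset.mul_sum]
    conv_lhs => enter [2]; rw [Fintype.linearCombination_apply]
    rw [polar_comm, ← polarBilin_apply_apply, map_sum]
    refine Finset.sum_congr rfl fun i _ => ?_
    rw [polarBilin_apply_apply, polar_smul_right, polar_comm, hp, smul_eq_mul]; ring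
  · change Fintype.linearCombination F b _ ∈ _
    simpa [Fr.fe] using hb i

theorem ODec.le_dec_of_frame (hD : ODec Q D) (h2 : (2 : F) ≠ 0) (hp : ∀ a : F, ∃ n : ℕ, a = n)
    (h1 : ∀ i, finrank F (D i) = 1) (h7 : 7 ≤ Fintype.card ι) (h8 : Fintype.card ι ≠ 8) {H : Subgroup (OG Q)}
    (hM : decOG Q D ⊓ commutator (OG Q) ≤ H) (hH : H ≤ commutator (OG Q)) (hc : ¬ commutator (OG Q) ≤ H) :
    H ≤ decOG Q D := by
  obtain ⟨i₀⟩ := Fintype.card_pos_iff.1 (show 0 < Fintype.card ι by omega)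
  obtain ⟨d, e, hd, he, hb⟩ := hD.exists_frame_equiv h2 h1 i₀
  set κ := OG.congrSim e d hd he
  have key : ∀ m ∈ Fr.Mon ι F, κ m ∈ decOG Q D := fun m ⟨σ, η, _, hσ⟩ => hD.mem_dec_of_le fun i => ⟨σ i, by
    rintro _ ⟨x, hx, rfl⟩
    obtain ⟨c, rfl⟩ := exists_smul_of_finrank_one (h1 i) (hb i) (by
      rw [Ne, map_eq_zero_iff _ e.injective]; exact fun h => by simpa using congrFun h i) hx
    change (κ m).1 _ ∈ _
    rw [OG.congrSim_app, map_smul, e.symm_apply_apply, map_smul, Fr.app_fe hσ, map_smul, map_smul]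
    exact Submodule.smul_mem _ _ (Submodule.smul_mem _ _ (hb _))⟩
  have C : Fr.Ctx (H.comap κ.toMonoidHom) := ⟨h2, hp, h7, fun m hm =>
    hM ⟨key m hm.1, (mem_commutator_congr κ m).2 hm.2⟩⟩
  intro g hg
  obtain ⟨g, rfl⟩ := κ.surjective g
  refine key g (C.le_Mon h8 (fun h => hc fun x hx => ?_) (fun x hx => (mem_commutator_congr κ x).1 (hH hx)) hg)
  obtain ⟨x, rfl⟩ := κ.surjective x
  exact h ((mem_commutator_congr κ x).1 hx)

end Transport

section Matrices

open Cfsg.Geo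

variable {F : Type*} [Field F] [Fintype F] {ι : Type} [Fintype ι] [DecidableEq ι] {Q : QuadraticForm F (ι → F)}

theorem exists_natCast_of_prime_card (hp : (Fintype.card F).Prime) (a : F) : ∃ n : ℕ, a = n := by
  have := Fact.mk hp
  obtain ⟨z, rfl⟩ := (ZMod.ringEquivOfPrime F hp rfl).surjective a
  exact ⟨z.val, by rw [← map_natCast (ZMod.ringEquivOfPrime F hp rfl), ZMod.natCast_zmod_val]⟩

theorem isMaximalIn_omega_frame (hQ : (polarBilin Q).Nondegenerate) (h7 : 7 ≤ Fintype.card ι)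
    (h8 : Fintype.card ι ≠ 8) (hp : (Fintype.card F).Prime) (hodd : Odd (Fintype.card F)) {t : ℕ}
    {D : Fin t → Submodule F (ι → F)} (hD : IsOrthogonalMDecomposition ⇑Q 1 D) :
    IsMaximalIn (omegaGL ⇑Q) (decompositionStabilizer D ⊓ omegaGL ⇑Q) := by
  have hO := odec_of_isOrthogonalMDecomposition hQ hD
  have hc := card_eq_mul_of_isMDecomposition hD.decomp.decomp
  rw [mul_one] at hc
  exact isMaximalIn_omegaGL Q _ (comap_decompositionStabilizer Q D)
    (hO.exists_commutator_not_mem_dec (by rw [Module.finrank_fintype_fun_eq_card]; omega) (i := ⟨0, by omega⟩)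
      (j := ⟨1, by omega⟩) (by simp))
    fun H hM hH g hg hg' => by_contra fun h => hg' (hO.le_dec_of_frame (two_ne_zero_of_odd_card hodd)
      (exists_natCast_of_prime_card hp) hD.decomp.decomp.finrank_eq (by simpa [← hc]) (by simpa [← hc]) hM hH h hg)

end Matrices

end CL.Cls
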