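/-
Orthonormal frames in dimension six: the steps of `OrthFrameBasic` and `OrthFrameTri` for `n = 6`.
-/
import Cfsg.Agent.Cls.OrthFrameMax

set_option autoImplicit false
set_option linter.unusedSectionVars false

open scoped Matrix commutatorElement
open QuadraticMap Module

namespace CL.Cls

open CL.Known

namespace Fr

variable {F : Type*} [Field F] {ι : Type*} [Fintype ι] [DecidableEq ι]

/-- The standing hypotheses on an overgroup `G` of the monomial part of `Ω`. -/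
structure Ctx6 (G : Subgroup (OG (sQ ι F))) : Prop where
  two : (2 : F) ≠ 0
  prime : ∀ a : F, ∃ n : ℕ, a = n
  six : Fintype.card ι = 6
  le : Mon ι F ⊓ commutator (OG (sQ ι F)) ≤ G

namespace Ctx6

variable [Finite F] {G : Subgroup (OG (sQ ι F))} (C : Ctx6 G)
include C

theorem nd : (polarBilin (sQ ι F)).Nondegenerate := nondeg_sQ C.two

theorem rank : finrank F (ι → F) = Fintype.card ι := Module.finrank_fintype_fun_eq_card F

theorem five : 5 ≤ finrank F (ι → F) := by rw [C.rank, C.six]; norm_num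

theorem out (l : List ι) (h : l.length ≤ 5) : ∃ a, a ∉ l := exists_not_mem l (by have := C.six; omega)

theorem refl_mul_mem {x y : ι → F} (hx : refl (sQ ι F) x ∈ Mon ι F) (hy : refl (sQ ι F) y ∈ Mon ι F)
    (hqx : sQ ι F x ≠ 0) (hqy : sQ ι F y ≠ 0) (h : IsSquare (sQ ι F x) ↔ IsSquare (sQ ι F y)) :
    refl (sQ ι F) x * refl (sQ ι F) y ∈ G :=
  C.le ⟨Subgroup.mul_mem _ hx hy, refl_mul_refl_mem_commutator C.nd hqx hqy h⟩

theorem flip_mem {S : Finset ι} (h : Even S.card) : flip F S ∈ G := by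
  have key : ∀ S : Finset ι, dickson C.nd (flip F S) = (-1) ^ S.card ∧ spinor C.nd (flip F S) = 1 := fun S => by
    induction S using Finset.induction_on with
    | empty =>
      have : flip F (∅ : Finset ι) = 1 := OG.ext' fun x => flip_app_of (by simp)
      simp [this]
    | insert i S hi ih =>
      rw [flip_insert hi, map_mul, map_mul, dickson_refl C.nd (by simp), ih.1, ih.2, Finset.card_insert_of_notMem hi,
        (spinor_refl_eq_one_iff C.nd (by simp)).2 (by simp), pow_succ']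
      simp
  refine C.le ⟨flip_mem_Mon S, (mem_commutator_OG_iff C.nd (Or.inl (exists_ne_zero_one_of_two_ne_zero C.two)) _).2
    ⟨by rw [(key S).1, h.neg_one_pow], (key S).2⟩⟩

theorem flip_two_mem {i j : ι} (h : i ≠ j) : flip F {i, j} ∈ G := C.flip_mem (by simp [h])

theorem swap_mul_mem {i j k l : ι} (h : i ≠ j) (h' : k ≠ l) :
    prm F (Equiv.swap i j) * prm F (Equiv.swap k l) ∈ G := by
  rw [← refl_fe_sub C.two h, ← refl_fe_sub C.two h']
  exact C.refl_mul_mem (refl_sub_mem_Mon C.two h) (refl_sub_mem_Mon C.two h') (by rw [sQ_fe_sub h]; exact C.two)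
    (by rw [sQ_fe_sub h']; exact C.two) (by rw [sQ_fe_sub h, sQ_fe_sub h'])

theorem refl_flip_mem {v : ι → F} (hv : refl (sQ ι F) v ∈ G) {S : Finset ι}
    (h : Even S.card ∨ Even Sᶜ.card ∨ ∃ l, v l = 0) : refl (sQ ι F) ((flip F S).1 v) ∈ G := by
  rcases h with h | h | ⟨l, hl⟩
  · exact refl_app_mem (C.flip_mem h) hv
  · have : (flip F S).1 v = -(flip F Sᶜ).1 v := funext fun k => by
      rw [Pi.neg_apply, flip_app, flip_app]; by_cases hk : k ∈ S <;> simp [hk]
    rw [this, refl_neg]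
    exact refl_app_mem (C.flip_mem h) hv
  rcases Nat.even_or_odd S.card with h | h
  · exact refl_app_mem (C.flip_mem h) hv
  by_cases hS : l ∈ S
  · have : (flip F S).1 v = (flip F (S.erase l)).1 v := funext fun k => by
      rw [flip_app, flip_app]; by_cases hk : k = l <;> simp [hk, hl]
    rw [this]
    refine refl_app_mem (C.flip_mem ?_) hv
    rw [Finset.card_erase_of_mem hS]
    exact Nat.Odd.sub_odd h odd_one
  · have : (flip F S).1 v = (flip F (insert l S)).1 v := funext fun k => by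
      rw [flip_app, flip_app]; by_cases hk : k = l <;> simp [hk, hl]
    rw [this]
    refine refl_app_mem (C.flip_mem ?_) hv
    rw [Finset.card_insert_of_notMem hS]
    exact h.add_one

/-- `A_u` for the group `G`. -/
abbrev A {u : ι → F} (hu : sQ ι F u = 0) : Submodule F (ι → F) := eichSubP C.prime G hu

theorem app_mem_A {u : ι → F} {hu : sQ ι F u = 0} {g : OG (sQ ι F)} (hg : g ∈ G) (h : g.1 u = u) {x : ι → F}
    (hx : x ∈ C.A hu) : g.1 x ∈ C.A hu := app_mem_eichAdd (hu := hu) hg h hx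

theorem fe_mem_A {u : ι → F} {hu : sQ ι F u = 0} {a b c : ι} (hab : a ≠ b) (hac : a ≠ c) (hbc : b ≠ c)
    (ha : u a = 0) (hb : u b = 0) (hc : u c = 0) {x : ι → F} (hx : x ∈ C.A hu) (hxa : x a ≠ 0) {l : ι}
    (hl : u l = 0) : fe l ∈ C.A hu := by
  have h1 : ∀ {k : ι} {y : ι → F}, a ≠ k → u k = 0 → y ∈ C.A hu → y - (flip F {a, k}).1 y ∈ C.A hu :=
    fun {k y} hk hk0 hy => Submodule.sub_mem _ hy (C.app_mem_A (C.flip_two_mem hk)
      (flip_app_of (by simp [ha, hk0])) hy)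
  have h2 := h1 hac hc (h1 hab hb hx)
  have h3 : x - (flip F {a, b}).1 x - (flip F {a, c}).1 (x - (flip F {a, b}).1 x) = (2 * 2 * x a) • fe a := by
    funext k
    simp only [Pi.sub_apply, flip_app, Pi.smul_apply, fe_app, Finset.mem_insert, Finset.mem_singleton]
    by_cases h : k = a
    · simp [h]; ring
    · by_cases h' : k = b
      · simp [h', hab.symm, hbc]
      · simp [h, h']
  rw [h3, Submodule.smul_mem_iff _ (mul_ne_zero (mul_ne_zero C.two C.two) hxa)] at h2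
  by_cases hla : l = a
  · exact hla ▸ h2
  obtain ⟨m, hma, hml, hm⟩ : ∃ m, m ≠ a ∧ m ≠ l ∧ u m = 0 := by
    by_cases h : b = l
    · exact ⟨c, hac.symm, h ▸ hbc.symm, hc⟩
    · exact ⟨b, hab.symm, h, hb⟩
  have := C.app_mem_A (C.swap_mul_mem (Ne.symm hla) hml) (by
    rw [OG.mul_app, swap_app_of (hm.trans hl.symm), swap_app_of (ha.trans hl.symm)]) h2
  rwa [OG.mul_app, prm_fe, prm_fe, Equiv.swap_apply_of_ne_of_ne hma.symm (Ne.symm hla), Equiv.swap_apply_left] at this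

theorem polar_flip (u : ι → F) {k i : ι} (hi : u i = 0) :
    (flip F {k, i}).1 u = u - (2 * u k) • fe k := by
  funext l
  simp only [Pi.sub_apply, flip_app, Pi.smul_apply, fe_app, Finset.mem_insert, Finset.mem_singleton]
  by_cases h : l = k
  · simp [h]; ring
  · by_cases h' : l = i
    · subst h'; simp [h, hi]
    · simp [h, h']

theorem le_of_two {u : ι → F} {hu : sQ ι F u = 0} (h0 : u ≠ 0) {i j : ι} (hij : i ≠ j) (hi : u i = 0) (hj : u j = 0)
    (hi' : fe i ∈ C.A hu) (hj' : fe j ∈ C.A hu) : commutator (OG (sQ ι F)) ≤ G := by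
  obtain ⟨k, hk⟩ := Function.ne_iff.1 h0
  rw [Pi.zero_apply] at hk
  have hki : k ≠ i := fun h => hk (h ▸ hi)
  have hkj : k ≠ j := fun h => hk (h ▸ hj)
  obtain ⟨m, hmk, hm⟩ : ∃ m, m ≠ k ∧ u m ≠ 0 := by
    by_contra! h
    rw [sQ_app, Finset.sum_eq_single k (fun b _ hb => by rw [h b hb]; ring) (by simp)] at hu
    exact hk (pow_eq_zero_iff two_ne_zero |>.1 hu)
  have hmi : m ≠ i := fun h => hm (h ▸ hi)
  have hmj : m ≠ j := fun h => hm (h ▸ hj)
  have h4 : -(2 * 2 * u k ^ 2) ≠ 0 := neg_ne_zero.2 (mul_ne_zero (mul_ne_zero C.two C.two) (pow_ne_zero _ hk))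
  obtain ⟨s, t, hst⟩ := exists_sq_add_sq_eq (one_ne_zero (α := F)) one_ne_zero (-(2 * 2 * u k ^ 2))⁻¹
  rw [mul_one, mul_one] at hst
  have hst' : -(2 * 2 * u k ^ 2) * (s ^ 2 + t ^ 2) = 1 := by rw [hst, mul_inv_cancel₀ h4]
  have hv : s • fe i + t • fe j ∈ C.A hu := Submodule.add_mem _ (Submodule.smul_mem _ _ hi') (Submodule.smul_mem _ _ hj')
  have hg := G.mul_mem hv.2 (C.flip_two_mem hki)
  set e : ι → F := (-(2 * u k)) • fe k + (2 * 2 * u k ^ 2) • (s • fe i + t • fe j) with he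
  have hqv : sQ ι F (s • fe i + t • fe j) = s ^ 2 + t ^ 2 := by
    rw [sQ_add_smul, map_smul', sQ_fe, Pi.smul_apply, fe_ne hij.symm]; simp
  have hgu : (eich (sQ ι F) u (s • fe i + t • fe j) * flip F {k, i}).1 u = (1 : F) • e := by
    rw [OG.mul_app, C.polar_flip u hi, eich_app hu hv.1, hqv]
    simp only [polar_sub_right, polar_smul_right, polar_add_left, polar_smul_left, polar_fe, polar_fe', polar_self',
      hu, hi, hj, fe_ne hki, fe_ne hkj, smul_eq_mul, he]
    linear_combination (norm := module) (-1 : F) • congrArg (· • u) hst'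
  have hqe : sQ ι F e = 0 := by rw [← one_smul F e, ← hgu, OG.map_app, hu]
  have hi2 : fe i + (2 * s) • u ∈ C.A hqe := by
    have := app_mem_eichAdd' (hu := hu) hg hi' hqe hgu
    rw [one_smul, OG.mul_app, app_fe (σ := 1) (η := fun l => if l ∈ ({k, i} : Finset ι) then -1 else 1)
      (fun x l => by rw [Equiv.Perm.one_apply, flip_app]; split_ifs <;> simp), if_pos (by simp), map_smul,
      Equiv.Perm.one_apply, eich_app_of_perp hu hv.1 hi'.1, neg_one_smul] at this
    have h := (C.A hqe).neg_mem this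
    simpa [polar_add_left, fe_ne hij, mul_comm] using h
  have hj2 : fe j + (2 * t) • u ∈ C.A hqe := by
    have := app_mem_eichAdd' (hu := hu) hg hj' hqe hgu
    rw [one_smul, OG.mul_app, flip_app_of (by simp [fe_ne hkj, fe_ne hij]), eich_app_of_perp hu hv.1 hj'.1] at this
    have h : _ ∈ C.A hqe := this
    simpa [polar_add_left, fe_ne hij.symm, mul_comm] using h
  have hz : ∀ l, l ≠ i → l ≠ j → l ≠ k → e l = 0 := fun l h1 h2 h3 => by simp [he, fe_ne h1, fe_ne h2, fe_ne h3]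
  obtain ⟨a, ha⟩ := C.out [i, j, k, m] (by simp)
  obtain ⟨b, hb⟩ := C.out [i, j, k, m, a] (by simp)
  simp only [List.mem_cons, List.not_mem_nil, or_false, not_or] at ha hb
  have hout : ∀ l, e l = 0 → fe l ∈ C.A hqe := fun l hl => by
    have key : ∀ x ∈ C.A hqe, x m ≠ 0 → fe l ∈ C.A hqe := fun x hx hxm =>
      C.fe_mem_A (Ne.symm ha.2.2.2) (Ne.symm hb.2.2.2.1) (Ne.symm hb.2.2.2.2) (hz m hmi hmj hmk)
        (hz a ha.1 ha.2.1 ha.2.2.1) (hz b hb.1 hb.2.1 hb.2.2.1) hx hxm hl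
    by_cases hs : s = 0
    · have ht : t ≠ 0 := by rintro rfl; simp [hs] at hst'
      exact key _ hj2 (by simp [fe_ne hmj, C.two, ht, hm])
    · exact key _ hi2 (by simp [fe_ne hmi, C.two, hs, hm])
  have hek : e k = -(2 * u k) := by simp [he, fe_ne hki, fe_ne hkj]
  refine commutator_le_of_eichAdd_of_move (hu := hqe) C.nd (le_trans (by norm_num) C.five) (fun y hy => ?_)
    (C.flip_two_mem (Ne.symm ha.2.2.1)) ?_
  · have h1 : y - y i • (fe i + (2 * s) • u) - y j • (fe j + (2 * t) • u) ∈ C.A hqe := mem_of_coord fun l hl => by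
      refine hout l (hz l ?_ ?_ ?_) <;> rintro rfl <;> refine hl ?_
      · simp [hi, fe_ne hij]
      · simp [hj, fe_ne hij.symm]
      · simp only [he, polar_add_left, polar_smul_left, polar_fe, smul_eq_mul] at hy
        simp only [Pi.sub_apply, Pi.smul_apply, Pi.add_apply, fe_ne hki, fe_ne hkj, smul_eq_mul]
        refine mul_left_cancel₀ (mul_ne_zero (mul_ne_zero C.two C.two) hk) ?_
        linear_combination -hy
    have := Submodule.add_mem _ (Submodule.add_mem _ h1 (Submodule.smul_mem _ (y j) hj2)) (Submodule.smul_mem _ (y i) hi2)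
    rwa [sub_add_cancel, sub_add_cancel] at this
  · rw [C.polar_flip e (hz a ha.1 ha.2.1 ha.2.2.1), polar_sub_right, polar_self', hqe, polar_smul_right, polar_fe', hek]
    simp [C.two, hk]

theorem le_of_out {u : ι → F} {hu : sQ ι F u = 0} (h0 : u ≠ 0) {a b c : ι} (hab : a ≠ b) (hac : a ≠ c) (hbc : b ≠ c)
    (ha : u a = 0) (hb : u b = 0) (hc : u c = 0) {x : ι → F} (hx : x ∈ C.A hu) (hxa : x a ≠ 0) :
    commutator (OG (sQ ι F)) ≤ G :=
  C.le_of_two h0 hab ha hb (C.fe_mem_A hab hac hbc ha hb hc hx hxa ha) (C.fe_mem_A hab hac hbc ha hb hc hx hxa hb)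

theorem mem_A_of_pair {u v : ι → F} (hu : sQ ι F u = 0) (hq : sQ ι F v ≠ 0) (hv : refl (sQ ι F) v ∈ G)
    (hw : refl (sQ ι F) (v + u) ∈ G) (h : sQ ι F (v + u) = sQ ι F v) : v ∈ C.A hu := by
  have h1 : polar (sQ ι F) u v = 0 := by
    rw [map_add', hu, add_zero, add_eq_left, polar_comm] at h
    exact h
  have h2 : _ ∈ C.A hu := mem_eichAdd_of_refl_mul (hu := hu) hq h1 (G.mul_mem hv hw)
  rwa [Submodule.smul_mem_iff _ (neg_ne_zero.2 (inv_ne_zero hq))] at h2

/-- A sign change on a set carrying a singular part of `v`. -/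
theorem le_of_set {v : ι → F} (hq : sQ ι F v ≠ 0) (hv : refl (sQ ι F) v ∈ G) {S : Finset ι}
    (hS : Even S.card ∨ Even Sᶜ.card ∨ ∃ l, v l = 0) (h0 : ∑ i ∈ S, v i ^ 2 = 0) {k : ι} (hk : k ∈ S) (hk' : v k ≠ 0)
    (h3 : 3 ≤ Sᶜ.card) {a : ι} (ha : a ∉ S) (ha' : v a ≠ 0) : commutator (OG (sQ ι F)) ≤ G := by
  have hz : ∀ l, l ∉ S → ((flip F S).1 v - v) l = 0 := fun l hl => by simp [flip_app, hl]
  have hu : sQ ι F ((flip F S).1 v - v) = 0 := by
    rw [sQ_app, ← Finset.sum_subset (Finset.subset_univ S) fun l _ hl => by rw [hz l hl]; ring,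
      ← mul_zero (4 : F), ← h0, Finset.mul_sum]
    exact Finset.sum_congr rfl fun l hl => by simp only [Pi.sub_apply, flip_app, if_pos hl]; ring
  have hA := C.mem_A_of_pair hu hq hv (by rw [add_sub_cancel]; exact C.refl_flip_mem hv hS)
    (by rw [add_sub_cancel, OG.map_app])
  obtain ⟨b, hb, c, hc, hbc⟩ := Finset.one_lt_card.1 (show 1 < (Sᶜ.erase a).card by
    rw [Finset.card_erase_of_mem (Finset.mem_compl.2 ha)]; omega)
  simp only [Finset.mem_erase, Finset.mem_compl] at hb hc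
  refine C.le_of_out (fun h => ?_) hb.1.symm hc.1.symm hbc (hz a ha) (hz b hb.2) (hz c hc.2) hA ha'
  have := congrFun h k
  simp only [Pi.sub_apply, flip_app, if_pos hk, Pi.zero_apply] at this
  exact mul_ne_zero C.two hk' (by linear_combination -this)

theorem span_coord {i j : ι} (hij : i ≠ j) {w : ι → F} (hw : sQ ι F w ≠ 0) (hi : w i = 0) (hj : w j = 0) :
    NDon (sQ ι F) (Submodule.span F {fe i, fe j, w}) ∧ finrank F (Submodule.span F {fe i, fe j, w}) = 3 :=
  span_three C.two (by simp) (by simp) hw (by simp [fe_ne hij.symm]) (by simp [hi]) (by simp [hj])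

theorem mem_of_root {x y : ι → F} (hG : refl (sQ ι F) x ∈ G) (hx : refl (sQ ι F) x ∈ Mon ι F)
    (hy : refl (sQ ι F) y ∈ Mon ι F) (hqx : sQ ι F x ≠ 0) {t : F} (ht : t ≠ 0) (h : sQ ι F y = t ^ 2 * sQ ι F x) :
    refl (sQ ι F) y ∈ G := by
  have hqy : sQ ι F y ≠ 0 := h ▸ mul_ne_zero (pow_ne_zero _ ht) hqx
  have := G.mul_mem hG (C.refl_mul_mem hx hy hqx hqy (isSquare_iff_of_mul hqx hqy ⟨t * sQ ι F x, by rw [h]; ring⟩))
  rwa [← mul_assoc, refl_mul_self, one_mul] at this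

theorem le_of_full_sq (h : IsSquare (-1 : F)) {i j : ι} (hij : i ≠ j) {w : ι → F} (hw : w ≠ 0) (hi : w i = 0)
    (hj : w j = 0) (hF : Full G (Submodule.span F {fe i, fe j, w})) : commutator (OG (sQ ι F)) ≤ G := by
  obtain ⟨r, hr⟩ := h
  obtain ⟨k, hk⟩ := Function.ne_iff.1 hw
  have hki : k ≠ i := fun h => hk (h ▸ hi)
  have hkj : k ≠ j := fun h => hk (h ▸ hj)
  obtain ⟨a, ha⟩ := C.out [i, j, k] (by simp)
  obtain ⟨b, hb⟩ := C.out [i, j, k, a] (by simp)
  simp only [List.mem_cons, List.not_mem_nil, or_false, not_or] at ha hb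
  have hu : sQ ι F (fe i + r • fe j) = 0 := by rw [sQ_pair hij]; linear_combination -hr
  obtain ⟨h1, h2, h3⟩ := mem_span3 (F := F) (fe i) (fe j) w
  refine C.le_of_out (hu := hu) (x := w) (fun h => by simpa [fe_ne hij] using congrFun h i) (Ne.symm ha.2.2)
    (Ne.symm hb.2.2.1) (Ne.symm hb.2.2.2) (by simp [fe_ne hki, fe_ne hkj]) (by simp [fe_ne ha.1, fe_ne ha.2.1])
    (by simp [fe_ne hb.1, fe_ne hb.2.1]) ⟨by simp [polar_add_left, hi, hj], ?_⟩ hk
  exact hF _ (Submodule.add_mem _ h1 (Submodule.smul_mem _ _ h2)) _ h3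

theorem refl_mem_of_full (h7 : 7 ≤ Nat.card F) {W : Submodule F (ι → F)} (hW : NDon (sQ ι F) W)
    (h3 : finrank F W = 3) (hF : Full G W) {a y : ι → F} (ha : a ∈ W) (hy : y ∈ W) (hq : sQ ι F a ≠ 0)
    (hG : refl (sQ ι F) a ∈ G) {t : F} (ht : t ≠ 0) (h : sQ ι F y = t ^ 2 * sQ ι F a) : refl (sQ ι F) y ∈ G := by
  obtain ⟨g, hg, hg'⟩ := exists_app_eq_three C.two h7 hW h3 hF (W.smul_mem t ha) hy
    (by rw [map_smul']; exact mul_ne_zero (pow_ne_zero _ ht) hq) (by rw [map_smul', h])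
  rw [← hg', map_smul, refl_smul ht]
  exact refl_app_mem hg hG

theorem le_of_full (h3 : (3 : F) ≠ 0) {i j l m : ι} (hij : i ≠ j) (hli : l ≠ i) (hlj : l ≠ j) (hmi : m ≠ i)
    (hmj : m ≠ j) (hlm : l ≠ m) {w : ι → F} (hw : sQ ι F w ≠ 0) (hi : w i = 0) (hj : w j = 0) (hl : w l = 0)
    (hm : w m = 0) (hF : Full G (Submodule.span F {fe i, fe j, w})) {a : ι → F}
    (ha : a ∈ Submodule.span F ({fe i, fe j, w} : Set (ι → F))) (hq : sQ ι F a ≠ 0) (hG : refl (sQ ι F) a ∈ G) :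
    commutator (OG (sQ ι F)) ≤ G := by
  by_cases hs : IsSquare (-1 : F)
  · exact C.le_of_full_sq hs hij (ne_zero_of_map_ne_zero hw) hi hj hF
  have h7 := seven_le_of_not_isSquare C.two h3 hs
  obtain ⟨hW, hW3⟩ := C.span_coord hij hw hi hj
  obtain ⟨h1, h2, h4⟩ := mem_span3 (F := F) (fe i) (fe j) w
  obtain ⟨α, β, hαβ⟩ := exists_sq_add_sq_eq hw one_ne_zero (-1)
  have hu : sQ ι F (α • w + β • fe i + (1 : F) • fe j) = 0 := by
    rw [sQ_add_smul, sQ_add_smul, map_smul']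
    simp only [Pi.add_apply, Pi.smul_apply, hi, hj, fe_ne hij.symm, smul_eq_mul]
    linear_combination hαβ
  set y : ι → F := β • w - (α * sQ ι F w) • fe i with hy
  have hqy : sQ ι F y = -sQ ι F w := by
    rw [hy, sQ_sub_smul, map_smul']
    simp only [Pi.smul_apply, hi, smul_eq_mul]
    linear_combination sQ ι F w * hαβ
  have hyW : y ∈ Submodule.span F ({fe i, fe j, w} : Set (ι → F)) :=
    Submodule.sub_mem _ (Submodule.smul_mem _ _ h4) (Submodule.smul_mem _ _ h1)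
  have huy : polar (sQ ι F) (α • w + β • fe i + (1 : F) • fe j) y = 0 := by
    simp [hy, polar_add_left, polar_sub_right, hi, hj, fe_ne hij, fe_ne hij.symm]
    ring
  have hyA : y ∈ C.A hu := ⟨huy, hF _ (Submodule.add_mem _ (Submodule.add_mem _ (Submodule.smul_mem _ _ h4)
    (Submodule.smul_mem _ _ h1)) (Submodule.smul_mem _ _ h2)) _ hyW⟩
  obtain ⟨γ, t, hγ, ht, hγt⟩ := exists_conic_point₂ C.two h7 (neg_ne_zero.2 hw) hq
  have hy0 : ∀ k, k ≠ i → w k = 0 → y k = 0 := fun k hk h0 => by simp [hy, fe_ne hk, h0]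
  have hq1 : ∀ k, k ≠ i → w k = 0 → sQ ι F (y + γ • fe k) = t ^ 2 * sQ ι F a := fun k hk h0 => by
    rw [sQ_add_smul, hqy, hy0 k hk h0, ← hγt]; ring
  have h5 := C.refl_mem_of_full h7 hW hW3 hF ha (Submodule.add_mem _ hyW (Submodule.smul_mem _ γ h2)) hq hG ht
    (hq1 j hij.symm hj)
  have key : ∀ {l m : ι}, l ≠ i → l ≠ j → m ≠ i → m ≠ j → l ≠ m → w l = 0 → w m = 0 → fe l ∈ C.A hu :=
    fun {l m} hli hlj hmi hmj hlm hl hm => by
      have h6 := refl_app_mem (C.swap_mul_mem hlj.symm hlm) h5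
      rw [OG.mul_app, map_add, map_smul, map_add, map_smul, prm_fe, prm_fe,
        swap_app_of ((hy0 l hli hl).trans (hy0 m hmi hm).symm),
        swap_app_of ((hy0 j hij.symm hj).trans (hy0 l hli hl).symm), Equiv.swap_apply_of_ne_of_ne hlj.symm hmj.symm,
        Equiv.swap_apply_left] at h6
      have h8 := C.app_mem_A h6 (refl_app_of_polar (by
        rw [polar_add_left, polar_comm, huy]
        simp [hl, fe_ne hli.symm, fe_ne hlj.symm])) hyA
      have h9 := Submodule.sub_mem _ hyA h8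
      rw [refl_app, sub_sub_cancel, Submodule.smul_mem_iff _ (by
        rw [hq1 l hli hl, polar_add_left, polar_self', hqy, polar_smul_left, polar_fe, hy0 l hli hl]
        simp [ht, hq, hw, C.two])] at h9
      have := Submodule.sub_mem _ h9 hyA
      rwa [add_sub_cancel_left, Submodule.smul_mem_iff _ hγ] at this
  exact C.le_of_two (fun h => by simpa [hj, fe_ne hij.symm] using congrFun h j) hlm
    (by simp [hl, fe_ne hli, fe_ne hlj]) (by simp [hm, fe_ne hmi, fe_ne hmj]) (key hli hlj hmi hmj hlm hl hm)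
    (key hmi hmj hli hlj hlm.symm hm hl)

variable (hc : ¬ commutator (OG (sQ ι F)) ≤ G)
include hc

theorem exists_of_full (h3 : (3 : F) ≠ 0) {i j : ι} (hij : i ≠ j) {w : ι → F} (hw : sQ ι F w ≠ 0) (hi : w i = 0)
    (hj : w j = 0) (hF : Full G (Submodule.span F {fe i, fe j, w})) {a : ι → F}
    (ha : a ∈ Submodule.span F ({fe i, fe j, w} : Set (ι → F))) (hq : sQ ι F a ≠ 0) (hG : refl (sQ ι F) a ∈ G) :
    (∀ s t : F, t ≠ 0 → sQ ι F w + s ^ 2 = t ^ 2 * sQ ι F a → refl (sQ ι F) (w + s • fe i) ∈ G) ∧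
      ∃ s : F, sQ ι F (w + s • fe i) ≠ 0 ∧ refl (sQ ι F) (w + s • fe i) ∈ G := by
  have h7 := seven_le_of_not_isSquare C.two h3 fun hs =>
    hc (C.le_of_full_sq hs hij (ne_zero_of_map_ne_zero hw) hi hj hF)
  obtain ⟨hW, hW3⟩ := C.span_coord hij hw hi hj
  obtain ⟨h1, -, h4⟩ := mem_span3 (F := F) (fe i) (fe j) w
  have key : ∀ s t : F, t ≠ 0 → sQ ι F w + s ^ 2 = t ^ 2 * sQ ι F a → refl (sQ ι F) (w + s • fe i) ∈ G :=
    fun s t ht h => C.refl_mem_of_full h7 hW hW3 hF ha (Submodule.add_mem _ h4 (Submodule.smul_mem _ s h1)) hq hG ht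
      (by rw [sQ_add_smul, hi, ← h]; ring)
  obtain ⟨s, t, -, ht, hst⟩ := exists_conic_point₂ C.two h7 hw hq
  exact ⟨key, s, by rw [sQ_add_smul, hi, mul_zero, add_zero, hst]; exact mul_ne_zero (pow_ne_zero _ ht) hq,
    key s t ht hst⟩

theorem tri_ab {i j : ι} (hij : i ≠ j) {a b v : ι → F} {α β : F} (ha : sQ ι F a ≠ 0) (hb : sQ ι F b ≠ 0)
    (hv : sQ ι F v ≠ 0) (hab : polar (sQ ι F) a b = 0) (haw : polar (sQ ι F) a (cut v i j) = 0)
    (hbw : polar (sQ ι F) b (cut v i j) = 0) (hα : α ≠ 0) (hβ : β ≠ 0) (h : v i • fe i + v j • fe j = α • a + β • b)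
    (hI : ∀ A : Submodule F (ι → F), a ∈ A → b ∈ A → fe i ∈ A ∧ fe j ∈ A) (ra : refl (sQ ι F) a ∈ G)
    (rb : refl (sQ ι F) b ∈ G) (rv : refl (sQ ι F) v ∈ G) (hw : cut v i j ≠ 0) :
    sQ ι F (cut v i j) ≠ 0 ∧ (refl (sQ ι F) (cut v i j) ∈ G ∨
      (polar (sQ ι F) a v ^ 2 = sQ ι F a * sQ ι F v ∧ polar (sQ ι F) b v ^ 2 = sQ ι F b * sQ ι F v) ∨
        Full G (Submodule.span F {fe i, fe j, cut v i j})) := by
  have hv' : v = α • a + β • b + cut v i j := by rw [← h]; exact eq_add_cut v hij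
  have hq : sQ ι F (cut v i j) ≠ 0 := fun h0 => by
    have hu : sQ ι F ((-2 : F) • cut v i j) = 0 := by rw [map_smul', h0, mul_zero]
    have h1 : v + (-2 : F) • cut v i j = -(flip F {i, j}).1 v := funext fun k => by
      simp only [Pi.add_apply, Pi.smul_apply, Pi.neg_apply, flip_app, cut, Finset.mem_insert, Finset.mem_singleton,
        smul_eq_mul]
      split_ifs <;> ring
    have h2 := C.mem_A_of_pair hu hv rv (by rw [h1, refl_neg]; exact refl_app_mem (C.flip_two_mem hij) rv)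
      (by rw [h1, QuadraticMap.map_neg, OG.map_app])
    have key : ∀ {a : ι → F}, sQ ι F a ≠ 0 → polar (sQ ι F) a (cut v i j) = 0 → polar (sQ ι F) a v ≠ 0 →
        refl (sQ ι F) a ∈ G → a ∈ C.A hu := fun {a} ha haw hav ra => by
      have := Submodule.sub_mem _ h2 (C.app_mem_A ra (refl_app_of_polar (by simp [haw])) h2)
      rwa [refl_app, sub_sub_cancel, Submodule.smul_mem_iff _ (mul_ne_zero (inv_ne_zero ha) hav)] at this
    obtain ⟨h3, h4⟩ := hI _ (key ha haw (by rw [hv']; simp [polar_add_right, hab, haw, hα, C.two, ha]) ra)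
      (key hb hbw (by rw [hv']; simp [polar_add_right, polar_comm _ b a, hab, hbw, hβ, C.two, hb]) rb)
    exact hc (C.le_of_two (smul_ne_zero (neg_ne_zero.2 C.two) hw) hij (by simp) (by simp) h3 h4)
  refine ⟨hq, (tri C.nd C.two C.prime ha hb hq hv hab haw hbw hα hβ hv' ra rb rv).imp_right (Or.imp_right ?_)⟩
  obtain ⟨h1, h2, h3⟩ := mem_span3 (F := F) a b (cut v i j)
  have hle : Submodule.span F ({fe i, fe j, cut v i j} : Set (ι → F)) ≤ Submodule.span F {a, b, cut v i j} := by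
    rw [Submodule.span_le]
    rintro x (rfl | rfl | rfl)
    exacts [(hI _ h1 h2).1, (hI _ h1 h2).2, h3]
  exact fun h u hu x hx => h u (hle hu) x (hle hx)

theorem triE (hT : ∀ i, refl (sQ ι F) (fe i) ∈ G) {i j : ι} (hij : i ≠ j) {v : ι → F} (hv : sQ ι F v ≠ 0)
    (rv : refl (sQ ι F) v ∈ G) (hi : v i ≠ 0) (hj : v j ≠ 0) (hw : cut v i j ≠ 0) :
    sQ ι F (cut v i j) ≠ 0 ∧ (refl (sQ ι F) (cut v i j) ∈ G ∨ 4 * v i ^ 2 = sQ ι F v ∨
      Full G (Submodule.span F {fe i, fe j, cut v i j})) := by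
  have := C.tri_ab hc hij (by simp) (by simp) hv (by simp [fe_ne hij.symm]) (by simp) (by simp) hi hj rfl
    (fun A h1 h2 => ⟨h1, h2⟩) (hT i) (hT j) rv hw
  refine ⟨this.1, this.2.imp_right (Or.imp_left fun h => ?_)⟩
  have h1 := h.1
  rw [polar_fe, sQ_fe] at h1
  linear_combination h1

omit hc in
theorem refl_add_mem (hT : ∀ i j, i ≠ j → refl (sQ ι F) (fe i - fe j) ∈ G) {i j : ι} (hij : i ≠ j) {c : F}
    (h : c ^ 2 = 1) : refl (sQ ι F) (fe i + c • fe j) ∈ G :=
  C.mem_of_root (hT i j hij) (refl_sub_mem_Mon C.two hij) (refl_pair_mem_Mon C.two hij h)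
    (by rw [sQ_fe_sub hij]; exact C.two) one_ne_zero (by rw [sQ_pair hij, sQ_fe_sub hij, h]; ring)

theorem triD (hT : ∀ i j, i ≠ j → refl (sQ ι F) (fe i - fe j) ∈ G) {i j : ι} (hij : i ≠ j) {v : ι → F}
    (hv : sQ ι F v ≠ 0) (rv : refl (sQ ι F) v ∈ G) (h : v i ^ 2 ≠ v j ^ 2) (hw : cut v i j ≠ 0) :
    sQ ι F (cut v i j) ≠ 0 ∧ (refl (sQ ι F) (cut v i j) ∈ G ∨
      (2 * (v i - v j) ^ 2 = sQ ι F v ∧ 2 * (v i + v j) ^ 2 = sQ ι F v) ∨
        Full G (Submodule.span F {fe i, fe j, cut v i j})) := by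
  have h2 := C.two
  have := C.tri_ab hc hij (a := fe i - fe j) (b := fe i + fe j) (α := (v i - v j) / 2) (β := (v i + v j) / 2)
    (by rwa [sQ_fe_sub hij]) (by rwa [sQ_fe_add hij]) hv
    (by simp [polar_sub_left, fe_ne hij, fe_ne hij.symm]) (by simp [polar_sub_left]) (by simp [polar_add_left])
    (div_ne_zero (fun h0 => h (by rw [sub_eq_zero.1 h0])) h2)
    (div_ne_zero (fun h0 => h (by rw [eq_neg_of_add_eq_zero_left h0, neg_sq])) h2)
    (by match_scalars <;> field_simp <;> ring)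
    (fun A h1 h3 => ⟨(A.smul_mem_iff h2).1 (by convert A.add_mem h1 h3 using 1; module),
      (A.smul_mem_iff h2).1 (by convert A.sub_mem h3 h1 using 1; module)⟩) (hT i j hij)
    (by simpa using C.refl_add_mem hT hij (c := 1) (by simp)) rv hw
  refine ⟨this.1, this.2.imp_right (Or.imp_left fun h => ?_)⟩
  rw [polar_sub_left, polar_add_left, polar_fe, polar_fe, sQ_fe_sub hij, sQ_fe_add hij] at h
  exact ⟨mul_left_cancel₀ h2 (by linear_combination h.1), mul_left_cancel₀ h2 (by linear_combination h.2)⟩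

theorem small_aux (h3 : (3 : F) ≠ 0) {i j k l m : ι} (hij : i ≠ j) (hik : i ≠ k) (hjk : j ≠ k) (hli : l ≠ i)
    (hlj : l ≠ j) (hlk : l ≠ k) (hmi : m ≠ i) (hmj : m ≠ j) (hmk : m ≠ k) (hlm : l ≠ m) {c : ι → F} (hci : c i = 0)
    (hcj : c j = 0) (hck : c k = 0)
    (hE : ∀ a, refl (sQ ι F) (fe a) ∈ G ∨ refl (sQ ι F) (fe a) * refl (sQ ι F) c ∈ G)
    (hD : ∀ a b, a ≠ b → refl (sQ ι F) (fe a - fe b) ∈ G ∨ refl (sQ ι F) (fe a - fe b) * refl (sQ ι F) c ∈ G)
    (h0 : refl (sQ ι F) (fe i) ∈ G ∨ refl (sQ ι F) (fe i - fe j) ∈ G) {v : ι → F} (hv : sQ ι F v ≠ 0)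
    (rv : refl (sQ ι F) v ∈ G) (hi : v i ≠ 0) (hs : supp v ⊆ {i, j, k}) : refl (sQ ι F) v ∈ Mon ι F := by
  have h2 := C.two
  obtain ⟨hW, hW3⟩ := C.span_coord hij (w := fe k) (by simp) (fe_ne hik) (fe_ne hjk)
  obtain ⟨m1, m2, m3⟩ := mem_span3 (F := F) (fe i) (fe j) (fe k)
  set W := Submodule.span F ({fe i, fe j, fe k} : Set (ι → F))
  have hcW : c ∈ operp (sQ ι F) W := mem_operp.2 fun w hw => by
    obtain ⟨r, s, t, rfl⟩ := Submodule.mem_span_triple.1 hw
    simp [polar_add_left, hci, hcj, hck]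
  have hz : ∀ a, a ≠ i → a ≠ j → a ≠ k → v a = 0 := fun a h1 h4 h5 => by
    by_contra h
    simpa [h1, h4, h5] using hs (mem_supp.2 h)
  have hv3 : v = v i • fe i + v j • fe j + v k • fe k := funext fun a => by
    by_cases h1 : a = i
    · simp [h1, fe_ne hij, fe_ne hik]
    by_cases h4 : a = j
    · simp [h4, fe_ne hij.symm, fe_ne hjk]
    by_cases h5 : a = k
    · simp [h5, fe_ne hik.symm, fe_ne hjk.symm]
    simp [fe_ne h1, fe_ne h4, fe_ne h5, hz a h1 h4 h5]
  have hvW : v ∈ W := hv3 ▸ W.add_mem (W.add_mem (W.smul_mem _ m1) (W.smul_mem _ m2)) (W.smul_mem _ m3)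
  have hq : sQ ι F v = v i ^ 2 + v j ^ 2 + v k ^ 2 := by
    rw [congrArg (sQ ι F) hv3, sQ_add_smul, sQ_add_smul, map_smul']
    simp [fe_ne hij.symm, fe_ne hik.symm, fe_ne hjk.symm]
  set X := extSub C.nd G W hcW
  have xE : ∀ {a}, fe a ∈ W → refl (sQ ι F) (fe a) ∈ X := fun h => ⟨refl_mem_movIn h, hE _⟩
  have xD : ∀ {a b}, a ≠ b → fe a ∈ W → fe b ∈ W → refl (sQ ι F) (fe a - fe b) ∈ X := fun h h1 h4 =>
    ⟨refl_mem_movIn (W.sub_mem h1 h4), hD _ _ h⟩
  by_cases hd : ringChar F ∣ Nat.card ↥(X ⊓ (dickson C.nd).ker)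
  · have hF : Full G W := fun u hu x hx => by
      rw [eich_eq_sq h2]
      refine mul_self_mem_of_extSub (eich_mem_of_dvd C.nd h2 C.prime hW hW3 (X := X) (fun g hg => hg.1)
        (hd.trans (Subgroup.card_dvd_of_le inf_le_left)) (fun y hy hy0 => ?_) hu (W.smul_mem _ hx))
      by_contra! h
      obtain ⟨r, s, t, rfl⟩ := Submodule.mem_span_triple.1 hy
      have h4 := h _ (by simp) (xE m1)
      have h5 := h _ (by simp) (xE m2)
      have h6 := h _ (by simp) (xE m3)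
      simp [h2, fe_ne hij, fe_ne hik, fe_ne hjk, fe_ne hij.symm, fe_ne hik.symm, fe_ne hjk.symm] at h4 h5 h6
      simp [h4, h5, h6] at hy0
    refine (hc ?_).elim
    rcases h0 with h0 | h0
    · exact C.le_of_full h3 hij hli hlj hmi hmj hlm (by simp) (fe_ne hik) (fe_ne hjk) (fe_ne hlk) (fe_ne hmk) hF m1
        (by simp) h0
    · exact C.le_of_full h3 hij hli hlj hmi hmj hlm (by simp) (fe_ne hik) (fe_ne hjk) (fe_ne hlk) (fe_ne hmk) hF
        (W.sub_mem m1 m2) (by rwa [sQ_fe_sub hij]) h0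
  have hD := dkList C.nd h2 hW hW3 (X := X ⊓ (dickson C.nd).ker) (fun g hg => hg.1.1) (fun g hg h => by
    have : g = refl (sQ ι F) (fe i) * (refl (sQ ι F) (fe j) * refl (sQ ι F) (fe k)) := eq_of_movIn C.nd hW hg.1.1
      (mul_mem (refl_mem_movIn m1) (mul_mem (refl_mem_movIn m2) (refl_mem_movIn m3))) fun x hx => by
        rw [h x hx]
        obtain ⟨r, s, t, rfl⟩ := Submodule.mem_span_triple.1 hx
        funext a
        simp only [OG.mul_app, refl_fe, flip_app, Finset.mem_singleton, Pi.neg_apply, Pi.add_apply, Pi.smul_apply,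
          fe_app]
        by_cases h1 : a = i
        · simp [h1, hij, hik]
        by_cases h4 : a = j
        · simp [h4, hij.symm, hjk]
        by_cases h5 : a = k <;> simp [h1, h4, h5, hik.symm, hjk.symm]
    have h1 : dickson C.nd g = 1 := hg.2
    rw [this, map_mul, map_mul, dickson_refl _ (by simp), dickson_refl _ (by simp),
      dickson_refl _ (by simp)] at h1
    exact absurd h1 (by decide)) hd
  have x0 : ∀ {a b}, sQ ι F a ≠ 0 → sQ ι F b ≠ 0 → refl (sQ ι F) a ∈ X → refl (sQ ι F) b ∈ X →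
      refl (sQ ι F) a * refl (sQ ι F) b ∈ X ⊓ (dickson C.nd).ker := fun ha hb h1 h4 =>
    ⟨mul_mem h1 h4, show dickson C.nd _ = 1 by rw [map_mul, dickson_refl _ ha, dickson_refl _ hb]; rfl⟩
  have hcc : refl (sQ ι F) (fe j) * refl (sQ ι F) (fe j - fe k) * (refl (sQ ι F) (fe j) * refl (sQ ι F) (fe j - fe k))
      = flip F {j, k} := by
    have := refl_conj (refl (sQ ι F) (fe j - fe k)) (fe j)
    rw [refl_inv, refl_fe_sub h2 hjk, prm_fe, Equiv.swap_apply_left, ← refl_fe_sub h2 hjk] at this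
    rw [flip_pair hjk, ← this]; group
  have hdc : refl (sQ ι F) (fe i - fe j) * refl (sQ ι F) (fe i) * flip F {j, k} *
      (refl (sQ ι F) (fe i - fe j) * refl (sQ ι F) (fe i))⁻¹ = flip F {i, k} := by
    have h1 := refl_conj (refl (sQ ι F) (fe i - fe j) * refl (sQ ι F) (fe i)) (fe j)
    have h4 := refl_conj (refl (sQ ι F) (fe i - fe j) * refl (sQ ι F) (fe i)) (fe k)
    rw [OG.mul_app, refl_app_of_polar (x := fe j) (by simp [fe_ne hij.symm]), refl_fe_sub h2 hij, prm_fe,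
      Equiv.swap_apply_right, ← refl_fe_sub h2 hij] at h1
    rw [OG.mul_app, refl_app_of_polar (x := fe k) (v := fe i) (by simp [fe_ne hik.symm]), refl_app_of_polar
      (by simp [polar_sub_left, fe_ne hik.symm, fe_ne hjk.symm])] at h4
    have : ∀ d a b : OG (sQ ι F), d * (a * b) * d⁻¹ = d * a * d⁻¹ * (d * b * d⁻¹) := fun d a b => by group
    rw [flip_pair hjk, flip_pair hik, this, h1, h4]
  have hne : ∀ {S T : Finset ι} {a : ι}, a ∈ S → a ∉ T → flip F S ≠ flip F T := fun {S T a} h1 h4 h => by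
    have := congrArg (fun g : OG (sQ ι F) => g.1 (fe a) a) h
    simp only [flip_app, if_pos h1, if_neg h4, fe_self] at this
    exact h2 (by linear_combination -this)
  have key := hD.four (c := ⟨_, x0 (by simp) (by rwa [sQ_fe_sub hjk]) (xE m2) (xD hjk m2 m3)⟩)
    (d := ⟨_, x0 (by rwa [sQ_fe_sub hij]) (by simp) (xD hij m1 m2) (xE m1)⟩)
    (Subtype.ext (by simp only [Subgroup.coe_mul, hcc]; exact flip_mul_self _))
    (fun h => hne (S := {j, k}) (T := ∅) (a := j) (by simp) (by simp) (by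
      rw [← hcc]; exact (congrArg Subtype.val h).trans (OG.ext' fun x => (flip_app_of (by simp)).symm)))
    (fun h => hne (S := {i, k}) (T := {j, k}) (a := i) (by simp) (by simp [hij, hik]) (by
      rw [← hdc, ← hcc]; exact congrArg Subtype.val h))
    ⟨_, x0 hv (by simp) ⟨refl_mem_movIn hvW, Or.inl rv⟩ (xE m1)⟩
  simp only [Subtype.ext_iff (p := (· ∈ X ⊓ (dickson C.nd).ker)), Subgroup.coe_mul, Subgroup.coe_inv, hcc, hdc,
    mul_inv_eq_iff_eq_mul] at key
  have hd0 : (sQ ι F v)⁻¹ * (2 * v i) ≠ 0 := mul_ne_zero (inv_ne_zero hv) (mul_ne_zero h2 hi)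
  have hx : ∀ {t : OG (sQ ι F)}, refl (sQ ι F) v * refl (sQ ι F) (fe i) * flip F {j, k} =
      t * (refl (sQ ι F) v * refl (sQ ι F) (fe i)) → ∀ a, (∀ x, t.1 x a = -x a) →
      fe i a = (sQ ι F v)⁻¹ * (2 * v i) * v a := fun {t} h a ha => by
    have := congrArg (fun g : OG (sQ ι F) => g.1 (fe i) a) h
    simp only [OG.mul_app] at this
    rw [ha, flip_app_of (by simp [fe_ne hij.symm, fe_ne hik.symm]), refl_app_self (by simp), map_neg, refl_app,
      polar_fe'] at this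
    simp only [Pi.neg_apply, Pi.sub_apply, Pi.smul_apply, smul_eq_mul] at this
    exact mul_left_cancel₀ h2 (by linear_combination -this)
  have hzero : ∀ {a}, a ≠ i → fe i a = (sQ ι F v)⁻¹ * (2 * v i) * v a → v a = 0 := fun h h1 => by
    rw [fe_ne h] at h1
    exact (mul_eq_zero.1 h1.symm).resolve_left hd0
  have hone : fe i i = (sQ ι F v)⁻¹ * (2 * v i) * v i → sQ ι F v = 2 * v i ^ 2 := fun h => by
    rw [fe_self] at h
    field_simp at h
    linear_combination h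
  have hsub : ∀ {a b : ι}, ({i, j, k} : Finset ι) ⊆ {i, a, b} → v b = 0 → supp v ⊆ {i, a} := fun h hb x hx => by
    have := h (hs hx)
    simp only [Finset.mem_insert, Finset.mem_singleton] at this ⊢
    rcases this with h | h | rfl
    exacts [Or.inl h, Or.inr h, (mem_supp.1 hx hb).elim]
  rcases key with h | h | h
  · have hj := hzero hij.symm (hx h j fun x => by simp [flip_app])
    have hk := hzero hik.symm (hx h k fun x => by simp [flip_app])
    exact refl_mem_Mon_of_supp h2 (hsub subset_rfl hk) fun _ h => (h hj).elim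
  · have hk := hzero hik.symm (hx h k fun x => by simp [flip_app])
    have h1 := hone (hx h i fun x => by simp [flip_app])
    exact refl_mem_Mon_of_supp h2 (hsub subset_rfl hk) fun _ _ => by rw [hk] at hq; linear_combination hq - h1
  · have hj := hzero hij.symm (hx h j fun x => by simp [OG.mul_app, flip_app, hij.symm, hjk])
    have h1 := hone (hx h i fun x => by simp [OG.mul_app, flip_app, hij, hik])
    exact refl_mem_Mon_of_supp h2 (hsub (a := k) (b := j) (by rw [Finset.pair_comm]) hj) fun _ _ => by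
      rw [hj] at hq; linear_combination hq - h1

/-- Reflections of support at most three are monomial. -/
theorem small (hT : (∀ i, refl (sQ ι F) (fe i) ∈ G) ∨ ∀ i j, i ≠ j → refl (sQ ι F) (fe i - fe j) ∈ G) {v : ι → F}
    (hv : sQ ι F v ≠ 0) (rv : refl (sQ ι F) v ∈ G) (hs : (supp v).card ≤ 3) : refl (sQ ι F) v ∈ Mon ι F := by
  obtain ⟨i, hi⟩ := Function.ne_iff.1 (ne_zero_of_map_ne_zero hv)
  obtain ⟨T, hT1, -, hT3⟩ := Finset.exists_subsuperset_card_eq (Finset.subset_univ (supp v)) hs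
    (by rw [Finset.card_univ]; have := C.six; omega)
  have hiT := hT1 (mem_supp.2 hi)
  obtain ⟨j, k, hjk, h⟩ := Finset.card_eq_two.1 (show (T.erase i).card = 2 by rw [Finset.card_erase_of_mem hiT, hT3])
  have hij : i ≠ j := (Finset.ne_of_mem_erase (h ▸ by simp : j ∈ T.erase i)).symm
  have hik : i ≠ k := (Finset.ne_of_mem_erase (h ▸ by simp : k ∈ T.erase i)).symm
  rw [← Finset.insert_erase hiT, h] at hT1
  by_cases h3 : (3 : F) = 0
  · have h1 : ∀ a ∈ supp v, v a ^ 2 = 1 := fun a ha => sq_eq_one_of_three C.prime h3 (mem_supp.1 ha)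
    have h2 : (supp v).card ≠ 3 := fun h => hv (by rw [sQ_of_const h1, h]; simpa using h3)
    obtain ⟨S, hS, -, hS2⟩ := Finset.exists_subsuperset_card_eq (Finset.subset_univ (supp v))
      (show (supp v).card ≤ 2 by omega) (by rw [Finset.card_univ]; have := C.six; omega)
    obtain ⟨a, b, -, rfl⟩ := Finset.card_eq_two.1 hS2
    exact refl_mem_Mon_of_supp C.two hS fun ha hb => by rw [h1 a (mem_supp.2 ha), h1 b (mem_supp.2 hb)]
  obtain ⟨l, hl⟩ := C.out [i, j, k] (by simp)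
  obtain ⟨m, hm⟩ := C.out [i, j, k, l] (by simp)
  simp only [List.mem_cons, List.not_mem_nil, or_false, not_or] at hl hm
  have hlm : l ≠ m := Ne.symm hm.2.2.2
  rcases hT with hT | hT
  · exact C.small_aux hc h3 hij hik hjk hl.1 hl.2.1 hl.2.2 hm.1 hm.2.1 hm.2.2.1 hlm (c := fe l - fe m)
      (by simp [fe_ne (Ne.symm hl.1), fe_ne (Ne.symm hm.1)]) (by simp [fe_ne (Ne.symm hl.2.1), fe_ne (Ne.symm hm.2.1)])
      (by simp [fe_ne (Ne.symm hl.2.2), fe_ne (Ne.symm hm.2.2.1)]) (fun a => Or.inl (hT a))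
      (fun a b hab => Or.inr (by rw [refl_fe_sub C.two hab, refl_fe_sub C.two hlm]; exact C.swap_mul_mem hab hlm))
      (Or.inl (hT i)) hv rv hi hT1
  · exact C.small_aux hc h3 hij hik hjk hl.1 hl.2.1 hl.2.2 hm.1 hm.2.1 hm.2.2.1 hlm (c := fe l)
      (fe_ne (Ne.symm hl.1)) (fe_ne (Ne.symm hl.2.1)) (fe_ne (Ne.symm hl.2.2))
      (fun a => Or.inr (C.refl_mul_mem (refl_fe_mem_Mon a) (refl_fe_mem_Mon l) (by simp) (by simp) (by simp)))
      (fun a b hab => Or.inl (hT a b hab)) (Or.inr (hT i j hij)) hv rv hi hT1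

end Ctx6

end Fr

end CL.Cls
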