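/-
The stabiliser in `Ω₆(p)` of an orthonormal frame is maximal.
-/
import Cfsg.Agent.Cls.Frame6b

set_option autoImplicit false
set_option linter.unusedSectionVars false

open scoped Matrix commutatorElement
open QuadraticMap Module

namespace CL.Cls

open CL.Known

namespace Fr

variable {F : Type*} [Field F] {ι : Type*} [Fintype ι] [DecidableEq ι]

namespace Ctx6

variable [Finite F] {H : Subgroup (OG (sQ ι F))} (C : Ctx6 H)
  (hc : ¬ commutator (OG (sQ ι F)) ≤ H) (hH : H ≤ commutator (OG (sQ ι F)))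
include C hc hH

theorem root_of_cl {b v : ι → F} (hb : sQ ι F b ≠ 0) (rb : refl (sQ ι F) b ∈ Mon ι F) (hv : sQ ι F v ≠ 0)
    (h : refl (sQ ι F) b * refl (sQ ι F) v ∈ H) : refl (sQ ι F) v ∈ Mon ι F := by
  have C' : Ctx6 (clGrp H (refl_mul_self b)) := ⟨C.two, C.prime, C.six, fun m hm => ⟨Or.inl (C.le hm), by
    rw [refl_conj]
    exact C.refl_mul_mem rb (refl_app_mem hm.1 rb) hb (by rwa [OG.map_app]) (by rw [OG.map_app])⟩⟩
  refine C'.refl_mem_Mon (fun h0 => hc fun g hg => (h0 hg).1.resolve_right fun h1 => ?_) hb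
    ⟨Or.inr (by rw [refl_mul_self]; exact one_mem _), by rw [refl_mul_self, one_mul, mul_inv_cancel]; exact one_mem _⟩
    rb hv ⟨Or.inr h, by simpa [refl_inv, mul_assoc] using H.mul_mem h h⟩
  have h2 := dickson_eq_one_of_mem_commutator C.nd (hH h1)
  rw [map_mul, dickson_refl _ hb, dickson_eq_one_of_mem_commutator C.nd hg] at h2
  exact absurd h2 (by decide)

/-- An element of `H` mapping a root to a root is monomial. -/
theorem rigid {h : OG (sQ ι F)} (hh : h ∈ H) {b : ι → F} (hb : sQ ι F b ≠ 0) (rb : refl (sQ ι F) b ∈ Mon ι F)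
    (rb' : refl (sQ ι F) (h.1 b) ∈ Mon ι F) : h ∈ Mon ι F := by
  have h0 := C.refl_mul_mem rb rb' hb (by rwa [OG.map_app]) (by rw [OG.map_app])
  have h1 : ∀ v, refl (sQ ι F) b * refl (sQ ι F) v ∈ H → refl (sQ ι F) b * refl (sQ ι F) (h.1 v) ∈ H := fun v hv => by
    have := H.mul_mem (H.mul_mem (H.mul_mem h0 hh) hv) (H.inv_mem hh)
    rw [← refl_conj] at this ⊢
    simpa [mul_assoc, ← mul_assoc (refl (sQ ι F) b) (refl (sQ ι F) b), refl_mul_self] using this
  have h2 : ∀ {d v : ι → F} {t : F}, refl (sQ ι F) b * refl (sQ ι F) d ∈ H → refl (sQ ι F) d ∈ Mon ι F →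
      refl (sQ ι F) v ∈ Mon ι F → sQ ι F v ≠ 0 → t ≠ 0 → sQ ι F d = t ^ 2 * sQ ι F v →
      refl (sQ ι F) b * refl (sQ ι F) (h.1 v) ∈ H := fun {d v t} hd rd rv hv ht hq => by
    have hqd : sQ ι F d ≠ 0 := hq ▸ mul_ne_zero (pow_ne_zero _ ht) hv
    have := H.mul_mem hd (C.refl_mul_mem rd rv hqd hv (isSquare_iff_of_mul hqd hv ⟨t * sQ ι F v, by rw [hq]; ring⟩))
    rw [mul_assoc, ← mul_assoc (refl (sQ ι F) d), refl_mul_self, one_mul] at this
    exact h1 v this
  have hD : ∀ {i j : ι} {c ε : F}, i ≠ j → c ≠ 0 → ε ^ 2 = 1 →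
      refl (sQ ι F) b * refl (sQ ι F) (c • (fe i + ε • fe j)) ∈ H → h ∈ Mon ι F := fun {i j c ε} hij hc0 hε hd =>
    mem_Mon_of_D C.two (by have := C.six; omega) fun a k hak e he => by
      have hq : sQ ι F (fe a + e • fe k) ≠ 0 := by rw [sQ_pair hak, he, one_add_one_eq_two]; exact C.two
      exact C.root_of_cl hc hH hb rb (by rwa [OG.map_app]) (h2 hd (by
        rw [refl_smul hc0]; exact refl_pair_mem_Mon C.two hij hε) (refl_pair_mem_Mon C.two hak he) hq hc0
          (by rw [map_smul', sQ_pair hij, sQ_pair hak, he, hε]))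
  have hbb : refl (sQ ι F) b * refl (sQ ι F) b ∈ H := by rw [refl_mul_self]; exact one_mem _
  rcases root_cases hb C.two rb with ⟨i, c, hc0, h3⟩ | ⟨i, j, c, ε, hij, hc0, hε, h3⟩
  swap
  · exact hD hij hc0 hε (h3 ▸ hbb)
  by_contra hn
  refine hn (mem_Mon_of C.two fun a => ?_)
  have h4 := h2 hbb rb (refl_fe_mem_Mon a) (by simp) hc0 (by rw [h3, map_smul']; simp)
  rcases root_cases (by simp [OG.map_app]) C.two (C.root_of_cl hc hH hb rb (by simp [OG.map_app]) h4) with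
    ⟨k, d, -, h5⟩ | ⟨k, l, d, ε, hkl, hd, hε, h5⟩
  · exact ⟨k, d, h5⟩
  · exact (hn (hD hkl hd hε (h5 ▸ h4))).elim

section Cent

variable {z h : OG (sQ ι F)} {σ : Equiv.Perm ι} {η : ι → F} (hη : ∀ i, η i ^ 2 = 1)
  (hσ : ∀ x i, z.1 x (σ i) = η i * x i) (hz : z * z = 1) (h1 : z ≠ 1) (h1' : z ≠ negOG _) (hh : h ∈ H)
  (hzh : h * z = z * h) (hn : h ∉ Mon ι F)
include hη hσ hz h1 h1' hh hzh hn

theorem cent_core {ε : F} (hε : ε ^ 2 = 1) {x y w : ι → F} (hx : sQ ι F x ≠ 0) (hy : sQ ι F y = sQ ι F x)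
    (hw : sQ ι F w = sQ ι F x) (hxy : polar (sQ ι F) x y = 0) (hxw : polar (sQ ι F) x w = 0)
    (hyw : polar (sQ ι F) y w = 0) (rx : refl (sQ ι F) x ∈ Mon ι F) (ry : refl (sQ ι F) y ∈ Mon ι F)
    (rw' : refl (sQ ι F) w ∈ Mon ι F) (zx : z.1 x = ε • x) (zy : z.1 y = ε • y) (zw : z.1 w = ε • w) :
    (∀ j, h.1 x j ≠ 0 → 4 * h.1 x j ^ 2 = sQ ι F x) ∧ ∃ S : Finset ι, S.card = 4 ∧ ∀ j ∈ S, z.1 (fe j) = ε • fe j := by
  have hε0 : ε ≠ 0 := by rintro rfl; simp at hε
  obtain ⟨b, hb, rb, zb⟩ : ∃ b, sQ ι F b ≠ 0 ∧ refl (sQ ι F) b ∈ Mon ι F ∧ z.1 b = (-ε) • b := by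
    obtain ⟨i, hi⟩ : ∃ i, z.1 (fe i) ≠ ε • fe i := by
      by_contra! h0
      have h3 : ∀ u, z.1 u = ε • u := fun u => by
        have : (z.1 : (ι → F) →ₗ[F] (ι → F)) = ε • LinearMap.id := (Pi.basisFun F ι).ext fun i => by
          simpa [fe] using h0 i
        exact LinearMap.congr_fun this u
      rcases sq_eq_one_iff.1 hε with rfl | rfl
      · exact h1 (OG.ext' fun u => by rw [h3, one_smul]; rfl)
      · exact h1' (OG.ext' fun u => by rw [h3, neg_one_smul]; rfl)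
    by_cases h3 : σ i = i
    · refine ⟨fe i, by simp, refl_fe_mem_Mon i, ?_⟩
      rw [app_fe hσ, h3] at hi ⊢
      rw [(sq_eq_sq_iff_eq_or_eq_neg.1 ((hη i).trans hε.symm)).resolve_left fun h0 => hi (by rw [h0])]
    · have h4 : (-ε * η i) ^ 2 = 1 := by rw [mul_pow, neg_sq, hε, hη, mul_one]
      refine ⟨fe i + (-ε * η i) • fe (σ i), by rw [sQ_pair (Ne.symm h3), h4, one_add_one_eq_two]; exact C.two,
        refl_pair_mem_Mon C.two (Ne.symm h3) h4, ?_⟩
      rw [map_add, map_smul, app_fe hσ, app_fe hσ, (invol_perm hσ hz i).1]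
      match_scalars
      · linear_combination (-η i) * hε
      · linear_combination (-ε) * (invol_perm hσ hz i).2
  have hzz : ∀ {u}, z.1 u = ε • u → z.1 (h.1 u) = ε • h.1 u := fun {u} hu => by
    rw [← OG.mul_app, ← hzh, OG.mul_app, hu, map_smul]
  have key : ∀ {u}, sQ ι F u = sQ ι F x → refl (sQ ι F) u ∈ Mon ι F → z.1 u = ε • u →
      refl (sQ ι F) (h.1 x) * refl (sQ ι F) (h.1 u) ∈ Mon ι F := fun {u} hu ru zu => by
    refine C.rigid hc hH ?_ hb rb ?_
    · have := H.mul_mem (H.mul_mem hh (C.refl_mul_mem rx ru hx (hu ▸ hx) (by rw [hu]))) (H.inv_mem hh)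
      rw [← refl_conj, ← refl_conj]
      simpa [mul_assoc] using this
    · rwa [OG.mul_app, refl_app_of_polar (polar_eq_zero_of_eigen C.two hε (hzz zu) zb),
        refl_app_of_polar (polar_eq_zero_of_eigen C.two hε (hzz zx) zb)]
  obtain ⟨h4, h5, -, h6⟩ := (root_or_half C.two (by rwa [OG.map_app]) (by rwa [OG.map_app, hy]) (by rwa [OG.map_app, hw])
    (by rwa [OG.polar_app]) (by rwa [OG.polar_app]) (by rwa [OG.polar_app]) (key hy ry zy) (key hw rw' zw)).resolve_left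
      fun h0 => hn (C.rigid hc hH hh hx rx h0)
  refine ⟨fun j hj => by rw [h5 j (mem_supp.2 hj), OG.map_app], _, h4, fun j hj => ?_⟩
  have h7 : z.1 (z.1 (fe j) - ε • fe j) = (-ε) • (z.1 (fe j) - ε • fe j) := by
    rw [map_sub, map_smul, ← OG.mul_app, hz, OG.one_app]
    match_scalars
    · linear_combination -hε
    · ring
  have h9 : (z.1 (fe j) - ε • fe j : ι → F) j = 0 := by
    by_contra h0
    have h3 := h6 _ (polar_eq_zero_of_eigen C.two hε (hzz zx) h7) (polar_eq_zero_of_eigen C.two hε (hzz zy) h7)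
      (polar_eq_zero_of_eigen C.two hε (hzz zw) h7) j hj h0
    have : supp (z.1 (fe j) - ε • fe j : ι → F) ⊆ {j, σ j} := fun k hk => by
      by_contra h10
      simp only [Finset.mem_insert, Finset.mem_singleton, not_or] at h10
      simp [app_fe hσ, fe_ne h10.1, fe_ne h10.2] at hk
    have := (Finset.card_le_card this).trans Finset.card_le_two
    omega
  rw [app_fe hσ] at h9 ⊢
  by_cases h3 : j = σ j
  · rw [← h3] at h9 ⊢
    simp only [Pi.sub_apply, Pi.smul_apply, fe_self, smul_eq_mul, mul_one, sub_eq_zero] at h9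
    rw [h9]
  · simp [fe_ne h3, hε0] at h9

theorem cent_four {ε : F} (hε : ε ^ 2 = 1) {S : Finset ι} (hS : S.card = 4) (h4 : ∀ j ∈ S, z.1 (fe j) = ε • fe j) :
    False := by
  obtain ⟨a, b, c, d, hab, hac, had, hbc, hbd, hcd, rfl⟩ := Finset.card_eq_four.1 hS
  have za := h4 a (by simp)
  have zb := h4 b (by simp)
  have zc := h4 c (by simp)
  have zd := h4 d (by simp)
  have h2 := C.two
  have ha := (C.cent_core hc hH hη hσ hz h1 h1' hh hzh hn hε (by simp) (by simp) (by simp) (by simp [fe_ne hab.symm])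
    (by simp [fe_ne hac.symm]) (by simp [fe_ne hbc.symm]) (refl_fe_mem_Mon a) (refl_fe_mem_Mon b) (refl_fe_mem_Mon c)
    za zb zc).1
  have hb := (C.cent_core hc hH hη hσ hz h1 h1' hh hzh hn hε (by simp) (by simp) (by simp) (by simp [fe_ne hab])
    (by simp [fe_ne hbc.symm]) (by simp [fe_ne hac.symm]) (refl_fe_mem_Mon b) (refl_fe_mem_Mon a) (refl_fe_mem_Mon c)
    zb za zc).1
  have hd := (C.cent_core hc hH hη hσ hz h1 h1' hh hzh hn hε (x := fe a - fe b) (y := fe a + (1 : F) • fe b)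
    (w := fe c - fe d) (by rwa [sQ_fe_sub hab]) (by rw [one_smul, sQ_fe_sub hab, sQ_fe_add hab])
    (by rw [sQ_fe_sub hab, sQ_fe_sub hcd]) (by simp [polar_sub_left, fe_ne hab, fe_ne hab.symm])
    (by simp [fe_ne hac.symm, fe_ne had.symm, fe_ne hbc.symm, fe_ne hbd.symm])
    (by simp [fe_ne hac.symm, fe_ne had.symm, fe_ne hbc.symm, fe_ne hbd.symm]) (refl_sub_mem_Mon h2 hab)
    (refl_pair_mem_Mon h2 hab (by simp)) (refl_sub_mem_Mon h2 hcd) (by rw [map_sub, za, zb, smul_sub])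
    (by rw [one_smul, map_add, za, zb, smul_add]) (by rw [map_sub, zc, zd, smul_sub])).1
  obtain ⟨k, hk⟩ := Function.ne_iff.1 (OG.app_ne_zero h (v := fe a - fe b) fun h0 => by
    simpa [fe_ne hab] using congrFun h0 a)
  have h5 := hd k hk
  rw [sQ_fe_sub hab, map_sub, Pi.sub_apply] at h5
  simp only [sQ_fe] at ha hb
  by_cases h6 : h.1 (fe a) k = 0 <;> by_cases h7 : h.1 (fe b) k = 0
  · rw [h6, h7] at h5; exact h2 (by linear_combination -h5)
  · rw [h6] at h5; exact one_ne_zero (α := F) (by linear_combination hb k h7 - h5)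
  · rw [h7] at h5; exact one_ne_zero (α := F) (by linear_combination ha k h6 - h5)
  · exact mul_ne_zero (mul_ne_zero (mul_ne_zero h2 h2) h2) (mul_ne_zero h6 h7)
      (by linear_combination ha k h6 + hb k h7 - h5)

theorem cent_D {ε : F} (hε : ε ^ 2 = 1) {i i' j j' k k' : ι} {a b c : F} (hi : i ≠ i') (hj : j ≠ j') (hk : k ≠ k')
    (ha : a ^ 2 = 1) (hb : b ^ 2 = 1) (hc' : c ^ 2 = 1) (hij : j ∉ [i, i'] ∧ j' ∉ [i, i'])
    (hik : k ∉ [i, i', j, j'] ∧ k' ∉ [i, i', j, j']) (zi : z.1 (fe i + a • fe i') = ε • (fe i + a • fe i'))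
    (zj : z.1 (fe j + b • fe j') = ε • (fe j + b • fe j')) (zk : z.1 (fe k + c • fe k') = ε • (fe k + c • fe k')) :
    False := by
  simp only [List.mem_cons, List.not_mem_nil, or_false, not_or] at hij hik
  obtain ⟨⟨h3, h4⟩, h5, h6⟩ := hij
  obtain ⟨⟨h7, h9, h10, h11⟩, h12, h13, h14, h15⟩ := hik
  obtain ⟨S, hS, hS'⟩ := (C.cent_core hc hH hη hσ hz h1 h1' hh hzh hn hε
    (by rw [sQ_pair hi, ha, one_add_one_eq_two]; exact C.two) (by rw [sQ_pair hi, sQ_pair hj, ha, hb])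
    (by rw [sQ_pair hi, sQ_pair hk, ha, hc']) (by simp [polar_add_right, fe_ne h3, fe_ne h4, fe_ne h5, fe_ne h6])
    (by simp [polar_add_right, fe_ne h7, fe_ne h9, fe_ne h12, fe_ne h13])
    (by simp [polar_add_right, fe_ne h10, fe_ne h11, fe_ne h14, fe_ne h15]) (refl_pair_mem_Mon C.two hi ha)
    (refl_pair_mem_Mon C.two hj hb) (refl_pair_mem_Mon C.two hk hc') zi zj zk).2
  exact C.cent_four hc hH hη hσ hz h1 h1' hh hzh hn hε hS hS'

omit hη hσ hz h1 h1' hh hzh hn hc in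
theorem not_three (hzH : z ∈ H) {x y w : ι → F} (hx : sQ ι F x ≠ 0) (hy : sQ ι F y ≠ 0) (hw : sQ ι F w ≠ 0)
    (hxy : polar (sQ ι F) x y = 0) (hxw : polar (sQ ι F) x w = 0) (hyw : polar (sQ ι F) y w = 0)
    (zx : z.1 x = (-1 : F) • x) (zy : z.1 y = (-1 : F) • y) (zw : z.1 w = (-1 : F) • w) :
    ¬ ∀ k, z.1 (fe k) - fe k ∈ Submodule.span F {x, y, w} := fun h0 => by
  obtain ⟨m1, m2, m3⟩ := mem_span3 x y w
  have h3 : z = refl (sQ ι F) x * (refl (sQ ι F) y * refl (sQ ι F) w) := eq_of_movIn C.nd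
    (span_three C.two hx hy hw hxy hxw hyw).1 (mem_movIn.2 fun v => by
      rw [pi_eq_sum_univ' v, map_sum, ← Finset.sum_sub_distrib]
      exact Submodule.sum_mem _ fun k _ => by rw [map_smul, ← smul_sub]; exact Submodule.smul_mem _ _ (h0 k))
    (mul_mem (refl_mem_movIn m1) (mul_mem (refl_mem_movIn m2) (refl_mem_movIn m3))) fun v hv => by
      obtain ⟨r, s, t, rfl⟩ := Submodule.mem_span_triple.1 hv
      simp only [OG.mul_app, map_add, map_smul, map_neg, zx, zy, zw, refl_app_self hx, refl_app_self hy, refl_app_self hw,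
        refl_app_of_polar hxy, refl_app_of_polar hxw, refl_app_of_polar hyw, neg_one_smul,
        refl_app_of_polar ((polar_comm _ _ _).trans hxy), refl_app_of_polar ((polar_comm _ _ _).trans hxw),
        refl_app_of_polar ((polar_comm _ _ _).trans hyw)]
  have h4 := dickson_eq_one_of_mem_commutator C.nd (hH hzH)
  rw [h3, map_mul, map_mul, dickson_refl _ hx, dickson_refl _ hy, dickson_refl _ hw] at h4
  exact absurd h4 (by decide)

theorem cent_false (hzH : z ∈ H) : False := by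
  classical
  have hfix : ∀ {ε : F} {i}, i ∈ Finset.univ.filter (fun i => σ i = i ∧ η i = ε) → z.1 (fe i) = ε • fe i :=
    fun {ε i} hi => by
      rw [Finset.mem_filter] at hi
      rw [app_fe hσ, hi.2.1, hi.2.2]
  have hA : ∀ ε : F, ε ^ 2 = 1 → (Finset.univ.filter fun i => σ i = i ∧ η i = ε).card ≤ 2 := fun ε hε => by
    by_contra! h0
    obtain ⟨a, ha, b, hb, c, hc', hab, hac, hbc⟩ := Finset.two_lt_card.1 h0
    obtain ⟨S, hS, hS'⟩ := (C.cent_core hc hH hη hσ hz h1 h1' hh hzh hn hε (by simp) (by simp) (by simp)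
      (by simp [fe_ne hab.symm]) (by simp [fe_ne hac.symm]) (by simp [fe_ne hbc.symm]) (refl_fe_mem_Mon a)
      (refl_fe_mem_Mon b) (refl_fe_mem_Mon c) (hfix ha) (hfix hb) (hfix hc')).2
    exact C.cent_four hc hH hη hσ hz h1 h1' hh hzh hn hε hS hS'
  have hσ2 := fun i => (invol_perm hσ hz i).1
  have hD : ∀ {ε : F}, ε ^ 2 = 1 → ∀ i, (ε * η i) ^ 2 = 1 ∧
      z.1 (fe i + (ε * η i) • fe (σ i)) = ε • (fe i + (ε * η i) • fe (σ i)) := fun {ε} hε i => by
    refine ⟨by rw [mul_pow, hε, hη, mul_one], ?_⟩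
    rw [map_add, map_smul, app_fe hσ, app_fe hσ, hσ2]
    match_scalars
    · linear_combination (-η i) * hε
    · linear_combination ε * (invol_perm hσ hz i).2
  have hN : ∀ l : List ι, l.length < (Finset.univ.filter fun i => i ≠ σ i).card → (∀ a ∈ l, σ a ∈ l) →
      ∃ i, i ≠ σ i ∧ i ∉ l ∧ σ i ∉ l := fun l hl hl' => by
    obtain ⟨i, hi, hi'⟩ := Finset.exists_mem_notMem_of_card_lt_card ((List.toFinset_card_le l).trans_lt hl)
    rw [List.mem_toFinset] at hi'
    exact ⟨i, (Finset.mem_filter.1 hi).2, hi', fun h0 => hi' (hσ2 i ▸ hl' _ h0)⟩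
  have h7 := C.six
  have h3 := hA 1 (by simp)
  have h4 := hA (-1) (by simp)
  have hcov : ∀ i, i ∈ (Finset.univ.filter fun i => i ≠ σ i) ∨ i ∈ (Finset.univ.filter fun i => σ i = i ∧ η i = 1) ∨
      i ∈ Finset.univ.filter fun i => σ i = i ∧ η i = -1 := fun i => by
    by_cases h0 : i = σ i
    · simpa [h0.symm] using sq_eq_one_iff.1 (hη i)
    · simp [h0]
  have hcard : Fintype.card ι ≤ (Finset.univ.filter fun i => i ≠ σ i).card +
      ((Finset.univ.filter fun i => σ i = i ∧ η i = 1).card + (Finset.univ.filter fun i => σ i = i ∧ η i = -1).card) := by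
    rw [← Finset.card_univ]
    exact (Finset.card_le_card fun i _ => by simpa only [Finset.mem_union] using hcov i).trans
      ((Finset.card_union_le _ _).trans (Nat.add_le_add_left (Finset.card_union_le _ _) _))
  have hq : ∀ {i}, i ≠ σ i → sQ ι F (fe i + (-1 * η i) • fe (σ i)) ≠ 0 := fun {i} hi => by
    rw [sQ_pair hi, (hD (by simp) i).1, one_add_one_eq_two]; exact C.two
  have hmov : ∀ {W : Submodule F (ι → F)} {i}, fe i + (-1 * η i) • fe (σ i) ∈ W →
      z.1 (fe i) - fe i ∈ W ∧ z.1 (fe (σ i)) - fe (σ i) ∈ W := fun {W i} h0 => by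
    rw [app_fe hσ, app_fe hσ, hσ2]
    refine ⟨by convert W.neg_mem h0 using 1; module, ?_⟩
    convert W.smul_mem (η (σ i)) h0 using 1
    match_scalars
    · ring
    · linear_combination (invol_perm hσ hz i).2
  have hneg : ∀ {W : Submodule F (ι → F)} {i}, i ∈ (Finset.univ.filter fun i => σ i = i ∧ η i = -1) → fe i ∈ W →
      z.1 (fe i) - fe i ∈ W := fun {W i} hi h0 => by rw [hfix hi]; exact W.sub_mem (W.smul_mem _ h0) h0
  have hpos : ∀ {W : Submodule F (ι → F)} {i}, i ∈ (Finset.univ.filter fun i => σ i = i ∧ η i = 1) →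
      z.1 (fe i) - fe i ∈ W := fun {W i} hi => by rw [hfix hi, one_smul, sub_self]; exact W.zero_mem
  have h9 : ∀ {ε : F} {a i}, a ∈ Finset.univ.filter (fun i => σ i = i ∧ η i = ε) → i ≠ σ i → a ≠ i ∧ a ≠ σ i :=
    fun {ε a i} ha hi => by
      have := (Finset.mem_filter.1 ha).2.1
      exact ⟨by rintro rfl; exact hi this.symm, by rintro rfl; exact hi ((hσ2 i).symm.trans this)⟩
  obtain ⟨i, hi, -⟩ := hN [] (by simp only [List.length_nil]; omega) (by simp)
  by_cases h6 : ∃ j, j ≠ σ j ∧ j ∉ [i, σ i] ∧ σ j ∉ [i, σ i]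
  swap
  · have h5 : (Finset.univ.filter fun i => i ≠ σ i).card ≤ 2 :=
      not_lt.1 fun h0 => h6 (hN [i, σ i] h0 (by simp [hσ2]))
    obtain ⟨a, b, hab, h0⟩ := Finset.card_eq_two.1
      (show (Finset.univ.filter fun i => σ i = i ∧ η i = -1).card = 2 by omega)
    have ha : a ∈ Finset.univ.filter fun i => σ i = i ∧ η i = -1 := h0 ▸ by simp
    have hb : b ∈ Finset.univ.filter fun i => σ i = i ∧ η i = -1 := h0 ▸ by simp
    obtain ⟨m1, m2, m3⟩ := mem_span3 (F := F) (fe i + (-1 * η i) • fe (σ i)) (fe a) (fe b)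
    refine C.not_three hH hzH (hq hi) (by simp) (by simp) (by simp [fe_ne (h9 ha hi).1, fe_ne (h9 ha hi).2])
      (by simp [fe_ne (h9 hb hi).1, fe_ne (h9 hb hi).2]) (by simp [fe_ne hab.symm]) (hD (by simp) i).2 (hfix ha) (hfix hb)
      fun k => ?_
    rcases hcov k with hk | hk | hk
    · by_cases e : k = i
      · exact e ▸ (hmov m1).1
      by_cases e' : k = σ i
      · exact e' ▸ (hmov m1).2
      exact (h6 ⟨k, (Finset.mem_filter.1 hk).2, by simp [e, e'], by
        simpa using ⟨fun h => e' (by rw [← h, hσ2]), e⟩⟩).elim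
    · exact hpos hk
    · refine hneg hk ?_
      rcases Finset.mem_insert.1 (h0 ▸ hk) with rfl | e
      exacts [m2, Finset.mem_singleton.1 e ▸ m3]
  obtain ⟨j, hj, hij⟩ := h6
  by_cases h5 : ∃ k, k ≠ σ k ∧ k ∉ [i, σ i, j, σ j] ∧ σ k ∉ [i, σ i, j, σ j]
  · obtain ⟨k, hk, hik⟩ := h5
    exact C.cent_D hc hH hη hσ hz h1 h1' hh hzh hn (one_pow 2) hi hj hk (hD (one_pow 2) i).1 (hD (one_pow 2) j).1
      (hD (one_pow 2) k).1 hij hik (hD (one_pow 2) i).2 (hD (one_pow 2) j).2 (hD (one_pow 2) k).2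
  have h8 : (Finset.univ.filter fun i => i ≠ σ i).card ≤ 4 :=
    not_lt.1 fun h0 => h5 (hN [i, σ i, j, σ j] h0 (by simp [hσ2]))
  by_cases h6 : ∃ ε : F, ε ^ 2 = 1 ∧ 1 < (Finset.univ.filter fun i => σ i = i ∧ η i = ε).card
  · obtain ⟨ε, hε, h6⟩ := h6
    obtain ⟨a, ha, b, hb, hab⟩ := Finset.one_lt_card.1 h6
    exact C.cent_D hc hH hη hσ hz h1 h1' hh hzh hn hε hi hj hab (hD hε i).1 (hD hε j).1 (one_pow 2) hij
      ⟨by simp [h9 ha hi, h9 ha hj], by simp [h9 hb hi, h9 hb hj]⟩ (hD hε i).2 (hD hε j).2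
      (by rw [one_smul, map_add, hfix ha, hfix hb, smul_add])
  push Not at h6
  have h10 := h6 1 (by simp)
  have h11 := h6 (-1) (by simp)
  obtain ⟨a, h0⟩ := Finset.card_eq_one.1 (show (Finset.univ.filter fun i => σ i = i ∧ η i = -1).card = 1 by omega)
  have ha : a ∈ Finset.univ.filter fun i => σ i = i ∧ η i = -1 := h0 ▸ by simp
  obtain ⟨m1, m2, m3⟩ := mem_span3 (F := F) (fe i + (-1 * η i) • fe (σ i)) (fe j + (-1 * η j) • fe (σ j)) (fe a)
  simp only [List.mem_cons, List.not_mem_nil, or_false, not_or] at hij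
  refine C.not_three hH hzH (hq hi) (hq hj) (by simp)
    (by simp [polar_add_right, fe_ne hij.1.1, fe_ne hij.1.2, fe_ne hij.2.1, fe_ne hij.2.2])
    (by simp [fe_ne (h9 ha hi).1, fe_ne (h9 ha hi).2]) (by simp [fe_ne (h9 ha hj).1, fe_ne (h9 ha hj).2])
    (hD (by simp) i).2 (hD (by simp) j).2 (hfix ha) fun k => ?_
  rcases hcov k with hk | hk | hk
  · have : k ∈ [i, σ i, j, σ j] := by_contra fun e => h5 ⟨k, (Finset.mem_filter.1 hk).2, e, fun e' => e (by
      rw [← hσ2 k]; revert e'; generalize σ k = l; simp only [List.mem_cons, List.not_mem_nil, or_false]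
      rintro (rfl | rfl | rfl | rfl) <;> simp [hσ2])⟩
    simp only [List.mem_cons, List.not_mem_nil, or_false] at this
    rcases this with rfl | rfl | rfl | rfl
    exacts [(hmov m1).1, (hmov m1).2, (hmov m2).1, (hmov m2).2]
  · exact hpos hk
  · exact hneg hk (Finset.mem_singleton.1 (h0 ▸ hk) ▸ m3)

end Cent

theorem cent {z h : OG (sQ ι F)} (hz : z ∈ Mon ι F) (hzH : z ∈ H) (hz2 : z * z = 1) (h1 : z ≠ 1) (h1' : z ≠ negOG _)
    (hh : h ∈ H) (hzh : h * z = z * h) : h ∈ Mon ι F := by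
  obtain ⟨σ, η, hη, hσ⟩ := hz
  by_contra hn
  exact C.cent_false hc hH hη hσ hz2 h1 h1' hh hzh hn hzH

theorem mem_Mon_of_flip {g : OG (sQ ι F)} (hg : g ∈ H) {a k : ι} (hak : a ≠ k)
    (h : g * flip F {a, k} * g⁻¹ ∈ Mon ι F) : g ∈ Mon ι F := by
  have h2 := C.two
  obtain ⟨l, hl⟩ := C.out [a, k] (by simp)
  have hH' : ∀ {c d : ι}, c ≠ d → g * flip F {c, d} * g⁻¹ ∈ H := fun h =>
    H.mul_mem (H.mul_mem hg (C.flip_two_mem h)) (H.inv_mem hg)
  refine C.rigid hc hH hg (b := fe a) (by simp) (refl_fe_mem_Mon a)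
    (root_of_all h2 (by rw [C.six]; norm_num) g a fun c hc' => ?_)
  have := C.cent hc hH h (hH' hak) (by simp [mul_assoc, ← mul_assoc (flip F _), flip_mul_self]) (fun e => ?_)
    (fun e => ?_) (hH' hc'.symm) ?_
  · rw [flip_pair hc'.symm] at this
    rw [← refl_conj, ← refl_conj]
    simpa [mul_assoc] using this
  · have := congrArg (fun t : OG (sQ ι F) => (g⁻¹ * t * g).1 (fe a) a) e
    simp only [← mul_assoc, inv_mul_cancel, one_mul, inv_mul_cancel_right, mul_one, flip_app, OG.one_app] at this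
    exact h2 (by simp at this; linear_combination -this)
  · have := congrArg (fun t : OG (sQ ι F) => (g⁻¹ * t * g).1 (fe l) l) e
    simp only [← mul_assoc, inv_mul_cancel, one_mul, inv_mul_cancel_right, flip_app] at this
    rw [mul_assoc, ← negOG_comm, inv_mul_cancel_left, negOG_app, if_neg (by simpa using hl)] at this
    exact h2 (by simp at this; linear_combination this)
  · have e : flip F {a, c} * flip F {a, k} = flip F {a, k} * flip F {a, c} := OG.ext' fun x => funext fun i => by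
      simp only [OG.mul_app, flip_app]; split_ifs <;> rfl
    simp only [mul_assoc, inv_mul_cancel_left]
    rw [← mul_assoc (flip F _), e, mul_assoc]

theorem le_Mon : H ≤ Mon ι F := fun g hg => by
  classical
  have := Fintype.ofFinite F
  have := finite_OG (sQ ι F)
  have h2 := C.two
  obtain ⟨a, -⟩ := C.out [] (by simp)
  obtain ⟨b, hb⟩ := C.out [a] (by simp)
  obtain ⟨c, hc'⟩ := C.out [a, b] (by simp)
  obtain ⟨d, hd⟩ := C.out [a, b, c] (by simp)
  obtain ⟨k, hk⟩ := C.out [a, b, c, d] (by simp)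
  obtain ⟨l, hl⟩ := C.out [a, b, c, d, k] (by simp)
  simp only [List.mem_cons, List.not_mem_nil, or_false, not_or] at hb hc' hd hk hl
  refine C.mem_Mon_of_flip hc hH hg (Ne.symm hb) ?_
  have ht : g * flip F {a, b} * g⁻¹ ∈ H := H.mul_mem (H.mul_mem hg (C.flip_two_mem (Ne.symm hb))) (H.inv_mem hg)
  have ht2 : g * flip F {a, b} * g⁻¹ * (g * flip F {a, b} * g⁻¹) = 1 := by
    simp [mul_assoc, ← mul_assoc (flip F _), flip_mul_self]
  have ht3 : ∀ u : OG (sQ ι F), u * (g * flip F {a, b} * g⁻¹) * u⁻¹ ∈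
      movIn _ (Submodule.span F {(u * g).1 (fe a), (u * g).1 (fe b)}) := fun u => by
    have := refl_mul_refl_mem_movIn_pair (Q := sQ ι F) ((u * g).1 (fe a)) ((u * g).1 (fe b))
    rw [← refl_conj, ← refl_conj] at this
    rw [flip_pair (Ne.symm hb)]
    simpa [mul_assoc] using this
  set t := g * flip F {a, b} * g⁻¹ with ht'
  have hxy : polar (sQ ι F) (fe a - fe b) (fe c - fe d) = 0 := by
    simp [fe_ne hc'.1, fe_ne hc'.2, fe_ne hd.1, fe_ne hd.2.1]
  have hs : refl (sQ ι F) (fe a - fe b) * refl (sQ ι F) (fe c - fe d) ∈ H := by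
    rw [refl_fe_sub h2 (Ne.symm hb), refl_fe_sub h2 (Ne.symm hd.2.2)]
    exact C.swap_mul_mem (Ne.symm hb) (Ne.symm hd.2.2)
  have hsM := mul_mem (refl_sub_mem_Mon h2 (Ne.symm hb)) (refl_sub_mem_Mon h2 (Ne.symm hd.2.2))
  have hs2 := refl_mul_refl_sq hxy
  have hs3 := refl_mul_refl_mem_movIn_pair (Q := sQ ι F) (fe a - fe b) (fe c - fe d)
  have hs4 : ∀ x : ι → F, x a = x b → x c = x d →
      (refl (sQ ι F) (fe a - fe b) * refl (sQ ι F) (fe c - fe d)).1 x = x := fun x e e' => by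
    rw [OG.mul_app, refl_app_of_polar (x := x) (by simp [polar_sub_left, e']),
      refl_app_of_polar (by simp [polar_sub_left, e])]
  have hs5 : (refl (sQ ι F) (fe a - fe b) * refl (sQ ι F) (fe c - fe d)).1 (fe a) = fe b := by
    rw [OG.mul_app, refl_app_of_polar (x := fe a) (by simp [fe_ne (Ne.symm hc'.1), fe_ne (Ne.symm hd.1)]),
      refl_fe_sub h2 (Ne.symm hb), prm_fe, Equiv.swap_apply_left]
  set s := refl (sQ ι F) (fe a - fe b) * refl (sQ ι F) (fe c - fe d)
  have hn : negOG (sQ ι F) = flip F Finset.univ := OG.ext' fun x => funext fun i => by simp [flip_app, negOG_app]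
  have hnH : negOG (sQ ι F) ∈ H := hn ▸ C.flip_mem (by rw [Finset.card_univ, C.six]; decide)
  have hnc : ∀ u, Commute (negOG (sQ ι F)) u := fun u => (negOG_comm u).symm
  have hs' : negOG _ * s * (negOG _ * s) = 1 := by rw [← pow_two, (hnc s).mul_pow, pow_two, pow_two, negOG_mul_self, hs2, one_mul]
  have hdim : ∀ {u : OG (sQ ι F)} {x y : ι → F}, u ∈ movIn _ (Submodule.span F {x, y}) → u ≠ negOG _ * s :=
    fun {u x y} h4 h3 => by
      have h5 : ∀ v : ι → F, v a = v b → v c = v d → v ∈ Submodule.span F {x, y} := fun v e e' => by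
        have := h4 v
        rwa [h3, OG.mul_app, hs4 v e e', negOG_app, show -v - v = (-2 : F) • v by module,
          Submodule.smul_mem_iff _ (neg_ne_zero.2 h2)] at this
      have h6 := (C.span_coord (Ne.symm hl.2.2.2.2) (w := fe a + fe b) (by rwa [sQ_fe_add (Ne.symm hb)])
        (by simp [fe_ne hk.1, fe_ne hk.2.1]) (by simp [fe_ne hl.1, fe_ne hl.2.1])).2
      have h9 := Submodule.finrank_mono (show Submodule.span F {fe k, fe l, fe a + fe b} ≤ Submodule.span F {x, y} by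
        rw [Submodule.span_le]
        rintro _ (rfl | rfl | rfl) <;> refine h5 _ ?_ ?_ <;> simp [fe_app, *, Ne.symm])
      have := finrank_span_pair_le_two (F := F) x y
      omega
  rcases Nat.even_or_odd' (orderOf (negOG _ * s * t)) with ⟨m, hm | hm⟩
  swap
  · exact (hdim (ht3 _) (isConj_of_odd hs' ht2 (hm ▸ pow_orderOf_eq_one _))).elim
  have hm0 : 0 < m := by have := orderOf_pos (negOG _ * s * t); omega
  have h3 : (negOG _ * s * t) ^ m * (negOG _ * s * t) ^ m = 1 := by rw [← pow_add, ← two_mul, ← hm, pow_orderOf_eq_one]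
  obtain ⟨h4, h5⟩ := commute_of_even hs' ht2 h3
  have hu := H.pow_mem (H.mul_mem (H.mul_mem hnH hs) ht) m
  have h6 := C.cent hc hH (mul_mem (hn ▸ flip_mem_Mon _) hsM) (H.mul_mem hnH hs) hs'
    (fun h => hdim (x := 0) (y := 0) (one_mem _) h.symm) (fun h => by
      rw [mul_eq_left.1 h, OG.one_app] at hs5
      simpa [fe_ne (Ne.symm hb)] using congrFun hs5 a) hu h4
  refine C.cent hc hH h6 hu h3 (pow_ne_one_of_lt_orderOf hm0.ne' (by omega)) (fun h => ?_) ht h5
  rw [mul_assoc, (hnc _).mul_pow] at h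
  rcases Nat.even_or_odd' m with ⟨n, rfl | rfl⟩
  · rw [pow_mul, pow_two, negOG_mul_self, one_pow, one_mul] at h
    set R := Submodule.span F (([fe a - fe b, fe c - fe d, g.1 (fe a), g.1 (fe b)] : List (ι → F)).toFinset : Set (ι → F))
    have h8 : ∀ {u : OG (sQ ι F)} {x y}, x ∈ R → y ∈ R → u ∈ movIn _ (Submodule.span F {x, y}) → u ∈ movIn _ R :=
      fun hx hy h v => Submodule.span_le.2 (Set.insert_subset hx (Set.singleton_subset_iff.2 hy)) (h v)
    have h9 : (s * t) ^ (2 * n) ∈ movIn _ R := pow_mem (mul_mem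
      (h8 (Submodule.subset_span (by simp)) (Submodule.subset_span (by simp)) hs3)
      (h8 (x := g.1 (fe a)) (y := g.1 (fe b)) (Submodule.subset_span (by simp)) (Submodule.subset_span (by simp))
        (by simpa using ht3 1))) _
    have h10 : R = ⊤ := eq_top_iff.2 fun v _ => by
      have := h9 v
      rwa [h, negOG_app, show -v - v = (-2 : F) • v by module, Submodule.smul_mem_iff _ (neg_ne_zero.2 h2)] at this
    have h11 : finrank F R ≤ 4 := (finrank_span_finset_le_card _).trans (List.toFinset_card_le _)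
    rw [h10, finrank_top, C.rank, C.six] at h11
    omega
  rw [pow_succ, pow_mul, pow_two, negOG_mul_self, one_pow, one_mul, mul_eq_left] at h
  have h7 := isConj_of_odd hs2 ht2 h
  have h8 : (s * t) ^ (n + 1) * g * flip F {a, b} * ((s * t) ^ (n + 1) * g)⁻¹ = s := by
    refine Eq.trans ?_ h7
    generalize (s * t) ^ (n + 1) = u
    rw [ht']; group
  obtain ⟨σ, η, hη, hσ⟩ := C.mem_Mon_of_flip hc hH (H.mul_mem (H.pow_mem (H.mul_mem hs ht) (n + 1)) hg) (Ne.symm hb)
    (by rwa [h8])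
  obtain ⟨i, hi⟩ := σ.surjective a
  obtain ⟨j, hj⟩ := σ.surjective b
  have e := congrArg (fun u : OG (sQ ι F) => u.1 (fe i) b) (mul_inv_eq_iff_eq_mul.1 h8)
  simp only [OG.mul_app (_ * g), OG.mul_app s, app_fe hσ, map_smul, hi, hs5] at e
  rw [← hj, hσ, flip_app, fe_ne (show j ≠ i by rintro rfl; exact hb (hj.symm.trans hi))] at e
  have := hη i
  simp [show η i = 0 by simpa using e.symm] at this

end Ctx6

theorem le_Mon_six [Finite F] (h2 : (2 : F) ≠ 0) (hp : ∀ a : F, ∃ n : ℕ, a = n) (h6 : Fintype.card ι = 6)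
    {H : Subgroup (OG (sQ ι F))} (hM : Mon ι F ⊓ commutator _ ≤ H) (hH : H ≤ commutator _) (hc : ¬ commutator _ ≤ H) :
    H ≤ Mon ι F :=
  Ctx6.le_Mon ⟨h2, hp, h6, hM⟩ hc hH

end Fr

end CL.Cls
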