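import Cfsg.Agent.Cls.OrthSiegel

/-! Crossed homomorphisms of `Ω(Q)` over the field with two elements into the natural module: they are
principal when the reflections are generated by those in a tree of independent non-singular vectors. -/

set_option autoImplicit false

open QuadraticMap CL.Cls
open scoped commutatorElement

namespace CL.H1O

variable {V : Type*} [AddCommGroup V] [Module (ZMod 2) V] {Q : QuadraticForm (ZMod 2) V}

theorem h2 : (2 : ZMod 2) = 0 := rfl

theorem ra {a : V} (ha : Q a = 1) (x : V) : (refl Q a).1 x = x + polar Q a x • a := by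
  rw [refl_app, ha, inv_one, one_mul, sub_eq_add_neg, ← neg_smul, ZMod.neg_eq_self_mod_two]

theorem paa (a : V) : polar Q a a = 0 := by rw [polar_self', h2, zero_mul]

theorem rr {a b : V} (ha : Q a = 1) (hb : Q b = 1) (hab : polar Q a b = 1) (x : V) :
    (refl Q a * refl Q b).1 x = x + (polar Q a x + polar Q b x) • a + polar Q b x • b := by
  rw [OG.mul_app, ra hb, ra ha, polar_add_right, polar_smul_right, hab]
  module

/-- A crossed homomorphism on `Ω`. -/
def Coc (D : OG Q → V) : Prop :=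
  ∀ g ∈ commutator (OG Q), ∀ h ∈ commutator (OG Q), D (g * h) = D g + g.1 (D h)

variable {D : OG Q → V}

theorem Coc.one (hD : Coc D) : D 1 = 0 := by
  have := hD 1 (one_mem _) 1 (one_mem _)
  rw [one_mul, OG.one_app] at this
  simpa using this

theorem Coc.sub (hD : Coc D) (v : V) : Coc fun g => D g - (g.1 v - v) := fun g hg h hh => by
  simp only [hD g hg h hh, OG.mul_app, map_sub]
  abel

/-- The elements on which `D` is the principal crossed homomorphism of `v`. -/
def Coc.K (hD : Coc D) (v : V) : Subgroup (OG Q) where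
  carrier := {g | g ∈ commutator (OG Q) ∧ D g = g.1 v - v}
  one_mem' := ⟨one_mem _, by rw [hD.one, OG.one_app, sub_self]⟩
  mul_mem' {a b} ha hb := ⟨mul_mem ha.1 hb.1, by
    rw [hD a ha.1 b hb.1, ha.2, hb.2, map_sub, OG.mul_app]; abel⟩
  inv_mem' {a} ha := ⟨inv_mem ha.1, by
    have := hD a⁻¹ (inv_mem ha.1) a ha.1
    rw [inv_mul_cancel, hD.one, ha.2, map_sub, OG.inv_app_app] at this
    linear_combination (norm := module) -this⟩

variable (hQ : (polarBilin Q).Nondegenerate)
include hQ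

theorem rr_mem {a b : V} (ha : Q a = 1) (hb : Q b = 1) : refl Q a * refl Q b ∈ commutator (OG Q) :=
  refl_mul_refl_mem_commutator hQ (ha ▸ one_ne_zero) (hb ▸ one_ne_zero) (by rw [ha, hb])

theorem Coc.edge (hD : Coc D) {a b : V} (ha : Q a = 1) (hb : Q b = 1) (hab : polar Q a b = 1) :
    ∃ x y : ZMod 2, D (refl Q a * refl Q b) = x • a + y • b := by
  have hba : polar Q b a = 1 := by rw [polar_comm, hab]
  have ht := rr_mem hQ ha hb
  set t := refl Q a * refl Q b with htd
  have h3 : t * (t * t) = 1 := by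
    have h1 := refl_conj (refl Q a) b
    have h4 := refl_conj (refl Q b) a
    rw [refl_inv, ra ha, hab, one_smul] at h1
    rw [refl_inv, ra hb, hba, one_smul, add_comm, ← h1] at h4
    calc t * (t * t) = (refl Q a * refl Q b * refl Q a) * (refl Q b * refl Q a * refl Q b) := by
          simp only [htd, mul_assoc]
      _ = 1 := by rw [h4, h1, refl_mul_self]
  have h5 := hD t ht _ (mul_mem ht ht)
  rw [h3, hD.one, hD t ht t ht, map_add] at h5
  simp only [htd, rr ha hb hab, polar_add_right, polar_smul_right, paa, hab, hba] at h5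
  rw [← htd] at h5
  refine ⟨polar Q b (D t), polar Q a (D t), ?_⟩
  linear_combination (norm := module) -h5 - h2 • (D t + (2 * polar Q a (D t) + 3 * polar Q b (D t)) • a +
    (polar Q a (D t) + 2 * polar Q b (D t)) • b)

theorem Coc.path (hD : Coc D) {a b c : V} (ha : Q a = 1) (hb : Q b = 1) (hc : Q c = 1)
    (hab : polar Q a b = 1) (hbc : polar Q b c = 1) (hac : polar Q a c = 0) (hne : a ≠ c)
    (h0 : D (refl Q a * refl Q b) = 0) : ∃ x : ZMod 2, D (refl Q b * refl Q c) = x • (b + c) := by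
  obtain ⟨x, y, hxy⟩ := hD.edge hQ hb hc hbc
  have hba : polar Q b a = 1 := by rw [polar_comm, hab]
  have hcb : polar Q c b = 1 := by rw [polar_comm, hbc]
  have hca : polar Q c a = 0 := by rw [polar_comm, hac]
  have h1 := hD _ (rr_mem hQ ha hb) _ (rr_mem hQ hb hc)
  rw [h0, zero_add, hxy, mul_assoc, ← mul_assoc (refl Q b), refl_mul_self, one_mul] at h1
  have h3 : refl Q a * refl Q c * (refl Q a * refl Q c) = 1 := by
    have h4 := refl_conj (refl Q a) c
    rw [refl_inv, refl_app_of_polar hac] at h4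
    rw [← mul_assoc, h4, refl_mul_self]
  have h5 := hD _ (rr_mem hQ ha hc) _ (rr_mem hQ ha hc)
  rw [h3, hD.one, h1] at h5
  simp only [OG.mul_app, ra ha, ra hb, ra hc, polar_add_right, polar_smul_right, paa, hab, hba, hbc,
    hcb, hac, hca] at h5
  have h6 : (x + y) • (a + c) = 0 := by
    linear_combination (norm := module) -h5 - h2 • ((x + y) • a + (x + y) • b + y • c)
  rcases smul_eq_zero.mp h6 with h7 | h7
  · refine ⟨x, ?_⟩
    rw [hxy]
    linear_combination (norm := module) h7 • c - h2 • x • c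
  · exact absurd (by linear_combination (norm := module) h7 - h2 • c) hne

/-- `D` is principal on the products of two reflections in vectors of `L`. -/
def Coc.P (hD : Coc D) (u : V) (L : List V) : Prop :=
  ∃ v, ∀ a ∈ L, Q a = 1 ∧ refl Q u * refl Q a ∈ hD.K v

theorem Coc.base (hD : Coc D) {a b : V} (ha : Q a = 1) (hb : Q b = 1) (hab : polar Q a b = 1) :
    hD.P a [b, a] := by
  obtain ⟨x, y, h⟩ := hD.edge hQ ha hb hab
  have hba : polar Q b a = 1 := by rw [polar_comm, hab]
  refine ⟨y • a + (x + y) • b, fun c hc => ?_⟩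
  rcases List.mem_pair.mp hc with rfl | rfl
  · refine ⟨hb, rr_mem hQ ha hb, ?_⟩
    rw [h, rr ha hb hab]
    simp only [polar_add_right, polar_smul_right, paa, hab, hba]
    linear_combination (norm := module) -h2 • y • a
  · exact ⟨ha, by rw [refl_mul_self]; exact one_mem _⟩

theorem Coc.step (hD : Coc D) {u a b c w : V} {L : List V} (h : hD.P u L)
    (hc : u ∈ L ∧ a ∈ L ∧ b ∈ L ∧ Q c = 1 ∧ polar Q a b = 1 ∧ polar Q b c = 1 ∧ polar Q a c = 0 ∧
      a ≠ c ∧ polar Q c w = 1 ∧ ∀ x ∈ L, polar Q x w = 0) : hD.P u (c :: L) := by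
  obtain ⟨hu, ha, hb, hc, hab, hbc, hac, hne, hcw, hw⟩ := hc
  obtain ⟨v, hv⟩ := h
  have h1 : refl Q a * refl Q b ∈ hD.K v := by
    have := mul_mem (inv_mem (hv a ha).2) (hv b hb).2
    rwa [mul_inv_rev, refl_inv, refl_inv, mul_assoc, ← mul_assoc (refl Q u), refl_mul_self,
      one_mul] at this
  obtain ⟨x, hx⟩ := (hD.sub v).path hQ (hv a ha).1 (hv b hb).1 hc hab hbc hac hne
    (sub_eq_zero.mpr h1.2)
  have h3 : ∀ y ∈ L, refl Q u * refl Q y ∈ hD.K (v + x • w) := fun y hy =>
    ⟨(hv y hy).2.1, by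
      rw [(hv y hy).2.2, map_add, map_smul, OG.mul_app _ _ w, refl_app_of_polar (hw y hy),
        refl_app_of_polar (hw u hu)]
      abel⟩
  refine ⟨v + x • w, fun y hy => ?_⟩
  rcases List.mem_cons.mp hy with rfl | hy
  · have h4 : refl Q b * refl Q y ∈ hD.K (v + x • w) := ⟨rr_mem hQ (hv b hb).1 hc, by
      rw [map_add, map_smul, rr (hv b hb).1 hc hbc w, hcw, hw b hb]
      linear_combination (norm := module) hx⟩
    have := mul_mem (h3 b hb) h4
    rw [mul_assoc, ← mul_assoc (refl Q b), refl_mul_self, one_mul] at this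
    exact ⟨hc, this⟩
  · exact ⟨(hv y hy).1, h3 y hy⟩

omit hQ in
/-- Checker for the closure under reflections. -/
def chk (R : ℕ → ℕ → ℕ → Bool) : List ℕ → List (ℕ × ℕ × ℕ) → Bool
  | _, [] => true
  | k, t :: l => k.contains t.1 && k.contains t.2.1 && R t.1 t.2.1 t.2.2 && chk R (t.2.2 :: k) l

omit hQ in
theorem chk_sound {R : ℕ → ℕ → ℕ → Bool} {S : ℕ → Prop} (hR : ∀ a b c, R a b c → S a → S b → S c) :
    ∀ (l : List (ℕ × ℕ × ℕ)) (k : List ℕ), (∀ n ∈ k, S n) → chk R k l → ∀ t ∈ l, S t.2.2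
  | [], _, _, _ => by simp
  | t :: l, k, hk, h => by
    simp only [chk, Bool.and_eq_true, List.contains_iff_mem] at h
    have h1 := hR _ _ _ h.1.2 (hk _ h.1.1.1) (hk _ h.1.1.2)
    intro s hs
    rcases List.mem_cons.mp hs with rfl | hs
    · exact h1
    · exact chk_sound hR l _ (fun n hn => (List.mem_cons.mp hn).elim (fun e => e ▸ h1) (hk n)) h.2 s hs

omit hQ in
theorem Coc.fin [DecidableEq V] (hD : Coc D) (vec : ℕ → V) {u : V} {k : List ℕ}
    (h : hD.P u (k.map vec)) (l : List (ℕ × ℕ × ℕ))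
    (hl : chk (fun a b c => decide (vec c = vec b + (Q (vec a + vec b) - Q (vec a) - Q (vec b)) • vec a))
      k l)
    (hall : ∀ x, Q x = 1 → ∃ n ∈ k ++ l.map (·.2.2), vec n = x)
    (hgen : Subgroup.closure {g : OG Q | ∃ v, Q v ≠ 0 ∧ g = refl Q v} = ⊤) :
    ∃ v, ∀ g ∈ commutator (OG Q), D g = g.1 v - v := by
  obtain ⟨v, hv⟩ := h
  have hk : ∀ n ∈ k, Q (vec n) = 1 ∧ refl Q u * refl Q (vec n) ∈ hD.K v := fun n hn =>
    hv _ (List.mem_map_of_mem hn)
  have h1 := chk_sound (S := fun n => Q (vec n) = 1 ∧ refl Q u * refl Q (vec n) ∈ hD.K v)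
    (fun a b c habc ha hb => by
      have h3 : vec c = (refl Q (vec a)).1 (vec b) := by
        rw [ra ha.1]; exact of_decide_eq_true habc
      refine ⟨by rw [h3, OG.map_app, hb.1], ?_⟩
      have := mul_mem (mul_mem ha.2 (inv_mem hb.2)) ha.2
      rw [h3, ← refl_conj, refl_inv]
      convert this using 1
      simp only [mul_inv_rev, refl_inv, mul_assoc]
      rw [← mul_assoc (refl Q u) (refl Q u), refl_mul_self, one_mul]) l k hk hl
  have h4 : ∀ x, Q x ≠ 0 → refl Q u * refl Q x ∈ hD.K v := fun x hx => by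
    obtain ⟨n, hn, rfl⟩ := hall x (by revert hx; generalize Q x = t; revert t; decide)
    rcases List.mem_append.mp hn with hn | hn
    · exact (hk n hn).2
    · obtain ⟨t, ht, rfl⟩ := List.mem_map.mp hn
      exact (h1 t ht).2
  have h5 : ∀ x y, Q x ≠ 0 → Q y ≠ 0 → refl Q x * refl Q y ∈ hD.K v := fun x y hx hy => by
    have := mul_mem (inv_mem (h4 x hx)) (h4 y hy)
    rwa [mul_inv_rev, refl_inv, refl_inv, mul_assoc, ← mul_assoc (refl Q u), refl_mul_self,
      one_mul] at this
  let N := Subgroup.closure {g : OG Q | ∃ x y, Q x ≠ 0 ∧ Q y ≠ 0 ∧ g = refl Q x * refl Q y}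
  haveI : N.Normal := ⟨fun n hn g => by
    refine (Subgroup.closure_le (N.comap (MulAut.conj g).toMonoidHom)).mpr ?_ hn
    rintro _ ⟨x, y, hx, hy, rfl⟩
    refine Subgroup.subset_closure ⟨g.1 x, g.1 y, by rwa [OG.map_app], by rwa [OG.map_app], ?_⟩
    simp [← refl_conj]⟩
  have h6 : commutator (OG Q) ≤ hD.K v := (commutator_le_of_generators hgen N (by
    rintro _ ⟨x, hx, rfl⟩ _ ⟨y, hy, rfl⟩
    rw [commutator_refl]
    exact Subgroup.subset_closure ⟨_, _, hx, by rwa [OG.map_app], rfl⟩)).trans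
      ((Subgroup.closure_le _).mpr (by rintro _ ⟨x, y, hx, hy, rfl⟩; exact h5 x y hx hy))
  exact ⟨v, fun g hg => (h6 hg).2⟩

omit hQ in
/-- Transfer to the matrix groups of the definitions. -/
theorem of_coc {ι : Type} [Fintype ι] [DecidableEq ι] (Q : QuadraticForm (ZMod 2) (ι → ZMod 2))
    (H : ∀ D : OG Q → ι → ZMod 2, Coc D → ∃ v, ∀ g ∈ commutator (OG Q), D g = g.1 v - v)
    (f : Cfsg.Omega (ZMod 2) Q → ι → ZMod 2)
    (hf : ∀ g h : Cfsg.Omega (ZMod 2) Q, f (g * h) = f g + Matrix.mulVec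
      (((g : Cfsg.isometryGroup (ZMod 2) Q) : GL ι (ZMod 2)) : Matrix ι ι (ZMod 2)) (f h)) :
    ∃ v : ι → ZMod 2, ∀ g : Cfsg.Omega (ZMod 2) Q, f g = Matrix.mulVec
      (((g : Cfsg.isometryGroup (ZMod 2) Q) : GL ι (ZMod 2)) : Matrix ι ι (ZMod 2)) v - v := by
  classical
  have hm : ∀ g ∈ commutator (OG Q), (isomEquiv Q).symm g ∈ Cfsg.Omega (ZMod 2) Q := fun g hg =>
    (mem_Omega_iff Q _).mpr (by rwa [MulEquiv.apply_symm_apply])
  obtain ⟨v, hv⟩ := H (fun g => if h : g ∈ commutator (OG Q) then f ⟨_, hm g h⟩ else 0)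
    (fun g hg h hh => by
      simp only [dif_pos hg, dif_pos hh, dif_pos (mul_mem hg hh)]
      rw [← isomEquiv_symm_mulVec, ← hf ⟨_, hm g hg⟩ ⟨_, hm h hh⟩]
      congr 2
      exact map_mul _ _ _)
  refine ⟨v, fun g => ?_⟩
  have h1 := (mem_Omega_iff Q _).mp g.2
  have := hv _ h1
  simp only [dif_pos h1, MulEquiv.symm_apply_apply] at this
  rw [← isomEquiv_app, ← this]

end CL.H1O
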