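/-
Overgroups of the monomial group, part 1: a subgroup of `GL_n(F)`, `|F| ≥ 5`, properly containing the
monomial group holds a root group of elementary transvections.
-/
import Cfsg.Agent.Cls.NonMaxDec

set_option autoImplicit false

namespace CL.SLn

open Module Matrix Cfsg Cfsg.Geo

theorem exists_quad_ne {F : Type*} [Field F] [Fintype F] (hq : 5 ≤ Fintype.card F) {a b c : F}
    (h : a ≠ 0 ∨ b ≠ 0 ∨ c ≠ 0) (x y : F) : ∃ z, z ≠ x ∧ z ≠ y ∧ a * z ^ 2 + b * z + c ≠ 0 := by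
  open Polynomial in
  have h0 : C a * X ^ 2 + C b * X + C c ≠ 0 := fun e ↦ by
    have h2 := congrArg (coeff · 2) e
    have h1 := congrArg (coeff · 1) e
    have h0 := congrArg (coeff · 0) e
    simp [coeff_X, coeff_C] at h0 h1 h2
    tauto
  obtain ⟨z, hz⟩ := Polynomial.exists_eval_ne_zero_of_natDegree_lt_card
    ((X - C x) * (X - C y) * (C a * X ^ 2 + C b * X + C c))
    (mul_ne_zero (mul_ne_zero (X_sub_C_ne_zero x) (X_sub_C_ne_zero y)) h0) (by
      rw [Cardinal.mk_fintype, Nat.cast_lt]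
      refine lt_of_le_of_lt ?_ (show 4 < _ from hq)
      compute_degree)
  simp only [eval_mul, eval_sub, eval_X, eval_C, eval_add, eval_pow, mul_ne_zero_iff,
    sub_ne_zero] at hz
  exact ⟨z, hz.1.1, hz.1.2, hz.2⟩

theorem exists_ne_three {F : Type*} [Field F] [Fintype F] (hq : 5 ≤ Fintype.card F) (x y w : F) :
    ∃ z, z ≠ x ∧ z ≠ y ∧ z ≠ w := by
  obtain ⟨z, h1, h2, h3⟩ := exists_quad_ne hq (a := 0) (b := 1) (c := -w) (by simp) x y
  exact ⟨z, h1, h2, fun e ↦ h3 (by simp [e])⟩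

theorem exists_notMem_of_card_lt {κ : Type*} [Fintype κ] {s : Finset κ} {n : ℕ} (h : s.card ≤ n)
    (hn : n < Fintype.card κ) : ∃ p, p ∉ s := by
  obtain ⟨p, -, hp⟩ := Finset.exists_mem_notMem_of_card_lt_card (s := s) (t := Finset.univ)
    (by rw [Finset.card_univ]; omega)
  exact ⟨p, hp⟩

section General

variable {F V G : Type*} [Field F] [AddCommGroup V] [Module F V] [Group G] [DistribMulAction G V]
  [SMulCommClass G F V] {K : Subgroup G} {u u' : V} {φ φ' : Dual F V}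

/-- `K` holds all invertible maps `x ↦ x + c φ(x) u` (a root group or a group of homologies). -/
def Rg (K : Subgroup G) (u : V) (φ : Dual F V) : Prop :=
  ∀ c : F, 1 + c * φ u ≠ 0 → ∃ g ∈ K, ∀ x, g • x = x + (c * φ x) • u

theorem Rg.conj {g : G} (hg : g ∈ K) (h : Rg K u φ) : Rg K (g • u) (dact g φ) := fun c hc ↦ by
  obtain ⟨s, hs, e⟩ := h c (by simpa using hc)
  refine ⟨g * s * g⁻¹, K.mul_mem (K.mul_mem hg hs) (K.inv_mem hg), fun x ↦ ?_⟩
  rw [mul_smul, mul_smul, e, smul_add, smul_inv_smul, dact_apply, smul_comm]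

omit [SMulCommClass G F V] in
theorem Rg.of_tv (h : ∀ c : F, Tv K (c • u) φ) : Rg K u φ := fun c _ ↦ by
  obtain ⟨-, g, hg, e⟩ := h c
  exact ⟨g, hg, fun x ↦ by rw [e, smul_smul, mul_comm]⟩

theorem Rg.comm [Fintype F] (hq : 5 ≤ Fintype.card F) (h : Rg K u φ) (h' : Rg K u' φ')
    (h0 : φ u' = 0) (h1 : φ' u ≠ 0) (c : F) : Tv K (c • u') φ := by
  have av : ∀ a : F, ∀ z, z ≠ -a⁻¹ → 1 + z * a ≠ 0 := fun a z hz e ↦ by
    by_cases ha : a = 0
    · simp [ha] at e
    · exact hz (by field_simp; linear_combination e)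
  obtain ⟨c', a0, a1, -⟩ := exists_ne_three hq 0 (-(φ' u')⁻¹) 0
  obtain ⟨s', hs', e'⟩ := h' c' (av _ _ a1)
  have key : ∀ d : F, d ≠ -(φ u)⁻¹ → Tv K ((c' * d * φ' u) • u') φ := fun d hd ↦ by
    obtain ⟨s, hs, e⟩ := h d (av _ _ hd)
    have hu : s⁻¹ • u' = u' := by rw [inv_smul_eq_iff, e, h0]; simp
    refine ⟨by simp [h0], s⁻¹ * s' * s * s'⁻¹, K.mul_mem (K.mul_mem (K.mul_mem (K.inv_mem hs) hs') hs)
      (K.inv_mem hs'), fun x ↦ ?_⟩
    obtain ⟨x, rfl⟩ := MulAction.surjective s' x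
    rw [mul_smul, inv_smul_smul, mul_smul, mul_smul, e', smul_add, inv_smul_smul, smul_comm s⁻¹, hu,
      e]
    simp only [e']
    simp only [map_add, map_smul, h0, smul_eq_mul]
    module
  obtain ⟨d, b1, b2, -⟩ := exists_ne_three hq (-(φ u)⁻¹) (c / (c' * φ' u) + (φ u)⁻¹) 0
  convert (key d b1).add_left (key (c / (c' * φ' u) - d) fun e ↦ b2 (by linear_combination -e))
    using 1
  rw [← add_smul]
  congr 1
  field_simp
  ring

end General

variable {κ : Type} [Fintype κ] [DecidableEq κ] {F : Type*} [Field F]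

omit [Fintype κ] in
theorem proj_single (i j : κ) (c : F) :
    (LinearMap.proj i : Dual F (κ → F)) (Pi.single j c) = if i = j then c else 0 := by
  simp [Pi.single_apply]

theorem dual_apply_eq_sum (φ : Dual F (κ → F)) (x : κ → F) :
    φ x = ∑ i, x i * φ (Pi.single i 1) := by
  conv_lhs => rw [pi_eq_sum_univ' x, map_sum]
  simp

theorem exists_single_ne_zero {φ : Dual F (κ → F)} (h : φ ≠ 0) : ∃ i, φ (Pi.single i 1) ≠ 0 := by
  by_contra hc
  push Not at hc
  exact h (LinearMap.ext fun x ↦ by simp [dual_apply_eq_sum φ x, hc])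

/-- Rescaling the terms of a sum with three non-zero terms. -/
theorem exists_rescale [Fintype F] (hq : 5 ≤ Fintype.card F) {l : κ → F} {i j k : κ} (hij : i ≠ j)
    (hik : i ≠ k) (hjk : j ≠ k) (hi : l i ≠ 0) (hj : l j ≠ 0) (hk : l k ≠ 0) :
    ∃ d : κ → F, (∀ p, d p ≠ 0) ∧ ∑ p, d p * l p = 0 ∧ ∑ p, (d p)⁻¹ * l p ≠ 0 := by
  set ρ := ∑ p, l p - l i - l j - l k
  have key : ∀ a b c : F, ∑ p, (if p = i then a else if p = j then b else if p = k then c else 1) *
      l p = a * l i + b * l j + c * l k + ρ := fun a b c ↦ by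
    have : ∀ p, (if p = i then a else if p = j then b else if p = k then c else 1) * l p =
        l p + (if p = i then (a - 1) * l i else 0) + (if p = j then (b - 1) * l j else 0) +
          if p = k then (c - 1) * l k else 0 := fun p ↦ by
      split_ifs <;> subst_vars <;> first | contradiction | ring
    simp only [this, Finset.sum_add_distrib, Finset.sum_ite_eq', Finset.mem_univ, if_true, ρ]
    ring
  obtain ⟨w, w0, w1, -⟩ := exists_ne_three hq 0 (-ρ / l k) 0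
  have hμ : w * l k + ρ ≠ 0 := fun e ↦ w1 (by field_simp; linear_combination e)
  set μ := w * l k + ρ with hμd
  set ν := w⁻¹ * l k + ρ with hν
  obtain ⟨z, z0, z1, z2⟩ := exists_quad_ne hq (a := ν) (b := l i ^ 2 - l j ^ 2 + ν * μ)
    (c := l i ^ 2 * μ) (Or.inr (Or.inr (mul_ne_zero (pow_ne_zero _ hi) hμ))) 0 (-μ)
  have z3 : μ + z ≠ 0 := fun e ↦ z1 (by linear_combination e)
  refine ⟨fun p ↦ if p = i then z / l i else if p = j then -(μ + z) / l j else
    if p = k then w else 1, fun p ↦ ?_, ?_, fun e ↦ z2 ?_⟩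
  · beta_reduce
    split_ifs
    exacts [div_ne_zero z0 hi, div_ne_zero (neg_ne_zero.2 z3) hj, w0, one_ne_zero]
  · rw [key]
    field_simp
    ring
  · simp only [apply_ite (·⁻¹ : F → F), inv_one] at e
    rw [key, add_assoc, ← hν] at e
    field_simp at e
    linear_combination e

/-- `K` holds the diagonal matrices and the transpositions. -/
structure FullMono (K : Subgroup (GL κ F)) : Prop where
  diag : ∀ d : κ → F, (∀ i, d i ≠ 0) → ∃ g ∈ K, ∀ x, g • x = d * x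
  swap : ∀ i j, ∃ g ∈ K, ∀ x : κ → F, g • x = x ∘ Equiv.swap i j

/-- `K` holds a root group of elementary transvections. -/
def HasElem (K : Subgroup (GL κ F)) : Prop :=
  ∃ i l, i ≠ l ∧ ∀ c : F, Tv K (c • Pi.single i 1) (LinearMap.proj l : Dual F (κ → F))

namespace FullMono

variable {K : Subgroup (GL κ F)} {u : κ → F} {φ : Dual F (κ → F)}

theorem rg (hK : FullMono K) (i : κ) : Rg K (Pi.single i 1) (LinearMap.proj i : Dual F (κ → F)) :=
  fun c hc ↦ by
    obtain ⟨g, hg, e⟩ := hK.diag (Function.update 1 i (1 + c)) fun p ↦ by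
      by_cases hp : p = i
      · simpa [hp] using hc
      · simp [hp]
    refine ⟨g, hg, fun x ↦ funext fun p ↦ ?_⟩
    by_cases hp : p = i
    · simp [e, hp, add_mul]
    · simp [e, hp]

variable [Fintype F]

theorem elem_left (hK : FullMono K) (hq : 5 ≤ Fintype.card F) (h : Rg K u φ) (hu : u ≠ 0) {i : κ}
    (h0 : u i = 0) (h1 : φ (Pi.single i 1) ≠ 0) : HasElem K := by
  obtain ⟨l, hl⟩ := Function.ne_iff.1 hu
  have hil : l ≠ i := by rintro rfl; exact hl h0
  exact ⟨l, i, hil, (Rg.of_tv ((hK.rg i).comm hq h h0 (by simpa using h1))).comm hq (hK.rg l)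
    (by simp [hil.symm]) hl⟩

theorem elem_right (hK : FullMono K) (hq : 5 ≤ Fintype.card F) (h : Rg K u φ) (hφ : φ ≠ 0) {i : κ}
    (h0 : φ (Pi.single i 1) = 0) (h1 : u i ≠ 0) : HasElem K := by
  obtain ⟨l, hl⟩ := exists_single_ne_zero hφ
  have hil : i ≠ l := by rintro rfl; exact hl h0
  exact ⟨i, l, hil, (hK.rg l).comm hq (Rg.of_tv (h.comm hq (hK.rg i) h0 h1)) (by simp [hil.symm]) hl⟩

theorem exists_tv (hK : FullMono K) (hq : 5 ≤ Fintype.card F) (h : Rg K u φ) {i j k : κ}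
    (hij : i ≠ j) (hik : i ≠ k) (hjk : j ≠ k) (hs : ∀ p, u p ≠ 0 → φ (Pi.single p 1) ≠ 0)
    (hi : u i ≠ 0) (hj : u j ≠ 0) (hk : u k ≠ 0) :
    ∃ d : κ → F, (∀ p, d p ≠ 0) ∧ φ (d⁻¹ * u) ≠ 0 ∧ ∀ c : F, Tv K (c • (d * u)) φ := by
  obtain ⟨d, d0, d1, d2⟩ := exists_rescale hq (l := fun p ↦ u p * φ (Pi.single p 1)) hij hik hjk
    (mul_ne_zero hi (hs i hi)) (mul_ne_zero hj (hs j hj)) (mul_ne_zero hk (hs k hk))
  obtain ⟨g, hg, e⟩ := hK.diag d d0
  have h2 : φ (d⁻¹ * u) ≠ 0 := by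
    rw [dual_apply_eq_sum]
    simpa [mul_assoc] using d2
  refine ⟨d, d0, h2, e u ▸ h.comm hq (h.conj hg) ?_ ?_⟩
  · rw [e, dual_apply_eq_sum]
    simpa [mul_assoc] using d1
  · rwa [dact_apply, show g⁻¹ • u = d⁻¹ * u by
      rw [inv_smul_eq_iff, e]; exact funext fun p ↦ by simp [d0]]

theorem elem_three (hK : FullMono K) (hq : 5 ≤ Fintype.card F) (h : Rg K u φ) (hφ : φ ≠ 0)
    {i j k : κ} (hij : i ≠ j) (hik : i ≠ k) (hjk : j ≠ k) (hi : u i ≠ 0) (hj : u j ≠ 0)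
    (hk : u k ≠ 0) : HasElem K := by
  by_cases hs : ∀ p, u p ≠ 0 → φ (Pi.single p 1) ≠ 0
  swap
  · push Not at hs
    obtain ⟨p, h1, h0⟩ := hs
    exact hK.elem_right hq h hφ h0 h1
  obtain ⟨d, d0, -, d1⟩ := hK.exists_tv hq h hij hik hjk hs hi hj hk
  obtain ⟨d', d0', d2, d3⟩ := hK.exists_tv hq (Rg.of_tv d1) hij hik hjk
    (fun p hp ↦ hs p (right_ne_zero_of_mul hp)) (mul_ne_zero (d0 i) hi) (mul_ne_zero (d0 j) hj)
    (mul_ne_zero (d0 k) hk)
  refine hK.elem_left hq (u := d' * (d * u) - d' i • (d * u)) (Rg.of_tv fun c ↦ ?_) (fun e ↦ d2 ?_)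
    (i := i) (by simp) (hs i hi)
  · rw [smul_sub, smul_smul]
    exact (d3 c).sub_left (d1 _)
  · have h0 : φ (d * u) = 0 := by simpa using (d1 1).1
    have : d'⁻¹ * (d * u) = (d' i)⁻¹ • (d * u) := funext fun p ↦ by
      have := congrFun e p
      have h1 := d0' p
      have h2 := d0' i
      simp only [Pi.sub_apply, Pi.mul_apply, Pi.smul_apply, smul_eq_mul, Pi.zero_apply,
        Pi.inv_apply] at this ⊢
      field_simp
      linear_combination -this
    rw [this, map_smul, h0, smul_zero]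

theorem elem_two (hK : FullMono K) (hq : 5 ≤ Fintype.card F) (h3 : 3 ≤ Fintype.card κ)
    (h : Rg K u φ) (hφ : φ ≠ 0) {i j : κ} (hij : i ≠ j) (hi : u i ≠ 0) (hj : u j ≠ 0) :
    HasElem K := by
  obtain ⟨k, hk⟩ := exists_notMem_of_card_lt (s := {i, j}) Finset.card_le_two h3
  simp only [Finset.mem_insert, Finset.mem_singleton, not_or] at hk
  by_cases hs : ∀ p, p ≠ i → p ≠ j → u p = 0
  swap
  · push Not at hs
    obtain ⟨p, a1, a2, a3⟩ := hs
    exact hK.elem_three hq h hφ hij a1.symm a2.symm hi hj a3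
  by_cases h1 : φ (Pi.single i 1) = 0
  · exact hK.elem_right hq h hφ h1 hi
  by_cases h2 : φ (Pi.single k 1) = 0
  swap
  · exact hK.elem_left hq h (fun e ↦ hi (congrFun e i)) (hs k hk.1 hk.2) h2
  obtain ⟨τ, hτ, e⟩ := hK.swap j k
  have h4 : τ • u = u i • Pi.single i 1 + u j • Pi.single k 1 := funext fun p ↦ by
    rw [e]
    by_cases a1 : p = i
    · simp [a1, Equiv.swap_apply_of_ne_of_ne hij (Ne.symm hk.1), Ne.symm hk.1]
    by_cases a2 : p = k
    · simp [a2, hk.1]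
    by_cases a3 : p = j
    · simp [a3, hs k hk.1 hk.2, hij.symm, Ne.symm hk.2]
    · simp [Equiv.swap_apply_of_ne_of_ne a3 a2, hs p a1 a3, a1, a2]
  obtain ⟨c, c0, c1, c2⟩ := exists_ne_three hq 0 (-(φ u)⁻¹) (-(u i * φ (Pi.single i 1))⁻¹)
  obtain ⟨s, hs', e'⟩ := h c fun e ↦ c1 (by
    have : φ u ≠ 0 := fun e' ↦ by simp [e'] at e
    field_simp
    linear_combination e)
  refine hK.elem_three hq ((h.conj hτ).conj hs') (dact_ne_zero _ (dact_ne_zero _ hφ)) hij
    (Ne.symm hk.1) (Ne.symm hk.2) (fun e ↦ c2 ?_) ?_ ?_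
  · simp [e', h4, h2, Ne.symm hk.1] at e
    field_simp
    exact mul_left_cancel₀ hi (by linear_combination e)
  · simp [e', h4, h2, hij.symm, Ne.symm hk.2, c0, hi, hj, h1]
  · simp [e', h4, hk.1, hs k hk.1 hk.2, hj]

theorem elem_of_col (hK : FullMono K) (hq : 5 ≤ Fintype.card F) (h3 : 3 ≤ Fintype.card κ)
    {g : GL κ F} (hg : g ∈ K) {i j l : κ} (hij : i ≠ j) (hi : (g • (Pi.single l 1 : κ → F)) i ≠ 0)
    (hj : (g • (Pi.single l 1 : κ → F)) j ≠ 0) : HasElem K :=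
  hK.elem_two hq h3 ((hK.rg l).conj hg) (dact_ne_zero _ fun e ↦ by
    simpa using LinearMap.congr_fun e (Pi.single l 1)) hij hi hj

end FullMono

end CL.SLn
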