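/-
Overgroups of the monomial group, part 2: an overgroup of the monomial subgroup of `SL_n(F)`,
`|F| ≥ 5`, `n ≥ 5`, with a non-monomial element fixing a coordinate line is `SL_n(F)`.
-/
import Cfsg.Agent.Cls.MaxMono

set_option autoImplicit false

namespace CL.SLn

open Module Matrix Cfsg Cfsg.Geo

variable {ι : Type} [Fintype ι] [DecidableEq ι] {F : Type*} [Field F]

/-- `g` is the monomial matrix with permutation `σ` and coefficients `c`. -/
def Act (g : GL ι F) (σ : Equiv.Perm ι) (c : ι → F) : Prop :=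
  ∀ (x : ι → F) i, (g • x) (σ i) = c i * x i

theorem Act.ne_zero {g : GL ι F} {σ : Equiv.Perm ι} {c : ι → F} (h : Act g σ c) (i : ι) :
    c i ≠ 0 := fun h0 ↦ by simpa [h0] using h (g⁻¹ • (Pi.single (σ i) 1 : ι → F)) i

theorem Act.single {g : GL ι F} {σ : Equiv.Perm ι} {c : ι → F} (h : Act g σ c) (i : ι) :
    g • (Pi.single i 1 : ι → F) = c i • Pi.single (σ i) 1 := funext fun p ↦ by
  obtain ⟨p, rfl⟩ := σ.surjective p
  rw [h]
  by_cases hp : p = i <;> simp [hp]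

theorem Act.det {g : GL ι F} {σ : Equiv.Perm ι} {c : ι → F} (h : Act g σ c) :
    (g : Matrix ι ι F).det = ((Equiv.Perm.sign σ : ℤ) : F) * ∏ i, c i :=
  det_of_monomial fun i j ↦ by rw [entry_eq, h.single]; simp [Pi.single_apply]

theorem exists_act (σ : Equiv.Perm ι) {c : ι → F} (hc : ∀ i, c i ≠ 0) : ∃ g : GL ι F, Act g σ c := by
  have h := det_of_monomial (g := of fun i j ↦ if i = σ j then c j else 0) (σ := σ) (c := c)
    fun _ _ ↦ rfl
  have h1 : ((Equiv.Perm.sign σ : ℤ) : F) ≠ 0 := by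
    rcases Int.units_eq_one_or (Equiv.Perm.sign σ) with e | e <;> simp [e]
  refine ⟨GeneralLinearGroup.mkOfDetNeZero _ (h ▸ mul_ne_zero h1 (Finset.prod_ne_zero_iff.2
    fun i _ ↦ hc i)), fun x i ↦ ?_⟩
  simp [gl_smul_def, mulVec, dotProduct]

/-- The group of monomial matrices. -/
def monoGrp (ι : Type) [Fintype ι] [DecidableEq ι] (F : Type*) [Field F] : Subgroup (GL ι F) where
  carrier := {g | ∃ σ c, Act g σ c}
  mul_mem' := by
    rintro g h ⟨σ, c, e⟩ ⟨τ, d, e'⟩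
    exact ⟨σ * τ, fun i ↦ c (τ i) * d i, fun x i ↦ by
      rw [mul_smul, Equiv.Perm.mul_apply, e, e', mul_assoc]⟩
  one_mem' := ⟨1, 1, fun x i ↦ by simp⟩
  inv_mem' := by
    rintro g ⟨σ, c, e⟩
    refine ⟨σ⁻¹, fun i ↦ (c (σ⁻¹ i))⁻¹, fun x i ↦ ?_⟩
    rw [eq_inv_mul_iff_mul_eq₀ (e.ne_zero _), ← e, smul_inv_smul]
    simp

theorem mem_monoGrp_of_cols {g : GL ι F}
    (h : ∀ j, ∃ i, ∀ p, p ≠ i → (g • (Pi.single j 1 : ι → F)) p = 0) : g ∈ monoGrp ι F := by
  choose σ hσ using h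
  have h1 : ∀ j, g • (Pi.single j 1 : ι → F) =
      (g • (Pi.single j 1 : ι → F)) (σ j) • Pi.single (σ j) 1 := fun j ↦ funext fun p ↦ by
    by_cases hp : p = σ j
    · simp [hp]
    · simp [hp, hσ j p hp]
  have h0 : ∀ j, (g • (Pi.single j 1 : ι → F)) (σ j) ≠ 0 := fun j e ↦ by
    have := h1 j
    rw [e, zero_smul, smul_eq_zero_iff_eq] at this
    simpa using congrFun this j
  have hi : Function.Injective σ := fun a b hab ↦ by
    by_contra hne
    have : g • ((g • (Pi.single b 1 : ι → F)) (σ b) • (Pi.single a 1 : ι → F)) =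
        g • ((g • (Pi.single a 1 : ι → F)) (σ a) • (Pi.single b 1 : ι → F)) := by
      rw [smul_comm g, smul_comm g]
      conv_lhs => rw [h1 a]
      conv_rhs => rw [h1 b]
      rw [smul_comm, hab]
    simpa [hne, h0] using congrFun (smul_left_cancel g this) a
  refine ⟨Equiv.ofBijective σ (Finite.injective_iff_bijective.1 hi),
    fun j ↦ (g • (Pi.single j 1 : ι → F)) (σ j), fun x i ↦ ?_⟩
  conv_lhs => rw [pi_eq_sum_univ' x, Finset.smul_sum, Finset.sum_apply]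
  rw [Finset.sum_eq_single i (fun j _ hj ↦ by
    rw [smul_comm, Pi.smul_apply, Equiv.ofBijective_apply, hσ j _ (hi.ne hj.symm), smul_zero])
    (by simp), smul_comm]
  exact mul_comm _ _

theorem monoGrp_eq {t : ℕ} :
    decompositionStabilizer (blk F (id : Fin t → Fin t)) = monoGrp (Fin t) F := by
  ext g
  refine ⟨fun h ↦ ?_, fun ⟨σ, c, h⟩ ↦ mem_stab_blk.2 ⟨σ, fun p q hpq ↦ ?_⟩⟩
  · obtain ⟨σ, c, -, -, h⟩ := exists_monomial h
    exact ⟨σ, c, h⟩
  · rw [entry_eq, h.single]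
    simp [show p ≠ σ q from hpq]

variable {H : Subgroup (GL ι F)}

theorem exists_act_update (hM : monoGrp ι F ⊓ specialLinear ι F ≤ H) (σ : Equiv.Perm ι) {c : ι → F}
    (hc : ∀ i, c i ≠ 0) (l : ι) : ∃ g ∈ H, ∃ a, Act g σ (Function.update c l a) := by
  have h0 : ∏ i ∈ Finset.univ \ {l}, c i ≠ 0 := Finset.prod_ne_zero_iff.2 fun i _ ↦ hc i
  have h1 : ((Equiv.Perm.sign σ : ℤ) : F) * ((Equiv.Perm.sign σ : ℤ) : F) = 1 := by
    rcases Int.units_eq_one_or (Equiv.Perm.sign σ) with e | e <;> simp [e]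
  obtain ⟨g, hg⟩ := exists_act σ (c := Function.update c l
    (((Equiv.Perm.sign σ : ℤ) : F) * (∏ i ∈ Finset.univ \ {l}, c i)⁻¹)) fun i ↦ by
      by_cases hi : i = l
      · simp [hi, left_ne_zero_of_mul_eq_one h1, h0]
      · simp [hi, hc]
  refine ⟨g, hM ⟨⟨σ, _, hg⟩, mem_specialLinear.2 ?_⟩, _, hg⟩
  rw [hg.det, Finset.prod_update_of_mem (Finset.mem_univ l), inv_mul_cancel_right₀ h0, h1]

theorem exists_diag_update (hM : monoGrp ι F ⊓ specialLinear ι F ≤ H) {c : ι → F}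
    (hc : ∀ i, c i ≠ 0) (l : ι) :
    ∃ g ∈ H, ∃ a, a ≠ 0 ∧ ∀ x, g • x = Function.update c l a * x := by
  obtain ⟨g, hg, a, h⟩ := exists_act_update hM 1 hc l
  exact ⟨g, hg, a, by simpa using h.ne_zero l, fun x ↦ funext (h x)⟩

theorem tv_reduce (hM : monoGrp ι F ⊓ specialLinear ι F ≤ H) {k l l' : ι} (h1 : l ≠ k) (h2 : l' ≠ k)
    (h3 : l ≠ l') {χ : Dual F (ι → F)} (h : Tv H (Pi.single k 1) χ) {a : F} (ha : a ≠ 0) :
    ∃ b : F, Tv H (Pi.single k 1) (((1 - a) * χ (Pi.single l 1)) • LinearMap.proj l +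
      (b * χ (Pi.single l' 1)) • LinearMap.proj l' : Dual F (ι → F)) := by
  obtain ⟨g, hg, b, hb, e⟩ := exists_diag_update hM (c := Function.update 1 l a) (fun i ↦ by
    by_cases hi : i = l <;> simp [hi, ha]) l'
  have h4 := h.conj (H.inv_mem hg)
  rw [show g⁻¹ • (Pi.single k 1 : ι → F) = Pi.single k 1 by
    rw [inv_smul_eq_iff, e]
    ext p
    by_cases hp : p = k
    · simp [hp, h1.symm, h2.symm]
    · simp [hp]] at h4
  refine ⟨1 - b, ?_⟩
  convert h.sub_right h4 using 1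
  refine LinearMap.ext fun x ↦ ?_
  have : g • x = x - ((1 - a) * x l) • Pi.single l 1 - ((1 - b) * x l') • Pi.single l' 1 := by
    rw [e]
    ext p
    by_cases hp : p = l'
    · simp [hp, h3.symm, sub_mul]
    by_cases hp' : p = l
    · simp [hp', h3, sub_mul]
    · simp [hp, hp']
  simp only [LinearMap.sub_apply, dact_apply, inv_inv, this, map_sub, map_smul,
    LinearMap.add_apply, LinearMap.smul_apply, LinearMap.proj_apply, smul_eq_mul]
  ring

variable [Fintype F]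

theorem sl_le_of_tv_single (hq : 5 ≤ Fintype.card F) (hn : 5 ≤ Fintype.card ι)
    (hM : monoGrp ι F ⊓ specialLinear ι F ≤ H) {k : ι} {χ : Dual F (ι → F)} (hχ : χ ≠ 0)
    (h : Tv H (Pi.single k 1) χ) : specialLinear ι F ≤ H := by
  obtain ⟨l, hl⟩ := exists_single_ne_zero hχ
  have hlk : l ≠ k := by rintro rfl; exact hl h.1
  obtain ⟨l', hl'⟩ := exists_notMem_of_card_lt (s := {k, l}) Finset.card_le_two (by omega)
  obtain ⟨l'', hl''⟩ := exists_notMem_of_card_lt (s := {k, l, l'}) Finset.card_le_three (by omega)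
  simp only [Finset.mem_insert, Finset.mem_singleton, not_or] at hl' hl''
  obtain ⟨a, a0, a1, -⟩ := exists_ne_three hq (0 : F) 1 0
  obtain ⟨b, h1⟩ := tv_reduce hM hlk hl'.1 (Ne.symm hl'.2) h a0
  obtain ⟨b', h2⟩ := tv_reduce hM hlk hl''.1 (Ne.symm hl''.2.1) h1 a0
  have a2 : (1 - a) * ((1 - a) * χ (Pi.single l 1)) ≠ 0 := by simp [sub_ne_zero, a1.symm, hl]
  simp only [LinearMap.add_apply, LinearMap.smul_apply, LinearMap.proj_apply, Pi.single_eq_same,
    Pi.single_eq_of_ne hl'.2, Pi.single_eq_of_ne' hl''.2.1, Pi.single_eq_of_ne' hl''.2.2,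
    smul_eq_mul, mul_one, mul_zero, add_zero, zero_smul] at h2
  generalize (1 - a) * ((1 - a) * χ (Pi.single l 1)) = c at a2 h2
  have h3 : ∀ d : F, Tv H (Pi.single k 1) (d • LinearMap.proj l : Dual F (ι → F)) := fun d ↦ by
    by_cases hd : d = c
    · rwa [hd]
    obtain ⟨b, h3⟩ := tv_reduce hM hlk hl'.1 (Ne.symm hl'.2) h2 (a := 1 - d / c)
      (by rwa [sub_ne_zero, ne_comm, Ne, div_eq_one_iff_eq a2])
    simpa [hl'.2, a2] using h3
  refine specialLinear_le_of_basis (Pi.basisFun F ι) fun i j hij d ↦ ?_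
  obtain ⟨σ, s1, s2⟩ : ∃ σ : Equiv.Perm ι, σ k = i ∧ σ l = j := by
    refine ⟨Equiv.swap (Equiv.swap k i l) j * Equiv.swap k i, ?_, by simp⟩
    rw [Equiv.Perm.mul_apply, Equiv.swap_apply_left, Equiv.swap_apply_of_ne_of_ne _ hij]
    rw [ne_comm, Ne, Equiv.swap_apply_eq_iff, Equiv.swap_apply_right]
    exact hlk
  obtain ⟨g, hg, b, e⟩ := exists_act_update hM σ (c := 1) (by simp) l'
  have h4 := (h3 d).conj' hg (ψ := d • LinearMap.proj j) fun x ↦ by
    simp [← s2, e x l, Ne.symm hl'.2]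
  rw [e.single, s1] at h4
  refine h4.congr (by simp [hij]) fun x ↦ ?_
  simp [Ne.symm hl'.1, smul_smul, mul_comm]

omit [Fintype F] in
/-- The commutator of an element fixing a coordinate line with a diagonal matrix which centralises it
modulo this line. -/
theorem exists_tv_single {w g : GL ι F} (hw : w ∈ H) (hg : g ∈ H) {d : ι → F}
    (e : ∀ x, g • x = d * x) {k p : ι} (h1 : ∀ (x : ι → F) i, i ≠ k → (w • (d * x)) i = d i * (w • x) i)
    (h2 : ∀ i, i ≠ k → (w • (Pi.single k 1 : ι → F)) i = 0)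
    (h3 : (w • (Pi.single p 1 : ι → F)) k ≠ 0) (h4 : d p ≠ d k) :
    ∃ χ : Dual F (ι → F), χ ≠ 0 ∧ Tv H (Pi.single k 1) χ := by
  let χ₀ : Dual F (ι → F) := LinearMap.proj k ∘ₗ (DistribSMul.toLinearMap F _ (w * g) -
    DistribSMul.toLinearMap F _ (g * w))
  have a0 : ∀ x, χ₀ x = (w • (d * x)) k - d k * (w • x) k := fun x ↦ by
    change ((w * g) • x - (g * w) • x) k = _
    rw [mul_smul, mul_smul, e, e]
    rfl
  have a1 : ∀ i, χ₀ (Pi.single i 1) = (d i - d k) * (w • (Pi.single i 1 : ι → F)) k := fun i ↦ by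
    rw [a0, show d * Pi.single i 1 = d i • (Pi.single i 1 : ι → F) from funext fun j ↦ by
      by_cases hj : j = i <;> simp [hj], smul_comm, sub_mul]
    rfl
  refine ⟨dact (g * w) χ₀, dact_ne_zero _ fun h0 ↦ ?_, ?_, w * g * (g * w)⁻¹,
    H.mul_mem (H.mul_mem hw hg) (H.inv_mem (H.mul_mem hg hw)), fun x ↦ ?_⟩
  · simpa [h0, h3, sub_eq_zero, h4] using a1 p
  · obtain ⟨c, hc⟩ : ∃ c : F, (g * w) • (Pi.single k 1 : ι → F) = c • Pi.single k 1 :=
      ⟨((g * w) • (Pi.single k 1 : ι → F)) k, funext fun i ↦ by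
        by_cases hi : i = k
        · simp [hi]
        · simp [hi, mul_smul, e, h2 i hi]⟩
    have hc0 : c ≠ 0 := by
      rintro rfl
      rw [zero_smul, smul_eq_zero_iff_eq] at hc
      simpa using congrFun hc k
    rw [dact_apply, show (g * w)⁻¹ • (Pi.single k 1 : ι → F) = c⁻¹ • Pi.single k 1 by
      rw [inv_smul_eq_iff, smul_comm, hc, inv_smul_smul₀ hc0], map_smul, a1, sub_self, zero_mul,
      smul_zero]
  · obtain ⟨x, rfl⟩ := MulAction.surjective (g * w) x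
    simp only [mul_smul (w * g), inv_smul_smul, dact_apply, a0]
    simp only [mul_smul, e]
    ext i
    by_cases hi : i = k
    · simp [hi]
    · simp [hi, h1 x i hi]

theorem sl_le_of_quot (hq : 5 ≤ Fintype.card F) (hn : 5 ≤ Fintype.card ι)
    (hM : monoGrp ι F ⊓ specialLinear ι F ≤ H) (hS : H ≤ specialLinear ι F) {w : GL ι F} (hw : w ∈ H)
    (hwM : w ∉ monoGrp ι F) {k i l : ι} (hik : i ≠ k) (hlk : l ≠ k) (hil : i ≠ l) {c : F}
    (e : ∀ (x : ι → F) p, p ≠ k → (w • x) p = (x + (c * x l) • (Pi.single i 1 : ι → F)) p) :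
    specialLinear ι F ≤ H := by
  by_cases h : ∃ p, p ≠ k ∧ (w • (Pi.single p 1 : ι → F)) k ≠ 0
  · obtain ⟨p, hpk, hp⟩ := h
    obtain ⟨r, hr, r1, r2⟩ : ∃ r, (r = p ∨ r = k) ∧ r ≠ i ∧ r ≠ l := by
      by_cases h1 : p ≠ i ∧ p ≠ l
      exacts [⟨p, Or.inl rfl, h1⟩, ⟨k, Or.inr rfl, hik.symm, hlk.symm⟩]
    obtain ⟨r', hr'⟩ := exists_notMem_of_card_lt (s := {i, l, k, p}) Finset.card_le_four (by omega)
    simp only [Finset.mem_insert, Finset.mem_singleton, not_or] at hr'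
    obtain ⟨a, a0, a1, -⟩ := exists_ne_three hq (0 : F) 1 0
    obtain ⟨g, hg, b, -, e'⟩ := exists_diag_update hM (c := Function.update 1 r a) (fun i ↦ by
      by_cases hi : i = r <;> simp [hi, a0]) r'
    obtain ⟨χ, h1, h2⟩ := exists_tv_single hw hg e' (k := k) (p := p) (fun x j hj ↦ by
      by_cases hji : j = i
      · simp [e, hik, hji, Ne.symm hr'.1, Ne.symm hr'.2.1, r1.symm, r2.symm]
      · simp [e _ j hj, hji]) (fun j hj ↦ by simp [e _ j hj, hj, hlk]) hp (by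
        rcases hr with rfl | rfl
        · simpa [Ne.symm hr'.2.2.1, Ne.symm hr'.2.2.2, hpk.symm] using a1
        · simpa [Ne.symm hr'.2.2.1, Ne.symm hr'.2.2.2, hpk] using a1.symm)
    exact sl_le_of_tv_single hq hn hM h1 h2
  push Not at h
  have h0 : (c • LinearMap.proj l : Dual F (ι → F)) (Pi.single i 1) = 0 := by simp [hil]
  have h1 : (tv _ _ h0)⁻¹ * w ∈ monoGrp ι F := mem_monoGrp_of_cols fun j ↦ ⟨j, fun p hp ↦ by
    rw [mul_smul, inv_smul_of_tv h0 (tv_smul _ _ h0)]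
    by_cases hpk : p = k
    · simp [hpk, hik.symm, h j (by rintro rfl; exact hp hpk)]
    · simp [e _ p hpk, e _ l hlk, hil.symm, hp]⟩
  have h2 : tv _ _ h0 ∈ H := by
    simpa using H.mul_mem hw (H.inv_mem (hM ⟨h1, Subgroup.mul_mem _
      (Subgroup.inv_mem _ (tv_mem_specialLinear _ _ h0)) (hS hw)⟩))
  refine sl_le_of_tv_single hq hn hM (fun h3 ↦ hwM ?_) (Tv.of_mem h0 h2)
  rwa [show tv _ _ h0 = 1 from gl_ext fun x ↦ by rw [tv_smul, h3]; simp, inv_one, one_mul] at h1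

/-- The action on the quotient by the coordinate line `k`. -/
def quotGrp (H : Subgroup (GL ι F)) (k : ι) : Subgroup (GL {j // j ≠ k} F) where
  carrier := {a | ∃ w ∈ H, ∀ (x : ι → F) (p : {j // j ≠ k}),
    (w • x) p = (a • fun j : {j // j ≠ k} ↦ x j) p}
  mul_mem' := by
    rintro a b ⟨w, hw, e⟩ ⟨w', hw', e'⟩
    exact ⟨w * w', H.mul_mem hw hw', fun x p ↦ by simp only [mul_smul, e, e']⟩
  one_mem' := ⟨1, H.one_mem, fun x p ↦ by simp⟩
  inv_mem' := by
    rintro a ⟨w, hw, e⟩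
    refine ⟨w⁻¹, H.inv_mem hw, fun x ↦ congrFun ?_⟩
    rw [eq_inv_smul_iff]
    exact funext fun p ↦ by rw [← e, smul_inv_smul]

omit [Fintype F] in
theorem mem_quotGrp_of_act (hM : monoGrp ι F ⊓ specialLinear ι F ≤ H) {k : ι}
    {a : GL {j // j ≠ k} F} (ha : a ∈ monoGrp _ F) : a ∈ quotGrp H k := by
  obtain ⟨σ, c, h⟩ := ha
  obtain ⟨g, hg, b, e⟩ := exists_act_update hM (Equiv.Perm.ofSubtype σ)
    (c := fun j ↦ if hj : j ≠ k then c ⟨j, hj⟩ else 1) (fun j ↦ by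
      split_ifs
      exacts [h.ne_zero _, one_ne_zero]) k
  refine ⟨g, hg, fun x p ↦ ?_⟩
  obtain ⟨p, rfl⟩ := σ.surjective p
  rw [h, ← Equiv.Perm.ofSubtype_apply_coe, e]
  simp [p.2]

omit [Fintype F] in
theorem exists_quot {h : GL ι F} {k : ι} (hk : ∀ p, p ≠ k → (h • (Pi.single k 1 : ι → F)) p = 0) :
    ∃ a : GL {j // j ≠ k} F, ∀ (x : ι → F) (p : {j // j ≠ k}),
      (h • x) p = (a • fun j : {j // j ≠ k} ↦ x j) p := by
  let f : ({j // j ≠ k} → F) →ₗ[F] ({j // j ≠ k} → F) := LinearMap.funLeft F F Subtype.val ∘ₗ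
    DistribSMul.toLinearMap F _ h ∘ₗ Function.ExtendByZero.linearMap F Subtype.val
  have key : ∀ (x : ι → F) (p : {j // j ≠ k}), (h • x) p = f (fun j ↦ x j) p := fun x p ↦ by
    have : x = Function.extend Subtype.val (fun j : {j // j ≠ k} ↦ x j) 0 +
        x k • Pi.single k 1 := funext fun j ↦ by
      by_cases hj : j = k
      · simp [hj, Function.extend_apply']
      · simpa [hj] using (Subtype.val_injective.extend_apply (fun j : {j // j ≠ k} ↦ x j) 0
          ⟨j, hj⟩).symm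
    conv_lhs => rw [this, smul_add, smul_comm, Pi.add_apply, Pi.smul_apply, hk _ p.2, smul_zero,
      add_zero]
    rfl
  have hs : Function.Surjective f := fun y ↦
    ⟨fun j ↦ (h⁻¹ • Function.extend Subtype.val y 0) j, funext fun p ↦ by
      rw [← key, smul_inv_smul, Subtype.val_injective.extend_apply]⟩
  exact ⟨ofEquiv (LinearEquiv.ofBijective f ⟨LinearMap.injective_iff_surjective.2 hs, hs⟩),
    fun x p ↦ by rw [ofEquiv_smul, key]; rfl⟩

theorem sl_le_of_fix (hq : 5 ≤ Fintype.card F) (hn : 5 ≤ Fintype.card ι)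
    (hM : monoGrp ι F ⊓ specialLinear ι F ≤ H) (hS : H ≤ specialLinear ι F) {h : GL ι F} (hh : h ∈ H)
    (hhM : h ∉ monoGrp ι F) {k : ι} (hk : ∀ p, p ≠ k → (h • (Pi.single k 1 : ι → F)) p = 0) :
    specialLinear ι F ≤ H := by
  obtain ⟨a, ha⟩ := exists_quot hk
  by_cases h1 : a ∈ monoGrp _ F
  · obtain ⟨m, hm, e⟩ := mem_quotGrp_of_act le_rfl (inv_mem h1)
    obtain ⟨i, hi⟩ := exists_notMem_of_card_lt (s := {k}) (Finset.card_singleton k).le (by omega)
    obtain ⟨l, hl⟩ := exists_notMem_of_card_lt (s := {k, i}) Finset.card_le_two (by omega)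
    simp only [Finset.mem_insert, Finset.mem_singleton, not_or] at hi hl
    refine sl_le_of_quot hq hn hM hS (H.mul_mem (hM hm) hh)
      (fun h2 ↦ hhM ((Subgroup.mul_mem_cancel_left _ hm.1).1 h2)) hi hl.1 (Ne.symm hl.2) (c := 0)
      fun x p hp ↦ ?_
    simpa [mul_smul, ha] using e (h • x) ⟨p, hp⟩
  have hK : FullMono (quotGrp H k) := ⟨fun d hd ↦ by
    obtain ⟨g, hg⟩ := exists_act 1 hd
    exact ⟨g, mem_quotGrp_of_act hM ⟨_, _, hg⟩, fun x ↦ funext (hg x)⟩, fun i j ↦ by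
    obtain ⟨g, hg⟩ := exists_act (F := F) (Equiv.swap i j) (c := 1) (by simp)
    exact ⟨g, mem_quotGrp_of_act hM ⟨_, _, hg⟩, fun x ↦ funext fun p ↦ by
      simpa using hg x (Equiv.swap i j p)⟩⟩
  obtain ⟨j, hj⟩ := not_forall.1 (mt mem_monoGrp_of_cols h1)
  push Not at hj
  obtain ⟨p, -, hp⟩ := hj j
  obtain ⟨p', hpp, hp'⟩ := hj p
  obtain ⟨i, l, hil, h2⟩ := hK.elem_of_col hq (by simp [Fintype.card_subtype_compl]; omega)
    ⟨h, hh, ha⟩ hpp hp' hp
  obtain ⟨-, b, ⟨w, hw, e⟩, e'⟩ := h2 1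
  have e2 : ∀ (x : ι → F) p, p ≠ k →
      (w • x) p = (x + ((1 : F) * x l) • (Pi.single i.1 1 : ι → F)) p := fun x p hp ↦ by
    rw [e x ⟨p, hp⟩, e']
    simp [Pi.single_apply, Subtype.ext_iff]
  refine sl_le_of_quot hq hn hM hS hw (fun ⟨σ, c, h3⟩ ↦ ?_) i.2 l.2 (Subtype.val_injective.ne hil) e2
  have a1 := e2 (Pi.single l.1 1) i i.2
  have a2 := e2 (Pi.single l.1 1) l l.2
  rw [h3.single] at a1 a2
  by_cases a3 : i.1 = σ l
  · simp [← a3, Subtype.val_injective.ne hil.symm] at a2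
  · simp [a3, Subtype.val_injective.ne hil] at a1

end CL.SLn
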