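/-
Overgroups of the monomial group, part 3: the monomial subgroup of `SL_n(F)` is maximal for
`|F| ≥ 5`, `n ≥ 5`.
-/
import Cfsg.Agent.Cls.MaxMono2

set_option autoImplicit false

namespace CL.SLn

open Module Matrix Cfsg Cfsg.Geo

variable {ι : Type} [Fintype ι] [DecidableEq ι] {F : Type*} [Field F]

/-- The `j`-th column. -/
abbrev colOf (g : GL ι F) (j : ι) : ι → F := g • Pi.single j 1

theorem colOf_eq_of_mono {m : GL ι F} (hm : m ∈ monoGrp ι F) {j p : ι} (h : colOf m j p ≠ 0) :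
    colOf m j = colOf m j p • Pi.single p 1 := by
  obtain ⟨σ, c, e⟩ := hm
  rw [colOf, e.single] at *
  by_cases hp : p = σ j
  · simp [hp]
  · simp [hp] at h

theorem not_mem_monoGrp {m : GL ι F} {j p p' : ι} (hp : p ≠ p') (h : colOf m j p ≠ 0)
    (h' : colOf m j p' ≠ 0) : m ∉ monoGrp ι F := fun hm ↦
  h' (by rw [colOf_eq_of_mono hm h]; simp [hp.symm])

theorem exists_colOf_ne_zero (g : GL ι F) (l : ι) : ∃ j, colOf g j l ≠ 0 :=
  exists_single_ne_zero (φ := LinearMap.proj l ∘ₗ DistribSMul.toLinearMap F _ g) fun e ↦ by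
    simpa using LinearMap.congr_fun e (g⁻¹ • (Pi.single l 1 : ι → F))

omit [Fintype ι] in
theorem mul_eq_add₂ {d x : ι → F} {k l : ι} (hkl : k ≠ l)
    (h : ∀ p, p ≠ k → p ≠ l → d p * x p = x p) :
    d * x = x + ((d k - 1) * x k) • Pi.single k 1 + ((d l - 1) * x l) • Pi.single l 1 := by
  ext p
  by_cases h1 : p = k
  · simp [h1, hkl, sub_mul]
  by_cases h2 : p = l
  · simp [h2, hkl.symm, sub_mul]
  · simp [h1, h2, h p h1 h2]

/-- An overgroup of the monomial group in which the stabilisers of coordinate lines are monomial. -/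
structure FrameBlk (H : Subgroup (GL ι F)) : Prop where
  le : monoGrp ι F ⊓ specialLinear ι F ≤ H
  fix : ∀ h ∈ H, ∀ k, (∀ p, p ≠ k → colOf h k p = 0) → h ∈ monoGrp ι F

namespace FrameBlk

variable {H : Subgroup (GL ι F)} {g : GL ι F}

theorem exists_ne (B : FrameBlk H) (hg : g ∈ H) (hgM : g ∉ monoGrp ι F) (k l : ι) :
    ∃ p, p ≠ l ∧ colOf g k p ≠ 0 := by
  by_contra hc
  push Not at hc
  obtain ⟨m, hm, a, e⟩ := exists_act_update B.le (Equiv.swap l k) (c := 1) (by simp) l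
  refine hgM ((Subgroup.mul_mem_cancel_left _ (show m ∈ monoGrp ι F from ⟨_, _, e⟩)).1
    (B.fix _ (H.mul_mem hm hg) k fun p hp ↦ ?_))
  obtain ⟨p, rfl⟩ := (Equiv.swap l k).surjective p
  rw [colOf, mul_smul, e]
  exact mul_eq_zero_of_right _ (hc p (by rintro rfl; simp at hp))

theorem conj_mem (B : FrameBlk H) (hg : g ∈ H) {m : GL ι F} (hm : m ∈ H) {k : ι}
    (h : m • colOf g k = colOf g k) : g⁻¹ * m * g ∈ monoGrp ι F :=
  B.fix _ (H.mul_mem (H.mul_mem (H.inv_mem hg) hm) hg) k fun p hp ↦ by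
    rw [colOf, mul_smul, mul_smul, h, inv_smul_smul, Pi.single_eq_of_ne hp]

variable [Fintype F]

theorem supp_of_two_zeros (B : FrameBlk H) (hq : 5 ≤ Fintype.card F) (hg : g ∈ H) {k l l' j p : ι}
    (hl : l ≠ l') (h1 : colOf g k l = 0) (h2 : colOf g k l' = 0) (hj : colOf g j l ≠ 0)
    (hp : p ≠ l) (hp' : p ≠ l') : colOf g j p = 0 := by
  by_contra h0
  obtain ⟨a, a0, a1, a2⟩ := exists_quad_ne hq (a := colOf g j l * colOf g⁻¹ l j)
    (b := 1 - colOf g j l * colOf g⁻¹ l j - colOf g j l' * colOf g⁻¹ l' j)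
    (c := colOf g j l' * colOf g⁻¹ l' j) (by
      by_contra hc
      push Not at hc
      exact one_ne_zero (α := F) (by linear_combination hc.1 + hc.2.1 + hc.2.2)) 0 1
  obtain ⟨d, hd⟩ := exists_act (F := F) 1 (c := Pi.mulSingle l a * Pi.mulSingle l' a⁻¹) fun i ↦ by
    simp only [Pi.mul_apply, Pi.mulSingle_apply]
    split_ifs <;> simp [a0]
  have hdH : d ∈ H := B.le ⟨⟨_, _, hd⟩, mem_specialLinear.2 (by
    simp [hd.det, Finset.prod_mul_distrib, a0])⟩
  have e : ∀ x : ι → F, d • x = x + ((a - 1) * x l) • Pi.single l 1 +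
      ((a⁻¹ - 1) * x l') • Pi.single l' 1 := fun x ↦ by
    have := mul_eq_add₂ (d := Pi.mulSingle l a * Pi.mulSingle l' a⁻¹) (x := x) hl fun p b1 b2 ↦ by
      simp [b1, b2]
    simp only [Pi.mul_apply, Pi.mulSingle_eq_same, Pi.mulSingle_eq_of_ne hl,
      Pi.mulSingle_eq_of_ne hl.symm, mul_one, one_mul] at this
    exact (funext (hd x)).trans this
  have h3 := colOf_eq_of_mono (B.conj_mem hg hdH (k := k) (by simp [e, h1, h2])) (j := j) (p := j)
    (fun h3 ↦ a2 (by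
      simp only [colOf, mul_smul, e, smul_add, inv_smul_smul, smul_comm g⁻¹, Pi.add_apply,
        Pi.smul_apply, Pi.single_eq_same, smul_eq_mul] at h3 ⊢
      field_simp at h3
      linear_combination h3))
  generalize colOf (g⁻¹ * d * g) j j = c at h3
  rw [colOf, mul_smul, mul_smul, inv_smul_eq_iff, smul_comm g, e] at h3
  have b1 := congrFun h3 p
  have b2 := congrFun h3 l
  simp only [Pi.add_apply, Pi.smul_apply, Pi.single_eq_of_ne hp, Pi.single_eq_of_ne hp',
    Pi.single_eq_same, Pi.single_eq_of_ne hl, smul_eq_mul, mul_zero, add_zero, mul_one] at b1 b2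
  have b3 : c = 1 := mul_right_cancel₀ h0 (by linear_combination -b1)
  exact a1 (mul_right_cancel₀ hj (by linear_combination b2 + b3 * colOf g j l))

theorem not_two_zeros (B : FrameBlk H) (hq : 5 ≤ Fintype.card F) (hn : 5 ≤ Fintype.card ι)
    (hg : g ∈ H) (hgM : g ∉ monoGrp ι F) {k l l' : ι} (hl : l ≠ l') (h1 : colOf g k l = 0) :
    colOf g k l' ≠ 0 := fun h2 ↦ by
  obtain ⟨j, hj⟩ := exists_colOf_ne_zero g l
  obtain ⟨a, ha⟩ := exists_notMem_of_card_lt (s := {l, l'}) Finset.card_le_two (by omega)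
  obtain ⟨b, hb⟩ := exists_notMem_of_card_lt (s := {l, l', a}) Finset.card_le_three (by omega)
  obtain ⟨c, hc⟩ := exists_notMem_of_card_lt (s := {l, l', a, b}) Finset.card_le_four (by omega)
  simp only [Finset.mem_insert, Finset.mem_singleton, not_or] at ha hb hc
  have h3 := fun p ↦ B.supp_of_two_zeros hq hg hl h1 h2 hj (p := p)
  obtain ⟨j', hj'⟩ := exists_colOf_ne_zero g a
  obtain ⟨p, hp, hp'⟩ := B.exists_ne hg hgM j' a
  by_cases hpb : p = b
  · exact hp' (B.supp_of_two_zeros hq hg (Ne.symm hc.2.2.1) (h3 a ha.1 ha.2) (h3 c hc.1 hc.2.1) hj' hp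
      (hpb ▸ Ne.symm hc.2.2.2))
  · exact hp' (B.supp_of_two_zeros hq hg (Ne.symm hb.2.2) (h3 a ha.1 ha.2) (h3 b hb.1 hb.2.1) hj' hp hpb)

theorem exists_zero (B : FrameBlk H) (hq : 5 ≤ Fintype.card F) (hn : 5 ≤ Fintype.card ι)
    (hg : g ∈ H) (hgM : g ∉ monoGrp ι F) (k : ι) : ∃ l, colOf g k l = 0 := by
  by_contra hc
  push Not at hc
  set ξ := colOf g k
  have h1 : ∀ σ : alternatingGroup ι, ∃ m ∈ H, Act m σ fun i ↦ ξ (σ.1 i) / ξ i := fun σ ↦ by
    obtain ⟨m, hm⟩ := exists_act σ.1 (c := fun i ↦ ξ (σ.1 i) / ξ i) fun i ↦ div_ne_zero (hc _) (hc _)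
    refine ⟨m, B.le ⟨⟨_, _, hm⟩, mem_specialLinear.2 ?_⟩, hm⟩
    rw [hm.det, Finset.prod_div_distrib, Equiv.prod_comp σ.1 ξ,
      div_self (Finset.prod_ne_zero_iff.2 fun i _ ↦ hc i), Equiv.Perm.mem_alternatingGroup.1 σ.2]
    simp
  choose m hm e using h1
  have h2 : ∀ σ, m σ • ξ = ξ := fun σ ↦ funext fun p ↦ by
    obtain ⟨p, rfl⟩ := σ.1.surjective p
    rw [e, div_mul_cancel₀ _ (hc p)]
  have h3 : ∀ σ τ, m (σ * τ) = m σ * m τ := fun σ τ ↦ gl_ext fun x ↦ funext fun p ↦ by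
    obtain ⟨p, rfl⟩ := (σ * τ).1.surjective p
    rw [e, mul_smul]
    refine Eq.trans ?_ (e σ _ (τ.1 p)).symm
    have := hc p
    have := hc (τ.1 p)
    rw [e]
    simp only [Subgroup.coe_mul, Equiv.Perm.mul_apply]
    field_simp
  choose f c hf using fun σ ↦ B.conj_mem hg (hm σ) (h2 σ)
  have h4 : ∀ σ j p, colOf (g⁻¹ * m σ * g) j p ≠ 0 → f σ j = p := fun σ j p h ↦ by
    by_contra hne
    simp [colOf, (hf σ).single, Ne.symm hne] at h
  let ρ : alternatingGroup ι →* Equiv.Perm ι := MonoidHom.mk' f fun σ τ ↦ Equiv.ext fun j ↦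
    h4 _ _ _ (by
      rw [h3, show g⁻¹ * (m σ * m τ) * g = (g⁻¹ * m σ * g) * (g⁻¹ * m τ * g) by group, colOf,
        mul_smul, (hf τ).single, smul_comm, (hf σ).single]
      simp [(hf τ).ne_zero, (hf σ).ne_zero])
  have := alternatingGroup.isSimpleGroup (α := ι) (by simpa using hn)
  rcases ρ.normal_ker.eq_bot_or_eq_top with h5 | h5
  · have h6 : ρ.range ≤ MulAction.stabilizer (Equiv.Perm ι) k := by
      rintro _ ⟨σ, rfl⟩
      exact h4 σ k k (by simp [colOf, mul_smul, h2 σ, ξ])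
    have h7 := Subgroup.index_dvd_of_le h6
    have : Nontrivial ι := Fintype.one_lt_card_iff_nontrivial.1 (by omega)
    have h8 : ρ.range.index = 2 := by
      have a1 := ρ.range.index_mul_card
      rw [← (alternatingGroup ι).index_mul_card, alternatingGroup.index_eq_two,
        ← Nat.card_congr (MonoidHom.ofInjective (ρ.ker_eq_bot_iff.1 h5)).toEquiv] at a1
      exact Nat.eq_of_mul_eq_mul_right Nat.card_pos a1
    rw [MulAction.index_stabilizer_of_transitive, h8, Nat.card_eq_fintype_card] at h7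
    exact absurd (Nat.le_of_dvd two_pos h7) (by omega)
  · obtain ⟨a, ha⟩ := exists_notMem_of_card_lt (s := {k}) (Finset.card_singleton k).le (by omega)
    obtain ⟨b, hb⟩ := exists_notMem_of_card_lt (s := {k, a}) Finset.card_le_two (by omega)
    obtain ⟨r, hr⟩ := exists_notMem_of_card_lt (s := {k, a, b}) Finset.card_le_three (by omega)
    obtain ⟨s, hs⟩ := exists_notMem_of_card_lt (s := {k, a, b, r}) Finset.card_le_four (by omega)
    simp only [Finset.mem_insert, Finset.mem_singleton, not_or] at ha hb hr hs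
    let σ : alternatingGroup ι := ⟨Equiv.swap k a * Equiv.swap k b, by
      simp [Ne.symm ha, Ne.symm hb.1]⟩
    have a1 : f σ = 1 := show σ ∈ ρ.ker from h5 ▸ Subgroup.mem_top σ
    have a2 : ∀ j, colOf (g⁻¹ * m σ * g) j = Pi.single j 1 := fun j ↦ by
      obtain ⟨p, b1, b2⟩ : ∃ p, σ.1 p = p ∧ colOf g j p ≠ 0 := by
        by_cases h : colOf g j r = 0
        · exact ⟨s, by simp [σ, Equiv.swap_apply_of_ne_of_ne, hs],
            B.not_two_zeros hq hn hg hgM (Ne.symm hs.2.2.2) h⟩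
        · exact ⟨r, by simp [σ, Equiv.swap_apply_of_ne_of_ne, hr], h⟩
      have b3 := (hf σ).single j
      have b4 := e σ (colOf g j) p
      rw [a1, Equiv.Perm.one_apply] at b3
      rw [colOf, b3]
      rw [mul_smul, mul_smul, inv_smul_eq_iff, smul_comm g] at b3
      simp only [b1, div_self (hc p), colOf, b3, Pi.smul_apply, smul_eq_mul] at b4
      rw [mul_right_cancel₀ b2 b4, one_smul]
    have a3 : g⁻¹ * m σ * g = 1 := Units.ext (Matrix.ext fun i j ↦ by
      rw [entry_eq, entry_eq, one_smul]; exact congrFun (a2 j) i)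
    have a4 := e σ (Pi.single k 1) k
    rw [show m σ = 1 by simpa [mul_assoc, inv_mul_eq_one] using congrArg (g * · * g⁻¹) a3] at a4
    simp [σ, Equiv.swap_apply_of_ne_of_ne hb.1 hb.2, hb.1, hc, eq_comm (a := (0 : F))] at a4

theorem mul_eq_one (B : FrameBlk H) (hq : 5 ≤ Fintype.card F) (hn : 5 ≤ Fintype.card ι)
    (hg : g ∈ H) (hgM : g ∉ monoGrp ι F) {j k : ι} (h : colOf g⁻¹ j k ≠ 0) :
    colOf g⁻¹ j k * colOf g k j = 1 := by
  obtain ⟨k₀, h0⟩ := B.exists_zero hq hn (H.inv_mem hg) (by simpa using hgM) j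
  have hk : k ≠ k₀ := by rintro rfl; exact h h0
  have key : ∀ b : F, b ≠ 0 → ∃ y ∈ H,
      colOf y j = Pi.single j 1 + ((b - 1) * colOf g⁻¹ j k) • colOf g k := fun b hb ↦ by
    obtain ⟨d, hd, a, -, e⟩ := exists_diag_update B.le (c := Function.update 1 k b) (fun i ↦ by
      by_cases hi : i = k <;> simp [hi, hb]) k₀
    refine ⟨g * d * g⁻¹, H.mul_mem (H.mul_mem hg hd) (H.inv_mem hg), ?_⟩
    rw [colOf, mul_smul, mul_smul, e, mul_eq_add₂ hk fun p h1 h2 ↦ by simp [h1, h2]]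
    simp [show (g⁻¹ • (Pi.single j 1 : ι → F)) k₀ = 0 from h0, hk, smul_comm g]
  obtain ⟨l, hl⟩ := B.exists_zero hq hn hg hgM k
  obtain ⟨r, hr⟩ := exists_notMem_of_card_lt (s := {j, l}) Finset.card_le_two (by omega)
  obtain ⟨s, hs⟩ := exists_notMem_of_card_lt (s := {j, l, r}) Finset.card_le_three (by omega)
  simp only [Finset.mem_insert, Finset.mem_singleton, not_or] at hr hs
  have h1 : ∀ p, p ≠ l → colOf g k p ≠ 0 := fun p hp ↦ B.not_two_zeros hq hn hg hgM hp.symm hl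
  have h2 : ∀ b : F, b ≠ 1 → ∀ y : GL ι F,
      colOf y j = Pi.single j 1 + ((b - 1) * colOf g⁻¹ j k) • colOf g k → y ∉ monoGrp ι F :=
    fun b hb y e ↦ not_mem_monoGrp (j := j) hs.2.2
      (by simp [e, hs.1, sub_ne_zero.2 hb, h, h1 s hs.2.1])
      (by simp [e, hr.1, sub_ne_zero.2 hb, h, h1 r hr.2])
  by_cases hjl : j = l
  · subst hjl
    obtain ⟨b, b0, b1, -⟩ := exists_ne_three hq (0 : F) 1 0
    obtain ⟨y, hy, e⟩ := key b b0
    obtain ⟨p, hp⟩ := B.exists_zero hq hn hy (h2 b b1 y e) j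
    by_cases hpj : p = j
    · simp [e, hpj, hl] at hp
    · simp [e, hpj, sub_ne_zero.2 b1, h, h1 p hpj] at hp
  by_contra hne
  have h3 := mul_ne_zero h (h1 j hjl)
  obtain ⟨y, hy, e⟩ := key (1 - (colOf g⁻¹ j k * colOf g k j)⁻¹) (by
    rwa [sub_ne_zero, ne_comm, Ne, inv_eq_one])
  refine B.not_two_zeros hq hn hy (h2 _ (by simpa [and_comm] using h3) y e) hjl (k := j) ?_ (by
    simp [e, Ne.symm hjl, hl])
  simp only [e, Pi.add_apply, Pi.single_eq_same, Pi.smul_apply, smul_eq_mul, mul_assoc]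
  rw [sub_sub_cancel_left, neg_mul, inv_mul_cancel₀ h3, add_neg_cancel]

theorem le_mono (B : FrameBlk H) (hq : 5 ≤ Fintype.card F) (hn : 5 ≤ Fintype.card ι) :
    H ≤ monoGrp ι F := fun g hg ↦ by
  by_contra hgM
  have hgM' : g⁻¹ ∉ monoGrp ι F := by simpa using hgM
  obtain ⟨j⟩ : Nonempty ι := Fintype.card_pos_iff.1 (by omega)
  obtain ⟨k, h0⟩ := B.exists_zero hq hn (H.inv_mem hg) hgM' j
  obtain ⟨r, hr⟩ := exists_notMem_of_card_lt (s := {k}) (Finset.card_singleton k).le (by omega)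
  obtain ⟨s, hs⟩ := exists_notMem_of_card_lt (s := {k, r}) Finset.card_le_two (by omega)
  simp only [Finset.mem_insert, Finset.mem_singleton, not_or] at hr hs
  have h1 := B.mul_eq_one hq hn hg hgM (B.not_two_zeros hq hn (H.inv_mem hg) hgM' (Ne.symm hr) h0)
  have h2 := B.mul_eq_one hq hn hg hgM (B.not_two_zeros hq hn (H.inv_mem hg) hgM' (Ne.symm hs.1) h0)
  have key : ∀ (y : GL ι F) (d : ι → F), (∀ x, y • x = d * x) →
      (∀ p, p ≠ k → p ≠ r → p ≠ s → d p = 1) → colOf (g * y * g⁻¹) j j = d r + d s - 1 :=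
    fun y d e h ↦ by
      rw [colOf, mul_smul, mul_smul, e, mul_eq_add₂ (Ne.symm hs.2) fun p b1 b2 ↦ by
        by_cases hp : p = k
        · rw [hp, show (g⁻¹ • (Pi.single j 1 : ι → F)) k = 0 from h0, mul_zero]
        · rw [h p hp b1 b2, one_mul]]
      simp only [smul_add, smul_inv_smul, smul_comm g, Pi.add_apply, Pi.single_eq_same,
        Pi.smul_apply, smul_eq_mul]
      linear_combination (d r - 1) * h1 + (d s - 1) * h2
  obtain ⟨a, a0, a1, a2⟩ := exists_quad_ne hq (a := (1 : F)) (b := -1) (c := 1) (by simp) 0 1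
  have a3 : 1 - a ≠ 0 := sub_ne_zero.2 a1.symm
  have hd : ∀ i, Function.update (Function.update (1 : ι → F) r a) s (1 - a) i ≠ 0 := fun i ↦ by
    simp only [Function.update_apply]
    split_ifs <;> simp [a0, a3]
  obtain ⟨y, hy, c, hc, e⟩ := exists_diag_update B.le hd k
  have h3 := key y _ e fun p b1 b2 b3 ↦ by simp [b1, b2, b3]
  have h4 := key y⁻¹ (Function.update (Function.update (Function.update 1 r a) s (1 - a)) k c)⁻¹
    (fun x ↦ by
      rw [inv_smul_eq_iff, e]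
      ext p
      by_cases hp : p = k
      · simp [hp, hc]
      · simp [hp, hd p]) fun p b1 b2 b3 ↦ by simp [b1, b2, b3]
  rw [show g * y⁻¹ * g⁻¹ = (g * y * g⁻¹)⁻¹ by group] at h4
  simp only [Pi.inv_apply, Function.update_of_ne hr, Function.update_of_ne hs.1,
    Function.update_of_ne (Ne.symm hs.2), Function.update_self, add_sub_cancel, sub_self] at h3 h4
  have h5 : colOf (g * y * g⁻¹)⁻¹ j j ≠ 0 := fun h5 ↦ a2 (by
    rw [h4] at h5
    field_simp at h5
    linear_combination h5)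
  have hz := H.mul_mem (H.mul_mem hg hy) (H.inv_mem hg)
  generalize g * y * g⁻¹ = z at h3 h5 hz
  by_cases hzM : z ∈ monoGrp ι F
  · have := colOf_eq_of_mono (inv_mem hzM) h5
    rw [colOf, inv_smul_eq_iff, smul_comm] at this
    simpa [show (z • (Pi.single j 1 : ι → F)) j = 0 from h3] using congrFun this j
  · simpa [h3] using B.mul_eq_one hq hn hz hzM h5

end FrameBlk

theorem isMaximalIn_lines [Fintype F] (hq : 5 ≤ Fintype.card F) (hn : 5 ≤ Fintype.card ι) {t : ℕ}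
    {D : Fin t → Submodule F (ι → F)} (hD : IsMDecomposition 1 D) :
    IsMaximalIn (specialLinear ι F) (decompositionStabilizer D ⊓ specialLinear ι F) := by
  have h1 := not_sl_le_decompositionStabilizer hD
  obtain ⟨θ, h⟩ := exists_glOf_lines hD
  have ht : 5 ≤ Fintype.card (Fin t) := by rwa [card_eq_of_equiv θ]
  rw [h, monoGrp_eq] at h1 ⊢
  refine isMaximalIn_map_inf (map_glOf_specialLinear θ) (isMaximalIn_of
    (fun h2 ↦ h1 (map_glOf_specialLinear θ ▸ Subgroup.map_mono h2)) fun H hM hS g hg hgM ↦ ?_)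
  by_contra hc
  exact hgM (FrameBlk.le_mono ⟨hM, fun h hh k hk ↦ by_contra fun hhM ↦
    hc (sl_le_of_fix hq ht hM hS hh hhM hk)⟩ hq ht hg)

end CL.SLn
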