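/-
Maximality in `SL_n(F)` of the stabilisers of decompositions into `m`-spaces.
-/
import Cfsg.Agent.Cls.MaxMono3

set_option autoImplicit false

namespace CL.SLn

open Module Matrix Cfsg Cfsg.Geo

variable {F : Type*} [Field F] {t m : ℕ}

/-- The projection onto the block `i`. -/
def prj (i : Fin t) : (Fin t × Fin m → F) →ₗ[F] (Fin t × Fin m → F) where
  toFun x p := if p.1 = i then x p else 0
  map_add' x y := funext fun p ↦ by by_cases h : p.1 = i <;> simp [h]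
  map_smul' c x := funext fun p ↦ by by_cases h : p.1 = i <;> simp [h]

theorem prj_apply (i : Fin t) (x : Fin t × Fin m → F) (p : Fin t × Fin m) :
    prj i x p = if p.1 = i then x p else 0 := rfl

theorem prj_mem (i : Fin t) (x : Fin t × Fin m → F) : prj i x ∈ blk F Prod.fst i :=
  fun _ hp ↦ if_neg hp

theorem prj_of_mem {i : Fin t} {x : Fin t × Fin m → F} (h : x ∈ blk F Prod.fst i) : prj i x = x :=
  funext fun p ↦ by
    by_cases hp : p.1 = i
    · exact if_pos hp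
    · exact (if_neg hp).trans (h p hp).symm

theorem prj_of_mem_ne {i j : Fin t} {x : Fin t × Fin m → F} (h : x ∈ blk F Prod.fst j)
    (hij : i ≠ j) : prj i x = 0 := funext fun p ↦ by
  by_cases hp : p.1 = i
  · exact (if_pos hp).trans (h p (hp ▸ hij))
  · exact if_neg hp

theorem prj_ne_zero {x : Fin t × Fin m → F} {p : Fin t × Fin m} (h : x p ≠ 0) : prj p.1 x ≠ 0 :=
  fun e ↦ h (by simpa [prj_apply] using congrFun e p)

/-- The embedding of the block `i`. -/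
def emb (i : Fin t) : (Fin m → F) →ₗ[F] (Fin t × Fin m → F) where
  toFun y p := if p.1 = i then y p.2 else 0
  map_add' x y := funext fun p ↦ by by_cases h : p.1 = i <;> simp [h]
  map_smul' c x := funext fun p ↦ by by_cases h : p.1 = i <;> simp [h]

theorem emb_ne_zero (i : Fin t) {y : Fin m → F} (h : y ≠ 0) : emb i y ≠ 0 := fun e ↦
  h (funext fun a ↦ by simpa [emb] using congrFun e (i, a))

theorem exists_blk_ker₂ (hm : 3 ≤ m) (i : Fin t) (φ ψ : Dual F (Fin t × Fin m → F)) :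
    ∃ u ∈ blk F Prod.fst i, u ≠ 0 ∧ φ u = 0 ∧ ψ u = 0 := by
  obtain ⟨y, h0, h1, h2⟩ := exists_ne_zero_ker₂ (by simpa using hm) (φ ∘ₗ emb i) (ψ ∘ₗ emb i)
  exact ⟨emb i y, fun _ hp ↦ if_neg hp, emb_ne_zero i h0, h1, h2⟩

theorem exists_blk_ker (hm : 2 ≤ m) (i : Fin t) (φ : Dual F (Fin t × Fin m → F)) :
    ∃ u ∈ blk F Prod.fst i, u ≠ 0 ∧ φ u = 0 := by
  obtain ⟨y, h1, h0⟩ := Submodule.exists_mem_ne_zero_of_ne_bot
    (LinearMap.ker_ne_bot_of_finrank_lt (f := φ ∘ₗ emb i) (by simp; omega))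
  exact ⟨emb i y, fun _ hp ↦ if_neg hp, emb_ne_zero i h0, h1⟩

theorem dil_mem_stab_blk {i : Fin t} {v : Fin t × Fin m → F} (hv : v ∈ blk F Prod.fst i)
    {φ : Dual F (Fin t × Fin m → F)} {g : GL (Fin t × Fin m) F}
    (e : ∀ x, g • x = x + φ (prj i x) • v) : g ∈ decompositionStabilizer (blk F Prod.fst) :=
  mem_decompositionStabilizer_of 1 fun j y hy ↦ by
    rw [e]
    by_cases hj : i = j
    · exact Submodule.add_mem _ hy (Submodule.smul_mem _ _ (hj ▸ hv))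
    · rwa [prj_of_mem_ne hy hj, map_zero, zero_smul, add_zero]

theorem exists_not_blk (hm : 0 < m) {g : GL (Fin t × Fin m) F}
    (hg : g ∉ decompositionStabilizer (blk F Prod.fst)) :
    ∃ i, ∃ v ∈ blk F Prod.fst i, ∃ p q : Fin t × Fin m, p.1 ≠ q.1 ∧ (g • v) p ≠ 0 ∧ (g • v) q ≠ 0 := by
  by_contra hc
  push Not at hc
  choose r hr using fun i : Fin t ↦ exists_colOf_ne_zero g⁻¹ (i, ⟨0, hm⟩)
  have h1 : ∀ i, ∃ p : Fin t × Fin m, colOf g (i, ⟨0, hm⟩) p ≠ 0 := fun i ↦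
    Function.ne_iff.1 ((smul_ne_zero_iff_ne g).2 fun e ↦ by simpa using congrFun e (i, ⟨0, hm⟩))
  choose s hs using h1
  have h2 : ∀ i, ∀ v ∈ blk F Prod.fst i, g • v ∈ blk F Prod.fst (s i).1 := fun i v hv p hp ↦ by
    have a0 := single_mem_blk (F := F) Prod.fst (i, (⟨0, hm⟩ : Fin m)) 1
    have a1 := hc i _ a0 (s i) p (Ne.symm hp) (hs i)
    by_cases h : (g • v) (s i) = 0
    · simpa [a1] using hc i _ (Submodule.add_mem _ hv a0) (s i) p (Ne.symm hp) (by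
        simpa [h] using hs i)
    · exact hc i v hv (s i) p (Ne.symm hp) h
  have h3 : Function.Surjective fun i ↦ (s i).1 := fun j ↦ by
    obtain ⟨p, hp⟩ := exists_colOf_ne_zero g (j, ⟨0, hm⟩)
    exact ⟨p.1, by_contra fun h ↦ hp (h2 p.1 _ (single_mem_blk Prod.fst p 1) _ (Ne.symm h))⟩
  exact hg (mem_decompositionStabilizer_of
    (Equiv.ofBijective _ (Finite.surjective_iff_bijective.1 h3)) h2)

variable {H : Subgroup (GL (Fin t × Fin m) F)}

theorem tv_blk (hM : decompositionStabilizer (blk F Prod.fst) ⊓ specialLinear _ F ≤ H) {i : Fin t}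
    {v : Fin t × Fin m → F} (hv : v ∈ blk F Prod.fst i) {φ : Dual F (Fin t × Fin m → F)}
    (h : φ v = 0) : Tv H v (φ ∘ₗ prj i) :=
  have h0 : (φ ∘ₗ prj i) v = 0 := by rwa [LinearMap.comp_apply, prj_of_mem hv]
  Tv.of_mem h0 (hM ⟨dil_mem_stab_blk hv (tv_smul _ _ h0), tv_mem_specialLinear _ _ h0⟩)

theorem tv_blk_single (hM : decompositionStabilizer (blk F Prod.fst) ⊓ specialLinear _ F ≤ H)
    {p q : Fin t × Fin m} (h1 : p.1 = q.1) (h : p ≠ q) (c : F) :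
    Tv H (c • Pi.single p 1) (LinearMap.proj q : Dual F (Fin t × Fin m → F)) := by
  refine (tv_blk hM (Submodule.smul_mem _ c (single_mem_blk Prod.fst p 1))
    (φ := LinearMap.proj q) (by simp [h])).congr (by simp [h]) fun x ↦ ?_
  simp [prj_apply, h1]

theorem sl_le_of_off (hm : 2 ≤ m)
    (hM : decompositionStabilizer (blk F Prod.fst) ⊓ specialLinear _ F ≤ H)
    {x u : Fin t × Fin m → F} {ψ : Dual F (Fin t × Fin m → F)} (h : ∀ c : F, Tv H (c • x) ψ)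
    {i : Fin t} (hu : u ∈ blk F Prod.fst i) (hu0 : u ≠ 0) (h1 : ∀ c : F, c • u ≠ prj i x)
    (h2 : ψ u = 0) {q : Fin t × Fin m} (hq : q.1 ≠ i) (h3 : ψ (Pi.single q 1) ≠ 0) :
    specialLinear _ F ≤ H := by
  have : Nontrivial (Fin m) := Fin.nontrivial_iff_two_le.2 hm
  have ex : ∀ p : Fin t × Fin m, ∃ p' : Fin t × Fin m, p'.1 = p.1 ∧ p' ≠ p := fun p ↦
    let ⟨b, hb⟩ := exists_ne p.2
    ⟨(p.1, b), rfl, fun e ↦ hb (congrArg Prod.snd e)⟩
  obtain ⟨α, a1, a0⟩ := exists_dual_pair h1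
  have h4 : ∀ c : F, Tv H (c • u) ψ := fun c ↦ by
    simpa [a1] using (tv_blk hM hu a0).comm (h c) h2
  have mr : ∀ (ψ : Dual F (Fin t × Fin m → F)) (q q' : Fin t × Fin m), (∀ c : F, Tv H (c • u) ψ) →
      q.1 ≠ i → ψ (Pi.single q 1) ≠ 0 → q'.1 = q.1 → q' ≠ q →
      ∀ c : F, Tv H (c • u) (LinearMap.proj q' : Dual F _) := fun ψ q q' h b1 b2 b3 b4 c ↦ by
    simpa [smul_smul, b2] using (h c).comm
      (tv_blk_single hM b3.symm b4.symm (ψ (Pi.single q 1))⁻¹) (by simp [hu q' (b3 ▸ b1)])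
  have h5 : ∀ q' : Fin t × Fin m, q'.1 = q.1 →
      ∀ c : F, Tv H (c • u) (LinearMap.proj q' : Dual F _) := fun q' hq' ↦ by
    by_cases e : q' = q
    · obtain ⟨r, r1, r2⟩ := ex q
      exact mr _ r q' (mr ψ q r h4 hq h3 r1 r2) (r1 ▸ hq) (by simp) (hq'.trans r1.symm) (e ▸ r2.symm)
    · exact mr ψ q q' h4 hq h3 hq' e
  have ml : ∀ (a : Fin t × Fin m → F) (p p' q' : Fin t × Fin m), p'.1 = p.1 → p' ≠ p → a p ≠ 0 →
      p' ≠ q' → (∀ c : F, Tv H (c • a) (LinearMap.proj q' : Dual F _)) →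
      ∀ c : F, Tv H (c • Pi.single p' 1) (LinearMap.proj q' : Dual F (Fin t × Fin m → F)) :=
    fun a p p' q' b1 b2 b3 b4 h c ↦ by
      simpa [smul_smul, b3] using (tv_blk_single hM b1 b2 c).comm (h (a p)⁻¹) (by simp [b4])
  obtain ⟨p, hp⟩ := Function.ne_iff.1 hu0
  have hpi : p.1 = i := by_contra fun e ↦ hp (hu p e)
  have h6 : ∀ p' q' : Fin t × Fin m, p'.1 = i → q'.1 = q.1 →
      ∀ c : F, Tv H (c • Pi.single p' 1) (LinearMap.proj q' : Dual F (Fin t × Fin m → F)) :=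
    fun p' q' b1 b2 ↦ by
      have ne : ∀ r : Fin t × Fin m, r.1 = i → r ≠ q' := fun r hr e ↦ hq (by rw [← b2, ← e, hr])
      by_cases e : p' = p
      · obtain ⟨r, r1, r2⟩ := ex p
        exact ml _ r p' q' (e ▸ r1.symm) (e ▸ r2.symm) (by simp) (ne _ b1)
          (ml u p r q' r1 r2 hp (ne _ (r1.trans hpi)) (h5 q' b2))
      · exact ml u p p' q' (b1.trans hpi.symm) e hp (ne _ b1) (h5 q' b2)
  refine specialLinear_le_of_basis (Pi.basisFun F _) fun r s hrs c ↦ ?_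
  rw [Pi.basisFun_apply, show (Pi.basisFun F _).coord s = LinearMap.proj s from by ext; rfl]
  by_cases e : r.1 = s.1
  · exact tv_blk_single hM e hrs c
  obtain ⟨σ, s1, s2⟩ : ∃ σ : Equiv.Perm (Fin t), σ i = r.1 ∧ σ q.1 = s.1 := by
    refine ⟨Equiv.swap (Equiv.swap i r.1 q.1) s.1 * Equiv.swap i r.1, ?_, by simp⟩
    rw [Equiv.Perm.mul_apply, Equiv.swap_apply_left, Equiv.swap_apply_of_ne_of_ne _ e]
    rw [ne_comm, Ne, Equiv.swap_apply_eq_iff, Equiv.swap_apply_right]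
    exact hq
  obtain ⟨g, hg, b, e'⟩ := exists_act_update (F := F) le_rfl (σ.prodCongr (Equiv.refl (Fin m)))
    (c := 1) (by simp) r
  generalize Function.update (1 : Fin t × Fin m → F) r b = d at e'
  have hgH : g ∈ H := hM ⟨mem_stab_blk.2 ⟨σ, fun p q hpq ↦ by
    rw [entry_eq, e'.single, Pi.smul_apply, Pi.single_eq_of_ne fun e ↦ hpq (congrArg Prod.fst e),
      smul_zero]⟩, hg.2⟩
  have a2 := e'.ne_zero (i, r.2)
  have a3 := e'.ne_zero (q.1, s.2)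
  have h7 := (h6 (i, r.2) (q.1, s.2) rfl rfl (c * d (q.1, s.2) / d (i, r.2))).conj' hgH
    (ψ := (d (q.1, s.2))⁻¹ • LinearMap.proj s) fun x ↦ by
      have := e' x (q.1, s.2)
      simp only [Equiv.prodCongr_apply, Prod.map, s2, Equiv.coe_refl, id] at this
      simp [this, a3]
  rw [smul_comm, e'.single] at h7
  refine h7.congr (by simp [hrs]) fun x ↦ ?_
  simp only [LinearMap.smul_apply, LinearMap.proj_apply, smul_smul, Equiv.prodCongr_apply, Prod.map,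
    s1, Equiv.coe_refl, id, smul_eq_mul]
  congr 1
  field_simp

theorem not_smul_of_ker {V : Type*} [AddCommGroup V] [Module F V] {u y : V} {δ : Dual F V}
    (h1 : δ y ≠ 0) (h0 : δ u = 0) (c : F) : c • u ≠ y := fun e ↦ h1 (by simp [← e, h0])

theorem sl_le_of_blk (hm : 2 ≤ m) (h3 : 3 ≤ m ∨ 3 ≤ t ∧ ∃ a : F, a ≠ 0 ∧ a ≠ 1)
    (hM : decompositionStabilizer (blk F Prod.fst) ⊓ specialLinear _ F ≤ H)
    {x : Fin t × Fin m → F} {ψ : Dual F (Fin t × Fin m → F)} (h : ∀ c : F, Tv H (c • x) ψ)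
    (hψ : ψ ≠ 0) {p q : Fin t × Fin m} (hpq : p.1 ≠ q.1) (hp : x p ≠ 0) (hq : x q ≠ 0) :
    specialLinear _ F ≤ H := by
  have key : ∀ (ψ : Dual F (Fin t × Fin m → F)) (p r : Fin t × Fin m), (∀ c : F, Tv H (c • x) ψ) →
      x p ≠ 0 → r.1 ≠ p.1 → ψ (Pi.single r 1) ≠ 0 →
      (3 ≤ m ∨ ψ ∘ₗ prj p.1 = 0 ∨ ψ (prj p.1 x) ≠ 0) → specialLinear _ F ≤ H :=
    fun ψ p r h hp hr h1 h2 ↦ by
      obtain ⟨δ, hδ⟩ := exists_dual_eq_one (F := F) (prj_ne_zero hp)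
      rcases h2 with h2 | h2 | h2
      · obtain ⟨u, hu, u0, u1, u2⟩ := exists_blk_ker₂ h2 p.1 δ ψ
        exact sl_le_of_off hm hM h hu u0 (not_smul_of_ker (hδ ▸ one_ne_zero) u1) u2 hr h1
      · obtain ⟨u, hu, u0, u1⟩ := exists_blk_ker hm p.1 δ
        exact sl_le_of_off hm hM h hu u0 (not_smul_of_ker (hδ ▸ one_ne_zero) u1)
          (prj_of_mem hu ▸ LinearMap.congr_fun h2 u) hr h1
      · obtain ⟨u, hu, u0, u1⟩ := exists_blk_ker hm p.1 ψ
        exact sl_le_of_off hm hM h hu u0 (not_smul_of_ker h2 u1) u1 hr h1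
  obtain ⟨r, hr⟩ := exists_single_ne_zero hψ
  wlog hrp : r.1 ≠ p.1 generalizing p q
  · exact this hpq.symm hq hp (not_not.1 hrp ▸ hpq)
  by_contra hc
  have h1 := mt (key ψ p r h hp hrp hr) hc
  push Not at h1
  obtain ⟨ht, a, a0, a1⟩ := h3.resolve_left (by omega)
  obtain ⟨k, hk⟩ := exists_notMem_of_card_lt (s := {p.1, q.1}) Finset.card_le_two (by simp; omega)
  simp only [Finset.mem_insert, Finset.mem_singleton, not_or] at hk
  obtain ⟨s, hs⟩ := exists_single_ne_zero h1.2.1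
  have hsp : s.1 = p.1 := by_contra fun e ↦ hs (by
    rw [LinearMap.comp_apply, prj_of_mem_ne (single_mem_blk Prod.fst s 1) (Ne.symm e), map_zero])
  have hs1 : (Pi.single s 1 : Fin t × Fin m → F) ∈ blk F Prod.fst p.1 :=
    hsp ▸ single_mem_blk Prod.fst s 1
  rw [LinearMap.comp_apply, prj_of_mem hs1] at hs
  obtain ⟨w, hw, γ, b1, b0⟩ : ∃ w ∈ blk F Prod.fst k, ∃ γ : Dual F (Fin t × Fin m → F),
      γ w = 1 ∧ γ (prj k x) = 0 := by
    by_cases h0 : prj k x = 0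
    · obtain ⟨w, hw, w0, -⟩ := exists_blk_ker hm k (0 : Dual F _)
      obtain ⟨γ, hγ⟩ := exists_dual_eq_one (F := F) w0
      exact ⟨w, hw, γ, hγ, by rw [h0, map_zero]⟩
    · obtain ⟨δ, hδ⟩ := exists_dual_eq_one (F := F) h0
      obtain ⟨w, hw, w0, w1⟩ := exists_blk_ker hm k δ
      exact ⟨w, hw, exists_dual_pair fun c e ↦ w0 (by
        have : c = 0 := by simpa [hδ, w1] using congrArg δ e
        rw [← e, this, zero_smul])⟩
  have c1 : 1 + (ψ ∘ₗ prj p.1) (((a - 1) / ψ (Pi.single s 1)) • Pi.single s 1) = a := by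
    simp [prj_of_mem hs1, hs]
  have c2 : 1 + (γ ∘ₗ prj k) ((a⁻¹ - 1) • w) = a⁻¹ := by simp [prj_of_mem hw, b1]
  let δ := dil _ _ (c1 ▸ a0 :) * dil _ _ (c2 ▸ inv_ne_zero a0 :)
  have hδ : δ ∈ H := hM ⟨Subgroup.mul_mem _
    (dil_mem_stab_blk (Submodule.smul_mem _ _ hs1) (dil_smul _ _ _))
    (dil_mem_stab_blk (Submodule.smul_mem _ _ hw) (dil_smul _ _ _)), mem_specialLinear.2 (by
      rw [Units.val_mul, det_mul, det_dil, det_dil, c1, c2, mul_inv_cancel₀ a0])⟩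
  have e : ∀ y, δ • y = y + ((a⁻¹ - 1) * γ (prj k y)) • w +
      ((a - 1) / ψ (Pi.single s 1) * ψ (prj p.1 y)) • Pi.single s 1 := fun y ↦ by
    rw [mul_smul, dil_smul, dil_smul]
    simp [prj_of_mem_ne hw (Ne.symm hk.1), smul_smul, mul_comm]
  refine hc (key (dact δ⁻¹ ψ - ψ) q s (fun c ↦ ?_) hq (hsp ▸ hpq) ?_ (Or.inr (Or.inl ?_)))
  · have := (h c).conj (H.inv_mem hδ)
    rw [show δ⁻¹ • c • x = c • x by rw [inv_smul_eq_iff, e]; simp [b0, h1.2.2]] at this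
    exact this.sub_right (h c)
  · simp [e, prj_of_mem hs1, prj_of_mem_ne hs1 hk.1, hs, sub_eq_zero, a1]
  · exact LinearMap.ext fun y ↦ by
      simp [e, prj_of_mem_ne (prj_mem q.1 y) hk.2, prj_of_mem_ne (prj_mem q.1 y) hpq]

theorem isMaximalIn_blocks {ι : Type} [Fintype ι] [DecidableEq ι] (hm : 2 ≤ m)
    (h3 : 3 ≤ m ∨ 3 ≤ t ∧ ∃ a : F, a ≠ 0 ∧ a ≠ 1) {D : Fin t → Submodule F (ι → F)}
    (hD : IsMDecomposition m D) :
    IsMaximalIn (specialLinear ι F) (decompositionStabilizer D ⊓ specialLinear ι F) := by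
  have h1 := not_sl_le_decompositionStabilizer hD
  obtain ⟨θ, h⟩ := exists_glOf_blk hD
  rw [h] at h1 ⊢
  refine isMaximalIn_map_inf (map_glOf_specialLinear θ) (isMaximalIn_of
    (fun h2 ↦ h1 (map_glOf_specialLinear θ ▸ Subgroup.map_mono h2)) fun H hM _ g hg hgM ↦ ?_)
  obtain ⟨i, v, hv, p, q, hpq, hp, hq⟩ := exists_not_blk (by omega) hgM
  have hv0 : v ≠ 0 := by rintro rfl; simp at hp
  obtain ⟨δ, hδ⟩ := exists_dual_eq_one (F := F) hv0
  obtain ⟨w, hw, w0, w1⟩ := exists_blk_ker hm i δ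
  obtain ⟨φ, a1, a0⟩ := exists_dual_pair (F := F) (u := v) (v := w) fun c e ↦ w0 (by
    have : c = 0 := by simpa [hδ, w1] using congrArg δ e
    rw [← e, this, zero_smul])
  refine sl_le_of_blk hm h3 hM (ψ := dact g (φ ∘ₗ prj i)) (fun c ↦ ?_) (dact_ne_zero _ fun e ↦ ?_)
    hpq hp hq
  · rw [smul_comm]
    exact (tv_blk hM (Submodule.smul_mem _ c hv) (by simp [a0])).conj hg
  · simpa [prj_of_mem hw, a1] using LinearMap.congr_fun e w

end CL.SLn
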