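/-
Maximality in `SL_{2m}(F)` of the stabilisers of decompositions into two `m`-spaces, `|F| ≥ 4`.
-/
import Cfsg.Agent.Cls.MaxDec

set_option autoImplicit false

namespace CL.SLn

open Module Matrix Cfsg Cfsg.Geo

variable {F : Type*} [Field F] {m : ℕ}

theorem sl_le_of_blk_two {H : Subgroup (GL (Fin 2 × Fin m) F)} (hm : 2 ≤ m) {a : F} (a0 : a ≠ 0)
    (a1 : a ^ 2 ≠ 1)
    (hM : decompositionStabilizer (blk F Prod.fst) ⊓ specialLinear _ F ≤ H)
    {x : Fin 2 × Fin m → F} {ψ : Dual F (Fin 2 × Fin m → F)} (h : ∀ c : F, Tv H (c • x) ψ)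
    (hψ : ψ ≠ 0) {p q : Fin 2 × Fin m} (hpq : p.1 ≠ q.1) (hp : x p ≠ 0) (hq : x q ≠ 0) :
    specialLinear _ F ≤ H := by
  have key : ∀ (ψ : Dual F (Fin 2 × Fin m → F)) (p r : Fin 2 × Fin m), (∀ c : F, Tv H (c • x) ψ) →
      x p ≠ 0 → r.1 ≠ p.1 → ψ (Pi.single r 1) ≠ 0 →
      (ψ ∘ₗ prj p.1 = 0 ∨ ψ (prj p.1 x) ≠ 0) → specialLinear _ F ≤ H :=
    fun ψ p r h hp hr h1 h2 ↦ by
      obtain ⟨δ, hδ⟩ := exists_dual_eq_one (F := F) (prj_ne_zero hp)
      rcases h2 with h2 | h2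
      · obtain ⟨u, hu, u0, u1⟩ := exists_blk_ker hm p.1 δ
        exact sl_le_of_off hm hM h hu u0 (not_smul_of_ker (hδ ▸ one_ne_zero) u1)
          (prj_of_mem hu ▸ LinearMap.congr_fun h2 u) hr h1
      · obtain ⟨u, hu, u0, u1⟩ := exists_blk_ker hm p.1 ψ
        exact sl_le_of_off hm hM h hu u0 (not_smul_of_ker h2 u1) u1 hr h1
  obtain ⟨r, hr⟩ := exists_single_ne_zero hψ
  wlog hrp : r.1 ≠ p.1 generalizing p q
  · exact this hpq.symm hq hp (not_not.1 hrp ▸ hpq)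
  by_contra hc
  have h1 := mt (key ψ p r h hp hrp hr) hc
  push Not at h1
  have hrq : r.1 = q.1 := by omega
  obtain ⟨s, hs⟩ := exists_single_ne_zero h1.1
  have hsp : s.1 = p.1 := by_contra fun e ↦ hs (by
    rw [LinearMap.comp_apply, prj_of_mem_ne (single_mem_blk Prod.fst s 1) (Ne.symm e), map_zero])
  have hs1 : (Pi.single s 1 : Fin 2 × Fin m → F) ∈ blk F Prod.fst p.1 :=
    hsp ▸ single_mem_blk Prod.fst s 1
  have hr1 : (Pi.single r 1 : Fin 2 × Fin m → F) ∈ blk F Prod.fst q.1 :=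
    hrq ▸ single_mem_blk Prod.fst r 1
  rw [LinearMap.comp_apply, prj_of_mem hs1] at hs
  have h2 := mt (key ψ q s h hq (hsp ▸ hpq) hs) hc
  push Not at h2
  have c1 : 1 + (ψ ∘ₗ prj p.1) (((a - 1) / ψ (Pi.single s 1)) • Pi.single s 1) = a := by
    simp [prj_of_mem hs1, hs]
  have c2 : 1 + (ψ ∘ₗ prj q.1) (((a⁻¹ - 1) / ψ (Pi.single r 1)) • Pi.single r 1) = a⁻¹ := by
    simp [prj_of_mem hr1, hr]
  let δ := dil _ _ (c1 ▸ a0 :) * dil _ _ (c2 ▸ inv_ne_zero a0 :)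
  have hδ : δ ∈ H := hM ⟨Subgroup.mul_mem _
    (dil_mem_stab_blk (Submodule.smul_mem _ _ hs1) (dil_smul _ _ _))
    (dil_mem_stab_blk (Submodule.smul_mem _ _ hr1) (dil_smul _ _ _)), mem_specialLinear.2 (by
      rw [Units.val_mul, det_mul, det_dil, det_dil, c1, c2, mul_inv_cancel₀ a0])⟩
  have e : ∀ y, δ • y = y + ((a⁻¹ - 1) / ψ (Pi.single r 1) * ψ (prj q.1 y)) • Pi.single r 1 +
      ((a - 1) / ψ (Pi.single s 1) * ψ (prj p.1 y)) • Pi.single s 1 := fun y ↦ by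
    rw [mul_smul, dil_smul, dil_smul]
    simp [prj_of_mem_ne hr1 hpq, smul_smul, mul_comm]
  have aa : a - a⁻¹ ≠ 0 := fun e ↦ a1 (by rw [sq]; nth_rw 2 [sub_eq_zero.1 e]; exact mul_inv_cancel₀ a0)
  refine hc (key (dact δ⁻¹ ψ - a⁻¹ • ψ) q s (fun c ↦ ?_) hq (hsp ▸ hpq) ?_ (Or.inl ?_))
  · have := (h c).conj (H.inv_mem hδ)
    rw [show δ⁻¹ • c • x = c • x by rw [inv_smul_eq_iff, e]; simp [h1.2, h2.2]] at this
    exact this.sub_right (Tv.of_smul_left (h c).1 (by simpa only [smul_smul] using h (a⁻¹ * c)))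
  · simp only [LinearMap.sub_apply, dact_apply, inv_inv, e, prj_of_mem hs1,
      prj_of_mem_ne hs1 hpq.symm, map_zero, mul_zero, zero_smul, add_zero, map_add, map_smul,
      smul_eq_mul, LinearMap.smul_apply]
    intro e'
    apply mul_ne_zero aa hs
    rw [← e']
    field_simp
    ring
  · refine LinearMap.ext fun y ↦ ?_
    simp only [LinearMap.comp_apply, LinearMap.sub_apply, dact_apply, inv_inv, e,
      prj_of_mem (prj_mem q.1 y), prj_of_mem_ne (prj_mem q.1 y) hpq, map_zero, mul_zero,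
      zero_smul, add_zero, map_add, map_smul, smul_eq_mul, LinearMap.smul_apply,
      LinearMap.zero_apply]
    field_simp
    ring

theorem isMaximalIn_two_blocks {ι : Type} [Fintype ι] [DecidableEq ι] (hm : 2 ≤ m)
    (h3 : ∃ a : F, a ≠ 0 ∧ a ^ 2 ≠ 1) {D : Fin 2 → Submodule F (ι → F)}
    (hD : IsMDecomposition m D) :
    IsMaximalIn (specialLinear ι F) (decompositionStabilizer D ⊓ specialLinear ι F) := by
  obtain ⟨a, a0', a1'⟩ := h3
  have h1 := not_sl_le_decompositionStabilizer hD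
  obtain ⟨θ, h⟩ := exists_glOf_blk hD
  rw [h] at h1 ⊢
  refine isMaximalIn_map_inf (map_glOf_specialLinear θ) (isMaximalIn_of
    (fun h2 ↦ h1 (map_glOf_specialLinear θ ▸ Subgroup.map_mono h2)) fun H hM _ g hg hgM ↦ ?_)
  obtain ⟨i, v, hv, p, q, hpq, hp, hq⟩ := exists_not_blk (by omega) hgM
  have hv0 : v ≠ 0 := by rintro rfl; simp at hp
  obtain ⟨δ, hδ⟩ := exists_dual_eq_one (F := F) hv0
  obtain ⟨w, hw, w0, w1⟩ := exists_blk_ker hm i δ
  obtain ⟨φ, a1, a0⟩ := exists_dual_pair (F := F) (u := v) (v := w) fun c e ↦ w0 (by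
    have : c = 0 := by simpa [hδ, w1] using congrArg δ e
    rw [← e, this, zero_smul])
  refine sl_le_of_blk_two hm a0' a1' hM (ψ := dact g (φ ∘ₗ prj i)) (fun c ↦ ?_)
    (dact_ne_zero _ fun e ↦ ?_) hpq hp hq
  · rw [smul_comm]
    exact (tv_blk hM (Submodule.smul_mem _ c hv) (by simp [a0])).conj hg
  · simpa [prj_of_mem hw, a1] using LinearMap.congr_fun e w

end CL.SLn
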