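/-
The monomial subgroup of `SL_4(F)` is maximal for `|F| ≥ 7`.
-/
import Cfsg.Agent.Cls.MaxMono3

set_option autoImplicit false

namespace CL.SLn

open Module Matrix Cfsg Cfsg.Geo

section A

variable {ι : Type} [Fintype ι] [DecidableEq ι] {F : Type*} [Field F] {H : Subgroup (GL ι F)}

theorem exists_diag_sl (hM : monoGrp ι F ⊓ specialLinear ι F ≤ H) {c : ι → F} (hc : ∏ i, c i = 1) :
    ∃ g ∈ H, ∀ x, g • x = c * x := by
  obtain ⟨g, hg⟩ := exists_act (F := F) 1 (c := c) fun i ↦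
    Finset.prod_ne_zero_iff.1 (hc ▸ one_ne_zero) i (Finset.mem_univ i)
  exact ⟨g, hM ⟨⟨_, _, hg⟩, mem_specialLinear.2 (by simp [hg.det, hc])⟩, fun x ↦ funext (hg x)⟩

variable [Fintype F]

theorem sl_le_of_tv_single₄ (hq : 5 ≤ Fintype.card F) (hn : 4 ≤ Fintype.card ι)
    (hM : monoGrp ι F ⊓ specialLinear ι F ≤ H) {k : ι} {χ : Dual F (ι → F)} (hχ : χ ≠ 0)
    (h : Tv H (Pi.single k 1) χ) : specialLinear ι F ≤ H := by
  obtain ⟨l, hl⟩ := exists_single_ne_zero hχ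
  have hlk : l ≠ k := by rintro rfl; exact hl h.1
  obtain ⟨l', hl'⟩ := exists_notMem_of_card_lt (s := {k, l}) Finset.card_le_two (by omega)
  obtain ⟨l'', hl''⟩ := exists_notMem_of_card_lt (s := {k, l, l'}) Finset.card_le_three (by omega)
  simp only [Finset.mem_insert, Finset.mem_singleton, not_or] at hl' hl''
  obtain ⟨a, a0, a1, -⟩ := exists_ne_three hq (0 : F) 1 0
  obtain ⟨b, h1⟩ := tv_reduce hM hlk hl'.1 (Ne.symm hl'.2) h a0
  obtain ⟨b', h2⟩ := tv_reduce hM hlk hl''.1 (Ne.symm hl''.2.1) h1 a0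
  have a2 : (1 - a) * ((1 - a) * χ (Pi.single l 1)) ≠ 0 := by simp [sub_ne_zero, a1.symm, hl]
  simp only [LinearMap.add_apply, LinearMap.smul_apply, LinearMap.proj_apply, Pi.single_eq_same,
    Pi.single_eq_of_ne hl'.2, Pi.single_eq_of_ne' hl''.2.1, Pi.single_eq_of_ne' hl''.2.2,
    smul_eq_mul, mul_one, mul_zero, add_zero, zero_smul] at h2
  generalize (1 - a) * ((1 - a) * χ (Pi.single l 1)) = c at a2 h2
  have h3 : ∀ d : F, Tv H (Pi.single k 1) (d • LinearMap.proj l : Dual F (ι → F)) := fun d ↦ by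
    by_cases hd : d = c
    · rwa [hd]
    obtain ⟨b, h3⟩ := tv_reduce hM hlk hl'.1 (Ne.symm hl'.2) h2 (a := 1 - d / c)
      (by rwa [sub_ne_zero, ne_comm, Ne, div_eq_one_iff_eq a2])
    simpa [hl'.2, a2] using h3
  refine specialLinear_le_of_basis (Pi.basisFun F ι) fun i j hij d ↦ ?_
  obtain ⟨σ, s1, s2⟩ : ∃ σ : Equiv.Perm ι, σ k = i ∧ σ l = j := by
    refine ⟨Equiv.swap (Equiv.swap k i l) j * Equiv.swap k i, ?_, by simp⟩
    rw [Equiv.Perm.mul_apply, Equiv.swap_apply_left, Equiv.swap_apply_of_ne_of_ne _ hij]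
    rw [ne_comm, Ne, Equiv.swap_apply_eq_iff, Equiv.swap_apply_right]
    exact hlk
  obtain ⟨g, hg, b, e⟩ := exists_act_update hM σ (c := 1) (by simp) l'
  have h4 := (h3 d).conj' hg (ψ := d • LinearMap.proj j) fun x ↦ by
    simp [← s2, e x l, Ne.symm hl'.2]
  rw [e.single, s1] at h4
  refine h4.congr (by simp [hij]) fun x ↦ ?_
  simp [Ne.symm hl'.1, smul_smul, mul_comm]

theorem sl_le_of_quot₄ (hq : 5 ≤ Fintype.card F) (hn : 4 ≤ Fintype.card ι)
    (hM : monoGrp ι F ⊓ specialLinear ι F ≤ H) (hS : H ≤ specialLinear ι F) {w : GL ι F} (hw : w ∈ H)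
    (hwM : w ∉ monoGrp ι F) {k i l : ι} (hik : i ≠ k) (hlk : l ≠ k) (hil : i ≠ l) {c : F}
    (e : ∀ (x : ι → F) p, p ≠ k → (w • x) p = (x + (c * x l) • (Pi.single i 1 : ι → F)) p) :
    specialLinear ι F ≤ H := by
  by_cases h : ∃ p, p ≠ k ∧ (w • (Pi.single p 1 : ι → F)) k ≠ 0
  · obtain ⟨p, hpk, hp⟩ := h
    obtain ⟨m, hm⟩ := exists_notMem_of_card_lt (s := {i, l, k}) Finset.card_le_three (by omega)
    simp only [Finset.mem_insert, Finset.mem_singleton, not_or] at hm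
    obtain ⟨a, a0, a1, a2⟩ := exists_ne_three hq (0 : F) 1 (-1)
    obtain ⟨g, hg, e'⟩ := exists_diag_sl hM (c := Pi.mulSingle k a * Pi.mulSingle m a⁻¹) (by
      simp [Finset.prod_mul_distrib, a0])
    obtain ⟨χ, h1, h2⟩ := exists_tv_single hw hg e' (k := k) (p := p) (fun x j hj ↦ by
      by_cases hji : j = i
      · simp [e, hik, hji, Ne.symm hm.1, Ne.symm hm.2.1, hlk]
      · simp [e _ j hj, hji]) (fun j hj ↦ by simp [e _ j hj, hj, hlk]) hp (by
        by_cases hpm : p = m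
        · simp only [hpm, Pi.mul_apply, Pi.mulSingle_eq_same, Pi.mulSingle_eq_of_ne hm.2.2,
            Pi.mulSingle_eq_of_ne (Ne.symm hm.2.2), one_mul, mul_one]
          intro e
          rcases mul_self_eq_one_iff.1 (show a * a = 1 by
            nth_rw 1 [← e]; exact inv_mul_cancel₀ a0) with h | h
          exacts [a1 h, a2 h]
        · simpa [hpm, hpk, Ne.symm hm.2.2] using a1.symm)
    exact sl_le_of_tv_single₄ hq hn hM h1 h2
  push Not at h
  have h0 : (c • LinearMap.proj l : Dual F (ι → F)) (Pi.single i 1) = 0 := by simp [hil]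
  have h1 : (tv _ _ h0)⁻¹ * w ∈ monoGrp ι F := mem_monoGrp_of_cols fun j ↦ ⟨j, fun p hp ↦ by
    rw [mul_smul, inv_smul_of_tv h0 (tv_smul _ _ h0)]
    by_cases hpk : p = k
    · simp [hpk, hik.symm, h j (by rintro rfl; exact hp hpk)]
    · simp [e _ p hpk, e _ l hlk, hil.symm, hp]⟩
  have h2 : tv _ _ h0 ∈ H := by
    simpa using H.mul_mem hw (H.inv_mem (hM ⟨h1, Subgroup.mul_mem _
      (Subgroup.inv_mem _ (tv_mem_specialLinear _ _ h0)) (hS hw)⟩))
  refine sl_le_of_tv_single₄ hq hn hM (fun h3 ↦ hwM ?_) (Tv.of_mem h0 h2)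
  rwa [show tv _ _ h0 = 1 from gl_ext fun x ↦ by rw [tv_smul, h3]; simp, inv_one, one_mul] at h1

theorem sl_le_of_fix₄ (hq : 5 ≤ Fintype.card F) (hn : 4 ≤ Fintype.card ι)
    (hM : monoGrp ι F ⊓ specialLinear ι F ≤ H) (hS : H ≤ specialLinear ι F) {h : GL ι F} (hh : h ∈ H)
    (hhM : h ∉ monoGrp ι F) {k : ι} (hk : ∀ p, p ≠ k → (h • (Pi.single k 1 : ι → F)) p = 0) :
    specialLinear ι F ≤ H := by
  obtain ⟨a, ha⟩ := exists_quot hk
  by_cases h1 : a ∈ monoGrp _ F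
  · obtain ⟨m, hm, e⟩ := mem_quotGrp_of_act le_rfl (inv_mem h1)
    obtain ⟨i, hi⟩ := exists_notMem_of_card_lt (s := {k}) (Finset.card_singleton k).le (by omega)
    obtain ⟨l, hl⟩ := exists_notMem_of_card_lt (s := {k, i}) Finset.card_le_two (by omega)
    simp only [Finset.mem_insert, Finset.mem_singleton, not_or] at hi hl
    refine sl_le_of_quot₄ hq hn hM hS (H.mul_mem (hM hm) hh)
      (fun h2 ↦ hhM ((Subgroup.mul_mem_cancel_left _ hm.1).1 h2)) hi hl.1 (Ne.symm hl.2) (c := 0)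
      fun x p hp ↦ ?_
    simpa [mul_smul, ha] using e (h • x) ⟨p, hp⟩
  have hK : FullMono (quotGrp H k) := ⟨fun d hd ↦ by
    obtain ⟨g, hg⟩ := exists_act 1 hd
    exact ⟨g, mem_quotGrp_of_act hM ⟨_, _, hg⟩, fun x ↦ funext (hg x)⟩, fun i j ↦ by
    obtain ⟨g, hg⟩ := exists_act (F := F) (Equiv.swap i j) (c := 1) (by simp)
    exact ⟨g, mem_quotGrp_of_act hM ⟨_, _, hg⟩, fun x ↦ funext fun p ↦ by
      simpa using hg x (Equiv.swap i j p)⟩⟩
  obtain ⟨j, hj⟩ := not_forall.1 (mt mem_monoGrp_of_cols h1)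
  push Not at hj
  obtain ⟨p, -, hp⟩ := hj j
  obtain ⟨p', hpp, hp'⟩ := hj p
  obtain ⟨i, l, hil, h2⟩ := hK.elem_of_col hq (by simp [Fintype.card_subtype_compl]; omega)
    ⟨h, hh, ha⟩ hpp hp' hp
  obtain ⟨-, b, ⟨w, hw, e⟩, e'⟩ := h2 1
  have e2 : ∀ (x : ι → F) p, p ≠ k →
      (w • x) p = (x + ((1 : F) * x l) • (Pi.single i.1 1 : ι → F)) p := fun x p hp ↦ by
    rw [e x ⟨p, hp⟩, e']
    simp [Pi.single_apply, Subtype.ext_iff]
  refine sl_le_of_quot₄ hq hn hM hS hw (fun ⟨σ, c, h3⟩ ↦ ?_) i.2 l.2 (Subtype.val_injective.ne hil) e2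
  have a1 := e2 (Pi.single l.1 1) i i.2
  have a2 := e2 (Pi.single l.1 1) l l.2
  rw [h3.single] at a1 a2
  by_cases a3 : i.1 = σ l
  · simp [← a3, Subtype.val_injective.ne hil.symm] at a2
  · simp [a3, Subtype.val_injective.ne hil] at a1

end A

section B

variable {F : Type*} [Field F] {H : Subgroup (GL (Fin 4) F)} {g : GL (Fin 4) F}

theorem exists_pow_four_ne_one [Fintype F] (hq : 7 ≤ Fintype.card F) : ∃ x : F, x ≠ 0 ∧ x ^ 4 ≠ 1 := by
  open Polynomial in
  obtain ⟨z, hz⟩ := Polynomial.exists_eval_ne_zero_of_natDegree_lt_card (X * (X ^ 4 - C 1) : F[X])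
    (mul_ne_zero X_ne_zero (X_pow_sub_C_ne_zero (by norm_num) 1)) (by
      rw [Cardinal.mk_fintype, Nat.cast_lt]
      refine lt_of_le_of_lt ?_ (show 5 < _ by omega)
      compute_degree)
  simp only [eval_mul, eval_sub, eval_X, eval_C, eval_pow, mul_ne_zero_iff, sub_ne_zero] at hz
  exact ⟨z, hz⟩

/-- A conjugate `g d g⁻¹` of a diagonal matrix fixing the `i`-th coordinate line. -/
theorem diag_eq_of_fix {d : GL (Fin 4) F} {c : Fin 4 → F} (e : ∀ x, d • x = c * x) {i : Fin 4} {s : F}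
    (h : (g * d * g⁻¹) • (Pi.single i 1 : Fin 4 → F) = s • Pi.single i 1) {p : Fin 4}
    (hp : colOf g⁻¹ i p ≠ 0) : c p = s := by
  rw [mul_smul, mul_smul, ← eq_inv_smul_iff, smul_comm g⁻¹, e] at h
  exact mul_right_cancel₀ hp (congrFun h p)

theorem trace_conj {d : GL (Fin 4) F} {c : Fin 4 → F} (e : ∀ x, d • x = c * x) :
    ∑ i, colOf (g * d * g⁻¹) i i = ∑ i, c i := by
  have h1 : ∀ y : GL (Fin 4) F, ∑ i, colOf y i i = (y : Matrix (Fin 4) (Fin 4) F).trace := fun y ↦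
    Finset.sum_congr rfl fun i _ ↦ (entry_eq y i i).symm
  rw [h1, Units.val_mul, Units.val_mul, Matrix.trace_mul_cycle, ← Units.val_mul, inv_mul_cancel,
    Units.val_one, one_mul, ← h1]
  exact Finset.sum_congr rfl fun i _ ↦ by simp [e]

theorem false_of_diag {w : Fin 4 → F} (hw : ∀ k, w k ≠ 0) (h0 : ∑ k, w k = 0)
    (T : ∀ c : Fin 4 → F, ∏ k, c k = 1 → ∑ k, c k * w k = 0 →
      (∀ p p', c p = c p') ∨ (∑ k, c k = 0 ∧ ∀ p p', c p ^ 4 = c p' ^ 4))
    {x : F} (x0 : x ≠ 0) (x4 : x ^ 4 ≠ 1) : False := by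
  have w0 := hw 0
  have w1 := hw 1
  have w2 := hw 2
  have w3 := hw 3
  rw [Fin.sum_univ_four] at h0
  have k1 : ∀ a b : F, a ≠ 0 → b ≠ 0 → (a / b = 1 ∨ (a / b)⁻¹ + a / b + 2 = 0) → a = b ∨ a + b = 0 :=
    fun a b ha hb h ↦ h.imp (div_eq_one_iff_eq hb).1 fun h ↦ by
      field_simp at h
      exact pow_eq_zero_iff (n := 2) (by norm_num) |>.1 (by linear_combination h)
  have k2 : ¬ (x = x⁻¹ ∨ (2 * (x + x⁻¹) = 0 ∧ x ^ 4 = x⁻¹ ^ 4)) := by
    rintro (h | ⟨h, h'⟩)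
    · field_simp at h
      exact x4 (by linear_combination (x ^ 2 + 1) * h)
    · field_simp at h h'
      by_cases h2 : (2 : F) = 0
      · exact x4 (sub_eq_zero.1 (pow_eq_zero_iff (n := 2) (by norm_num) |>.1 (by
          linear_combination h' + (1 - x ^ 4) * h2)))
      · exact x4 (mul_left_cancel₀ h2 (by linear_combination (x ^ 2 - 1) * h))
  have a1 := k1 _ _ w0 w1 ((T ![(w 0 / w 1)⁻¹, w 0 / w 1, 1, 1] (by
    simp [Fin.prod_univ_four, w0, w1]) (by
    simp only [Fin.sum_univ_four, cons_val_zero, cons_val_one, cons_val]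
    field_simp
    linear_combination h0)).imp (fun h ↦ h 1 2) fun h ↦ by
      have := h.1
      simp only [Fin.sum_univ_four, cons_val_zero, cons_val_one, cons_val] at this
      linear_combination this)
  have a2 := k1 _ _ w0 w2 ((T ![(w 0 / w 2)⁻¹, 1, w 0 / w 2, 1] (by
    simp [Fin.prod_univ_four, w0, w2]) (by
    simp only [Fin.sum_univ_four, cons_val_zero, cons_val_one, cons_val]
    field_simp
    linear_combination h0)).imp (fun h ↦ h 2 1) fun h ↦ by
      have := h.1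
      simp only [Fin.sum_univ_four, cons_val_zero, cons_val_one, cons_val] at this
      linear_combination this)
  have a3 := k1 _ _ w0 w3 ((T ![(w 0 / w 3)⁻¹, 1, 1, w 0 / w 3] (by
    simp [Fin.prod_univ_four, w0, w3]) (by
    simp only [Fin.sum_univ_four, cons_val_zero, cons_val_one, cons_val]
    field_simp
    linear_combination h0)).imp (fun h ↦ h 3 1) fun h ↦ by
      have := h.1
      simp only [Fin.sum_univ_four, cons_val_zero, cons_val_one, cons_val] at this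
      linear_combination this)
  have b1 : w 0 + w 1 ≠ 0 := fun e ↦ k2 ((T ![x, x, x⁻¹, x⁻¹] (by
    simp [Fin.prod_univ_four, x0]) (by
    simp only [Fin.sum_univ_four, cons_val_zero, cons_val_one, cons_val]
    linear_combination x⁻¹ * h0 + (x - x⁻¹) * e)).imp (fun h ↦ h 0 2) fun h ↦ ⟨by
      have := h.1
      simp only [Fin.sum_univ_four, cons_val_zero, cons_val_one, cons_val] at this
      linear_combination this, h.2 0 2⟩)
  have b2 : w 0 + w 2 ≠ 0 := fun e ↦ k2 ((T ![x, x⁻¹, x, x⁻¹] (by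
    simp [Fin.prod_univ_four, x0]) (by
    simp only [Fin.sum_univ_four, cons_val_zero, cons_val_one, cons_val]
    linear_combination x⁻¹ * h0 + (x - x⁻¹) * e)).imp (fun h ↦ h 0 1) fun h ↦ ⟨by
      have := h.1
      simp only [Fin.sum_univ_four, cons_val_zero, cons_val_one, cons_val] at this
      linear_combination this, h.2 0 1⟩)
  have b3 : w 0 + w 3 ≠ 0 := fun e ↦ k2 ((T ![x, x⁻¹, x⁻¹, x] (by
    simp [Fin.prod_univ_four, x0]) (by
    simp only [Fin.sum_univ_four, cons_val_zero, cons_val_one, cons_val]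
    linear_combination x⁻¹ * h0 + (x - x⁻¹) * e)).imp (fun h ↦ h 0 1) fun h ↦ ⟨by
      have := h.1
      simp only [Fin.sum_univ_four, cons_val_zero, cons_val_one, cons_val] at this
      linear_combination this, h.2 0 1⟩)
  have c1 := a1.resolve_right b1
  refine b1 (pow_eq_zero_iff (n := 2) (by norm_num) |>.1 ?_)
  rw [← c1, ← a2.resolve_right b2, ← a3.resolve_right b3] at h0
  rw [← c1]
  linear_combination w 0 * h0

set_option maxRecDepth 20000 in
theorem perm_four_pow : ∀ σ : Equiv.Perm (Fin 4), (∀ i, σ i ≠ i) → σ (σ (σ (σ 0))) = 0 := by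
  decide

namespace FrameBlk

variable [Fintype F]

theorem not_two_zeros₄ (B : FrameBlk H) (hq : 7 ≤ Fintype.card F)
    (hg : g ∈ H) (hgM : g ∉ monoGrp (Fin 4) F) {k l l' : Fin 4} (hl : l ≠ l') (h1 : colOf g k l = 0) :
    colOf g k l' ≠ 0 := fun h2 ↦ by
  obtain ⟨x, x0, x4⟩ := exists_pow_four_ne_one hq
  obtain ⟨j, hj⟩ := exists_colOf_ne_zero g l
  have h3 := fun p ↦ B.supp_of_two_zeros (by omega) hg hl h1 h2 hj (p := p)
  have hj' : colOf g j l' ≠ 0 := by
    obtain ⟨p, hp, hp'⟩ := B.exists_ne hg hgM j l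
    by_cases e : p = l'
    exacts [e ▸ hp', absurd (h3 p hp e) hp']
  obtain ⟨d, hd, e⟩ := exists_diag_sl B.le (c := Pi.mulSingle l x * Pi.mulSingle l' x⁻¹) (by
    simp [Finset.prod_mul_distrib, x0])
  obtain ⟨σ, c, hy⟩ := B.conj_mem hg hd (k := k) (by
    rw [e]
    ext p
    by_cases a1 : p = l
    · simp [a1, h1]
    by_cases a2 : p = l'
    · simp [a2, h2]
    · simp [a1, a2])
  have h4 : ∀ j, d • colOf g j = c j • colOf g (σ j) := fun j ↦ by
    have := hy.single j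
    rwa [mul_smul, mul_smul, inv_smul_eq_iff, smul_comm g] at this
  by_cases hσ : σ j = j
  · have h5 := h4 j
    rw [hσ, e] at h5
    have b1 := congrFun h5 l
    have b2 := congrFun h5 l'
    simp only [Pi.mul_apply, Pi.mulSingle_eq_same, Pi.mulSingle_eq_of_ne hl,
      Pi.mulSingle_eq_of_ne hl.symm, mul_one, one_mul, Pi.smul_apply, smul_eq_mul] at b1 b2
    have b3 : x = x⁻¹ := (mul_right_cancel₀ hj b1).trans (mul_right_cancel₀ hj' b2).symm
    field_simp at b3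
    exact x4 (by linear_combination (x ^ 2 + 1) * b3)
  have h5 : d • d • colOf g j - (x + x⁻¹) • d • colOf g j + colOf g j = 0 := by
    rw [e, e]
    ext p
    by_cases a1 : p = l
    · simp only [a1, Pi.mul_apply, Pi.mulSingle_eq_same, Pi.mulSingle_eq_of_ne hl, mul_one,
        Pi.add_apply, Pi.sub_apply, Pi.smul_apply, smul_eq_mul, Pi.zero_apply]
      field_simp
      ring
    by_cases a2 : p = l'
    · simp only [a2, Pi.mul_apply, Pi.mulSingle_eq_same, Pi.mulSingle_eq_of_ne hl.symm, one_mul,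
        Pi.add_apply, Pi.sub_apply, Pi.smul_apply, smul_eq_mul, Pi.zero_apply]
      field_simp
      ring
    · simp [h3 p a1 a2]
  rw [h4, smul_comm d, h4, colOf, colOf, colOf, ← smul_comm g, ← smul_comm g, ← smul_comm g,
    ← smul_comm g, ← smul_sub, ← smul_add, smul_eq_zero_iff_eq] at h5
  have h6 := congrFun h5 (σ j)
  simp only [Pi.add_apply, Pi.sub_apply, Pi.smul_apply, smul_eq_mul, Pi.single_eq_same,
    Pi.single_eq_of_ne hσ, Pi.single_eq_of_ne (σ.injective.ne hσ).symm, mul_zero, mul_one, zero_sub,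
    add_zero, Pi.zero_apply, neg_eq_zero, mul_eq_zero, hy.ne_zero j, or_false] at h6
  field_simp at h6
  exact x4 (by linear_combination (x ^ 2 - 1) * h6)

theorem full (B : FrameBlk H) (hq : 7 ≤ Fintype.card F)
    (hg : g ∈ H) (hgM : g ∉ monoGrp (Fin 4) F) (k l : Fin 4) : colOf g k l ≠ 0 := fun h1 ↦ by
  obtain ⟨x, x0, x4⟩ := exists_pow_four_ne_one hq
  obtain ⟨j, hj⟩ := exists_colOf_ne_zero g l
  obtain ⟨d, hd, e⟩ := exists_diag_sl B.le (c := Function.update (fun _ ↦ x) l (x⁻¹ ^ 3)) (by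
    rw [Finset.prod_update_of_mem (Finset.mem_univ l)]
    simp [Finset.card_sdiff, x0])
  have e' : ∀ v : Fin 4 → F, d • v = x • v + ((x⁻¹ ^ 3 - x) * v l) • Pi.single l 1 := fun v ↦ by
    rw [e]
    ext p
    by_cases a1 : p = l
    · simp [a1, sub_mul]
    · simp [a1]
  have e2 : ∀ j, colOf (g⁻¹ * d * g) j =
      x • Pi.single j 1 + ((x⁻¹ ^ 3 - x) * colOf g j l) • colOf g⁻¹ l := fun j ↦ by
    rw [colOf, mul_smul, mul_smul, e', smul_add, smul_comm g⁻¹ x, inv_smul_smul,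
      smul_comm g⁻¹ (_ : F)]
  have hy : g⁻¹ * d * g ∈ monoGrp (Fin 4) F :=
    B.fix _ (H.mul_mem (H.mul_mem (H.inv_mem hg) hd) hg) k fun p hp ↦ by simp [e2, h1, hp]
  have x3 : x⁻¹ ^ 3 - x ≠ 0 := fun h ↦ by
    field_simp at h
    exact x4 (by linear_combination -h)
  have key : ∀ p p', p ≠ p' → p ≠ j → p' ≠ j → colOf g⁻¹ l p ≠ 0 → colOf g⁻¹ l p' ≠ 0 → False :=
    fun p p' a1 a2 a3 a4 a5 ↦ not_mem_monoGrp (j := j) a1
      (by simpa only [e2, Pi.add_apply, Pi.smul_apply, Pi.single_eq_of_ne a2, smul_eq_mul, mul_zero,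
        zero_add] using mul_ne_zero (mul_ne_zero x3 hj) a4)
      (by simpa only [e2, Pi.add_apply, Pi.smul_apply, Pi.single_eq_of_ne a3, smul_eq_mul, mul_zero,
        zero_add] using mul_ne_zero (mul_ne_zero x3 hj) a5) hy
  obtain ⟨r, hr⟩ := exists_notMem_of_card_lt (s := {j}) (Finset.card_singleton j).le (by simp)
  obtain ⟨s, hs⟩ := exists_notMem_of_card_lt (s := {j, r}) Finset.card_le_two (by simp)
  obtain ⟨t, ht⟩ := exists_notMem_of_card_lt (s := {j, r, s}) Finset.card_le_three (by simp)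
  simp only [Finset.mem_insert, Finset.mem_singleton, not_or] at hr hs ht
  have nz := fun {p p'} ↦ B.not_two_zeros₄ hq (H.inv_mem hg) (by simpa using hgM) (k := l) (l := p)
    (l' := p')
  by_cases a1 : colOf g⁻¹ l r = 0
  · exact key s t (Ne.symm ht.2.2) hs.1 ht.1 (nz (Ne.symm hs.2) a1) (nz (Ne.symm ht.2.1) a1)
  by_cases a2 : colOf g⁻¹ l s = 0
  · exact key r t (Ne.symm ht.2.1) hr ht.1 a1 (nz (Ne.symm ht.2.2) a2)
  · exact key r s (Ne.symm hs.2) hr hs.1 a1 a2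

theorem le_mono₄ (B : FrameBlk H) (hq : 7 ≤ Fintype.card F) : H ≤ monoGrp (Fin 4) F := fun g hg ↦ by
  by_contra hgM
  obtain ⟨x, x0, x4⟩ := exists_pow_four_ne_one hq
  have f1 := B.full hq hg hgM
  have f2 := B.full hq (H.inv_mem hg) (by simpa using hgM)
  have key : ∀ v : Fin 4 → F, (g • v) 0 = ∑ k, v k * colOf g k 0 := fun v ↦ by
    conv_lhs => rw [pi_eq_sum_univ' v, Finset.smul_sum, Finset.sum_apply]
    exact Finset.sum_congr rfl fun k _ ↦ by rw [smul_comm]; rfl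
  refine false_of_diag (w := fun k ↦ colOf g⁻¹ 1 k * colOf g k 0) (fun k ↦ mul_ne_zero (f2 _ _) (f1 _ _))
    (by rw [← key, smul_inv_smul]; simp) (fun c hc h0 ↦ ?_) x0 x4
  obtain ⟨d, hd, e⟩ := exists_diag_sl B.le hc
  obtain ⟨σ, s, hy⟩ : g * d * g⁻¹ ∈ monoGrp (Fin 4) F := by
    by_contra h
    refine B.full hq (H.mul_mem (H.mul_mem hg hd) (H.inv_mem hg)) h 1 0 ?_
    rw [colOf, mul_smul, mul_smul, e, key, ← h0]
    exact Finset.sum_congr rfl fun k _ ↦ mul_assoc _ _ _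
  by_cases hσ : ∃ i, σ i = i
  · obtain ⟨i, hi⟩ := hσ
    have h1 := hy.single i
    rw [hi] at h1
    exact Or.inl fun p p' ↦ (diag_eq_of_fix e h1 (f2 i p)).trans (diag_eq_of_fix e h1 (f2 i p')).symm
  push Not at hσ
  refine Or.inr ⟨?_, ?_⟩
  · rw [← trace_conj (g := g) e]
    exact Finset.sum_eq_zero fun i _ ↦ by simp [colOf, hy.single, (hσ i).symm]
  · have h1 : σ (σ (σ (σ 0))) = 0 := perm_four_pow σ hσ
    have h2 : (g * (d * d * d * d) * g⁻¹) • (Pi.single 0 1 : Fin 4 → F) =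
        (s 0 * s (σ 0) * s (σ (σ 0)) * s (σ (σ (σ 0)))) • Pi.single 0 1 := by
      rw [show g * (d * d * d * d) * g⁻¹ =
        (g * d * g⁻¹) * ((g * d * g⁻¹) * ((g * d * g⁻¹) * (g * d * g⁻¹))) by group]
      generalize g * d * g⁻¹ = y at hy
      simp only [mul_smul, hy.single, smul_comm y, h1]
    have h3 : ∀ v : Fin 4 → F, (d * d * d * d) • v = (fun p ↦ c p ^ 4) * v := fun v ↦ by
      simp only [mul_smul, e]
      ext p
      simp only [Pi.mul_apply]
      ring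
    exact fun p p' ↦ (diag_eq_of_fix h3 h2 (f2 0 p)).trans (diag_eq_of_fix h3 h2 (f2 0 p')).symm

end FrameBlk

end B

theorem isMaximalIn_lines₄ {ι : Type} [Fintype ι] [DecidableEq ι] {F : Type*} [Field F] [Fintype F]
    (hq : 7 ≤ Fintype.card F) {D : Fin 4 → Submodule F (ι → F)} (hD : IsMDecomposition 1 D) :
    IsMaximalIn (specialLinear ι F) (decompositionStabilizer D ⊓ specialLinear ι F) := by
  have h1 := not_sl_le_decompositionStabilizer hD
  obtain ⟨θ, h⟩ := exists_glOf_lines hD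
  rw [h, monoGrp_eq] at h1 ⊢
  refine isMaximalIn_map_inf (map_glOf_specialLinear θ) (isMaximalIn_of
    (fun h2 ↦ h1 (map_glOf_specialLinear θ ▸ Subgroup.map_mono h2)) fun H hM hS g hg hgM ↦ ?_)
  by_contra hc
  exact hgM (FrameBlk.le_mono₄ ⟨hM, fun h hh k hk ↦ by_contra fun hhM ↦
    hc (sl_le_of_fix₄ (by omega) (by simp) hM hS hh hhM hk)⟩ hq hg)

end CL.SLn
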