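/-
The similarity group of a quadratic form in odd characteristic is maximal in `SL_n(F)` for `n ≥ 6`.
-/
import Cfsg.Agent.Cls.PolarIrr
import Cfsg.Agent.Cls.OrthMaxTools
import Cfsg.Agent.Cls.MaxRich

set_option autoImplicit false

namespace CL.SLn

open Module Matrix Cfsg Cfsg.Geo QuadraticMap CL.Cls

section General

variable {F V G : Type*} [Field F] [AddCommGroup V] [Module F V] [Group G]
  [DistribMulAction G V] [SMulCommClass G F V] {Q : QuadraticForm F V}

theorem polar_of_quad [Finite F] [FiniteDimensional F V] (hQ : (polarBilin Q).Nondegenerate) :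
    Polar (σ := RingHom.id F) (polarBilin Q) (fun x ↦ Q x = 0) 3 where
  surj := Function.surjective_id
  refl x y h := by rwa [polarBilin_apply_apply, polar_comm]
  nondeg := nondeg_iff.1 hQ
  self e he := by rw [polarBilin_apply_apply, polar_self', he, mul_zero]
  smul c e he := by rw [Cls.map_smul', he, mul_zero]
  hyp e z he hz := ⟨-Q z / polar Q e z, by
    rw [map_add', Cls.map_smul', he, polar_smul_right, polar_comm Q z e, smul_eq_mul,
      div_mul_cancel₀ _ (show polar Q e z ≠ 0 from hz)]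
    ring⟩
  exists_mem W hW := exists_singular_in_of_three_le Q W hW

theorem det_eich [FiniteDimensional F V] {u v : V} (hu : Q u = 0) (huv : polar Q u v = 0) :
    LinearMap.det ((eich Q u v).1 : V →ₗ[F] V) = 1 := by
  have huu : polar Q u u = 0 := by rw [polar_self', hu, mul_zero]
  have : ((eich Q u v).1 : V →ₗ[F] V) = LinearMap.transvection (-polarBilin Q u) v ∘ₗ
      LinearMap.transvection (polarBilin Q v - Q v • polarBilin Q u) u := by
    ext x
    simp only [LinearEquiv.coe_coe, eich_app hu huv, LinearMap.comp_apply,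
      LinearMap.transvection.apply, LinearMap.neg_apply, LinearMap.sub_apply, LinearMap.smul_apply,
      polarBilin_apply_apply, polar_add_right, polar_smul_right, huu, smul_eq_mul]
    module
  rw [this, LinearMap.det_comp, LinearMap.transvection.det, LinearMap.transvection.det]
  simp [huv, huu, polar_comm Q v u]

theorem exists_nonsing_add (h2 : (2 : F) ≠ 0) {t : V} (ht : Q t ≠ 0) (x : V) :
    ∃ c : F, Q (x + c • t) ≠ 0 := by
  by_contra hc
  push Not at hc
  have h0 := hc 0
  have h1 := hc 1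
  have h3 := hc (-1)
  simp only [map_add', Cls.map_smul', polar_smul_right, smul_eq_mul] at h0 h1 h3
  exact mul_ne_zero h2 ht (by linear_combination h1 + h3 - 2 * h0)

variable [FiniteDimensional F V]

theorem exists_nonsing_perp (hQ : (polarBilin Q).Nondegenerate) {m : ℕ}
    (hn : 2 * m < finrank F V) (f : Fin m → V) : ∃ t, Q t ≠ 0 ∧ ∀ i, polar Q (f i) t = 0 := by
  have := finrank_le_ker_pi fun i ↦ polarBilin Q (f i)
  obtain ⟨t, h1, h2⟩ := exists_nonsingular_of_lt hQ
    (Z := LinearMap.ker (LinearMap.pi fun i ↦ polarBilin Q (f i))) (by omega)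
  exact ⟨t, h2, fun i ↦ congrFun (LinearMap.mem_ker.1 h1) i⟩

/-- `H` induces the isometries of determinant one. -/
def HasSO (Q : QuadraticForm F V) (H : Subgroup G) : Prop :=
  ∀ e : OG Q, LinearMap.det (e.1 : V →ₗ[F] V) = 1 → ∃ g ∈ H, ∀ x, g • x = e.1 x

variable {H : Subgroup G}

omit [FiniteDimensional F V] in
theorem HasSO.conj (hH : HasSO Q H) {e : OG Q} (he : LinearMap.det (e.1 : V →ₗ[F] V) = 1) {x y : V}
    (h : Tv H x (polarBilin Q y)) : Tv H (e.1 x) (polarBilin Q (e.1 y)) := by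
  obtain ⟨g, hg, hge⟩ := hH e he
  rw [← hge x]
  exact h.conj' hg fun z ↦ by rw [hge]; exact OG.polar_app e y z

/-- A subspace closed under the Eichler maps fixing `y` is closed under root elements. -/
theorem mem_of_eich_closed (h2 : (2 : F) ≠ 0) (hQ : (polarBilin Q).Nondegenerate)
    (hn : 5 ≤ finrank F V) {y : V} {S : Submodule F V}
    (hS : ∀ r b, Q r = 0 → polar Q r b = 0 → polar Q y r = 0 → polar Q y b = 0 → ∀ w ∈ S,
      (eich Q r b).1 w ∈ S) {w : V} (hw : w ∈ S) {r : V} (hr : Q r = 0) (hyr : polar Q y r = 0)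
    (hrw : polar Q r w ≠ 0) : r ∈ S := by
  obtain ⟨b, hb, hb'⟩ := exists_nonsing_perp hQ (m := 2) (by omega) ![r, y]
  have h1 : polar Q r b = 0 := hb' 0
  have h3 : polar Q y b = 0 := hb' 1
  have h4 := hS r b hr h1 hyr h3 w hw
  have h5 := hS r (-b) hr (by simp [h1]) hyr (by simp [h3]) w hw
  rw [eich_app hr h1] at h4
  rw [eich_app hr (by simp [h1]), QuadraticMap.map_neg, polar_neg_left] at h5
  have h6 := S.sub_mem (S.add_mem hw hw) (S.add_mem h4 h5)
  rw [← S.smul_mem_iff (mul_ne_zero h2 (mul_ne_zero hb hrw))]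
  convert h6 using 1
  module

variable [Finite F]

theorem HasSO.axes_eq_top_of_indep (h2 : (2 : F) ≠ 0) (hQ : (polarBilin Q).Nondegenerate)
    (hn : 6 ≤ finrank F V) (hH : HasSO Q H) {x y : V} (hy : y ≠ 0) (hxy : ∀ c : F, x ≠ c • y)
    (ht : Tv H x (polarBilin Q y)) : axes F V H = ⊤ := by
  have hP := polar_of_quad hQ
  have hfix : ∀ r b x, Q r = 0 → polar Q r b = 0 → polar Q y r = 0 → polar Q y b = 0 →
      Tv H x (polarBilin Q y) → Tv H ((eich Q r b).1 x) (polarBilin Q y) :=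
    fun r b x hr hrb hyr hyb hx ↦ by
      have := hH.conj (det_eich hr hrb) hx
      rwa [eich_app_of_polar (x := y) (by rw [polar_comm, hyr]) (by rw [polar_comm, hyb])] at this
  let S : Submodule F V :=
    { carrier := {w | ∀ d : F, Tv H (d • w) (polarBilin Q y)}
      zero_mem' := fun d ↦ by simpa using Tv.zero_left
      add_mem' := fun {a b} ha hb d ↦ by
        rw [smul_add]; exact (ha d).add_left (hb d)
      smul_mem' := fun d a ha d' ↦ by rw [smul_smul]; exact ha _ }
  obtain ⟨r, hr, hyr, hrx⟩ := hP.exists_sing_perp_ne_zero (by omega) hxy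
  rw [polarBilin_apply_apply] at hyr hrx
  obtain ⟨w, hw, hwy⟩ : ∃ w, (∀ i, polar Q (![r, y, x] i) w = 0) ∧ ∀ c : F, w ≠ c • y := by
    have := finrank_le_ker_pi fun i ↦ polarBilin Q (![r, y, x] i)
    by_contra hc
    push Not at hc
    have h3 : LinearMap.ker (LinearMap.pi fun i ↦ polarBilin Q (![r, y, x] i)) ≤
        Submodule.span F {y} := fun w hw ↦ by
      obtain ⟨c, hc⟩ := hc w fun i ↦ congrFun (LinearMap.mem_ker.1 hw) i
      exact Submodule.mem_span_singleton.2 ⟨c, hc.symm⟩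
    have h4 := Submodule.finrank_mono h3
    rw [finrank_span_singleton hy] at h4
    omega
  have hw0 : polar Q r w = 0 := hw 0
  have hw1 : polar Q y w = 0 := hw 1
  have hw2 : polar Q w x = 0 := by rw [polar_comm]; exact hw 2
  have hwS : w ∈ S := fun d ↦ by
    have h4 := hfix r ((d / (2 * polar Q r x)) • w) x hr (by simp [hw0]) hyr (by simp [hw1]) ht
    have h5 := hfix r (-((d / (2 * polar Q r x)) • w)) x hr (by simp [hw0]) hyr (by simp [hw1]) ht
    rw [eich_app hr (by simp [hw0])] at h4 h5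
    rw [QuadraticMap.map_neg] at h5
    simp only [polar_neg_left, polar_smul_left, hw2, smul_zero, neg_zero, zero_smul, add_zero] at h4 h5
    convert h5.sub_left h4 using 1
    match_scalars <;> field_simp <;> ring
  have hS : ∀ z, polar Q y z = 0 → z ∈ S := fun z hz ↦
    hP.perp_le_of_closed (by omega) hwS hw1 hwy (fun w hw r hr hyr hrw ↦
      mem_of_eich_closed h2 hQ (by omega) (y := y) (S := S) (fun r b hr hrb hyr hyb w hw d ↦ by
        rw [← map_smul]; exact hfix r b _ hr hrb hyr hyb (hw d)) hw hr hyr hrw) hz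
  have hA : (axes F V H).comap (polarBilin Q) = ⊤ := by
    refine hP.eq_top_of_closed (by omega) (w := y) (fun z hz ↦ by simpa using hS z hz 1) hy
      fun w hw r hr hrw ↦ mem_of_eich_closed h2 hQ (by omega) (y := 0)
        (S := (axes F V H).comap (polarBilin Q)) (fun r b hr hrb _ _ w hw z hz ↦ ?_) hw hr (by simp) hrw
    have := hH.conj (det_eich hr hrb) (hw ((eich Q r b)⁻¹.1 z) (by
      rw [polarBilin_apply_apply, ← OG.polar_app_left]; exact hz))
    rwa [OG.app_inv_app] at this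
  refine eq_top_iff.2 fun φ _ ↦ ?_
  obtain ⟨z, rfl⟩ := hP.exists_eq φ
  exact show z ∈ (axes F V H).comap (polarBilin Q) from hA ▸ Submodule.mem_top

/-- An overgroup of `SO` with a transvection holds all transvections. -/
theorem HasSO.axes_eq_top (h2 : (2 : F) ≠ 0) (hQ : (polarBilin Q).Nondegenerate)
    (hn : 6 ≤ finrank F V) (hH : HasSO Q H) {x y : V} (hx : x ≠ 0) (hy : y ≠ 0)
    (ht : Tv H x (polarBilin Q y)) : axes F V H = ⊤ := by
  by_cases hxy : ∀ c : F, x ≠ c • y
  · exact hH.axes_eq_top_of_indep h2 hQ hn hy hxy ht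
  push Not at hxy
  obtain ⟨c, rfl⟩ := hxy
  have hP := polar_of_quad hQ
  have hc : c ≠ 0 := by rintro rfl; simp at hx
  have hyy : polar Q y y = 0 := by simpa [hc] using ht.1
  obtain ⟨r, hr, -, hry⟩ := hP.exists_sing_perp_ne_zero (by omega) (y := 0) (a := y) (by simpa using hy)
  rw [polarBilin_apply_apply] at hry
  obtain ⟨b, hb, hb'⟩ := exists_nonsing_perp hQ (m := 1) (by omega) ![r]
  have hrb : polar Q r b = 0 := hb' 0
  obtain ⟨u, htu, huy⟩ : ∃ u, Tv H (c • u) (polarBilin Q u) ∧ polar Q u y ≠ 0 := by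
    refine ⟨(eich Q r b).1 y, by simpa using hH.conj (det_eich hr hrb) ht, ?_⟩
    rw [eich_app hr hrb]
    simp only [polar_sub_left, polar_add_left, polar_smul_left, hyy, smul_eq_mul]
    rw [show 0 + polar Q b y * polar Q r y - polar Q r y * polar Q b y - Q b * polar Q r y * polar Q r y
      = -(Q b * (polar Q r y * polar Q r y)) by ring]
    exact neg_ne_zero.2 (mul_ne_zero hb (mul_ne_zero hry hry))
  have huu : polar Q u u = 0 := by simpa [hc] using htu.1
  have h3 := htu.conj_tv ht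
  rw [← map_smul, ← map_sub] at h3
  simp only [polarBilin_apply_apply, polar_smul_right, smul_eq_mul, polar_comm Q y u] at h3
  refine hH.axes_eq_top_of_indep h2 hQ hn (fun h0 ↦ huy ?_) (fun d hd ↦ ?_) h3
  · simpa [huu] using congrArg (polar Q u) h0
  · have h4 := congrArg (polar Q u) hd
    have h5 := congrArg (polar Q y) hd
    simp only [polar_add_right, polar_sub_right, polar_smul_right, huu, hyy, smul_eq_mul,
      polar_comm Q y u] at h4 h5
    have h6 : d = c := mul_right_cancel₀ huy (by linear_combination -h4)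
    rw [h6] at h5
    exact mul_ne_zero h2 (mul_ne_zero (mul_ne_zero hc hc) (mul_ne_zero huy huy))
      (by linear_combination h5)

/-- `H` induces the map `x ↦ x + B(y, x) a + B(z, x) b`, where `a, b ⊥ y, z`. -/
structure RankTwo (Q : QuadraticForm F V) (H : Subgroup G) (a y b z : V) : Prop where
  ya : polar Q y a = 0
  yb : polar Q y b = 0
  za : polar Q z a = 0
  zb : polar Q z b = 0
  mem : ∃ s ∈ H, ∀ x, s • x = x + polar Q y x • a + polar Q z x • b

omit [SMulCommClass G F V] [FiniteDimensional F V] [Finite F] in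
theorem RankTwo.swap {a y b z : V} (h : RankTwo Q H a y b z) : RankTwo Q H b z a y :=
  ⟨h.zb, h.za, h.yb, h.ya, let ⟨s, hs, e⟩ := h.mem; ⟨s, hs, fun x ↦ by rw [e, add_right_comm]⟩⟩

omit [SMulCommClass G F V] [FiniteDimensional F V] [Finite F] in
theorem RankTwo.shear {a y b z : V} (h : RankTwo Q H a y b z) (c : F) :
    RankTwo Q H a (y - c • z) (b + c • a) z :=
  ⟨by simp [h.ya, h.za], by simp [h.ya, h.za, h.yb, h.zb], h.za, by simp [h.za, h.zb],
    let ⟨s, hs, e⟩ := h.mem; ⟨s, hs, fun x ↦ by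
      rw [e, polar_sub_left, polar_smul_left, smul_eq_mul]; module⟩⟩

theorem RankTwo.axes_eq_top (h2 : (2 : F) ≠ 0) (hQ : (polarBilin Q).Nondegenerate)
    (hn : 6 ≤ finrank F V) (hH : HasSO Q H) {a y b z : V} (h : RankTwo Q H a y b z) (hy : y ≠ 0)
    (ha : a ∉ Submodule.span F {y, z, b}) {t : V} (ht : Q t ≠ 0) (hyt : polar Q y t = 0)
    (hzt : polar Q z t = 0) (hbt : polar Q b t = 0) : axes F V H = ⊤ := by
  have hP := polar_of_quad hQ
  let W := LinearMap.ker (LinearMap.pi fun i ↦ polarBilin Q (![y, z, b] i))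
  have hW : ∀ w, w ∈ W ↔ polar Q y w = 0 ∧ polar Q z w = 0 ∧ polar Q b w = 0 := fun w ↦ by
    simp [W, funext_iff, Fin.forall_fin_succ]
  have htW : t ∈ W := (hW t).2 ⟨hyt, hzt, hbt⟩
  obtain ⟨s₁, hs₁W, hs₁, hs₁a⟩ : ∃ s ∈ W, Q s ≠ 0 ∧ polar Q s a ≠ 0 := by
    by_cases hta : polar Q t a = 0
    · obtain ⟨φ, h1, h0⟩ := exists_dual_of_notMem ha
      obtain ⟨w, rfl⟩ := hP.exists_eq φ
      obtain ⟨c, hc⟩ := exists_nonsing_add h2 ht w
      refine ⟨_, W.add_mem ((hW w).2 ⟨?_, ?_, ?_⟩) (W.smul_mem c htW), hc, ?_⟩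
      · rw [polar_comm]; exact h0 y (Submodule.subset_span (by simp))
      · rw [polar_comm]; exact h0 z (Submodule.subset_span (by simp))
      · rw [polar_comm]; exact h0 b (Submodule.subset_span (by simp))
      · rw [polarBilin_apply_apply] at h1
        simp [h1, hta]
    · exact ⟨t, htW, ht, hta⟩
  obtain ⟨s₂, hs₂W, hs₂, hs₁₂⟩ : ∃ s ∈ W, Q s ≠ 0 ∧ s ∉ Submodule.span F {s₁} := by
    have h3 := finrank_le_ker_pi fun i ↦ polarBilin Q (![y, z, b] i)
    obtain ⟨w, hw, hw'⟩ : ∃ w ∈ W, w ∉ Submodule.span F {s₁} := by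
      by_contra hc
      push Not at hc
      have h4 := Submodule.finrank_mono (show W ≤ _ from hc)
      rw [finrank_span_singleton (by rintro rfl; simp at hs₁)] at h4
      simp only [W] at h4
      omega
    obtain ⟨c, hc⟩ := exists_nonsing_add h2 hs₁ w
    refine ⟨_, W.add_mem hw (W.smul_mem c hs₁W), hc, fun h4 ↦ hw' ?_⟩
    simpa using Submodule.sub_mem _ h4 (Submodule.smul_mem _ c (Submodule.mem_span_singleton_self s₁))
  let e := refl Q s₂ * refl Q s₁
  have he : LinearMap.det (e.1 : V →ₗ[F] V) = 1 := by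
    have : (e.1 : V →ₗ[F] V) = ((refl Q s₂).1 : V →ₗ[F] V) ∘ₗ ((refl Q s₁).1 : V →ₗ[F] V) := rfl
    rw [this, LinearMap.det_comp, det_refl hs₁, det_refl hs₂]
    simp
  have hfix : ∀ w, (∀ s ∈ W, polar Q w s = 0) → e.1 w = w := fun w hw ↦ by
    rw [OG.mul_app, refl_app_of_polar (v := s₁) (by rw [polar_comm, hw _ hs₁W]),
      refl_app_of_polar (by rw [polar_comm, hw _ hs₂W])]
  have hey : e.1 y = y := hfix y fun s hs ↦ ((hW s).1 hs).1
  have hez : e.1 z = z := hfix z fun s hs ↦ ((hW s).1 hs).2.1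
  have heb : e.1 b = b := hfix b fun s hs ↦ ((hW s).1 hs).2.2
  have hea : e.1 a - a ≠ 0 := fun h0 ↦ by
    rw [sub_eq_zero, OG.mul_app] at h0
    have h3 := congrArg (refl Q s₂).1 h0
    rw [refl_app_refl_app, refl_app, refl_app, sub_right_inj] at h3
    have h4 : (Q s₂)⁻¹ * polar Q s₂ a ≠ 0 := fun h5 ↦ by
      rw [h5, zero_smul, smul_eq_zero] at h3
      rcases h3 with h3 | h3
      · exact mul_ne_zero (inv_ne_zero hs₁) hs₁a h3
      · simp [h3] at hs₁
    exact hs₁₂ ((Submodule.smul_mem_iff _ h4).1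
      (h3 ▸ Submodule.smul_mem _ _ (Submodule.mem_span_singleton_self s₁)))
  obtain ⟨g, hg, hge⟩ := hH e he
  obtain ⟨s, hs, hsx⟩ := h.mem
  have h5 : ∀ w x, e.1 w = w → polar Q w (g⁻¹ • x) = polar Q w x := fun w x hw ↦ by
    rw [← OG.polar_app e, hw, ← hge, smul_inv_smul]
  have h6 : ∀ x, s⁻¹ • x = x - polar Q y x • a - polar Q z x • b := fun x ↦ by
    rw [inv_smul_eq_iff, hsx]
    simp only [polar_sub_right, polar_smul_right, h.ya, h.yb, h.za, h.zb, smul_zero, sub_zero]
    module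
  refine hH.axes_eq_top h2 hQ hn hea hy ⟨?_, g * s * g⁻¹ * s⁻¹,
    H.mul_mem (H.mul_mem (H.mul_mem hg hs) (H.inv_mem hg)) (H.inv_mem hs), fun x ↦ ?_⟩
  · rw [polarBilin_apply_apply, polar_sub_right, h.ya, sub_zero]
    conv_lhs => rw [← hey]
    rw [OG.polar_app, h.ya]
  · rw [mul_smul, mul_smul, mul_smul, hsx, h5 _ _ hey, h5 _ _ hez, smul_add, smul_add, smul_inv_smul,
      smul_comm g, smul_comm g, hge, hge, heb, h6]
    simp only [polar_sub_right, polar_smul_right, h.ya, h.yb, h.za, h.zb, smul_zero, sub_zero,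
      polarBilin_apply_apply]
    module

theorem RankTwo.mem_span (h2 : (2 : F) ≠ 0) (hQ : (polarBilin Q).Nondegenerate)
    (hn : 6 ≤ finrank F V) (hH : HasSO Q H) (hA : axes F V H ≠ ⊤) {a y b z : V}
    (h : RankTwo Q H a y b z) (hy : ∀ c : F, y ≠ c • z) (hz : ∀ c : F, z ≠ c • y) :
    a ∈ Submodule.span F {y, z} := by
  obtain ⟨t, ht, ht'⟩ := exists_nonsing_perp hQ (m := 2) (by omega) ![y, z]
  have hyt : polar Q y t = 0 := ht' 0
  have hzt : polar Q z t = 0 := ht' 1
  have hR : ∀ w ∈ Submodule.span F {y, z}, polar Q w t = 0 := fun w hw ↦ by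
    obtain ⟨c, d, rfl⟩ := Submodule.mem_span_pair.1 hw
    simp [hyt, hzt]
  have key : ∀ {a y b z : V}, RankTwo Q H a y b z → (∀ c : F, y ≠ c • z) → polar Q y t = 0 →
      polar Q z t = 0 → ∀ c : F, polar Q (b + c • a) t = 0 →
      ∃ d : F, a - d • (b + c • a) ∈ Submodule.span F {y, z} := fun {a y b z} h hy hyt hzt c hc ↦ by
    by_contra hcon
    refine hA ((h.shear c).axes_eq_top h2 hQ hn hH (sub_ne_zero.2 (hy c)) (fun hm ↦ hcon ?_) ht
      (by simp [hyt, hzt]) hzt hc)
    obtain ⟨α, β, γ, e⟩ := Submodule.mem_span_triple.1 hm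
    exact ⟨γ, Submodule.mem_span_pair.2 ⟨α, β - α * c, by
      rw [eq_sub_iff_add_eq]; conv_rhs => rw [← e]
      module⟩⟩
  set R := Submodule.span F ({y, z} : Set V) with hRdef
  have hR' : Submodule.span F ({z, y} : Set V) = R := by rw [Set.pair_comm]
  have key1 : ∀ c : F, b + c • a ∈ R → a ∈ R := fun c hc ↦ by
    obtain ⟨d, hd⟩ := key h hy hyt hzt c (hR _ hc)
    simpa using R.add_mem hd (R.smul_mem d hc)
  have key2 : ∀ c : F, a + c • b ∈ R → a ∈ R := fun c hc ↦ by
    obtain ⟨d, hd⟩ := key h.swap hz hzt hyt c (hR _ hc)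
    rw [hR'] at hd
    have hb : b ∈ R := by simpa using R.add_mem hd (R.smul_mem d hc)
    simpa using R.sub_mem hc (R.smul_mem c hb)
  by_cases hat : polar Q a t = 0
  · obtain ⟨d, hd⟩ := key h.swap hz hzt hyt 0 (by simp [hat])
    rw [hR'] at hd
    exact key1 (-d) (by convert hd using 1; module)
  · obtain ⟨d, hd⟩ := key h hy hyt hzt (-polar Q b t / polar Q a t) (by simp [div_mul_cancel₀ _ hat])
    by_cases hd0 : d = 0
    · simpa [hd0] using hd
    · refine key1 (-polar Q b t / polar Q a t - d⁻¹) ?_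
      rw [← R.smul_mem_iff (neg_ne_zero.2 hd0)]
      convert hd using 1
      match_scalars
      all_goals field_simp
      all_goals ring

omit [Finite F] in
/-- A linear map fixing every singular point is a scalar. -/
theorem exists_smul_of_singular [Finite F] (hQ : (polarBilin Q).Nondegenerate)
    (hn : 5 ≤ finrank F V) {L : V →ₗ[F] V} (hL : ∀ r, Q r = 0 → ∃ c : F, L r = c • r) :
    ∃ c : F, ∀ x, L x = c • x := by
  have hP := polar_of_quad hQ
  have key : ∀ u v, Q u = 0 → Q v = 0 → polar Q u v = 0 → (∃ w, polar Q w u = 0 ∧ polar Q w v ≠ 0) →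
      u ≠ 0 → ∀ c : F, L u = c • u ↔ L v = c • v := by
    rintro u v hu hv huv ⟨w, hwu, hwv⟩ hu0
    obtain ⟨c₁, h1⟩ := hL u hu
    obtain ⟨c₂, h3⟩ := hL v hv
    obtain ⟨c₃, h4⟩ := hL (u + v) (by rw [map_add', hu, hv, huv]; ring)
    rw [map_add, h1, h3] at h4
    have h5 : c₂ = c₃ := mul_right_cancel₀ hwv (by simpa [hwu] using congrArg (polar Q w) h4)
    have h6 : c₁ = c₃ := by
      rw [h5, smul_add, add_left_inj] at h4
      exact smul_left_injective F hu0 h4
    have hv0 : v ≠ 0 := by rintro rfl; simp at hwv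
    intro c
    rw [h1, h3, h5, h6]
    exact ⟨fun e ↦ by rw [smul_left_injective F hu0 e], fun e ↦ by rw [smul_left_injective F hv0 e]⟩
  obtain ⟨e, he0, he, -⟩ := hP.exists_sing_perp (m := 0) (by omega) Fin.elim0
  obtain ⟨c, hc⟩ := hL e he
  obtain ⟨z, hz⟩ := hP.exists_ne_zero he0
  refine ⟨c, fun x ↦ ?_⟩
  have := hP.perp_le (y := 0) (S := LinearMap.ker (L - c • LinearMap.id)) he (by simp)
    (by simp [hc]) (by simp) hz (fun r hr _ hre ↦ ?_) (x := x) (by simp)
  · simpa [sub_eq_zero] using this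
  obtain ⟨b, hb0, hb, hb'⟩ := hP.exists_sing_perp (m := 2) (by omega) ![e, r]
  have h1 : polar Q e b = 0 := hb' 0
  have h3 : polar Q r b = 0 := hb' 1
  rw [polarBilin_apply_apply] at hre
  have h4 := (key b e hb he (by rw [polar_comm, h1]) ⟨r, h3, hre⟩ hb0 c).2 hc
  have h5 := (key b r hb hr (by rw [polar_comm, h3]) ⟨e, h1, by rwa [polar_comm]⟩ hb0 c).1 h4
  simp [h5]

/-- An overgroup of `SO` either holds all transvections or consists of similarities. -/
theorem HasSO.exists_similarity (h2 : (2 : F) ≠ 0) (hQ : (polarBilin Q).Nondegenerate)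
    (hn : 6 ≤ finrank F V) (hH : HasSO Q H) (hA : axes F V H ≠ ⊤) {g : G} (hg : g ∈ H) :
    ∃ c : F, ∀ x, Q (g • x) = c * Q x := by
  have hP := polar_of_quad hQ
  choose T hT using fun v : V ↦ hP.exists_eq (dact g (polarBilin Q v))
  have hT' : ∀ v x, polar Q (T v) x = polar Q v (g⁻¹ • x) := fun v x ↦ LinearMap.congr_fun (hT v) x
  choose T' hT'' using fun v : V ↦
    hP.exists_eq (polarBilin Q (g • v) ∘ₗ DistribSMul.toLinearMap F V g)
  have hL' : ∀ v x, polar Q (T' v) x = polar Q (g • v) (g • x) := fun v x ↦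
    LinearMap.congr_fun (hT'' v) x
  let L : V →ₗ[F] V :=
    { toFun := T'
      map_add' := fun u v ↦ hP.ext_left fun z ↦ by simp [hL']
      map_smul' := fun c v ↦ hP.ext_left fun z ↦ by simp [hL', smul_comm g c] }
  have hpair : ∀ u v, Q u = 0 → Q v = 0 → polar Q u v = 0 → u ≠ 0 → (∀ c : F, v ≠ c • u) →
      ∃ α β : F, T' u = α • u + β • v := fun u v hu hv huv hu0 hvu ↦ by
    obtain ⟨s, hs, hsx⟩ := hH _ (det_eich hu huv)
    have huu : polar Q u u = 0 := by rw [polar_self', hu, mul_zero]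
    have hvv : polar Q v v = 0 := by rw [polar_self', hv, mul_zero]
    have hvu' : polar Q v u = 0 := by rw [polar_comm, huv]
    have h1 : RankTwo Q H (g • u) (T v) (g • v) (-T u) := by
      refine ⟨by simp [hT', hvu'], by simp [hT', hvv], by simp [hT', huu], by simp [hT', huv],
        g * s * g⁻¹, H.mul_mem (H.mul_mem hg hs) (H.inv_mem hg), fun x ↦ ?_⟩
      rw [mul_smul, mul_smul, hsx, eich_app hu huv, hv, polar_neg_left, hT', hT']
      simp only [zero_mul, zero_smul, sub_zero]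
      rw [smul_sub, smul_add, smul_inv_smul, smul_comm g, smul_comm g, neg_smul, sub_eq_add_neg]
    have h3 := h1.mem_span h2 hQ hn hH hA (fun c hc ↦ hvu (-c) (hP.ext_left fun x ↦ by
      simpa [hT'] using congrArg (fun w ↦ polar Q w (g • x)) hc)) (fun c hc ↦ by
        have h4 : u = (-c) • v := hP.ext_left fun x ↦ by
          simpa [hT', neg_eq_iff_eq_neg] using congrArg (fun w ↦ polar Q w (g • x)) hc
        have h5 : -c ≠ 0 := fun h0 ↦ hu0 (by rw [h4, h0, zero_smul])
        exact hvu (-c)⁻¹ (by rw [h4, smul_smul, inv_mul_cancel₀ h5, one_smul]))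
    obtain ⟨α, β, e⟩ := Submodule.mem_span_pair.1 h3
    exact ⟨-β, α, hP.ext_left fun x ↦ by simp [hL', ← e, hT', add_comm]⟩
  obtain ⟨c, hc⟩ := exists_smul_of_singular hQ (by omega) (L := L) fun u hu ↦ by
    by_cases hu0 : u = 0
    · exact ⟨0, by rw [hu0, map_zero, smul_zero]⟩
    have huu : polar Q u u = 0 := by rw [polar_self', hu, mul_zero]
    obtain ⟨v, hvu, hv, hv'⟩ := hP.exists_sing_perp_ne (m := 1) (by omega) ![u] u
    have huv : polar Q u v = 0 := hv' 0
    obtain ⟨w, hw, huw, hwv⟩ := hP.exists_sing_perp_ne_zero (by omega) hvu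
    rw [polarBilin_apply_apply] at huw hwv
    obtain ⟨α, β, e⟩ := hpair u v hu hv huv hu0 hvu
    obtain ⟨α', β', e'⟩ := hpair u w hu hw huw hu0 fun c hc ↦ hwv (by simp [hc, huv])
    have h1 := congrArg (polar Q w) (e.symm.trans e')
    have hww : polar Q w w = 0 := by rw [polar_self', hw, mul_zero]
    simp only [polar_add_right, polar_smul_right, polar_comm Q w u, huw, hww, smul_eq_mul, mul_zero,
      zero_add, mul_eq_zero] at h1
    exact ⟨α, by rw [show L u = T' u from rfl, e, h1.resolve_right hwv, zero_smul, add_zero]⟩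
  refine ⟨c, fun x ↦ mul_left_cancel₀ h2 ?_⟩
  rw [← polar_self', ← hL', show T' x = c • x from hc x, polar_smul_left, polar_self', smul_eq_mul]
  ring

end General

variable {ι : Type} [Fintype ι] [DecidableEq ι] {F : Type*} [Field F]

theorem isMaximalIn_quad [Finite F] (hn : 6 ≤ Fintype.card ι) (h2 : (2 : F) ≠ 0)
    {Q : (ι → F) → F} (hQ : IsNondegenerateQuadraticForm Q) :
    IsMaximalIn (specialLinear ι F) (quadSimilarityGroup Q ⊓ specialLinear ι F) := by
  refine isMaximalIn_of (not_sl_le_quadSimilarityGroup (by omega) hQ) fun H hH _ g hg hgM ↦ ?_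
  have hN := Asch.nondeg_toQF hQ
  have hn' : 6 ≤ finrank F (ι → F) := by rwa [finrank_vec]
  have h1 : HasSO (Asch.toQF hQ) H := fun e he ↦
    ⟨ofEquiv e.1, hH (Subgroup.mem_inf.2 ⟨mem_quadSimilarityGroup.2 ⟨1, fun v ↦ by
      rw [ofEquiv_smul, Units.val_one, one_mul]
      exact e.2 v⟩, by
        rw [mem_specialLinear, det_eq_of_smul (f := e.1) (ofEquiv_smul e.1), he]⟩), ofEquiv_smul e.1⟩
  by_contra hle
  obtain ⟨c, hc⟩ := h1.exists_similarity h2 hN hn' (fun hA ↦ hle (specialLinear_le_of_axes hA)) hg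
  obtain ⟨t, ht, -⟩ := exists_nonsing_perp hN (m := 0) (by omega) Fin.elim0
  refine hgM (mem_quadSimilarityGroup.2 ⟨Units.mk0 c fun h0 ↦ ht ?_, hc⟩)
  rw [← smul_inv_smul g t, hc, h0, zero_mul]

end CL.SLn
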