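/-
The similarity group of a quadratic form in odd characteristic is maximal in `SL_n(F)` for `n ≥ 4`.
-/
import Cfsg.Agent.Cls.MaxO
import Cfsg.Agent.Cls.SpRoot

set_option autoImplicit false

namespace CL.SLn

open Module Matrix Cfsg Cfsg.Geo QuadraticMap CL.Cls

section General

variable {F V G : Type*} [Field F] [AddCommGroup V] [Module F V] [Group G]
  [DistribMulAction G V] [SMulCommClass G F V] {Q Q' : QuadraticForm F V} {e f : V}

theorem hyp_proj (h : IsHyp Q e f) (x : V) : ∃ w, polar Q e w = 0 ∧ polar Q f w = 0 ∧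
    x = polar Q f x • e + polar Q e x • f + w :=
  ⟨x - polar Q f x • e - polar Q e x • f, by simp [h.polar_left, h.polar_eq],
    by simp [h.polar_right, h.polar_eq'], by abel⟩

theorem hyp_eq_zero (hQ : (polarBilin Q).Nondegenerate) (h : IsHyp Q e f) {w : V}
    (he : polar Q e w = 0) (hf : polar Q f w = 0)
    (hw : ∀ x, polar Q e x = 0 → polar Q f x = 0 → polar Q w x = 0) : w = 0 :=
  nondeg_iff.1 hQ w fun x ↦ by
    obtain ⟨y, h1, h2, h3⟩ := hyp_proj h x
    rw [h3]
    simp [polar_comm Q w e, polar_comm Q w f, he, hf, hw y h1 h2]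

variable [FiniteDimensional F V]

theorem exists_ker₃ (hn : 4 ≤ finrank F V) (φ ψ χ : Dual F V) :
    ∃ w, w ≠ 0 ∧ φ w = 0 ∧ ψ w = 0 ∧ χ w = 0 := by
  have := finrank_le_ker_pi ![φ, ψ, χ]
  obtain ⟨w, h1, h0⟩ := Submodule.exists_mem_ne_zero_of_ne_bot
    (p := LinearMap.ker (LinearMap.pi ![φ, ψ, χ])) fun h ↦ by rw [h, finrank_bot] at this; omega
  have h2 := congrFun (LinearMap.mem_ker.1 h1)
  exact ⟨w, h0, h2 0, h2 1, h2 2⟩

theorem hyp_exists_nonsing (hQ : (polarBilin Q).Nondegenerate) (hn : 4 ≤ finrank F V)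
    (h : IsHyp Q e f) : ∃ t, Q t ≠ 0 ∧ polar Q e t = 0 ∧ polar Q f t = 0 := by
  by_contra hc
  push Not at hc
  obtain ⟨w, w0, w1, w2, -⟩ := exists_ker₃ hn (polarBilin Q e) (polarBilin Q f) 0
  rw [polarBilin_apply_apply] at w1 w2
  have key : ∀ x, polar Q e x = 0 → polar Q f x = 0 → Q x = 0 := fun x h1 h2 ↦
    by_contra fun h3 ↦ hc x h3 h1 h2
  refine w0 (hyp_eq_zero hQ h w1 w2 fun x h1 h2 ↦ ?_)
  have := key (w + x) (by simp [w1, h1]) (by simp [w2, h2])
  rwa [map_add', key w w1 w2, key x h1 h2, zero_add, zero_add] at this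

theorem det_refl_mul {u v : V} (hu : Q u ≠ 0) (hv : Q v ≠ 0) :
    LinearMap.det ((refl Q u * refl Q v).1 : V →ₗ[F] V) = 1 := by
  have : ((refl Q u * refl Q v).1 : V →ₗ[F] V) =
    ((refl Q u).1 : V →ₗ[F] V) ∘ₗ ((refl Q v).1 : V →ₗ[F] V) := rfl
  rw [this, LinearMap.det_comp, det_refl hu, det_refl hv]
  simp

/-- The involution `-1` on a non-degenerate plane. -/
theorem exists_neg_plane (h2 : (2 : F) ≠ 0) {u v : V} (h : 4 * Q u * Q v ≠ polar Q u v ^ 2) :
    ∃ t : OG Q, LinearMap.det (t.1 : V →ₗ[F] V) = 1 ∧ t.1 u = -u ∧ t.1 v = -v ∧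
      ∀ x, t.1 x - x ∈ Submodule.span F {u, v} := by
  have key : ∀ u v : V, 4 * Q u * Q v ≠ polar Q u v ^ 2 → Q u ≠ 0 →
      ∃ t : OG Q, LinearMap.det (t.1 : V →ₗ[F] V) = 1 ∧ t.1 u = -u ∧ t.1 v = -v ∧
        ∀ x, t.1 x - x ∈ Submodule.span F {u, v} := fun u v h hu ↦ by
    set p := v - (polar Q u v / (2 * Q u)) • u with hp
    have h1 : polar Q u p = 0 := by
      rw [hp, polar_sub_right, polar_smul_right, polar_self', smul_eq_mul]
      field_simp
      ring
    have h3 : Q p ≠ 0 := fun e ↦ h (by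
      rw [hp, Cls.map_sub', Cls.map_smul', polar_smul_right, polar_comm Q v u, smul_eq_mul] at e
      field_simp at e
      linear_combination e)
    have h4 : (refl Q u * refl Q p).1 u = -u := by
      rw [OG.mul_app, refl_app_of_polar (v := p) (by rw [polar_comm, h1]), refl_app_self hu]
    have h5 : (refl Q u * refl Q p).1 p = -p := by
      rw [OG.mul_app, refl_app_self h3, map_neg, refl_app_of_polar h1]
    have hu' : u ∈ Submodule.span F {u, v} := Submodule.subset_span (by simp)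
    have hp' : p ∈ Submodule.span F {u, v} :=
      Submodule.sub_mem _ (Submodule.subset_span (by simp)) (Submodule.smul_mem _ _ hu')
    refine ⟨refl Q u * refl Q p, det_refl_mul hu h3, h4, ?_, fun x ↦ ?_⟩
    · rw [show v = p + (polar Q u v / (2 * Q u)) • u by rw [hp]; abel, map_add, map_smul, h4, h5]
      module
    · rw [OG.mul_app, refl_app, refl_app, sub_sub x, sub_sub_cancel_left]
      exact Submodule.neg_mem _ (Submodule.add_mem _ (Submodule.smul_mem _ _ hp')
        (Submodule.smul_mem _ _ hu'))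
  by_cases hu : Q u = 0
  swap
  · exact key u v h hu
  by_cases hv : Q v = 0
  swap
  · obtain ⟨t, h1, h3, h4, h5⟩ := key v u (by rwa [polar_comm, mul_right_comm]) hv
    exact ⟨t, h1, h4, h3, by rwa [Set.pair_comm]⟩
  have h0 : polar Q u v ≠ 0 := fun e ↦ h (by simp [hu, e])
  obtain ⟨t, h1, h3, h4, h5⟩ := key (u + v) v (by
    rw [hv, polar_add_left, polar_self', hv]; simpa using (pow_ne_zero 2 h0).symm) (by simpa [map_add', hu, hv] using h0)
  refine ⟨t, h1, ?_, h4, fun x ↦ Submodule.span_le.2 ?_ (h5 x)⟩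
  · rw [map_add, h4] at h3
    rw [eq_sub_of_add_eq h3]
    abel
  · rintro _ (rfl | rfl)
    · exact Submodule.add_mem _ (Submodule.subset_span (by simp)) (Submodule.subset_span (by simp))
    · exact Submodule.subset_span (by simp)

variable {H : Subgroup G}

/-- A non-trivial element acting trivially on a hyperbolic plane and on the quotient by it gives
a transvection. -/
theorem HasSO.exists_tv (h2 : (2 : F) ≠ 0) (hQ : (polarBilin Q).Nondegenerate) (hn : 4 ≤ finrank F V)
    (hH : HasSO Q H) (h : IsHyp Q e f) {k : G} (hk : k ∈ H) {α β : Dual F V} (a1 : α e = 0)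
    (a2 : α f = 0) (b1 : β e = 0) (b2 : β f = 0) (hkx : ∀ x, k • x = x + α x • e + β x • f)
    (h0 : α ≠ 0 ∨ β ≠ 0) : ∃ χ : Dual F V, χ ≠ 0 ∧ Tv H e χ := by
  by_cases hβ : β = 0
  · exact ⟨α, h0.resolve_right (not_not.2 hβ), a1, k, hk, fun x ↦ by simp [hkx, hβ]⟩
  obtain ⟨v, v1, v2, v3⟩ : ∃ v, polar Q e v = 0 ∧ polar Q f v = 0 ∧ β v ≠ 0 := by
    by_contra hc
    push Not at hc
    refine hβ (LinearMap.ext fun x ↦ ?_)
    obtain ⟨y, h1, h3, h4⟩ := hyp_proj h x
    rw [h4]
    simp [b1, b2, hc y h1 h3]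
  obtain ⟨w, w0, w1, w2, w3⟩ := exists_ker₃ hn (polarBilin Q e) (polarBilin Q f) β
  rw [polarBilin_apply_apply] at w1 w2
  have hki : ∀ x, k⁻¹ • x = x - α x • e - β x • f := fun x ↦ by
    rw [inv_smul_eq_iff, hkx]
    simp only [map_sub, map_smul, a1, a2, b1, b2, smul_zero, sub_zero]
    abel
  obtain ⟨s, hs, hsx⟩ := hH _ (det_eich h.left w1)
  obtain ⟨s', hs', hsx'⟩ := hH _ (det_eich h.left v1)
  have v4 : polar Q e (v + β v • w) = 0 := by simp [v1, w1]
  obtain ⟨y, hy, hyx⟩ := hH _ (det_eich h.left v4)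
  simp only [eich_app h.left w1, eich_app h.left v1, eich_app h.left v4] at hsx hsx' hyx
  have hE : ∀ x, (k * s * k⁻¹) • x = x + polar Q w x • e - (polar Q e x - β x) • (w + α w • e) -
      (Q w * (polar Q e x - β x)) • e := fun x ↦ by
    rw [mul_smul, mul_smul, hsx, smul_sub, smul_sub, smul_add, smul_inv_smul, smul_comm k,
      smul_comm k, smul_comm k, hkx e, hkx w, hki]
    simp only [a1, b1, w3, zero_smul, add_zero, polar_sub_right, polar_smul_right, h.polar_left,
      h.polar_eq, polar_comm Q w e, polar_comm Q w f, w1, w2, smul_eq_mul, mul_zero, sub_zero, mul_one]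
  generalize hE' : k * s * k⁻¹ = E at hE
  have hEH : E ∈ H := hE' ▸ H.mul_mem (H.mul_mem hk hs) (H.inv_mem hk)
  let δ : Dual F V := polarBilin Q f ∘ₗ (DistribSMul.toLinearMap F V (E * s') -
    DistribSMul.toLinearMap F V (y * E))
  have key : ∀ x, (E * s') • x = (y * E) • x + (polar Q v x - Q v * polar Q e x -
      polar Q e x * (polar Q w v + β v * α w + Q w * β v) - polar Q (v + β v • w) (E • x) +
        Q (v + β v • w) * polar Q e x) • e := fun x ↦ by
    have h1 : polar Q e (E • x) = polar Q e x := by simp [hE, h.polar_left, w1]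
    have h3 : E • e = e := by simp [hE, h.polar_left, b1, polar_comm Q w e, w1]
    rw [mul_smul, mul_smul, hyx, h1, hsx', smul_sub, smul_sub, smul_add, smul_comm E, smul_comm E,
      smul_comm E, h3, hE v, v1]
    generalize E • x = z
    module
  have hδ : ∀ x, (E * s') • x = (y * E) • x + δ x • e := fun x ↦ by
    have : δ x = polar Q f ((E * s') • x - (y * E) • x) := rfl
    rw [this, key, add_sub_cancel_left, polar_smul_right, h.polar_eq', smul_eq_mul, mul_one]
  have hδ' : ∀ x, polar Q e x = 0 → polar Q f x = 0 →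
      δ x = -(β v * polar Q w x + β x * (polar Q v w + 2 * β v * Q w)) := fun x h1 h3 ↦ by
    have h4 := (hδ x).symm.trans (key x)
    rw [add_right_inj] at h4
    rw [smul_left_injective F h.left_ne_zero h4, hE, h1]
    simp only [polar_add_left, polar_sub_right, polar_add_right, polar_smul_left, polar_smul_right,
      polar_comm Q v e, polar_comm Q w e, v1, w1, polar_self', smul_eq_mul]
    ring
  have hye : (y * E) • e = e := by
    simp [mul_smul, hE, hyx, h.polar_left, b1, polar_comm Q w e, w1, polar_comm Q v e, v1]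
  refine ⟨dact (y * E) δ, dact_ne_zero _ fun h3 ↦ w0 (hyp_eq_zero hQ h w1 w2 fun x x1 x2 ↦ ?_), ?_,
    E * s' * (y * E)⁻¹, H.mul_mem (H.mul_mem hEH hs') (H.inv_mem (H.mul_mem hy hEH)), fun x ↦ ?_⟩
  · have c1 := hδ' w w1 w2
    have c2 := hδ' v v1 v2
    have c3 := hδ' x x1 x2
    rw [h3, LinearMap.zero_apply] at c1 c2 c3
    rw [w3, polar_self'] at c1
    have d1 : Q w = 0 := mul_left_cancel₀ (mul_ne_zero h2 v3) (by linear_combination c1)
    rw [d1, polar_comm Q w v] at c2
    have d2 : polar Q v w = 0 := mul_left_cancel₀ (mul_ne_zero h2 v3) (by linear_combination c2)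
    rw [d1, d2] at c3
    exact mul_left_cancel₀ v3 (by linear_combination c3)
  · have h3 := hδ e
    rw [hye, mul_smul, hsx', h.polar_left, polar_comm Q v e, v1] at h3
    simp only [zero_smul, add_zero, sub_zero, mul_zero, hE, h.polar_left, b1, polar_comm Q w e, w1,
      left_eq_add, smul_eq_zero, h.left_ne_zero, or_false] at h3
    rwa [dact_apply, inv_smul_eq_iff.2 hye.symm]
  · rw [mul_smul, hδ, smul_inv_smul, dact_apply]

variable [Finite F]

/-- An overgroup of `SO` with a transvection with singular centre holds all transvections. -/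
theorem HasSO.centers_eq_top (h2 : (2 : F) ≠ 0) (hQ : (polarBilin Q).Nondegenerate)
    (hn : 4 ≤ finrank F V) (hH : HasSO Q H) (h : IsHyp Q e f) {χ : Dual F V} (h0 : χ ≠ 0)
    (ht : Tv H e χ) : centers F V H = ⊤ := by
  have hP := polar_of_quad hQ
  obtain ⟨y, rfl⟩ := hP.exists_eq χ
  have hye : polar Q y e = 0 := ht.1
  have he : ∀ c : F, Tv H e (polarBilin Q (c • e)) := fun c ↦ by
    by_cases hy : ∃ w, polar Q e w = 0 ∧ polar Q w y ≠ 0
    · obtain ⟨w, w1, w2⟩ := hy
      have w3 : polar Q e ((c / polar Q w y) • w) = 0 := by simp [w1]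
      have h1 := hH.conj (det_eich h.left w3) ht
      rw [eich_app_self, eich_app_of_perp h.left w3 (by rw [polar_comm, hye]), map_add,
        polar_smul_left, smul_eq_mul, div_mul_cancel₀ _ w2] at h1
      simpa using h1.sub_right ht
    push Not at hy
    obtain ⟨w, w1, w2, w3⟩ := hyp_proj h y
    have w4 : w = 0 := hyp_eq_zero hQ h w1 w2 fun x x1 x2 ↦ by
      have := hy x x1
      rw [w3] at this
      simpa [polar_comm Q x e, polar_comm Q x f, x1, x2, polar_comm Q x w] using this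
    rw [w4, polar_comm Q e y, hye, zero_smul, add_zero, add_zero] at w3
    generalize polar Q f y = d at w3
    subst w3
    let A : AddSubgroup F :=
      { carrier := {c | Tv H e (polarBilin Q (c • e))}
        zero_mem' := by simpa using Tv.zero_right
        add_mem' := fun {a b} ha hb ↦ by
          change Tv H e (polarBilin Q ((a + b) • e))
          rw [add_smul, map_add]; exact Tv.add_right ha hb
        neg_mem' := fun {a} ha ↦ by
          change Tv H e (polarBilin Q ((-a) • e))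
          rw [neg_smul, map_neg]; exact Tv.neg_right ha }
    refine CL.Sp.mem_of_sq_mul_mem A (c := d) (by rintro rfl; simp at h0) (fun a ↦ ?_) c
    by_cases ha : a = 0
    · simp [ha]
    have h1 := hH.conj (e := hypTorus Q e f a) (det_refl_mul
      (by rw [h.map_sub_smul]; simp [ha]) (by simpa using (h.map_sub_smul 1).trans_ne (by simp))) ht
    rw [map_smul, hypTorus_app_left h ha] at h1
    refine h1.congr (by simp [h.polar_left]) fun x ↦ ?_
    simp only [polarBilin_apply_apply, polar_smul_left, smul_eq_mul, smul_smul]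
    congr 1
    ring
  obtain ⟨t, t0, t1, t2⟩ := hyp_exists_nonsing hQ hn h
  have hef : Q (e - f) ≠ 0 := by simpa using (h.map_sub_smul 1).trans_ne (by simp)
  have hs : (refl Q (e - f) * refl Q t).1 e = f := by
    rw [OG.mul_app, refl_app_of_polar (v := t) (by rw [polar_comm, t1]),
      refl_sub_app (h.left.trans h.right.symm) hef]
  have hf : ∀ c : F, Tv H f (polarBilin Q (c • f)) := fun c ↦ by
    have := hH.conj (det_refl_mul hef t0) (he c)
    rwa [map_smul, hs] at this
  have hu : ∀ a, polar Q e a = 0 → polar Q f a = 0 → (eich Q e a).1 f = f - a - Q a • e :=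
    fun a a1 a2 ↦ by rw [eich_app h.left a1, polar_comm Q a f, a2, h.polar_eq]; simp
  have ha : ∀ a, Q a ≠ 0 → polar Q e a = 0 → polar Q f a = 0 → ∀ c : F,
      Tv H e (polarBilin Q (c • a)) := fun a a0 a1 a2 c ↦ by
    have h1 := hH.conj (det_eich h.left a1) (hf 1)
    rw [one_smul, hu a a1 a2] at h1
    have h3 := (he (-c / 2)).comm' ((hf (-(Q a)⁻¹)).conj_tv h1) (by
      simp [h.polar_eq', h.polar_left, polar_comm Q a e, a1, h.polar_right, polar_comm Q a f, a2,
        h.polar_eq, a0])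
    refine (h3.sub_right (he (c * Q a))).congr (by simp [polar_comm Q a e, a1]) fun x ↦ ?_
    congr 1
    simp only [LinearMap.sub_apply, LinearMap.smul_apply, polarBilin_apply_apply, polar_smul_left,
      polar_add_right, polar_sub_right, polar_smul_right, polar_sub_left, h.polar_eq, h.polar_eq',
      h.polar_left, h.polar_right, a1, a2, polar_comm Q a f, smul_eq_mul]
    field_simp
    ring
  have hec : e ∈ centers F V H := fun φ hφ ↦ by
    obtain ⟨z, rfl⟩ := hP.exists_eq φ
    obtain ⟨w, w1, w2, w3⟩ := hyp_proj h z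
    obtain ⟨c, hc⟩ := exists_nonsing_add h2 t0 w
    have h1 := ((he (polar Q f z)).add_right (ha _ hc (by simp [w1, t1]) (by simp [w2, t2]) 1)).sub_right
      (ha t t0 t1 t2 c)
    rw [← map_add, ← map_sub] at h1
    convert h1 using 2
    rw [polar_comm Q e z, show polar Q z e = 0 from hφ] at w3
    conv_lhs => rw [w3]
    module
  have hc : ∀ (g : OG Q), LinearMap.det (g.1 : V →ₗ[F] V) = 1 → ∀ x ∈ centers F V H,
      g.1 x ∈ centers F V H := fun g hg x hx ↦ by
    obtain ⟨s, hs, hsx⟩ := hH g hg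
    exact hsx x ▸ smul_mem_centers hs hx
  have hfc : f ∈ centers F V H := hs ▸ hc _ (det_refl_mul hef t0) e hec
  refine eq_top_iff.2 fun x _ ↦ ?_
  obtain ⟨w, w1, w2, w3⟩ := hyp_proj h x
  have h1 := hc _ (det_eich h.left w1) f hfc
  rw [hu w w1 w2] at h1
  rw [w3]
  refine Submodule.add_mem _ (Submodule.add_mem _ (Submodule.smul_mem _ _ hec)
    (Submodule.smul_mem _ _ hfc)) ?_
  convert Submodule.sub_mem _ (Submodule.sub_mem _ hfc h1) (Submodule.smul_mem _ (Q w) hec) using 1
  abel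

theorem HasSO.polar_eq_zero_of_plane (h2 : (2 : F) ≠ 0) (hQ : (polarBilin Q).Nondegenerate)
    (hn : 4 ≤ finrank F V) (hH : HasSO Q H) (hH' : HasSO Q' H) (hA : centers F V H ≠ ⊤)
    (h : IsHyp Q e f) (hD : 4 * Q' e * Q' f ≠ polar Q' e f ^ 2) {x : V} (x1 : polar Q e x = 0)
    (x2 : polar Q f x = 0) : polar Q' e x = 0 := by
  obtain ⟨t, t0, t1, t2, t3⟩ := exists_neg_plane (Q := Q) h2 (u := e) (v := f) (by
    simp [h.left, h.polar_eq])
  obtain ⟨t', t0', t1', t2', t3'⟩ := exists_neg_plane h2 hD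
  obtain ⟨s, hs, hsx⟩ := hH t t0
  obtain ⟨s', hs', hsx'⟩ := hH' t' t0'
  have hP : ∀ z ∈ Submodule.span F {e, f}, z = polar Q f z • e + polar Q e z • f := fun z hz ↦ by
    obtain ⟨a, b, rfl⟩ := Submodule.mem_span_pair.1 hz
    simp [h.polar_left, h.polar_right, h.polar_eq, h.polar_eq']
  have hneg : ∀ z ∈ Submodule.span F {e, f}, t.1 z = -z := fun z hz ↦ by
    obtain ⟨a, b, rfl⟩ := Submodule.mem_span_pair.1 hz
    rw [map_add, map_smul, map_smul, t1, t2]
    module
  let N : V →ₗ[F] V := DistribSMul.toLinearMap F V (s * s') - LinearMap.id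
  have hN : ∀ z, N z = t.1 (t'.1 z) - z := fun z ↦ by
    change (s * s') • z - z = _
    rw [mul_smul, hsx', hsx]
  have hN' : ∀ z, N z ∈ Submodule.span F {e, f} := fun z ↦ by
    rw [hN]
    convert Submodule.add_mem _ (t3 (t'.1 z)) (t3' z) using 1
    abel
  have hNe : N e = 0 := by simp [hN, t1, t1']
  have hNf : N f = 0 := by simp [hN, t2, t2']
  have hk : ∀ z, (s * s') • z = z + (polarBilin Q f ∘ₗ N) z • e + (polarBilin Q e ∘ₗ N) z • f :=
    fun z ↦ by
      rw [add_assoc, LinearMap.comp_apply, LinearMap.comp_apply, polarBilin_apply_apply,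
        polarBilin_apply_apply, ← hP _ (hN' z)]
      change _ = z + ((s * s') • z - z)
      abel
  by_cases h0 : polarBilin Q f ∘ₗ N ≠ 0 ∨ polarBilin Q e ∘ₗ N ≠ 0
  · obtain ⟨χ, h1, h3⟩ := hH.exists_tv h2 hQ hn h (H.mul_mem hs hs') (by simp [hNe]) (by simp [hNf])
      (by simp [hNe]) (by simp [hNf]) hk h0
    exact absurd (hH.centers_eq_top h2 hQ hn h h1 h3) hA
  push Not at h0
  have h1 := hk x
  rw [h0.1, h0.2, mul_smul, hsx', hsx] at h1
  simp only [LinearMap.zero_apply, zero_smul, add_zero] at h1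
  have h3 : t.1 x = x := by
    have h4 := hP _ (t3 x)
    have h5 := OG.polar_app t e x
    have h6 := OG.polar_app t f x
    rw [t1, polar_neg_left, x1, neg_eq_zero] at h5
    rw [t2, polar_neg_left, x2, neg_eq_zero] at h6
    simpa [h5, h6, x1, x2, sub_eq_zero] using h4
  have h4 : t'.1 x = x := t.1.injective (h1.trans h3.symm)
  have h5 := OG.polar_app t' e x
  rw [t1', h4, polar_neg_left] at h5
  exact mul_left_cancel₀ h2 (by linear_combination -h5)

theorem HasSO.polar_eq_zero (h2 : (2 : F) ≠ 0) (hQ : (polarBilin Q).Nondegenerate)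
    (hQ' : (polarBilin Q').Nondegenerate) (hn : 4 ≤ finrank F V) (hH : HasSO Q H) (hH' : HasSO Q' H)
    (hA : centers F V H ≠ ⊤) (he : Q e = 0) (he0 : e ≠ 0) {x : V} (hx : polar Q e x = 0) :
    polar Q' e x = 0 := by
  by_contra hx'
  -- `f` is bad if the orthogonal complements of `⟨e, f⟩` agree
  have bad : ∀ f, IsHyp Q e f → (∀ y, polar Q e y = 0 → polar Q f y = 0 → polar Q' e y = 0) →
      ∀ y, polar Q e y = 0 → polar Q' e y = polar Q f y * polar Q' e e := fun f h hf y hy ↦ by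
    simpa [sub_eq_zero] using hf (y - polar Q f y • e) (by simp [hy, h.polar_left])
      (by simp [h.polar_eq'])
  obtain ⟨f, h, hf⟩ : ∃ f, IsHyp Q e f ∧ ∀ w, polar Q e w = 0 → polar Q f w = 0 → w ≠ 0 →
      4 * Q' e * Q' (f - w - Q w • e) = polar Q' e (f - w - Q w • e) ^ 2 := by
    have hy : ∀ f w, IsHyp Q e f → polar Q e w = 0 → polar Q f w = 0 →
        IsHyp Q e (f - w - Q w • e) := fun f w h w1 w2 ↦ by
      have := h.map (eich Q e w)
      rw [eich_app_self, eich_app h.left w1, polar_comm Q w f, w2, h.polar_eq] at this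
      simpa using this
    by_cases hb : ∃ f, IsHyp Q e f ∧ ∀ y, polar Q e y = 0 → polar Q f y = 0 → polar Q' e y = 0
    · obtain ⟨f, h, hf⟩ := hb
      refine ⟨f, h, fun w w1 w2 w0 ↦ by_contra fun hD ↦ w0 (hyp_eq_zero hQ h w1 w2 fun y y1 y2 ↦ ?_)⟩
      have h1 := bad _ (hy f w h w1 w2) (fun y ↦ hH.polar_eq_zero_of_plane h2 hQ hn hH' hA
        (hy f w h w1 w2) hD) y y1
      have h3 : polar Q' e e ≠ 0 := fun h3 ↦ hx' (by rw [bad f h hf x hx, h3, mul_zero])
      rw [hf y y1 y2, eq_comm, mul_eq_zero, or_iff_left h3] at h1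
      simpa [y1, y2] using h1
    · obtain ⟨f, h⟩ := exists_hyp hQ he0 he
      exact ⟨f, h, fun w w1 w2 _ ↦ by_contra fun hD ↦ hb ⟨_, hy f w h w1 w2, fun y ↦
        hH.polar_eq_zero_of_plane h2 hQ hn hH' hA (hy f w h w1 w2) hD⟩⟩
  let D : V → V → F := fun x y ↦ 2 * Q' e * polar Q' x y - polar Q' e x * polar Q' e y
  have h1 : ∀ w, polar Q e w = 0 → polar Q f w = 0 → w ≠ 0 → D f f - 2 * D f w + D w w = 0 :=
    fun w w1 w2 w0 ↦ by
      have := hf w w1 w2 w0
      simp only [Cls.map_sub', Cls.map_smul', polar_sub_right, polar_sub_left, polar_smul_right,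
        polar_self', smul_eq_mul, polar_comm Q' f e, polar_comm Q' w e] at this
      simp only [D, polar_self']
      linear_combination this
  have h3 : ∀ w, polar Q e w = 0 → polar Q f w = 0 → w ≠ 0 → D f w = 0 ∧ D w w = -D f f :=
    fun w w1 w2 w0 ↦ by
      have a1 := h1 w w1 w2 w0
      have a2 := h1 (-w) (by simp [w1]) (by simp [w2]) (neg_ne_zero.2 w0)
      simp only [D, polar_neg_left, polar_neg_right] at a1 a2 ⊢
      exact ⟨mul_left_cancel₀ (mul_ne_zero h2 h2) (by linear_combination a2 - a1),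
        mul_left_cancel₀ h2 (by linear_combination a1 + a2)⟩
  obtain ⟨w, w0, w1, w2, -⟩ := exists_ker₃ hn (polarBilin Q e) (polarBilin Q f) 0
  obtain ⟨δ, hδ⟩ := exists_dual_eq_one (F := F) w0
  obtain ⟨u, u0, u1, u2, u3⟩ := exists_ker₃ hn (polarBilin Q e) (polarBilin Q f) δ
  rw [polarBilin_apply_apply] at w1 w2 u1 u2
  have h4 : D f f = 0 := by
    have a1 := (h3 w w1 w2 w0).2
    have a2 := (h3 u u1 u2 u0).2
    have a3 := (h3 (w + u) (by simp [w1, u1]) (by simp [w2, u2]) fun e ↦ by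
      simpa [hδ, u3] using congrArg δ e).2
    have a4 := (h3 (w - u) (by simp [w1, u1]) (by simp [w2, u2]) fun e ↦ by
      simpa [hδ, u3] using congrArg δ e).2
    simp only [D, polar_add_left, polar_add_right, polar_sub_left, polar_sub_right] at a1 a2 a3 a4 ⊢
    exact mul_left_cancel₀ h2 (by linear_combination 2 * a1 + 2 * a2 - a3 - a4)
  have h5 : ∀ y, polar Q e y = 0 → polar Q f y = 0 → D f y = 0 ∧ D y y = 0 := fun y y1 y2 ↦ by
    by_cases y0 : y = 0
    · simp [D, y0]
    · simpa [h4] using h3 y y1 y2 y0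
  have h6 : ∀ y z, polar Q e y = 0 → polar Q f y = 0 → D y z = 0 := fun y z y1 y2 ↦ by
    obtain ⟨r, r1, r2, r3⟩ := hyp_proj h z
    have a1 := (h5 y y1 y2).1
    have a2 := (h5 y y1 y2).2
    have a3 := (h5 r r1 r2).2
    have a4 := (h5 (y + r) (by simp [y1, r1]) (by simp [y2, r2])).2
    rw [r3]
    simp only [D, polar_add_left, polar_add_right, polar_smul_right, smul_eq_mul, polar_comm Q' r y,
      polar_comm Q' y e, polar_comm Q' y f, polar_self' Q' e] at a1 a2 a3 a4 ⊢
    refine mul_left_cancel₀ h2 ?_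
    linear_combination 2 * polar Q e z * a1 + a4 - a2 - a3
  have h7 : ∀ y, polar Q e y = 0 → polar Q f y = 0 → (2 * Q' e) • y = polar Q' e y • e :=
    fun y y1 y2 ↦ sub_eq_zero.1 (nondeg_iff.1 hQ' _ fun z ↦ by simpa [D] using h6 y z y1 y2)
  have h8 : ∀ y, polar Q e y = 0 → polar Q f y = 0 → polar Q' e y = 0 := fun y y1 y2 ↦ by
    simpa [y2, h.polar_eq'] using (congrArg (polar Q f) (h7 y y1 y2)).symm
  have h9 := h7 w w1 w2
  rw [h8 w w1 w2, zero_smul, smul_eq_zero, or_iff_left w0] at h9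
  exact hx' (by rw [bad f h h8 x hx, polar_self', h9, mul_zero])

/-- An overgroup of two special orthogonal groups holds all transvections unless the forms are
proportional. -/
theorem HasSO.exists_eq_mul (h2 : (2 : F) ≠ 0) (hQ : (polarBilin Q).Nondegenerate)
    (hQ' : (polarBilin Q').Nondegenerate) (hn : 4 ≤ finrank F V) (hH : HasSO Q H) (hH' : HasSO Q' H)
    (hA : centers F V H ≠ ⊤) : ∃ c : F, ∀ x, Q' x = c * Q x := by
  obtain ⟨e, -, he0, he⟩ := exists_singular_in_of_three_le Q ⊤ (by rw [finrank_top]; omega)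
  obtain ⟨f, h⟩ := exists_hyp hQ he0 he
  have key : ∀ u v, Q u = 0 → polar Q u v = 1 → ∀ x, polar Q' u x = polar Q' u v * polar Q u x :=
    fun u v hu huv x ↦ by
      simpa [sub_eq_zero, mul_comm] using hH.polar_eq_zero h2 hQ hQ' hn hH' hA hu
        (by rintro rfl; simp at huv) (x := x - polar Q u x • v) (by simp [huv])
  have h1 := key e f he h.polar_eq
  have h3 := key f e h.right h.polar_eq'
  rw [polar_comm Q' f e] at h3
  refine ⟨polar Q' e f, fun x ↦ mul_left_cancel₀ h2 ?_⟩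
  obtain ⟨w, w1, w2, w3⟩ := hyp_proj h x
  have h4 := h.map (eich Q e w)
  rw [eich_app_self] at h4
  have h5 := key _ e h4.right h4.polar_eq' x
  rw [polar_comm Q' _ e, h1, h4.polar_eq, eich_app h.left w1, polar_comm Q w f, w2, h.polar_eq] at h5
  simp only [polar_add_left, polar_sub_left, polar_smul_left, smul_eq_mul, h1 x, h3 x] at h5
  rw [← polar_self', mul_left_comm, ← polar_self']
  nth_rw 1 [w3]
  nth_rw 4 [w3]
  simp only [polar_add_left, polar_smul_left, smul_eq_mul, h1 x, h3 x]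
  linear_combination -h5

end General

variable {ι : Type} [Fintype ι] [DecidableEq ι] {F : Type*} [Field F]

theorem isMaximalIn_quad₄ [Finite F] (hn : 4 ≤ Fintype.card ι) (h2 : (2 : F) ≠ 0)
    {Q : (ι → F) → F} (hQ : IsNondegenerateQuadraticForm Q) :
    IsMaximalIn (specialLinear ι F) (quadSimilarityGroup Q ⊓ specialLinear ι F) := by
  refine isMaximalIn_of (not_sl_le_quadSimilarityGroup (by omega) hQ) fun H hH _ g hg hgM ↦ ?_
  have hN := Asch.nondeg_toQF hQ
  have hn' : 4 ≤ finrank F (ι → F) := by rwa [finrank_vec]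
  have h1 : HasSO (Asch.toQF hQ) H := fun e he ↦
    ⟨ofEquiv e.1, hH (Subgroup.mem_inf.2 ⟨mem_quadSimilarityGroup.2 ⟨1, fun v ↦ by
      rw [ofEquiv_smul, Units.val_one, one_mul]
      exact e.2 v⟩, by
        rw [mem_specialLinear, det_eq_of_smul (f := e.1) (ofEquiv_smul e.1), he]⟩), ofEquiv_smul e.1⟩
  let γ := DistribMulAction.toLinearEquiv F (ι → F) g
  let Q' := (Asch.toQF hQ).comp γ.toLinearMap
  have hQ' : ∀ v, Asch.toQF hQ (γ v) = Q' v := fun _ ↦ rfl
  have h3 : HasSO Q' H := fun e he ↦ by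
    obtain ⟨s, hs, hsx⟩ := h1 (OG.congr γ hQ' e) (by
      rw [← he, ← LinearMap.det_conj (e.1 : (ι → F) →ₗ[F] (ι → F)) γ]
      rfl)
    refine ⟨g⁻¹ * s * g, H.mul_mem (H.mul_mem (H.inv_mem hg) hs) hg, fun x ↦ ?_⟩
    rw [mul_smul, mul_smul, hsx, OG.congr_app, inv_smul_eq_iff]
    exact congrArg (fun y ↦ γ (e.1 y)) (γ.symm_apply_apply x)
  by_contra hle
  obtain ⟨c, hc⟩ := h1.exists_eq_mul h2 hN (nondeg_congrSim γ.symm 1 one_ne_zero
    (fun v ↦ by rw [← hQ', γ.apply_symm_apply, one_mul]) hN) hn' h3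
    fun hA ↦ hle (specialLinear_le_of_centers hA)
  obtain ⟨t, ht, -⟩ := exists_nonsing_perp hN (m := 0) (by omega) Fin.elim0
  refine hgM (mem_quadSimilarityGroup.2 ⟨Units.mk0 c fun h0 ↦ ht ?_, hc⟩)
  rw [← γ.apply_symm_apply t, hQ', hc, h0, zero_mul]

end CL.SLn
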