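/-
The similarity group of a unitary form is maximal in `SL_n(F)` for `n ≥ 4`.
-/
import Cfsg.Agent.Cls.MaxU
import Cfsg.Agent.Cls.SpRoot

set_option autoImplicit false

namespace CL.SLn

open Module Matrix Cfsg Cfsg.Geo CL.Uni

section General

variable {F V G : Type*} [Field F] [AddCommGroup V] [Module F V] [Group G]
  [DistribMulAction G V] [SMulCommClass G F V] {σ : F →+* F} {B : V →ₛₗ[σ] V →ₗ[F] F} {q : ℕ}

/-- If `H` induces all special unitary maps and a transvection `(x, B y)` with `x`, `y`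
independent, then it holds all transvections. -/
theorem centers_eq_top_of_unitary₄ [FiniteDimensional F V] (h : IsHerm B q) (hn : 4 ≤ finrank F V)
    {H : Subgroup G} (hH : ∀ e ∈ SUG B, ∃ g ∈ H, ∀ x, g • x = e x) {x y : V} (hx : x ≠ 0)
    (hxy : ∀ c : F, y ≠ c • x) (ht : Tv H x (B y)) : centers F V H = ⊤ := by
  have hP := polar_of_isHerm h
  obtain ⟨c, hc0, hc⟩ := h.bar.exists_trace_zero
  have hconj : ∀ e ∈ SUG B, ∀ u w, Tv H u (B w) → Tv H (e u) (B (e w)) := fun e he u w hw ↦ by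
    obtain ⟨g, hg, hge⟩ := hH e he
    rw [← hge u]
    exact hw.conj' hg fun z ↦ by rw [hge, SUG_le_UG he]
  have htv : ∀ u, B u u = 0 → Tv H (c • u) (B u) := fun u hu ↦ by
    obtain ⟨e, he, hex⟩ := h.exists_tv hu hc
    obtain ⟨g, hg, hge⟩ := hH e he
    exact ⟨by simp [hu], g, hg, fun z ↦ by rw [hge, hex, smul_smul, mul_comm]⟩
  -- a transvection with isotropic centre
  obtain ⟨u, hu, hu0, huy, htu⟩ :
      ∃ u, B u u = 0 ∧ u ≠ 0 ∧ (∀ d : F, y ≠ d • u) ∧ Tv H u (B y) := by
    obtain ⟨u, h1, h2, h3⟩ := hP.exists_sing_perp_ne_zero (by omega) (y := y) (a := x)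
      fun d hd ↦ hxy d⁻¹ (by
        rw [hd, smul_smul, inv_mul_cancel₀ (by rintro rfl; exact hx (by simpa using hd)), one_smul])
    have h4 : u ≠ 0 := by rintro rfl; simp at h3
    refine ⟨B u x • c • u, hP.smul _ _ (hP.smul _ _ h1), by simp [h3, hc0, h4], fun d hd ↦ ?_,
      (htv u h1).comm ht (by simp [h2])⟩
    have h5 := ht.1
    rw [smul_smul, smul_smul] at hd
    rw [hd, LinearMap.map_smulₛₗ, LinearMap.smul_apply, smul_eq_mul, mul_eq_zero, map_eq_zero] at h5
    exact hxy 0 (by rw [hd, h5.resolve_right h3, zero_smul, zero_smul])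
  have huy0 : B u y = 0 := h.flip_zero htu.1
  let S : Submodule F V :=
    { carrier := {w | ∀ d : F, Tv H u (B (d • w))}
      zero_mem' := fun d ↦ by simpa using Tv.zero_right
      add_mem' := fun {a b} ha hb d ↦ by
        rw [smul_add, map_add]; exact (ha d).add_right (hb d)
      smul_mem' := fun d a ha d' ↦ by rw [smul_smul]; exact ha _ }
  obtain ⟨r, hr, hur, hry⟩ := hP.exists_sing_perp_ne_zero (by omega) huy
  have hru : ∀ d : F, r ≠ d • u := fun d hd ↦ hry (by simp [hd, huy0])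
  have hr0 : r ≠ 0 := fun e ↦ hru 0 (by rw [e, zero_smul])
  have hwS : r ∈ S := fun d ↦ by
    have := h.bar.finite
    let A : AddSubgroup F :=
      { carrier := {d | Tv H u (B (d • r))}
        zero_mem' := by simpa using Tv.zero_right
        add_mem' := fun {a b} ha hb ↦ by
          change Tv H u (B ((a + b) • r))
          rw [add_smul, map_add]; exact Tv.add_right ha hb
        neg_mem' := fun {a} ha ↦ by
          change Tv H u (B ((-a) • r))
          rw [neg_smul, map_neg]; exact Tv.neg_right ha }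
    have h0 : Tv H u (B ((c * B r y) • r)) := by
      obtain ⟨e, he, hex⟩ := h.exists_tv hr hc
      have h1 := hconj e he u y htu
      rw [hex, hex, h.flip_zero hur, mul_zero, zero_smul, add_zero, map_add] at h1
      simpa using h1.sub_right htu
    obtain ⟨f, hf, hrf, huf⟩ := h.exists_isotropic_eq_ne (u := r) (v := u)
      (LinearIndependent.pair_symm_iff.1 ((LinearIndependent.pair_iff' hu0).2 fun a e ↦ hru a e.symm))
      hu (h.flip_zero hur)
    obtain ⟨r', hr', hur', hrr'⟩ := h.exists_isotropic_eq_ne (u := u) (v := r)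
      ((LinearIndependent.pair_iff' hu0).2 fun a e ↦ hru a e.symm) hr hur
    refine CL.Sp.mem_of_sq_mul_mem A (mul_ne_zero hc0 hry) (fun a ↦ ?_) d
    by_cases ha : a = 0
    · simp [ha]
    have ha' : σ a ≠ 0 := (_root_.map_ne_zero σ).2 ha
    obtain ⟨g₁, hg₁, a1, -, a3, a4⟩ := h.exists_diag hu hf huf ha'
    obtain ⟨g₂, hg₂, b1, -, b3, b4⟩ := h.exists_diag hr hr' hrr' ha
    have h1 := hconj (g₁ * g₂) (mem_SUG.2 ⟨Subgroup.mul_mem _ hg₁ hg₂, by
      rw [map_mul, a4, b4, h.bar_bar]; field_simp⟩) u _ h0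
    have e1 : (g₁ * g₂) u = σ a • u := by
      rw [LinearEquiv.mul_apply, b3 u (h.flip_zero hur) (h.flip_zero hur'), a1]
    have e2 : (g₁ * g₂) ((c * B r y) • r) = (a * (c * B r y)) • r := by
      rw [map_smul, LinearEquiv.mul_apply, b1, map_smul, a3 r hur (h.flip_zero hrf), smul_smul,
        mul_comm]
    rw [e1, e2] at h1
    refine h1.congr (by simp [h.flip_zero hur]) fun z ↦ ?_
    simp only [LinearMap.map_smulₛₗ, LinearMap.smul_apply, smul_eq_mul, smul_smul, map_mul, map_pow]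
    congr 1
    ring
  have hS : ∀ z, B u z = 0 → z ∈ S := fun z hz ↦ hP.perp_le_of_closed (by omega) hwS hur hru
    (fun w hw r hr hur hrw d ↦ by
      obtain ⟨e, he, hex⟩ := h.exists_tv hr hc
      have h0 := hw (d / (c * B r w))
      have h1 := hconj e he u _ h0
      rw [hex, hex] at h1
      simp only [h.flip_zero hur, mul_zero, zero_smul, add_zero, map_smul, smul_eq_mul] at h1
      rw [show c * (d / (c * B r w) * B r w) = d by field_simp, map_add] at h1
      simpa using h1.sub_right h0) hz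
  have huc : u ∈ centers F V H := fun φ hφ ↦ by
    obtain ⟨z, rfl⟩ := hP.exists_eq φ
    simpa using hS z (h.flip_zero hφ) 1
  refine hP.eq_top_of_closed (by omega) huc hu0 fun w hw r hr hrw ↦ ?_
  obtain ⟨-, t, ht, htx⟩ := htv r hr
  have h2 := (centers F V H).sub_mem (smul_mem_centers ht hw) hw
  rw [htx, add_sub_cancel_left, smul_smul] at h2
  exact ((centers F V H).smul_mem_iff (mul_ne_zero hrw hc0)).1 h2

end General

variable {ι : Type} [Fintype ι] [DecidableEq ι] {F : Type*} [Field F]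

theorem specialLinear_le_of_unitary₄ [Finite F] (hn : 4 ≤ Fintype.card ι) {σ : F ≃+* F}
    {f : (ι → F) → (ι → F) → F} (hf : IsUnitaryForm σ f) {H : Subgroup (GL ι F)}
    (hH : similarityGroup f ⊓ specialLinear ι F ≤ H) {g : GL ι F} (hg : g ∈ H)
    (hgM : g ∉ similarityGroup f) : specialLinear ι F ≤ H := by
  obtain ⟨q, h⟩ := exists_isHerm_hermOf hf
  set B := hermOf hf with hBdef
  have hP := polar_of_isHerm h
  have hn' : 4 ≤ finrank F (ι → F) := by rwa [finrank_vec]
  have h1 : ∀ e ∈ SUG B, ∃ g ∈ H, ∀ x, g • x = e x := fun e he ↦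
    ⟨ofEquiv e, hH (Subgroup.mem_inf.2 ⟨mem_similarityGroup.2 ⟨1, fun u v ↦ by
      rw [ofEquiv_smul, ofEquiv_smul, Units.val_one, one_mul]
      exact SUG_le_UG he v u⟩, by
        rw [mem_specialLinear, det_eq_of_smul (f := e) (ofEquiv_smul e), ← dt_apply,
          (mem_SUG.1 he).2]⟩), ofEquiv_smul e⟩
  choose T hT using fun v : ι → F ↦ hP.exists_eq (dact g (B (g⁻¹ • v)))
  have hT' : ∀ v x, B (T v) x = B (g⁻¹ • v) (g⁻¹ • x) := fun v x ↦ by rw [hT, dact_apply]
  let L : (ι → F) →ₗ[F] (ι → F) :=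
    { toFun := T
      map_add' := fun u v ↦ h.ext_left fun z ↦ by simp [hT']
      map_smul' := fun c v ↦ h.ext_left fun z ↦ by simp [hT', smul_comm g⁻¹ c] }
  by_cases hc : ∀ u : ι → F, B u u = 0 → ∃ c : F, T (g • u) = c • g • u
  · exfalso
    obtain ⟨c, hc⟩ : ∃ c : F, ∀ u, T (g • u) = c • g • u := by
      obtain ⟨c, hc'⟩ := h.eq_smul_of_fix_isotropic (by omega)
        (g := DistribSMul.toLinearMap F (ι → F) g⁻¹ ∘ₗ L ∘ₗ DistribSMul.toLinearMap F (ι → F) g)
        fun u hu ↦ by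
          obtain ⟨c, hc⟩ := hc u hu
          exact ⟨c, show g⁻¹ • T (g • u) = c • u by rw [hc, smul_comm, inv_smul_smul]⟩
      exact ⟨c, fun u ↦ by
        rw [← smul_comm g c u, ← hc' u]; exact (smul_inv_smul g (T (g • u))).symm⟩
    have h2 : ∀ u v, σ c * f (g • u) (g • v) = f u v := fun u v ↦ by
      have := hT' (g • v) (g • u)
      rw [hc, inv_smul_smul, inv_smul_smul, LinearMap.map_smulₛₗ] at this
      exact this
    by_cases h0 : σ c = 0
    · refine hgM (mem_similarityGroup.2 ⟨1, fun u v ↦ ?_⟩)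
      have h3 : ∀ u v, f u v = 0 := fun u v ↦ by rw [← h2, h0, zero_mul]
      simp [h3]
    · exact hgM (mem_similarityGroup.2 ⟨(Units.mk0 _ h0)⁻¹, fun u v ↦ by
        rw [← h2 u v]; simp [h0]⟩)
  · push Not at hc
    obtain ⟨u, hu, hne⟩ := hc
    obtain ⟨c, hc0, hc⟩ := h.bar.exists_trace_zero
    obtain ⟨e, he, hex⟩ := h.exists_tv hu hc
    obtain ⟨t, ht, hte⟩ := h1 e he
    have h2 : Tv H (c • u) (B u) :=
      ⟨by simp [hu], t, ht, fun z ↦ by rw [hte, hex, smul_smul, mul_comm]⟩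
    have h3 := h2.conj hg
    refine specialLinear_le_of_centers (centers_eq_top_of_unitary₄ h hn' h1 (x := g • c • u)
      (y := T (g • u)) ?_ (fun d hd ↦ hne (d * c) ?_) ?_)
    · intro h0
      rw [smul_eq_zero_iff_eq, smul_eq_zero] at h0
      exact hne 0 (by
        rw [h0.resolve_left hc0, smul_zero, smul_zero]; exact map_zero L)
    · rw [hd, smul_comm g, smul_smul]
    · rwa [hT, inv_smul_smul]

theorem isMaximalIn_unitary₄ [Finite F] (hn : 4 ≤ Fintype.card ι) {σ : F ≃+* F}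
    {f : (ι → F) → (ι → F) → F} (hf : IsUnitaryForm σ f) :
    IsMaximalIn (specialLinear ι F) (similarityGroup f ⊓ specialLinear ι F) :=
  isMaximalIn_of (not_sl_le_similarityGroup (by omega) hf.add_left hf.smul_left
    hf.nondegenerate) fun _ hH _ _ hg hgM ↦ specialLinear_le_of_unitary₄ hn hf hH hg hgM

end CL.SLn
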