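/-
The maximal subgroups of the odd-dimensional groups `Ω`: the geometric cases with their side conditions.
-/
import Cfsg.Agent.Cls.MaxRich
import Cfsg.Agent.Cls.AschO
import Cfsg.Agent.Cls.OrthNonMax

set_option autoImplicit false

namespace CL.Asch

open Matrix Cfsg Cfsg.Geo Module
open scoped MatrixGroups

variable {ι : Type} [Fintype ι] [DecidableEq ι] {F : Type*} [Field F]

theorem not_between_of_max {Γ : Type*} [Group Γ] {G H M : Subgroup Γ} (hH : IsMaximalIn G H) (hM : H ≤ M)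
    (h : ∃ K, M ⊓ G < K ∧ K < G) : False := by
  obtain ⟨K, h1, h2⟩ := h
  have h3 : H < K := (le_inf hM hH.1.le).trans_lt h1
  exact (hH.2 K h3.le h2.le).elim h3.ne' h2.ne

omit [Fintype ι] [DecidableEq ι] in
theorem IsSesq.ne_top_of_singular [Nonempty ι] {σ : F →+* F} {ε : F} {f : (ι → F) → (ι → F) → F}
    (hf : IsSesq σ ε f) {W : Submodule F (ι → F)} (hW : IsTotallySingularFor f W) : W ≠ ⊤ := by
  rintro rfl
  exact one_ne_zero (hf.nondeg 1 fun u => hW u Submodule.mem_top 1 Submodule.mem_top)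

omit [Fintype ι] [DecidableEq ι] in
theorem singularFor_of_quad {Q : (ι → F) → F} {W : Submodule F (ι → F)} (hW : IsTotallySingularQuad Q W) :
    IsTotallySingularFor (QuadraticMap.polar Q) W := fun u hu v hv => by
  rw [QuadraticMap.polar, hW _ (W.add_mem hu hv), hW u hu, hW v hv, sub_zero, sub_zero]

theorem subfield_ne_top_of_prime [Fintype F] {F₀ : Subfield F} {r : ℕ} (hr : r.Prime)
    (h : Fintype.card F = Nat.card F₀ ^ r) : F₀ ≠ ⊤ :=
  subfield_ne_top_of_card hr.two_le (by rwa [Nat.card_eq_fintype_card])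

omit [DecidableEq ι] in
theorem ne_bot_top_of_finrank {W : Submodule F (ι → F)} (h0 : 0 < finrank F W) (h1 : finrank F W < Fintype.card ι) :
    W ≠ ⊥ ∧ W ≠ ⊤ := by
  refine ⟨?_, ?_⟩ <;> rintro rfl
  · simp at h0
  · simp at h1

omit [DecidableEq ι] in
theorem finrank_pos_lt {W : Submodule F (ι → F)} (h0 : W ≠ ⊥) (h1 : W ≠ ⊤) :
    0 < finrank F W ∧ finrank F W < Fintype.card ι :=
  ⟨Nat.pos_of_ne_zero fun h => h0 (Submodule.finrank_eq_zero.mp h), by
    simpa using Submodule.finrank_lt h1⟩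

variable [Fintype F] {m : ℕ} {H : Subgroup (GL (Unit ⊕ (Fin m ⊕ Fin m)) F)}

/-- The case division for a maximal subgroup of `Ω_{2m+1}(q)`. -/
theorem odd_cases (hodd : Odd (Fintype.card F)) (hm : 3 ≤ m) (hH : IsMaximalIn (omegaGL (quadFormOdd m F)) H) :
    (∃ W : Submodule F (Unit ⊕ (Fin m ⊕ Fin m) → F), W ≠ ⊥ ∧ IsTotallySingularQuad (quadFormOdd m F) W ∧
      H = subspaceStabilizer W ⊓ omegaGL (quadFormOdd m F)) ∨
    (∃ W : Submodule F (Unit ⊕ (Fin m ⊕ Fin m) → F), W ≠ ⊥ ∧ Even (finrank F W) ∧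
      IsNondegenerateOn (QuadraticMap.polar (quadFormOdd m F)) W ∧
      ¬ (Fintype.card F = 3 ∧ finrank F W = 2 ∧ IsPlusTypeOn (quadFormOdd m F) W) ∧
      H = subspaceStabilizer W ⊓ omegaGL (quadFormOdd m F)) ∨
    ((Fintype.card F).Prime ∧ ∃ D : Fin (2 * m + 1) → Submodule F (Unit ⊕ (Fin m ⊕ Fin m) → F),
      IsOrthogonalMDecomposition (quadFormOdd m F) 1 D ∧ H = decompositionStabilizer D ⊓ omegaGL (quadFormOdd m F)) ∨
    (∃ (t k : ℕ) (D : Fin t → Submodule F (Unit ⊕ (Fin m ⊕ Fin m) → F)), 2 ≤ t ∧ 2 ≤ k ∧ t * k = 2 * m + 1 ∧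
      ¬ (k = 3 ∧ Fintype.card F = 3) ∧ IsOrthogonalMDecomposition (quadFormOdd m F) k D ∧
      H = decompositionStabilizer D ⊓ omegaGL (quadFormOdd m F)) ∨
    (∃ (r : ℕ) (K : Subalgebra F (Matrix (Unit ⊕ (Fin m ⊕ Fin m)) (Unit ⊕ (Fin m ⊕ Fin m)) F)), r.Prime ∧
      r ∣ 2 * m + 1 ∧ 2 * m + 1 ≠ r ∧ IsFieldSubalgebra r K ∧
      IsSelfAdjointFor (QuadraticMap.polar (quadFormOdd m F)) K ∧
      H = subalgebraNormalizer K ⊓ omegaGL (quadFormOdd m F)) ∨
    (∃ n₁ n₂ : ℕ, 3 ≤ n₁ ∧ n₁ < n₂ ∧ n₁ * n₂ = 2 * m + 1) ∨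
    (∃ (F₀ : Subfield F) (r : ℕ) (P : GL (Unit ⊕ (Fin m ⊕ Fin m)) F), r.Prime ∧ Fintype.card F = Nat.card F₀ ^ r ∧
      IsQuadFormRationalStructure (quadFormOdd m F) F₀ P ∧ H = subfieldSubgroup F₀ P ⊓ omegaGL (quadFormOdd m F)) ∨
    (∃ (k t : ℕ) (e : (Unit ⊕ (Fin m ⊕ Fin m)) ≃ (Fin t → Fin k)) (P : GL (Unit ⊕ (Fin m ⊕ Fin m)) F)
      (f₁ : (Fin k → F) → (Fin k → F) → F), 3 ≤ k ∧ 2 ≤ t ∧ k ^ t = 2 * m + 1 ∧ ¬ (Fintype.card F = 3 ∧ k = 3) ∧
      IsSymmetricForm f₁ ∧ IsTensorPowerFormStructure id (QuadraticMap.polar (quadFormOdd m F)) f₁ e P ∧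
      H = tensorWreathSubgroup k t e P ⊓ omegaGL (quadFormOdd m F)) ∨
    InOrthogonalResidualClass H := by
  have hQ := isQuad_quadFormOdd m (two_ne_zero_of_odd hodd)
  have hb := isSesq_polar hQ
  have hc := OddData.card_eq m
  have hG := rich_omegaGL' hQ (by omega)
  have hI := hH.1.le.trans (omegaGL_le _)
  have hS : H ≤ similarityGroup (QuadraticMap.polar (quadFormOdd m F)) :=
    le_sim_of_isom fun g hg => isom_polar_of_quad (mem_isometryGroup_iff.mp (hI hg))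
  rcases aschbacher_orthogonal_odd hodd (by omega) H hI with ⟨M, hM, hle⟩ | h
  swap
  · iterate 8 right
    exact h
  rcases hM with ⟨W, h0, hW, rfl⟩ | ⟨W, h0, h1, hW, rfl⟩ | ⟨t, k, D, hk, hD, rfl⟩ | ⟨t, D, hp, hD, rfl⟩ |
    ⟨r, K, hr, hrn, hK, hs, rfl⟩ | ⟨n₁, n₂, e, P, f₁, f₂, h1, h2, -⟩ | ⟨F₀, r, P, hr, hF, hP, rfl⟩ |
    ⟨k, t, e, P, f₁, hk, ht, hex, hf, hT, rfl⟩
  · exact Or.inl ⟨W, h0, hW, eq_inf_of_max hH (hle.trans inf_le_left)
      (hG.not_le_subspaceStabilizer h0 (hb.ne_top_of_singular (singularFor_of_quad hW)))⟩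
  · have key : ∀ W : Submodule F (Unit ⊕ (Fin m ⊕ Fin m) → F), W ≠ ⊥ → W ≠ ⊤ → Even (finrank F W) →
        IsNondegenerateOn (QuadraticMap.polar (quadFormOdd m F)) W → H ≤ subspaceStabilizer W →
        W ≠ ⊥ ∧ Even (finrank F W) ∧ IsNondegenerateOn (QuadraticMap.polar (quadFormOdd m F)) W ∧
        ¬ (Fintype.card F = 3 ∧ finrank F W = 2 ∧ IsPlusTypeOn (quadFormOdd m F) W) ∧
        H = subspaceStabilizer W ⊓ omegaGL (quadFormOdd m F) := fun W h0 h1 he hW hle =>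
      ⟨h0, he, hW, fun ⟨h3, h2, hp⟩ => not_between_of_max hH hle
        (CL.Cls.exists_between_omega_plus_plane (nondeg_toQF hQ) (by omega) h3.le h2 hW hp),
        eq_inf_of_max hH hle (hG.not_le_subspaceStabilizer h0 h1)⟩
    refine Or.inr (Or.inl ?_)
    rcases Nat.even_or_odd (finrank F W) with he | ho
    · exact ⟨W, key W h0 h1 he hW (hle.trans inf_le_left)⟩
    · have h2 := (hb.isCompl_perp hW).2
      have h3 := finrank_pos_lt h0 h1
      have h4 := ne_bot_top_of_finrank (W := hb.perp W) (by omega) (by omega)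
      refine ⟨_, key _ h4.1 h4.2 ?_ (hb.nondeg_perp hW) (hb.perp_inv hS (hle.trans inf_le_left))⟩
      obtain ⟨s, hs⟩ := ho
      exact ⟨m - s, by omega⟩
  · iterate 3 right
    exact Or.inl ⟨t, k, D, hD.decomp.decomp.two_le, hk,
      (CL.Cls.card_eq_mul_of_isMDecomposition hD.decomp.decomp).symm.trans hc, fun h =>
        not_between_of_max hH (hle.trans inf_le_left) (CL.Cls.exists_between_omega_dec (nondeg_toQF hQ) (by omega) hD
          (Or.inr (Or.inl h))),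
      hD, eq_inf_of_max hH (hle.trans inf_le_left) (hG.not_le_decompositionStabilizer hD.decomp.decomp)⟩
  · obtain rfl : t = 2 * m + 1 := by
      have := CL.Cls.card_eq_mul_of_isMDecomposition hD.decomp.decomp
      omega
    exact Or.inr (Or.inr (Or.inl ⟨hp, D, hD,
      eq_inf_of_max hH (hle.trans inf_le_left) (hG.not_le_decompositionStabilizer hD.decomp.decomp)⟩))
  · iterate 4 right
    exact Or.inl ⟨r, K, hr, hc ▸ hK.finrank_eq ▸ (isFld_of hK).finrank_dvd, hrn, hK, hs,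
      eq_inf_of_max hH (hle.trans inf_le_left) (hG.not_le_subalgebraNormalizer hr.ne_one hK)⟩
  · iterate 5 right
    exact Or.inl ⟨n₁, n₂, h1, h2, (TensorPair.card_eq e).symm.trans hc⟩
  · iterate 6 right
    exact Or.inl ⟨F₀, r, P, hr, hF, hP, eq_inf_of_max hH (hle.trans inf_le_left)
      (hG.not_le_subfieldSubgroup (subfield_ne_top_of_prime hr hF) P)⟩
  · iterate 7 right
    have h1 : k ^ t = 2 * m + 1 := by rw [← hc, Fintype.card_congr e]; simp
    have h2 : 3 ^ 2 ≤ k ^ t := (Nat.pow_le_pow_left hk 2).trans (Nat.pow_le_pow_right (by omega) ht)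
    exact Or.inl ⟨k, t, e, P, f₁, hk, ht, h1, hex, hf, hT, eq_inf_of_max hH (hle.trans inf_le_left)
      (hG.not_le_tensorWreathSubgroup (singBig_of_card _ (by omega)) (by omega) ht e P)⟩

/-! ### Arithmetic -/

theorem le_of_mul_eq {t k n : ℕ} (ht : 2 ≤ t) (h : t * k = n) : 2 * k ≤ n := h ▸ Nat.mul_le_mul_right k ht

theorem le_of_mul_eq' {t k n : ℕ} (hk : 2 ≤ k) (h : t * k = n) : 2 * t ≤ n :=
  le_of_mul_eq hk (by rw [mul_comm, h])

theorem pow_le_twelve' {k t : ℕ} (hk : 2 ≤ k) (ht : 2 ≤ t) (h : k ^ t ≤ 12) :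
    (k = 2 ∧ (t = 2 ∨ t = 3)) ∨ (k = 3 ∧ t = 2) := by
  have h1 : k ^ 2 ≤ 12 := (Nat.pow_le_pow_right (by omega) ht).trans h
  have h2 : 2 ^ t ≤ 12 := (Nat.pow_le_pow_left hk t).trans h
  have h3 : k < 4 := by by_contra h; nlinarith
  have h4 : t < 4 := by
    by_contra h
    have := Nat.pow_le_pow_right (show 0 < 2 by omega) (not_lt.mp h)
    omega
  interval_cases k <;> interval_cases t <;> simp_all

end CL.Asch
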