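/-
Tools for the lists of maximal subgroups: groups of symplectic type, tensor structures, invariant subspaces of
fields of matrices, and decompositions into planes over the field of order two.
-/
import Cfsg.Agent.Cls.MaxOdd
import Cfsg.Agent.Grp.ExtraHall

set_option autoImplicit false

namespace CL.Asch

open Matrix Cfsg Cfsg.Geo Module
open scoped MatrixGroups Kronecker commutatorElement

variable {ι : Type} [Fintype ι] [DecidableEq ι] {F : Type*} [Field F]

/-- An absolutely irreducible `2`-group of symplectic type and exponent four is abelian modulo scalars. -/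
theorem isHeis_of_symp_two [Finite F] {R : Subgroup (GL ι F)} (hR : IsSymplecticTypeGroup 2 R)
    (hirr : ActsAbsolutelyIrreducibly (matrixSet R)) : IsHeis R := by
  have hspan := spanAlg_eq_top_of_absIrr hirr
  have := Fact.mk Nat.prime_two
  obtain ⟨E, -, hsup, hE, hC⟩ := CL.Grp.symplectic_type_structure hR.pGroup hR.cyclic_of_characteristic
  have hC : IsCyclic (Subgroup.centralizer (E : Set R)) := hC.resolve_right fun ⟨_, n, a, b, hn, h⟩ => by
    have h1 := Monoid.order_dvd_exponent (a : R)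
    rw [hR.exponent_eq, Subgroup.orderOf_coe, h.ord] at h1
    have h2 := Nat.le_of_dvd (by norm_num) h1
    have h3 := Nat.pow_le_pow_right (show 0 < 2 by omega) hn
    norm_num at h2
    omega
  have hZ : Subgroup.centralizer (E : Set R) ≤ Subgroup.center R := fun c hc => by
    have h1 : (⊤ : Subgroup R) ≤ Subgroup.centralizer {c} := hsup ▸ sup_le
      (fun e he => Subgroup.mem_centralizer_singleton_iff.mpr (hc e he))
      fun d hd => Subgroup.mem_centralizer_singleton_iff.mpr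
        (congrArg Subtype.val (hC.isMulCommutative.is_comm.comm (⟨d, hd⟩ : Subgroup.centralizer (E : Set R)) ⟨c, hc⟩))
    exact Subgroup.mem_center_iff.mpr fun g => Subgroup.mem_centralizer_singleton_iff.mp (h1 (Subgroup.mem_top g))
  have h1 : ⁅(⊤ : Subgroup R), ⊤⁆ ≤ Subgroup.center R := by
    rw [← hsup, commutator_sup_central hZ]
    rcases hE with rfl | hE
    · simp
    refine Subgroup.commutator_le.mpr fun a ha b hb => hZ fun e he => ?_
    have h2 : ⁅(⟨a, ha⟩ : E), ⟨b, hb⟩⁆ ∈ Subgroup.center E :=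
      hE.1.2.2 ▸ Subgroup.commutator_mem_commutator (Subgroup.mem_top _) (Subgroup.mem_top _)
    exact congrArg Subtype.val (Subgroup.mem_center_iff.mp h2 ⟨e, he⟩)
  refine isHeis_of_commutator hspan (Subgroup.commutator_le.2 fun a ha b hb => ?_)
  refine mem_scalars_of_comm_span hspan fun l hl => ?_
  exact congrArg Subtype.val (Subgroup.mem_center_iff.1 (h1 (Subgroup.commutator_mem_commutator
    (Subgroup.mem_top (⟨a, ha⟩ : R)) (Subgroup.mem_top (⟨b, hb⟩ : R)))) ⟨l, hl⟩)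

/-! ### Tensor structures -/

section Tensor

variable {κ μ : Type} [Fintype κ] [DecidableEq κ] [Fintype μ] [DecidableEq μ]

/-- The left factor of a tensor decomposition. -/
def kL (e : ι ≃ κ × μ) (P : GL ι F) : Matrix κ κ F →ₐ[F] Matrix ι ι F :=
  (transAlg e P).toAlgHom.comp (kronLeft κ μ F)

/-- The right factor of a tensor decomposition. -/
def kR (e : ι ≃ κ × μ) (P : GL ι F) : Matrix μ μ F →ₐ[F] Matrix ι ι F :=
  (transAlg e P).toAlgHom.comp (kronRight κ μ F)

theorem kL_apply (e : ι ≃ κ × μ) (P : GL ι F) (a : Matrix κ κ F) :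
    kL e P a = transAlg e P (a ⊗ₖ (1 : Matrix μ μ F)) := rfl

theorem kR_apply (e : ι ≃ κ × μ) (P : GL ι F) (b : Matrix μ μ F) :
    kR e P b = transAlg e P ((1 : Matrix κ κ F) ⊗ₖ b) := rfl

theorem kL_mul_kR (e : ι ≃ κ × μ) (P : GL ι F) (a : Matrix κ κ F) (b : Matrix μ μ F) :
    kL e P a * kR e P b = transAlg e P (a ⊗ₖ b) := by
  rw [kL_apply, kR_apply, ← map_mul, ← mul_kronecker_mul, Matrix.mul_one, Matrix.one_mul]

theorem kL_comm_kR (e : ι ≃ κ × μ) (P : GL ι F) (a : Matrix κ κ F) (b : Matrix μ μ F) :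
    kL e P a * kR e P b = kR e P b * kL e P a := by
  rw [kL_mul_kR, kL_apply, kR_apply, ← map_mul, ← mul_kronecker_mul, Matrix.mul_one, Matrix.one_mul]

theorem kL_sup_kR (e : ι ≃ κ × μ) (P : GL ι F) : (kL e P).range ⊔ (kR e P).range = ⊤ := by
  rw [kL, kR, AlgHom.range_comp, AlgHom.range_comp, ← Algebra.map_sup, kronLeft_sup_kronRight, Algebra.map_top,
    AlgHom.range_eq_top]
  exact (transAlg e P).surjective

theorem adj_trans_kron {σ : F →+* F} {ε ε₁ ε₂ c : F} {f : (ι → F) → (ι → F) → F} {f₁ : (κ → F) → (κ → F) → F}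
    {f₂ : (μ → F) → (μ → F) → F} (hf : IsSesq σ ε f) (h₁ : IsSesq σ ε₁ f₁) (h₂ : IsSesq σ ε₂ f₂) {e : ι ≃ κ × μ}
    {P : GL ι F} (h : ∀ x y, transForm e P f x y = c * gform σ (gramMatrix f₁ ⊗ₖ gramMatrix f₂) x y)
    (a : Matrix κ κ F) (b : Matrix μ μ F) :
    adj σ f (transAlg e P (a ⊗ₖ b)) = transAlg e P (adj σ f₁ a ⊗ₖ adj σ f₂ b) := by
  rw [hf.adj_transAlg, (hf.transForm e P).adj_eq (y := adj σ f₁ a ⊗ₖ adj σ f₂ b) fun u v => by
    rw [h, h, (h₁.kron h₂).adj_spec, h₁.adj_kron h₂]]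

end Tensor

theorem tensorPair_of_structure {σ : F →+* F} {ε ε₁ ε₂ : F} {f : (ι → F) → (ι → F) → F} {k m : ℕ}
    {f₁ : (Fin k → F) → (Fin k → F) → F} {f₂ : (Fin m → F) → (Fin m → F) → F} (hf : IsSesq σ ε f)
    (h₁ : IsSesq σ ε₁ f₁) (h₂ : IsSesq σ ε₂ f₂) (e₁ : ε₁ = 1 ∨ (ε₁ = -1 ∧ σ = RingHom.id F))
    (e₂ : ε₂ = 1 ∨ (ε₂ = -1 ∧ σ = RingHom.id F)) (e₃ : σ = RingHom.id F → ε = ε₁ * ε₂) {e : ι ≃ Fin k × Fin m}
    {P : GL ι F} (hT : IsTensorFormStructure σ f f₁ f₂ e P) {H : Subgroup (GL ι F)}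
    (hH : H ≤ tensorProductSubgroup k m e P) : TensorPair σ ε f H e P (kL e P) (kR e P) ε₁ ε₂ f₁ f₂ := by
  obtain ⟨c, hc, h⟩ := id hT
  have h3 := adj_trans_kron hf h₁ h₂ (e := e) (P := P) (c := c) fun x y => by
    rw [← formOfGram_eq_gform, ← h]; rfl
  have h4 : ∀ g ∈ H, ∃ a b, g = transGL e P (kronGL a b) := fun g hg =>
    let ⟨a, b, h⟩ := (mem_tensorProductSubgroup e P g).mp (hH hg)
    ⟨a, b, Units.ext h⟩
  refine ⟨kL_apply e P, kR_apply e P, le_subalgebraNormalizer ?_, le_subalgebraNormalizer ?_, h₁, h₂, e₁, e₂, e₃, hT,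
    fun a => by rw [kL_apply, kL_apply, h3, h₂.adj_one], fun a => by rw [kR_apply, kR_apply, h3, h₁.adj_one],
    kL_sup_kR e P⟩
  · rintro g hg _ ⟨x, rfl⟩
    obtain ⟨a, b, rfl⟩ := h4 g hg
    exact ⟨conjAlg a x, by
      change kL e P _ = conjAlg _ (kL e P x)
      rw [kL_apply, kL_apply, conjAlg_transGL, conjAlg_kronGL, map_one]⟩
  · rintro g hg _ ⟨x, rfl⟩
    obtain ⟨a, b, rfl⟩ := h4 g hg
    exact ⟨conjAlg b x, by
      change kR e P _ = conjAlg _ (kR e P x)
      rw [kR_apply, kR_apply, conjAlg_transGL, conjAlg_kronGL, map_one]⟩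

/-- The form on pure tensors. -/
theorem form_tens {ε₁ ε₂ : F} {f : (ι → F) → (ι → F) → F} {k m : ℕ}
    {f₁ : (Fin k → F) → (Fin k → F) → F} {f₂ : (Fin m → F) → (Fin m → F) → F}
    (h₁ : IsSesq (RingHom.id F) ε₁ f₁) (h₂ : IsSesq (RingHom.id F) ε₂ f₂) {e : ι ≃ Fin k × Fin m}
    {P : GL ι F} (hT : IsTensorFormStructure id f f₁ f₂ e P) :
    ∃ c : F, c ≠ 0 ∧ ∀ a a' b b', f ((P : Matrix ι ι F) *ᵥ (tens a b ∘ e)) ((P : Matrix ι ι F) *ᵥ (tens a' b' ∘ e)) =
      c * (f₁ a a' * f₂ b b') := by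
  obtain ⟨c, hc, h⟩ := hT
  refine ⟨c, hc, fun a a' b b' => ?_⟩
  rw [h, h₁.isSL.eq_gform, h₂.isSL.eq_gform]
  congr 1
  refine (formOfGram_eq_gform (RingHom.id F) _ _ _).trans ?_
  change tens a b ⬝ᵥ ((gramMatrix f₁ ⊗ₖ gramMatrix f₂) *ᵥ tens a' b') = (a ⬝ᵥ (_ *ᵥ a')) * (b ⬝ᵥ (_ *ᵥ b'))
  rw [show (gramMatrix f₁ ⊗ₖ gramMatrix f₂) *ᵥ tens a' b' = tens (gramMatrix f₁ *ᵥ a') (gramMatrix f₂ *ᵥ b') from
    CL.SLn.kronecker_mulVec _ _ _ _]
  simp only [dotProduct, tens, Fintype.sum_prod_type, Finset.sum_mul_sum]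
  exact Finset.sum_congr rfl fun _ _ => Finset.sum_congr rfl fun _ _ => by ring

/-! ### Invariant subspaces of a field of matrices -/

theorem IsFld.finrank_dvd_of_inv [Nonempty ι] {K : Subalgebra F (Matrix ι ι F)} (hK : IsFld K)
    {W : Submodule F (ι → F)} (hW : ∀ k ∈ K, ∀ w ∈ W, k *ᵥ w ∈ W) : finrank F K ∣ finrank F W := by
  let _ : Field K := hK.isField.toField
  exact finrank_dvd_of_algHom (K := K) (V := W)
    { toFun := fun k => (toLin' (k : Matrix ι ι F)).restrict (hW k k.2)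
      map_one' := LinearMap.ext fun w => Subtype.ext (one_mulVec _)
      map_mul' := fun x y => LinearMap.ext fun w => Subtype.ext (mulVec_mulVec _ _ _).symm
      map_zero' := LinearMap.ext fun w => Subtype.ext (zero_mulVec _)
      map_add' := fun x y => LinearMap.ext fun w => Subtype.ext (add_mulVec _ _ _)
      commutes' := fun c => LinearMap.ext fun w => Subtype.ext (by
        change algebraMap F (Matrix ι ι F) c *ᵥ (w : ι → F) = c • (w : ι → F)
        rw [Algebra.algebraMap_eq_smul_one, smul_mulVec, one_mulVec]) }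

/-- A maximal `K`-invariant subspace with a given property. -/
theorem exists_max_inv (K : Subalgebra F (Matrix ι ι F)) (T : Set (ι → F) → Prop) (h0 : T {0}) :
    ∃ U : Submodule F (ι → F), (∀ k ∈ K, ∀ u ∈ U, k *ᵥ u ∈ U) ∧ T U ∧
      ∀ w, T {x | ∃ u ∈ U, ∃ k ∈ K, x = u + k *ᵥ w} → w ∈ U := by
  obtain ⟨U, ⟨h1, h2⟩, hmax⟩ := set_has_maximal_iff_noetherian.mpr (inferInstance : IsNoetherian F (ι → F))
    {U | (∀ k ∈ K, ∀ u ∈ U, k *ᵥ u ∈ U) ∧ T U}
    ⟨⊥, fun k _ u hu => by rw [(Submodule.mem_bot F).mp hu, mulVec_zero]; exact zero_mem _, h0⟩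
  refine ⟨U, h1, h2, fun w hw => ?_⟩
  let U' : Submodule F (ι → F) :=
    { carrier := {x | ∃ u ∈ U, ∃ k ∈ K, x = u + k *ᵥ w}
      add_mem' := by
        rintro _ _ ⟨u, hu, k, hk, rfl⟩ ⟨u', hu', k', hk', rfl⟩
        exact ⟨_, add_mem hu hu', _, add_mem hk hk', by rw [add_mulVec]; abel⟩
      zero_mem' := ⟨0, zero_mem _, 0, zero_mem _, by simp⟩
      smul_mem' := by
        rintro c _ ⟨u, hu, k, hk, rfl⟩
        exact ⟨_, U.smul_mem c hu, _, K.smul_mem hk c, by rw [smul_add, smul_mulVec]⟩ }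
  have hle : U ≤ U' := fun u hu => ⟨u, hu, 0, zero_mem _, by simp⟩
  have := hmax U' ⟨by
    rintro k hk _ ⟨u, hu, k', hk', rfl⟩
    exact ⟨_, h1 k hk u hu, _, mul_mem hk hk', by rw [mulVec_add, mulVec_mulVec]⟩, hw⟩
  exact (eq_of_le_of_not_lt hle this).ge ⟨0, zero_mem _, 1, one_mem _, by simp⟩

namespace IsSesq

variable {ε : F} {b : (ι → F) → (ι → F) → F}

/-- The bilinear map of a bilinear form. -/
def bil (hb : IsSesq (RingHom.id F) ε b) : LinearMap.BilinForm F (ι → F) :=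
  LinearMap.mk₂ F b hb.add_left hb.smul_left hb.isSL.add_right hb.isSL.smul_right

omit [Fintype ι] [DecidableEq ι] in
theorem bil_apply (hb : IsSesq (RingHom.id F) ε b) (u v : ι → F) : hb.bil u v = b u v := rfl

omit [DecidableEq ι] in
theorem finrank_add_perp (hb : IsSesq (RingHom.id F) ε b) (W : Submodule F (ι → F)) :
    finrank F W + finrank F (hb.perp W) = Fintype.card ι := by
  have h1 := LinearMap.BilinForm.finrank_add_finrank_orthogonal' (B := hb.bil) W
  have h2 : LinearMap.ker hb.bil = ⊥ := eq_bot_iff.mpr fun v hv => hb.nondeg' v fun u => LinearMap.congr_fun hv u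
  have h3 : hb.bil.orthogonal W = hb.perp W :=
    Submodule.ext fun v => ⟨fun h w hw => hb.flip_zero (h w hw), fun h w hw => hb.flip_zero (h w hw)⟩
  rwa [h2, h3, inf_bot_eq, finrank_bot, add_zero, Module.finrank_fintype_fun_eq_card] at h1

omit [DecidableEq ι] in
theorem perp_perp (hb : IsSesq (RingHom.id F) ε b) (W : Submodule F (ι → F)) : hb.perp (hb.perp W) = W := by
  refine (Submodule.eq_of_le_of_finrank_eq
    (show W ≤ hb.perp (hb.perp W) from fun w hw v hv => hb.flip_zero (hv w hw)) ?_).symm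
  have h1 := hb.finrank_add_perp W
  have h2 := hb.finrank_add_perp (hb.perp W)
  omega

omit [DecidableEq ι] in
theorem even_finrank (hb : IsSesq (RingHom.id F) ε b) {W : Submodule F (ι → F)} (halt : ∀ v ∈ W, b v v = 0)
    (hW : IsNondegenerateOn b W) : Even (finrank F W) :=
  CL.Cls.even_finrank_of_alt (hb.bil.restrict W) (fun x hx => Subtype.ext (by
    by_contra h
    obtain ⟨y, hy, h⟩ := (hW x x.2 h).2
    exact h (hx ⟨y, hy⟩))) fun x => halt x x.2

/-- A self-adjoint field with `b (k v) v = 0` has degree dividing half the dimension. -/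
theorem two_mul_dvd [Nonempty ι] (hb : IsSesq (RingHom.id F) ε b) {K : Subalgebra F (Matrix ι ι F)} (hK : IsFld K)
    (hs : IsSelfAdjointFor b K) (halt : ∀ k ∈ K, ∀ v, b (k *ᵥ v) v = 0) : 2 * finrank F K ∣ Fintype.card ι := by
  obtain ⟨U, h1, h2, h3⟩ := exists_max_inv K (fun S => ∀ x ∈ S, ∀ y ∈ S, b x y = 0)
    (by rintro _ rfl _ _; exact hb.isSL.zero_left _)
  have h4 : hb.perp U = U := le_antisymm (fun w hw => h3 w (by
    rintro _ ⟨u, hu, k, hk, rfl⟩ _ ⟨u', hu', k', hk', rfl⟩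
    rw [hb.add_left, hb.isSL.add_right, hb.isSL.add_right, h2 u hu u' hu', ← hs k' hk', hb.flip_zero (hw _ (h1 k' hk' u hu)),
      hs k hk, hw _ (h1 k hk u' hu'), ← hs k' hk', mulVec_mulVec, halt _ (mul_mem hk' hk)]
    simp)) fun u hu v hv => h2 u hu v hv
  have h5 := hb.finrank_add_perp U
  rw [h4] at h5
  rw [← h5, ← two_mul]
  exact Nat.mul_dvd_mul_left 2 (hK.finrank_dvd_of_inv h1)

end IsSesq

/-! ### Decompositions -/

theorem exists_sum_of_iSup {V τ : Type*} [AddCommGroup V] [Module F V] [Fintype τ] {D : τ → Submodule F V}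
    (h : iSup D = ⊤) (v : V) : ∃ x : τ → V, (∀ i, x i ∈ D i) ∧ ∑ i, x i = v := by
  classical
  refine Submodule.iSup_induction D (motive := fun v => ∃ x : τ → V, (∀ i, x i ∈ D i) ∧ ∑ i, x i = v)
    (h ▸ Submodule.mem_top) (fun i x hx => ⟨Pi.single i x, fun j => ?_, by simp⟩) ⟨0, fun _ => zero_mem _, by simp⟩ ?_
  · by_cases h : j = i
    · subst h; simpa using hx
    · simp [h]
  · rintro _ _ ⟨x, hx, rfl⟩ ⟨y, hy, rfl⟩
    exact ⟨x + y, fun i => add_mem (hx i) (hy i), Finset.sum_add_distrib⟩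

omit [Fintype ι] [DecidableEq ι] in
theorem form_sum_dec {σ : F →+* F} {ε : F} {f : (ι → F) → (ι → F) → F} (hf : IsSesq σ ε f) {t k : ℕ}
    {D : Fin t → Submodule F (ι → F)} (hD : IsNondegenerateMDecomposition f k D) {x : Fin t → ι → F}
    (hx : ∀ i, x i ∈ D i) {i : Fin t} {y : ι → F} (hy : y ∈ D i) : f (∑ j, x j) y = f (x i) y := by
  rw [hf.isSL.sum_left, Finset.sum_eq_single i (fun j _ hj => hD.orthogonal j i hj _ (hx j) _ hy) (by simp)]

/-- Over the field of order two the stabiliser of a decomposition into planes fixes a quadratic form. -/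
theorem exists_quad_of_planes [Fintype F] (hq : Fintype.card F = 2) {ε : F} {b : (ι → F) → (ι → F) → F}
    (hb : IsSesq (RingHom.id F) ε b) (halt : ∀ v, b v v = 0) {t : ℕ} {D : Fin t → Submodule F (ι → F)}
    (hD : IsNondegenerateMDecomposition b 2 D) :
    ∃ Q : (ι → F) → F, IsNondegenerateQuadraticForm Q ∧ (∀ u v, QuadraticMap.polar Q u v = b u v) ∧
      ∀ g ∈ decompositionStabilizer D, Isom b g → ∀ v, Q ((g : Matrix ι ι F) *ᵥ v) = Q v := by
  classical
  have h01 : ∀ a : F, a ≠ 0 → a = 1 := fun a ha => by simpa [hq] using FiniteField.pow_card_sub_one_eq_one a ha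
  have h2 : (2 : F) = 0 := by simpa [hq] using FiniteField.cast_card_eq_zero F
  let Q : (ι → F) → F := fun v => ∑ i, if v ∈ hb.perp (D i) then 0 else 1
  have key : ∀ x : Fin t → ι → F, (∀ i, x i ∈ D i) → Q (∑ j, x j) = ∑ i, if x i = 0 then 0 else 1 := fun x hx =>
    Finset.sum_congr rfl fun i _ => if_congr ⟨fun h => by
      by_contra h0
      obtain ⟨y, hy, h1⟩ := (hD.nondegenerate i _ (hx i) h0).2
      exact h1 ((form_sum_dec hb hD hx hy).symm.trans (h y hy)), fun h y hy => by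
      rw [form_sum_dec hb hD hx hy, h, hb.isSL.zero_left]⟩ rfl rfl
  have hp : ∀ u v, QuadraticMap.polar Q u v = b u v := fun u v => by
    obtain ⟨x, hx, rfl⟩ := exists_sum_of_iSup hD.decomp.iSup_eq_top u
    obtain ⟨y, hy, rfl⟩ := exists_sum_of_iSup hD.decomp.iSup_eq_top v
    rw [QuadraticMap.polar, ← Finset.sum_add_distrib, key _ fun i => add_mem (hx i) (hy i), key x hx, key y hy,
      ← Finset.sum_sub_distrib, ← Finset.sum_sub_distrib, hb.isSL.sum_right]
    refine Finset.sum_congr rfl fun i _ => ?_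
    rw [form_sum_dec hb hD hx (hy i)]
    by_cases h1 : x i = 0
    · simp [h1, hb.isSL.zero_left]
    by_cases h3 : y i = 0
    · simp [h3, hb.isSL.zero_right]
    by_cases h4 : x i = y i
    · rw [h4, halt, if_pos (by rw [← two_smul F, h2, zero_smul]), if_neg h3]
      linear_combination -h2
    have h5 : x i + y i ≠ 0 := fun h => h4 (by
      rw [eq_neg_of_add_eq_zero_left h, neg_eq_iff_add_eq_zero, ← two_smul F, h2, zero_smul])
    rw [if_neg h5, if_neg h1, if_neg h3, h01 (b (x i) (y i)) fun h => ?_]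
    · linear_combination -h2
    obtain ⟨z, hz, h6⟩ := (hD.nondegenerate i _ (hx i) h1).2
    have hli : LinearIndependent F ![(⟨x i, hx i⟩ : D i), ⟨y i, hy i⟩] := by
      refine LinearIndependent.pair_iff.mpr fun s r hsr => ?_
      have h7 : s • x i + r • y i = 0 := congrArg Subtype.val hsr
      by_cases hs : s = 0 <;> by_cases hr : r = 0
      · exact ⟨hs, hr⟩
      · exact absurd (by simpa [hs, hr] using h7) h3
      · exact absurd (by simpa [hs, hr] using h7) h1
      · exact absurd (by simpa [h01 s hs, h01 r hr] using h7) h5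
    have h8 := (hli.span_eq_top_of_card_eq_finrank' (by simp [hD.decomp.finrank_eq])).ge (Submodule.mem_top (x := ⟨z, hz⟩))
    rw [Matrix.range_cons, Matrix.range_cons, Matrix.range_empty, Set.union_empty, Set.singleton_union,
      Submodule.mem_span_pair] at h8
    obtain ⟨s, r, h9⟩ := h8
    rw [← show s • x i + r • y i = z from congrArg Subtype.val h9, hb.isSL.add_right, hb.isSL.smul_right,
      hb.isSL.smul_right, halt, h] at h6
    simp at h6
  have e : QuadraticMap.polar Q = b := funext₂ hp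
  refine ⟨Q, ⟨fun c v => ?_, e ▸ hb.isBilinearForm, e ▸ hb.isNondegenerateForm⟩, hp, fun g ⟨π, hπ⟩ hg v => ?_⟩
  · by_cases hc : c = 0
    · simp [hc, Q]
    · rw [h01 c hc, one_smul, one_pow, one_mul]
  · refine (Equiv.sum_comp π _).symm.trans (Finset.sum_congr rfl fun i _ => if_congr ?_ rfl rfl)
    rw [← hπ i]
    exact ⟨fun h w hw => (hg v w).symm.trans (h _ ⟨w, hw, rfl⟩), by rintro h _ ⟨w, hw, rfl⟩; exact (hg v w).trans (h w hw)⟩

end CL.Asch
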