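/-
The type (plus or minus) of an even-dimensional orthogonal space carrying a geometric structure.
-/
import Cfsg.Agent.Cls.MaxTools
import Cfsg.Agent.Known.QuadType

set_option autoImplicit false

namespace CL.Asch

open Matrix Cfsg Cfsg.Geo Module QuadraticMap CL.Cls CL.Known
open scoped MatrixGroups Kronecker

variable {ι : Type} [Fintype ι] {F : Type*} [Field F] {Q : QuadraticForm F (ι → F)}

omit [Fintype ι] in
theorem plusOn_iff {W : Submodule F (ι → F)} {m : ℕ} (hm : finrank F W = 2 * m) :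
    IsPlusTypeOn Q W ↔ IsPlus (Q.restrict W) m := by
  refine ⟨fun ⟨U, h1, h2, h3⟩ => ⟨U.comap W.subtype, ?_, fun x hx => h2 _ hx⟩,
    fun ⟨X, h1, h2⟩ => ⟨X.map W.subtype, W.map_subtype_le X, ?_, ?_⟩⟩
  · rw [(Submodule.comapSubtypeEquivOfLe h1).finrank_eq]; omega
  · rintro _ ⟨x, hx, rfl⟩
    exact h2 x hx
  · rw [Submodule.finrank_map_subtype_eq]; omega

theorem plusOn_top_iff {m : ℕ} (hm : Fintype.card ι = 2 * m) : IsPlusTypeOn Q ⊤ ↔ IsPlus Q m :=
  ⟨fun ⟨U, _, h2, h3⟩ => ⟨U, by simp at h3; omega, h2⟩, fun ⟨U, h1, h2⟩ => ⟨U, le_top, h2, by simp; omega⟩⟩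

omit [Fintype ι] in
theorem plusOn_congr {Q : (ι → F) → F} {W W' : Submodule F (ι → F)} (h : AreIsometricFor Q W W')
    (hW : IsPlusTypeOn Q W) : IsPlusTypeOn Q W' := by
  obtain ⟨e, he⟩ := h
  obtain ⟨U, h1, h2, h3⟩ := hW
  refine ⟨((U.comap W.subtype).map e.toLinearMap).map W'.subtype, W'.map_subtype_le _, ?_, ?_⟩
  · rintro _ ⟨_, ⟨x, hx, rfl⟩, rfl⟩
    exact (he x).trans (h2 _ hx)
  · rw [Submodule.finrank_map_subtype_eq, LinearEquiv.finrank_map_eq, (Submodule.comapSubtypeEquivOfLe h1).finrank_eq,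
      h3, e.finrank_eq]

omit [Fintype ι] in
theorem ndon_sup {W W' : Submodule F (ι → F)} (hW : NDon Q W) (hW' : NDon Q W') (ho : W' ≤ operp Q W) :
    NDon Q (W ⊔ W') := by
  intro x hx h
  obtain ⟨a, ha, b, hb, rfl⟩ := Submodule.mem_sup.mp hx
  have h1 : a = 0 := hW a ha fun y hy => by
    have := h y (Submodule.mem_sup_left hy)
    rwa [polar_add_left, mem_operp'.mp (ho hb) y hy, add_zero] at this
  rw [h1, zero_add] at h ⊢
  exact hW' b hb fun y hy => h y (Submodule.mem_sup_right hy)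

omit [Fintype ι] in
theorem exists_equiv_sup {W W' : Submodule F (ι → F)} (hW : NDon Q W) (ho : W' ≤ operp Q W) :
    ∃ e : (W × W') ≃ₗ[F] ↥(W ⊔ W'), ∀ v, Q.restrict (W ⊔ W') (e v) = ((Q.restrict W).prod (Q.restrict W')) v := by
  let f : (W × W') →ₗ[F] ↥(W ⊔ W') := (Submodule.inclusion le_sup_left).coprod (Submodule.inclusion le_sup_right)
  refine ⟨LinearEquiv.ofBijective f ⟨(injective_iff_map_eq_zero f).mpr fun v hv => ?_, fun x => ?_⟩, fun v => ?_⟩
  · have h1 : (v.1 : ι → F) + v.2 = 0 := congrArg Subtype.val hv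
    have h2 : (v.1 : ι → F) = 0 :=
      hW.eq_zero_of_mem_operp v.1.2 (eq_neg_of_add_eq_zero_left h1 ▸ neg_mem (ho v.2.2))
    rw [h2, zero_add] at h1
    exact Prod.ext (Subtype.ext h2) (Subtype.ext h1)
  · obtain ⟨a, ha, b, hb, h⟩ := Submodule.mem_sup.mp x.2
    exact ⟨(⟨a, ha⟩, ⟨b, hb⟩), Subtype.ext h⟩
  · change Q ((v.1 : ι → F) + v.2) = Q v.1 + Q v.2
    rw [map_add', mem_operp.mp (ho v.2.2) _ v.1.2, add_zero]

variable [Fintype F]

theorem isometric_of_plusOn_iff {W W' : Submodule F (ι → F)} (hW : NDon Q W) (hW' : NDon Q W') {m : ℕ}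
    (hm : finrank F W = 2 * m) (hm' : finrank F W' = 2 * m) (h : IsPlusTypeOn Q W ↔ IsPlusTypeOn Q W') :
    AreIsometricFor Q W W' :=
  exists_equiv_of_isPlus_iff hW.nondeg_restrict hW'.nondeg_restrict hm hm'
    ((plusOn_iff hm).symm.trans (h.trans (plusOn_iff hm')))

theorem plusOn_sup_iff {W W' : Submodule F (ι → F)} (hW : NDon Q W) (hW' : NDon Q W') (ho : W' ≤ operp Q W) {a b : ℕ}
    (ha : finrank F W = 2 * a) (hb : finrank F W' = 2 * b) : finrank F ↥(W ⊔ W') = 2 * (a + b) ∧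
    (IsPlusTypeOn Q (W ⊔ W') ↔ (IsPlusTypeOn Q W ↔ IsPlusTypeOn Q W')) := by
  obtain ⟨e, he⟩ := exists_equiv_sup hW ho
  have h1 : finrank F ↥(W ⊔ W') = 2 * (a + b) := by rw [← e.finrank_eq, finrank_prod]; omega
  rw [plusOn_iff h1, plusOn_iff ha, plusOn_iff hb, ← isPlus_prod_iff hW.nondeg_restrict hW'.nondeg_restrict ha hb]
  exact ⟨h1, (isPlus_congr_iff e one_ne_zero fun v => by rw [he, one_mul]).symm⟩

variable [DecidableEq ι]

/-- The type of an orthogonal sum of isometric spaces of even dimension. -/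
theorem plus_iff_of_even (hQ : (polarBilin Q).Nondegenerate) {t k : ℕ} {D : Fin t → Submodule F (ι → F)}
    (hD : IsOrthogonalMDecomposition Q (2 * k) D) (i : Fin t) :
    IsPlusTypeOn Q ⊤ ↔ Even t ∨ IsPlusTypeOn Q (D i) := by
  have hO := odec_of_isOrthogonalMDecomposition hQ hD
  have key : ∀ S : Finset (Fin t), NDon Q (S.sup D) ∧ finrank F ↥(S.sup D) = 2 * (S.card * k) ∧
      (IsPlusTypeOn Q (S.sup D) ↔ Even S.card ∨ IsPlusTypeOn Q (D i)) := fun S => by
    induction S using Finset.induction_on with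
    | empty =>
      rw [Finset.sup_empty]
      exact ⟨fun x hx _ => hx, by simp, iff_of_true ⟨⊥, le_rfl, fun x hx => by
        rw [(Submodule.mem_bot F).mp hx, map_zero], by simp⟩ (Or.inl (by simp))⟩
    | insert j S hj ih =>
      have ho : S.sup D ≤ operp Q (D j) := Finset.sup_le fun l hl => hO.orth j l fun h => hj (h ▸ hl)
      have h1 := plusOn_sup_iff (hO.nd j) ih.1 ho (hD.decomp.decomp.finrank_eq j) ih.2.1
      have h2 : IsPlusTypeOn Q (D j) ↔ IsPlusTypeOn Q (D i) :=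
        ⟨plusOn_congr (hD.isometric j i), plusOn_congr (hD.isometric i j)⟩
      rw [Finset.sup_insert, Finset.card_insert_of_notMem hj, h1.2, h2, ih.2.2, Nat.even_add_one]
      exact ⟨ndon_sup (hO.nd j) ih.1 ho, by rw [h1.1]; ring, by tauto⟩
  simpa [Finset.sup_univ_eq_iSup, hO.top] using (key Finset.univ).2.2

/-- The discriminants of the parts of an orthogonal decomposition. -/
theorem exists_disc (h2 : (2 : F) ≠ 0) (hQ : (polarBilin Q).Nondegenerate) {t k m : ℕ}
    {D : Fin t → Submodule F (ι → F)} (hD : IsNondegenerateMDecomposition (polar Q) k D)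
    (hm : Fintype.card ι = 2 * m) :
    ∃ d : Fin t → F, (∀ i, d i ≠ 0) ∧ (∀ i j, AreIsometricFor Q (D i) (D j) ↔ IsSquare (d i * d j)) ∧
      (IsPlusTypeOn Q ⊤ ↔ IsSquare ((-1) ^ m * ∏ i, d i)) := by
  have hI : DirectSum.IsInternal D :=
    (DirectSum.isInternal_submodule_iff_iSupIndep_and_iSup_eq_top D).2 ⟨hD.decomp.indep, hD.decomp.iSup_eq_top⟩
  let b : ∀ i, Basis (Fin k) F (D i) := fun i => finBasisOfFinrankEq F _ (hD.decomp.finrank_eq i)
  have hn : ∀ i, (polarBilin (Q.restrict (D i))).Nondegenerate := fun i =>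
    (ndon_iff_isNondegenerateOn.mpr (hD.nondegenerate i)).nondeg_restrict
  let G : Fin t → Matrix (Fin k) (Fin k) F := fun i =>
    LinearMap.BilinForm.toMatrix (b i) (polarBilin (Q.restrict (D i)))
  refine ⟨fun i => (G i).det, fun i => (LinearMap.BilinForm.nondegenerate_iff_det_ne_zero (b i)).mp (hn i),
    fun i j => ⟨fun ⟨e, he⟩ => ?_, fun h => exists_equiv_of_isSquare_det h2 (hn i) (hn j)
      ((hD.decomp.finrank_eq i).trans (hD.decomp.finrank_eq j).symm) (b i) (b j) h⟩, ?_⟩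
  · obtain ⟨c, -, hc⟩ := det_gram_polar_congr (Q := Q.restrict (D i)) (Q' := Q.restrict (D j)) e he (b i) (b j)
    exact ⟨c * (G j).det, by simp only [G]; rw [hc]; ring⟩
  · rw [plusOn_top_iff hm, IsPlus, plus_iff_isSquare_det h2 hQ (by simpa using hm)
      ((hI.collectedBasis b).reindex ((Equiv.sigmaEquivProd _ _).trans (Equiv.prodComm _ _))), ← det_blockDiagonal]
    congr! 3
    ext ⟨x, i⟩ ⟨y, j⟩
    rw [LinearMap.BilinForm.toMatrix_apply, blockDiagonal_apply]
    simp only [Basis.coe_reindex, DirectSum.IsInternal.collectedBasis_coe, G, LinearMap.BilinForm.toMatrix_apply]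
    split_ifs with h
    · subst h; rfl
    · exact hD.orthogonal i j h _ (b i x).2 _ (b j y).2

omit [Fintype F] in
theorem isSquare_mul_iff_of_isSquare {a b : F} (hb : b ≠ 0) (h : IsSquare b) : IsSquare (a * b) ↔ IsSquare a := by
  obtain ⟨c, rfl⟩ := h
  rw [mul_comm, ← pow_two, isSquare_sq_mul_iff (left_ne_zero_of_mul hb)]

theorem isSquare_neg_one_pow_iff' (hodd : Odd (Fintype.card F)) (m : ℕ) :
    IsSquare ((-1 : F) ^ m) ↔ Even m ∨ Fintype.card F % 4 = 1 := by
  rw [isSquare_neg_one_pow_iff rfl hodd, Nat.pow_mod]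
  obtain h | h : Fintype.card F % 4 = 1 ∨ Fintype.card F % 4 = 3 := by obtain ⟨s, hs⟩ := hodd; omega
  · simp [h]
  · rw [h]
    rcases Nat.even_or_odd' m with ⟨s, rfl | rfl⟩ <;> simp [pow_succ, pow_mul, Nat.mul_mod, Nat.pow_mod]

/-- The type of an orthogonal sum of an even number of isometric spaces, in odd characteristic. -/
theorem plus_iff_of_isometric (hodd : Odd (Fintype.card F)) (hQ : (polarBilin Q).Nondegenerate) {t k m : ℕ}
    {D : Fin t → Submodule F (ι → F)} (hD : IsOrthogonalMDecomposition Q k D) (ht : Even t)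
    (hm : Fintype.card ι = 2 * m) : IsPlusTypeOn Q ⊤ ↔ Even m ∨ Fintype.card F % 4 = 1 := by
  obtain ⟨d, h0, h1, h2⟩ := exists_disc (two_ne_zero_of_odd hodd) hQ hD.decomp hm
  let i : Fin t := ⟨0, by have := hD.decomp.decomp.two_le; omega⟩
  have h3 : IsSquare ((∏ j, d j) * d i ^ t) := by
    simpa [Finset.prod_mul_distrib] using
      Finset.isSquare_prod (s := Finset.univ) (fun j => d j * d i) fun j _ => (h1 j i).mp (hD.isometric j i)
  rw [isSquare_mul_iff_of_isSquare (pow_ne_zero _ (h0 i)) (ht.isSquare_pow _)] at h3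
  rw [h2, isSquare_mul_iff_of_isSquare (Finset.prod_ne_zero_iff.mpr fun j _ => h0 j) h3, isSquare_neg_one_pow_iff' hodd]

/-- The type of an orthogonal sum of two non-isometric spaces of equal dimension. -/
theorem plus_iff_of_not_isometric (hodd : Odd (Fintype.card F)) (hQ : (polarBilin Q).Nondegenerate) {k m : ℕ}
    {D : Fin 2 → Submodule F (ι → F)} (hD : IsNondegenerateMDecomposition (polar Q) k D)
    (hni : ¬ AreIsometricFor Q (D 0) (D 1)) (hm : Fintype.card ι = 2 * m) :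
    IsPlusTypeOn Q ⊤ ↔ ¬ (Even m ∨ Fintype.card F % 4 = 1) := by
  obtain ⟨d, h0, h1, h2⟩ := exists_disc (two_ne_zero_of_odd hodd) hQ hD hm
  rw [h2, Fin.prod_univ_two, ← isSquare_neg_one_pow_iff' hodd]
  rw [h1] at hni
  exact ⟨fun h h' => hni ((isSquare_mul_iff_of_isSquare (pow_ne_zero _ (by simp)) h').mp (by rwa [mul_comm])),
    fun h => isSquare_mul_of_not_isSquare h hni⟩

/-- The type of a tensor product, in odd characteristic. -/
theorem plus_iff_of_tensor (h2 : (2 : F) ≠ 0) (hQ : (polarBilin Q).Nondegenerate) {k l m : ℕ}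
    {f₁ : (Fin k → F) → (Fin k → F) → F} {f₂ : (Fin l → F) → (Fin l → F) → F} {e : ι ≃ Fin k × Fin l} {P : GL ι F}
    (hT : IsTensorFormStructure id (polar Q) f₁ f₂ e P) (hm : Fintype.card ι = 2 * m) :
    IsPlusTypeOn Q ⊤ ↔ IsSquare ((-1) ^ m * ((gramMatrix f₁).det ^ l * (gramMatrix f₂).det ^ k)) := by
  obtain ⟨c, hc, h⟩ := hT
  have h1 : LinearMap.BilinForm.toMatrix ((Pi.basisFun F _).map (coordEquiv e P).symm) (polarBilin Q) =
      c • (gramMatrix f₁ ⊗ₖ gramMatrix f₂) := by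
    ext p q
    rw [LinearMap.BilinForm.toMatrix_apply, Basis.map_apply, Basis.map_apply, coordEquiv_symm, coordEquiv_symm,
      polarBilin_apply_apply, h]
    simp [formOfGram, Pi.single_apply]
  rw [plusOn_top_iff hm, IsPlus, plus_iff_isSquare_det h2 hQ (by simpa using hm)
    ((Pi.basisFun F _).map (coordEquiv e P).symm), h1, det_smul, det_kronecker, ← Fintype.card_congr e, hm,
    mul_left_comm, mul_comm 2, pow_mul, isSquare_sq_mul_iff (pow_ne_zero _ hc), Fintype.card_fin, Fintype.card_fin]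

/-! ### Subfields of index two -/

omit [Fintype ι] [DecidableEq ι] in
theorem exists_root_of_index_two {F₀ : Subfield F} (h : Fintype.card F = Nat.card F₀ ^ 2) (a b c : F₀) :
    ∃ x z : F, (x ≠ 0 ∨ z ≠ 0) ∧ (a : F) * x ^ 2 + b * x * z + c * z ^ 2 = 0 := by
  by_cases ha : a = 0
  · exact ⟨1, 0, Or.inl one_ne_zero, by simp [ha]⟩
  have ha' : (a : F) ≠ 0 := fun h => ha (Subtype.ext h)
  suffices ∃ x : F, x ^ 2 = ((-(c / a) : F₀) : F) + ((-(b / a) : F₀) : F) * x by
    obtain ⟨x, hx⟩ := this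
    refine ⟨x, 1, Or.inr one_ne_zero, ?_⟩
    push_cast at hx
    rw [hx]
    field_simp
    ring
  by_cases h1 : ∀ r : F₀, r ^ 2 ≠ -(c / a) + -(b / a) * r
  swap
  · obtain ⟨r, hr⟩ := not_forall.mp h1
    exact ⟨r, congrArg Subtype.val (not_not.mp hr)⟩
  have := Fact.mk h1
  have h2 : finrank F₀ F = 2 := Nat.pow_right_injective (Finite.one_lt_card (α := F₀))
    ((card_eq_pow_finrank_subfield F₀).symm.trans (Nat.card_eq_fintype_card.trans h))
  obtain ⟨f⟩ := FiniteField.nonempty_algHom_of_finrank_dvd (F := F₀) (K := QuadraticAlgebra F₀ (-(c / a)) (-(b / a)))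
    (L := F) (by rw [h2, QuadraticAlgebra.finrank_eq_two])
  refine ⟨f QuadraticAlgebra.omega, ?_⟩
  rw [pow_two, ← map_mul, QuadraticAlgebra.omega_mul_omega_eq_add, map_add, map_smul, map_smul, map_one]
  simp [Subfield.smul_def]

/-- A form defined over a subfield of index two has plus type. -/
theorem plus_of_index_two (hQ : IsNondegenerateQuadraticForm Q) {m : ℕ} (hm : Fintype.card ι = 2 * (m + 1))
    {F₀ : Subfield F} (h : Fintype.card F = Nat.card F₀ ^ 2) {ζ : F} (hζ : ζ ≠ 0) {P : GL ι F}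
    (hP : IsQuadFormRationalStructure (fun v => ζ * Q v) F₀ P) : IsPlusTypeOn Q ⊤ := by
  let j : (ι → F₀) → ι → F := fun u => (P : Matrix ι ι F) *ᵥ (algebraMap F₀ F ∘ u)
  have hadd : ∀ u v, j (u + v) = j u + j v := fun u v => mulVec_add _ (algebraMap F₀ F ∘ u) (algebraMap F₀ F ∘ v)
  have hsmul : ∀ (c : F₀) u, j (c • u) = (c : F) • j u := fun c u => mulVec_smul _ (c : F) (algebraMap F₀ F ∘ u)
  let Q₀ : (ι → F₀) → F₀ := fun u => ⟨ζ * Q (j u), hP _ fun i => (u i).2⟩
  have hp : ∀ u v, ((polar Q₀ u v : F₀) : F) = ζ * polar Q (j u) (j v) := fun u v => by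
    simp only [polar, Q₀, hadd]; push_cast; ring
  have hb : IsSesq (RingHom.id F₀) 1 (polar Q₀) := by
    refine ⟨fun _ => rfl, one_ne_zero, fun x y v => Subtype.ext ?_, fun c x v => Subtype.ext ?_,
      fun u v => by rw [one_mul, RingHom.id_apply, polar_comm], fun v hv => ?_⟩
    · rw [Subfield.coe_add, hp, hp, hp, hadd, polar_add_left, mul_add]
    · rw [Subfield.coe_mul, hp, hp, hsmul, polar_smul_left, smul_eq_mul, mul_left_comm]
    · have h1 : (polarBilin Q).flip (j v) ∘ₗ toLin' (P : Matrix ι ι F) = 0 := (Pi.basisFun F ι).ext fun i => by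
        have := hp (Pi.single i 1) v
        rw [hv, ZeroMemClass.coe_zero, eq_comm, mul_eq_zero_iff_left hζ] at this
        refine (congrArg (fun w => polar Q ((P : Matrix ι ι F) *ᵥ w) (j v)) (funext fun k => ?_)).trans this
        simp [Pi.single_apply, apply_ite]
      have h2 : j v = 0 := (isSesq_polar hQ).nondeg _ fun u => by
        simpa [gl_mulVec_inv] using LinearMap.congr_fun h1 (((P⁻¹ : GL ι F) : Matrix ι ι F) *ᵥ u)
      have h3 := gl_inv_mulVec P (algebraMap F₀ F ∘ v)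
      rw [show (P : Matrix ι ι F) *ᵥ _ = 0 from h2, mulVec_zero] at h3
      exact funext fun i => Subtype.ext (congrFun h3 i).symm
  have hQ₀ : IsNondegenerateQuadraticForm Q₀ := ⟨fun c u => Subtype.ext (by
    simp only [Q₀, hsmul, hQ.smul]; push_cast; ring), hb.isBilinearForm, hb.isNondegenerateForm⟩
  obtain ⟨Y₀, -, h1, h2⟩ := exists_singular_subspace (nondeg_toQF hQ₀) ⊥ (by simp)
  obtain ⟨Y, h3, h4⟩ := exists_le_finrank_eq Y₀ (n := m) (by simp at h1; omega)
  obtain ⟨T, hT⟩ := Y.exists_isCompl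
  have h5 := hb.finrank_add_perp Y
  have h6 := Submodule.finrank_add_eq_of_isCompl hT
  have h7 := Submodule.finrank_sup_add_finrank_inf_eq T (hb.perp Y)
  have h8 := Submodule.finrank_le (T ⊔ hb.perp Y)
  rw [finrank_fintype_fun_eq_card] at h6 h8
  obtain ⟨u, hu⟩ := exists_linearIndependent_of_le_finrank (R := F₀) (M := ↥(T ⊓ hb.perp Y)) (n := 2) (by omega)
  let y := finBasisOfFinrankEq F₀ Y h4
  have h9 : LinearIndependent F (Sum.elim (fun i => j (y i)) fun i => j (u i)) := by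
    have h10 : LinearIndependent F₀ (Sum.elim (fun i => (y i : ι → F₀)) fun i => (u i : ι → F₀)) :=
      LinearIndependent.sum_type (y.linearIndependent.map' Y.subtype Y.ker_subtype)
        (hu.map' _ (Submodule.ker_subtype _))
        (hT.disjoint.mono (Submodule.span_le.mpr (Set.range_subset_iff.mpr fun i => (y i).2))
          (Submodule.span_le.mpr (Set.range_subset_iff.mpr fun i => (u i).2.1)))
    have := (linearIndependent_algebraMap_comp_iff (S := F)).mpr h10
    convert! this.map' (toLin' (P : Matrix ι ι F)) (LinearMap.ker_eq_bot.mpr (toLin'_gl_injective P)) using 1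
    ext (i | i) : 1 <;> rfl
  obtain ⟨k1, k2, k3⟩ := linearIndependent_sum.mp h9
  obtain ⟨x, z, hxz, hw⟩ := exists_root_of_index_two h (Q₀ (u 0)) (polar Q₀ (u 0) (u 1)) (Q₀ (u 1))
  have hw0 : x • j (u 0) + z • j (u 1) ≠ 0 := fun h => by
    have := LinearIndependent.pair_iff.mp (show LinearIndependent F ![j (u 0), j (u 1)] by
      convert! k2 using 1; ext (i : Fin 2) : 1; fin_cases i <;> rfl) x z h
    tauto
  have hq : ∀ i, Q (j (y i)) = 0 := fun i => (mul_eq_zero_iff_left hζ).mp (congrArg Subtype.val (h2 _ (h3 (y i).2)))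
  have hyy : ∀ i k, polar Q (j (y i)) (j (y k)) = 0 := fun i k => (mul_eq_zero_iff_left hζ).mp <| by
    rw [← hp, show polar Q₀ _ _ = 0 from polar_eq_zero_of_singular h2 _ (h3 (y i).2) _ (h3 (y k).2)]; rfl
  have hyu : ∀ i k, polar Q (j (u k)) (j (y i)) = 0 := fun i k => (mul_eq_zero_iff_left hζ).mp <| by
    rw [← hp, (u k).2.2 _ (y i).2]; rfl
  have hw1 : Q (x • j (u 0) + z • j (u 1)) = 0 := (mul_eq_zero_iff_left hζ).mp <| by
    rw [quad_map_comb_two, ← hw, hp]
    simp only [Q₀]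
    ring
  refine ⟨Submodule.span F (Set.range fun i => j (y i)) ⊔ Submodule.span F {x • j (u 0) + z • j (u 1)}, le_top, ?_, ?_⟩
  · rw [← Submodule.span_union]
    intro w hw'
    rw [← map_zero Q]
    refine ((isWittForm_of_nondeg (nondeg_toQF hQ)).singular_span ?_ ?_).1 w hw'
    · rintro _ (⟨i, rfl⟩ | rfl)
      · exact (hq i).trans (map_zero Q).symm
      · exact hw1.trans (map_zero Q).symm
    · have : ∀ i, polar Q (x • j (u 0) + z • j (u 1)) (j (y i)) = 0 := fun i => by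
        rw [polar_add_left, polar_smul_left, polar_smul_left, hyu, hyu, smul_zero, smul_zero, add_zero]
      rintro _ (⟨i, rfl⟩ | rfl) _ (⟨k, rfl⟩ | rfl)
      · exact hyy i k
      · exact (polar_comm _ _ _).trans (this i)
      · exact this k
      · exact (quad_polar_self hQ _).trans (by rw [hw1, mul_zero])
  · rw [finrank_sup_span_singleton_of_notMem (Submodule.span F (Set.range fun i => j (y i))) fun hw' =>
      hw0 (Submodule.disjoint_def.mp k3 _ hw' (add_mem
      (Submodule.smul_mem _ _ (Submodule.subset_span ⟨0, rfl⟩)) (Submodule.smul_mem _ _ (Submodule.subset_span ⟨1, rfl⟩)))),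
      show finrank F (Submodule.span F (Set.range fun i => j (y i))) = _ from finrank_span_eq_card k1]
    simp [hm]

end CL.Asch
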