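/-
Orthogonal spaces over an extension field: planes, unitary structures, idempotents and groups of symplectic type.
-/
import Cfsg.Agent.Cls.MaxType

set_option autoImplicit false

namespace CL.Asch

open Matrix Cfsg Cfsg.Geo Module QuadraticMap CL.Cls CL.Known
open scoped MatrixGroups Kronecker

section Plane

variable {F K V : Type*} [Field F] [Field K] [Algebra F K] [AddCommGroup V] [Module F V] [Module K V]
  [IsScalarTower F K V] {Q : QuadraticForm F V}

omit [IsScalarTower F K V] in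
theorem polar_smul_self [Finite K] (h2 : (2 : F) = 0) (hsa : ∀ (k : K) x y, polar Q (k • x) y = polar Q x (k • y))
    (k : K) (v : V) : polar Q (k • v) v = 0 := by
  obtain ⟨s, rfl⟩ := exists_sq_of_two_eq_zero (by rw [← map_ofNat (algebraMap F K) 2, h2, map_zero]) k
  rw [pow_two, mul_smul, hsa, polar_self, two_smul, ← two_mul, h2, zero_mul]

theorem exists_functional_sq [Finite F] [Finite K] (hsa : ∀ (k : K) x y, polar Q (k • x) y = polar Q x (k • y)) (e : V) :
    ∃ μ : K →ₗ[F] F, ∀ x, μ (x * x) = Q (x • e) := by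
  by_cases h2 : (2 : F) = 0
  · have h3 : (2 : K) = 0 := by rw [← map_ofNat (algebraMap F K) 2, h2, map_zero]
    choose s hs using exists_sq_of_two_eq_zero h3
    have hs' : ∀ x d, x ^ 2 = d → s d = x := fun x d h => by
      have : (s d - x) ^ 2 = 0 := by linear_combination hs d - h + (x ^ 2 - s d * x) * h3
      exact sub_eq_zero.mp (pow_eq_zero_iff two_ne_zero |>.mp this)
    refine ⟨⟨⟨fun d => Q (s d • e), fun d d' => ?_⟩, fun c d => ?_⟩, fun x => congrArg (fun y => Q (y • e))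
      (hs' _ _ (pow_two x))⟩
    · rw [hs' (s d + s d') _ (by linear_combination hs d + hs d' + s d * s d' * h3), add_smul, map_add', ← hsa,
        smul_smul, polar_smul_self h2 hsa, add_zero]
    · obtain ⟨c, rfl⟩ := exists_sq_of_two_eq_zero h2 c
      simp only [RingHom.id_apply]
      rw [hs' (c • s d) _ (by rw [smul_pow, hs]), smul_assoc, QuadraticMap.map_smul, pow_two]
  · refine ⟨(2 : F)⁻¹ • (polarBilin Q e ∘ₗ (LinearMap.toSpanSingleton K V e).restrictScalars F), fun x => ?_⟩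
    change 2⁻¹ * polar Q e ((x * x) • e) = _
    rw [mul_smul, ← hsa, polar_self, two_smul, ← two_mul, inv_mul_cancel_left₀ h2]

variable [FiniteDimensional F V]

theorem exists_half_plane [Finite F] [Finite K] (hQ : (polarBilin Q).Nondegenerate)
    (hsa : ∀ (k : K) x y, polar Q (k • x) y = polar Q x (k • y)) (h2 : finrank K V = 2) :
    ∃ t : V →ₗ[K] V, (∀ v, polar Q (t v) v = Q v) ∧ ∃ u v, polar Q (t u) v ≠ polar Q u (t v) := by
  have : FiniteDimensional K V := Module.finite_of_finrank_pos (by omega)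
  obtain ⟨e, he⟩ := exists_linearIndependent_of_le_finrank (R := K) (M := V) (n := 2) h2.ge
  obtain ⟨z, hz⟩ : ∃ z, polar Q (e 0) z ≠ 0 := by
    by_contra! h
    exact he.ne_zero 0 (hQ.1 _ h)
  obtain ⟨f, hf, hf'⟩ : ∃ f, f ∉ Submodule.span K {e 0} ∧ polar Q (e 0) f ≠ 0 := by
    have h1 : e 1 ∉ Submodule.span K {e 0} := by simpa using he.notMem_span_image (s := {0}) (x := 1) (by simp)
    by_cases h3 : polar Q (e 0) (e 1) = 0
    · by_cases h4 : z ∈ Submodule.span K {e 0}
      · exact ⟨e 1 + z, fun h => h1 ((Submodule.add_mem_iff_left _ h4).mp h), by rwa [polar_add_right, h3, zero_add]⟩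
      · exact ⟨z, h4, hz⟩
    · exact ⟨e 1, h1, h3⟩
  have hli : LinearIndependent K ![e 0, f] := (LinearIndependent.pair_iff' (he.ne_zero 0)).mpr fun a ha =>
    hf (Submodule.mem_span_singleton.mpr ⟨a, ha⟩)
  obtain ⟨b, hb⟩ : ∃ b : Basis (Fin 2) K V, polar Q (b 0) (b 1) ≠ 0 :=
    ⟨basisOfLinearIndependentOfCardEqFinrank hli (by simp [h2]), by simpa using hf'⟩
  obtain ⟨μ₀, h0⟩ := exists_functional_sq hsa (b 0)
  obtain ⟨μ₁, h1⟩ := exists_functional_sq hsa (b 1)
  obtain ⟨w₀, hw₀⟩ : ∃ w, ∀ v, polar Q w v = μ₀ (b.repr v 0) + polar Q (b 0) (b.repr v 1 • b 1) :=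
    ⟨_, LinearMap.BilinForm.apply_toDual_symm_apply (hB := hQ) (μ₀ ∘ₗ (b.coord 0).restrictScalars F +
      polarBilin Q (b 0) ∘ₗ ((b.coord 1).smulRight (b 1)).restrictScalars F)⟩
  obtain ⟨w₁, hw₁⟩ : ∃ w, ∀ v, polar Q w v = μ₁ (b.repr v 1) :=
    ⟨_, LinearMap.BilinForm.apply_toDual_symm_apply (hB := hQ) (μ₁ ∘ₗ (b.coord 1).restrictScalars F)⟩
  refine ⟨b.constr K ![w₀, w₁], fun v => ?_, b 0, b 1, ?_⟩
  · rw [Basis.constr_apply_fintype, Fin.sum_univ_two, polar_add_left, hsa, hsa]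
    conv_rhs => rw [← b.sum_repr v, Fin.sum_univ_two, map_add', hsa, ← h0, ← h1, smul_smul]
    simp only [Matrix.cons_val_zero, Matrix.cons_val_one, hw₀, hw₁, map_smul, Finsupp.smul_apply, smul_eq_mul,
      Basis.equivFun_apply]
    ring
  · rw [Basis.constr_basis, Basis.constr_basis, polar_comm _ (b 0)]
    simpa [hw₀, hw₁] using hb

omit [Algebra F K] [IsScalarTower F K V] [FiniteDimensional F V] in
theorem exists_smul_of_plane (hQ : (polarBilin Q).Nondegenerate)
    (hsa : ∀ (k : K) x y, polar Q (k • x) y = polar Q x (k • y)) (h2 : finrank K V = 2) {x : V →ₗ[K] V}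
    (h : ∀ v, x v = 0 ∨ ∃ w, w ≠ 0 ∧ (∀ k : K, polar Q (k • w) v = 0) ∧ ∀ k : K, polar Q (k • w) (x v) = 0) :
    ∃ c : K, x = c • 1 := by
  have : FiniteDimensional K V := Module.finite_of_finrank_pos (by omega)
  refine LinearMap.exists_eq_smul_id_of_forall_notLinearIndependent fun v hv => ?_
  obtain h | ⟨w, hw, h0, h1⟩ := h v
  · exact hv.ne_zero 1 h
  refine hw (hQ.1 w fun u => ?_)
  have h3 := (hv.span_eq_top_of_card_eq_finrank' (by simp [h2])).ge (Submodule.mem_top (x := u))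
  rw [Matrix.range_cons, Matrix.range_cons, Matrix.range_empty, Set.union_empty, Set.singleton_union,
    Submodule.mem_span_pair] at h3
  obtain ⟨s, r, rfl⟩ := h3
  rw [polarBilin_apply_apply, polar_add_right, ← hsa, ← hsa, h0, h1, add_zero]

omit [IsScalarTower F K V] [FiniteDimensional F V] in
theorem comm_of_plane [Finite K] (hQ : (polarBilin Q).Nondegenerate)
    (hsa : ∀ (k : K) x y, polar Q (k • x) y = polar Q x (k • y)) (h2 : finrank K V = 2) {t t' : V →ₗ[K] V}
    (ht : ∀ v, polar Q (t v) v = Q v) (ht' : ∀ v, polar Q (t' v) v = Q v) : t * t' = t' * t := by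
  have skew : ∀ x : V →ₗ[K] V, (∀ v, polar Q (x v) v = 0) → ∀ u v, polar Q (x u) v = -polar Q u (x v) :=
    fun x hx u v => by
    have := hx (u + v)
    rw [map_add, polar_add_left, polar_add_right, polar_add_right, hx, hx, polar_comm _ (x v)] at this
    linear_combination this
  by_cases h : (2 : F) = 0
  · obtain ⟨c, hc⟩ := exists_smul_of_plane hQ hsa h2 (x := t - t') fun v => by
      by_cases hv : v = 0
      · exact Or.inl (by rw [hv, map_zero])
      refine Or.inr ⟨v, hv, fun k => polar_smul_self h hsa k v, fun k => ?_⟩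
      obtain ⟨s, rfl⟩ := exists_sq_of_two_eq_zero (by rw [← map_ofNat (algebraMap F K) 2, h, map_zero]) k
      rw [pow_two, mul_smul, hsa, ← map_smul, polar_comm, LinearMap.sub_apply, polar_sub_left, ht, ht', sub_self]
    rw [sub_eq_iff_eq_add.mp hc]
    simp [add_mul, mul_add]
  have hK : (2 : K) ≠ 0 := by rw [← map_ofNat (algebraMap F K) 2]; exact (map_ne_zero _).mpr h
  have alt : ∀ t : V →ₗ[K] V, (∀ v, polar Q (t v) v = Q v) → ∀ v, polar Q (((2 : K) • t - 1) v) v = 0 := fun t ht v => by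
    simp [two_smul, ht]
  have perp : ∀ x : V →ₗ[K] V, (∀ v, polar Q (x v) v = 0) → ∀ (k : K) v, polar Q (k • v) (x v) = 0 := fun x hx k v => by
    have := skew x hx (k • v) v
    rw [map_smul, hsa, polar_comm] at this
    exact (mul_eq_zero_iff_left h).mp (by linear_combination this)
  obtain ⟨c, hc⟩ := exists_smul_of_plane hQ hsa h2 (x := ((2 : K) • t - 1) * ((2 : K) • t' - 1)) fun v => by
    by_cases hv : ((2 : K) • t' - 1) v = 0
    · exact Or.inl (by rw [Module.End.mul_apply, hv, map_zero])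
    exact Or.inr ⟨_, hv, fun k => by rw [hsa, polar_comm, perp _ (alt t' ht')], fun k => perp _ (alt t ht) k _⟩
  have h3 : ((2 : K) • t' - 1) * ((2 : K) • t - 1) = c • 1 := LinearMap.ext fun v => sub_eq_zero.mp (hQ.2 _ fun u => by
    have := congrArg (fun y : V →ₗ[K] V => polar Q (y u) v) hc
    simp only [Module.End.mul_apply] at this
    rw [skew _ (alt t ht), skew _ (alt t' ht'), neg_neg] at this
    rw [polarBilin_apply_apply, polar_sub_right, Module.End.mul_apply, this]
    simp [hsa])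
  refine smul_right_injective _ (mul_ne_zero hK hK) ?_
  have h4 := hc.trans h3.symm
  simp only [sub_mul, mul_sub, smul_mul_smul_comm, mul_one, one_mul] at h4
  rw [sub_sub, sub_sub, add_sub_left_comm] at h4
  exact sub_left_injective h4

end Plane

variable {ι : Type} [Fintype ι] [DecidableEq ι] {F : Type*} [Field F] {Q : QuadraticForm F (ι → F)}
  {H : Subgroup (GL ι F)}

/-- A self-adjoint field of degree half the dimension determines a larger commutative algebra. -/
theorem exists_comm_of_plane [Finite F] [Nonempty ι] (hQ : IsNondegenerateQuadraticForm Q)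
    (hI : ∀ h ∈ H, ∀ v, Q ((h : Matrix ι ι F) *ᵥ v) = Q v) {K : Subalgebra F (Matrix ι ι F)} (hK : IsFld K)
    (hN : H ≤ subalgebraNormalizer K) (hs : IsSelfAdjointFor (polar Q) K) (hn : Fintype.card ι = finrank F K * 2) :
    ∃ C : Subalgebra F (Matrix ι ι F), H ≤ subalgebraNormalizer C ∧ (∀ x ∈ C, ∀ y ∈ C, x * y = y * x) ∧
      (∀ x ∈ C, adj (RingHom.id F) (polar Q) x ∈ C) ∧ ∃ x ∈ C, adj (RingHom.id F) (polar Q) x ≠ x := by
  have hb := isSesq_polar hQ
  let _ : Field K := hK.isField.toField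
  have : Finite K := Module.finite_of_finite F
  have h2 : finrank K (ι → F) = 2 := Nat.eq_of_mul_eq_mul_left finrank_pos
    ((finrank_mul_finrank F K (ι → F)).trans ((finrank_fintype_fun_eq_card F).trans hn))
  have hsa : ∀ (k : K) x y, polar Q (k • x) y = polar Q x (k • y) := fun k => hs k k.2
  let T : Set (Matrix ι ι F) := {t | t ∈ Subalgebra.centralizer F (K : Set (Matrix ι ι F)) ∧
    ∀ v, polar Q (t *ᵥ v) v = Q v}
  let L : ∀ t ∈ T, (ι → F) →ₗ[K] (ι → F) := fun t ht =>
    { toFun := fun v => t *ᵥ v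
      map_add' := mulVec_add t
      map_smul' := fun k v => (mulVec_mulVec _ _ _).trans ((ht.1 k k.2 ▸ mulVec_mulVec _ _ _).symm) }
  obtain ⟨t, h3, u, v, h4⟩ := exists_half_plane (K := K) (nondeg_toQF hQ) hsa h2
  refine ⟨Algebra.adjoin F T, normalizes_adjoin fun h hh x hx => ⟨conj_mem_of_normalizes (normalizes_centralizer hN) hh
    hx.1, fun v => ?_⟩, adjoin_comm fun x hx y hy => matrix_ext_mulVec fun v => ?_,
    hb.adj_mem_adjoin fun x hx => Algebra.subset_adjoin ⟨hb.adj_mem_centralizer (fun y hy =>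
      (hb.isSelfAdjointFor.mp hs y hy).symm ▸ hy) hx.1, fun v => by rw [hb.adj_spec', polar_comm, hx.2]⟩,
    LinearMap.toMatrix' (t.restrictScalars F), Algebra.subset_adjoin ⟨fun k hk => matrix_ext_mulVec fun v => ?_,
      fun v => by rw [LinearMap.toMatrix'_mulVec]; exact h3 v⟩, fun h => h4 ?_⟩
  · rw [← gl_mulVec_inv h v, conjAlg_mulVec, isom_polar_of_quad (hI h hh), hx.2, hI h hh]
  · rw [← mulVec_mulVec, ← mulVec_mulVec]
    exact LinearMap.congr_fun (comm_of_plane (t := L x hx) (t' := L y hy) (nondeg_toQF hQ) hsa h2 hx.2 hy.2) v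
  · rw [← mulVec_mulVec, ← mulVec_mulVec, LinearMap.toMatrix'_mulVec, LinearMap.toMatrix'_mulVec]
    exact (t.map_smul (⟨k, hk⟩ : K) v).symm
  · have := hb.adj_spec (LinearMap.toMatrix' (t.restrictScalars F)) u v
    rwa [h, LinearMap.toMatrix'_mulVec, LinearMap.toMatrix'_mulVec] at this

/-! ### Idempotents and characteristic two -/

theorem quad_eq_of_comm [Finite F] (h2 : (2 : F) = 0) (hQ : IsNondegenerateQuadraticForm Q) (hH : Irr H)
    (hn : 2 ≤ Fintype.card ι) (hI : ∀ h ∈ H, ∀ v, Q ((h : Matrix ι ι F) *ᵥ v) = Q v) {k : Matrix ι ι F}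
    (hk : k + adj (RingHom.id F) (polar Q) k = 1)
    (hc : ∀ h ∈ H, ∃ k', k' + adj (RingHom.id F) (polar Q) k' = 1 ∧ k' * (conjAlg h k - k) = (conjAlg h k - k) * k')
    (v : ι → F) : Q v = polar Q (k *ᵥ v) v := by
  have hb := isSesq_polar hQ
  refine sub_eq_zero.mp (hH.semilinear_eq_zero h2 hn (fun v => Q v - polar Q (k *ᵥ v) v) (fun u v => ?_)
    (fun c v => ?_) (fun h hh v hv => ?_) v)
  · have := congrArg (fun x => polar Q (x *ᵥ u) v) hk
    simp only [add_mulVec, polar_add_left, hb.adj_spec', one_mulVec] at this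
    rw [map_add', mulVec_add, polar_add_left, polar_add_right, polar_add_right, polar_comm _ (k *ᵥ v) u]
    linear_combination -this
  · rw [hQ.smul, mulVec_smul, polar_smul_left, polar_smul_right, smul_eq_mul, smul_eq_mul]
    ring
  obtain ⟨k', h1, h3⟩ := hc h hh
  have hg := isom_polar_of_quad (hI h hh)
  have h4 : adj (RingHom.id F) (polar Q) (conjAlg h k - k) = conjAlg h k - k := by
    rw [hb.adj_sub, hb.adj_conjAlg hg, eq_sub_of_add_eq' hk, map_sub, map_one, ← sub_eq_zero, ← neg_eq_zero,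
      ← zero_smul F (conjAlg h k - k), ← h2, two_smul]
    abel
  have h5 : ∀ w, polar Q ((conjAlg h k - k) *ᵥ w) w = 0 := fun w => by
    rw [← Matrix.mul_one (conjAlg h k - k), ← h1, Matrix.mul_add, add_mulVec, polar_add_left, ← h3, ← mulVec_mulVec,
      ← mulVec_mulVec, hb.adj_spec k', hb.adj_spec _ (_ *ᵥ w), h4, polar_comm, ← two_mul, h2, zero_mul]
  have h6 := h5 ((h : Matrix ι ι F) *ᵥ v)
  rw [sub_mulVec, polar_sub_left, conjAlg_mulVec, hg] at h6
  rw [hI h hh]
  linear_combination hv + h6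

theorem singular_rng (hQ : IsNondegenerateQuadraticForm Q) {e : Matrix ι ι F} (he : e * e = e)
    (hτ : e + adj (RingHom.id F) (polar Q) e = 1) (h : (2 : F) ≠ 0 ∨ ∀ v, Q v = polar Q (e *ᵥ v) v) :
    IsTotallySingularQuad Q (rng e) := fun w hw => by
  have h1 : polar Q w w = 0 := (isSesq_polar hQ).orth_rng
    (by rw [eq_sub_of_add_eq' hτ, Matrix.sub_mul, Matrix.one_mul, he, sub_self]) w hw w hw
  rcases h with h | h
  · exact (mul_eq_zero_iff_left h).mp ((quad_polar_self hQ w).symm.trans h1)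
  · rw [h, (mem_rng_idem he).mp hw, h1]

theorem plus_of_idem (hQ : IsNondegenerateQuadraticForm Q) {e : Matrix ι ι F} (he : e * e = e)
    (hτ : e + adj (RingHom.id F) (polar Q) e = 1) (h : (2 : F) ≠ 0 ∨ ∀ v, Q v = polar Q (e *ᵥ v) v) :
    IsPlusTypeOn Q ⊤ := by
  have hb := isSesq_polar hQ
  have h1 := hb.finrank_add_perp (rng e)
  have h2 : hb.perp (rng e) = rng e := le_antisymm (fun v hv => (mem_rng_idem he).mpr (by
    have : adj (RingHom.id F) (polar Q) e *ᵥ v = 0 := hb.nondeg' _ fun u => by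
      rw [hb.adj_spec']; exact hv _ (mulVec_mem_rng e u)
    rw [eq_sub_of_add_eq' hτ, sub_mulVec, one_mulVec, sub_eq_zero] at this
    exact this.symm)) fun v hv w hw => singularFor_of_quad (singular_rng hQ he hτ h) v hv w hw
  exact ⟨_, le_top, singular_rng hQ he hτ h, by rw [h2] at h1; simp; omega⟩

/-- The adjoint of a matrix unit for an alternating form in dimension two. -/
theorem exists_idem_two {ε : F} {f : (Fin 2 → F) → (Fin 2 → F) → F} (hf : IsSesq (RingHom.id F) ε f)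
    (halt : ∀ v, f v v = 0) : ∃ a : Matrix (Fin 2) (Fin 2) F, a * a = a ∧ a + adj (RingHom.id F) f a = 1 := by
  refine ⟨single 0 0 1, by simp, ?_⟩
  rw [hf.adj_eq (y := single 1 1 1) fun u v => ?_]
  · ext i j; fin_cases i <;> fin_cases j <;> simp
  have h : ∀ u : Fin 2 → F, u = u 0 • Pi.single 0 1 + u 1 • Pi.single 1 1 := fun u => by
    ext i; fin_cases i <;> simp
  rw [single_mulVec, single_mulVec, h u, h v, h (Function.update _ _ _), h (Function.update _ 1 _)]
  simp [hf.add_left, hf.smul_left, hf.isSL.add_right, hf.isSL.smul_right, halt]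

/-! ### Unitary structures -/

theorem quad_smul_of_unitary [Finite F] (hQ : IsNondegenerateQuadraticForm Q) (hH : Irr H) (hn : 2 ≤ Fintype.card ι)
    (hI : ∀ h ∈ H, ∀ v, Q ((h : Matrix ι ι F) *ᵥ v) = Q v) {K : Subalgebra F (Matrix ι ι F)}
    (hN : H ≤ subalgebraNormalizer K) (hc : ∀ x ∈ K, ∀ y ∈ K, x * y = y * x)
    (hτ : ∀ x ∈ K, adj (RingHom.id F) (polar Q) x ∈ K) {x : Matrix ι ι F} (hx : x ∈ K)
    (hne : adj (RingHom.id F) (polar Q) x ≠ x)
    (hfix : ∀ x ∈ K, adj (RingHom.id F) (polar Q) x = x → ∃ c : F, x = c • 1) :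
    ∀ k ∈ K, ∃ c : F, ∀ v, Q (k *ᵥ v) = c * Q v := by
  have hb := isSesq_polar hQ
  obtain ⟨t, ht, h⟩ : ∃ t ∈ K, ∀ v, Q v = polar Q (t *ᵥ v) v := by
    by_cases h2 : (2 : F) = 0
    · obtain ⟨t, ht, h⟩ := hb.exists_half_of_ne h2 hτ hx hne hfix
      exact ⟨t, ht, quad_eq_of_comm h2 hQ hH hn hI h fun g hg =>
        ⟨t, h, hc _ ht _ (sub_mem (conj_mem_of_normalizes hN hg ht) ht)⟩⟩
    · exact ⟨(2 : F)⁻¹ • 1, K.smul_mem (one_mem _) _, fun v => by
        rw [smul_mulVec, one_mulVec, polar_smul_left, quad_polar_self hQ, smul_eq_mul, inv_mul_cancel_left₀ h2]⟩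
  intro k hk
  obtain ⟨c, hc'⟩ := hfix _ (mul_mem (hτ k hk) hk) (by rw [hb.adj_mul, hb.adj_adj])
  refine ⟨c, fun v => ?_⟩
  rw [h, mulVec_mulVec, hc _ ht _ hk, ← mulVec_mulVec, hb.adj_spec k, mulVec_mulVec, hc', smul_mulVec, one_mulVec,
    polar_smul_right, ← h, smul_eq_mul]

theorem four_dvd_of_unitary [Nonempty ι] (hQ : IsNondegenerateQuadraticForm Q) {K : Subalgebra F (Matrix ι ι F)}
    (hK : IsFieldSubalgebra 2 K) (hτ : IsAdjointClosedFor (polar Q) K)
    (hq : ∀ k ∈ K, ∃ c : F, ∀ v, Q (k *ᵥ v) = c * Q v) (hp : IsPlusTypeOn Q ⊤) : 4 ∣ Fintype.card ι := by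
  obtain ⟨U, h1, h2, h3⟩ := exists_max_inv K (fun S => ∀ x ∈ S, Q x = 0) (by rintro _ rfl; exact map_zero Q)
  obtain ⟨Y, -, h4, h5⟩ := hp
  have hW := isWittForm_of_nondeg (nondeg_toQF hQ)
  have h6 := hW.finrank_le_of_maximal U Y (fun x hx => (h2 x hx).trans (map_zero Q).symm) (polar_eq_zero_of_singular h2)
    (fun x hx => (h4 x hx).trans (map_zero Q).symm) (polar_eq_zero_of_singular h4) fun W hW h7 h8 =>
    le_antisymm (fun w hw => h3 w (by
      rintro _ ⟨u, hu, k, hk, rfl⟩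
      obtain ⟨c, hc⟩ := hq k hk
      obtain ⟨k', hk', h9⟩ := hτ k hk
      rw [map_add', h2 u hu, hc, show Q w = 0 from (h7 w hw).trans (map_zero Q), polar_comm, h9,
        show polar Q w _ = 0 from h8 w hw _ (hW (h1 k' hk' u hu))]
      simp)) hW
  have h7 := hW.two_mul_finrank_le U (polar_eq_zero_of_singular h2)
  obtain ⟨s, hs⟩ := (isFld_of hK).finrank_dvd_of_inv h1
  rw [hK.finrank_eq] at hs
  simp at h5 h7
  exact ⟨s, by omega⟩

/-! ### Groups of symplectic type -/

theorem plus_of_involution [Fintype F] (h2 : (2 : F) ≠ 0) (hQ : IsNondegenerateQuadraticForm Q)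
    (h4 : 4 ∣ Fintype.card ι) {x y : GL ι F} (hx : Isom (polar Q) x) (hy : Isom (polar Q) y) (hxx : x * x = 1)
    (hxy : y * x = -(x * y)) : IsPlusTypeOn Q ⊤ := by
  have hb := isSesq_polar hQ
  have h0 : (x : Matrix ι ι F) * x = 1 := congrArg Units.val hxx
  have h1 : adj (RingHom.id F) (polar Q) (x : Matrix ι ι F) = x := by rw [hb.adj_isom hx, inv_eq_of_mul_eq_one_right hxx]
  let e : Matrix ι ι F := (2 : F)⁻¹ • (1 + x)
  have he : e * e = e := by
    rw [Matrix.smul_mul, Matrix.mul_smul, add_mul, mul_add, mul_add, h0, Matrix.mul_one, Matrix.one_mul,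
      Matrix.mul_one, add_comm (x : Matrix ι ι F), ← two_smul F, smul_smul _ 2, inv_mul_cancel₀ h2, one_smul]
  have hτ : adj (RingHom.id F) (polar Q) e = e := by rw [hb.adj_smul, hb.adj_add, hb.adj_one, h1, RingHom.id_apply]
  have h3 : e + conjAlg y e = 1 := by
    rw [map_smul, map_add, map_one, conjAlg_coe, hxy, neg_mul, mul_inv_cancel_right, ← smul_add, Units.val_neg,
      add_add_add_comm, add_neg_cancel, add_zero, ← two_smul F, smul_smul, inv_mul_cancel₀ h2, one_smul]
  have hW := hb.nondegOn_rng he hτ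
  have h5 := (hb.isCompl_perp hW).2
  have h6 : rng (conjAlg y e) = operp Q (rng e) := le_antisymm (areOrthogonalFor_iff.mp (hb.orth_rng (by
    rw [hτ, eq_sub_of_add_eq' h3, Matrix.mul_sub, he, Matrix.mul_one, sub_self]))) fun v hv => ⟨v, by
      have : e *ᵥ v = 0 := hb.nondeg' _ fun u => by
        rw [hb.adj_spec, hτ]; exact mem_operp'.mp hv _ (mulVec_mem_rng e u)
      rw [toLin'_apply, eq_sub_of_add_eq' h3, sub_mulVec, this, one_mulVec, sub_zero]⟩
  have h7 := finrank_add_finrank_operp (nondeg_toQF hQ) (rng e)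
  by_contra h
  refine not_areIsometricFor_operp_of_minus (nondeg_toQF hQ) h hW ?_
    (areIsometricFor_of_map (quad_of_isom_polar hQ h2 hy) ((map_rng y e).trans h6))
  rw [show operp (toQF hQ) (rng e) = _ from h6.symm, finrank_rng_conjAlg, finrank_fintype_fun_eq_card] at h7
  obtain ⟨s, hs⟩ := h4
  exact ⟨s, by omega⟩

theorem plus_of_heis [Fintype F] (h2 : (2 : F) ≠ 0) (hQ : IsNondegenerateQuadraticForm Q) (h4 : 4 ∣ Fintype.card ι)
    (hn : 2 ≤ Fintype.card ι) {R : Subgroup (GL ι F)} (hR : C6Data 2 H R) (hI : ∀ x ∈ R, Isom (polar Q) x) :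
    IsPlusTypeOn Q ⊤ := by
  have : Nonempty ι := Fintype.card_pos_iff.mp (by omega)
  have hb := isSesq_polar hQ
  have hsq : ∀ x ∈ R, x * x = 1 ∨ x * x = -1 := fun x hx => by
    obtain ⟨u, rfl | ⟨-, rfl⟩, h⟩ := hR.pow x hx
    · exact Or.inl (by rw [← pow_two, h, map_one])
    · exact Or.inr (by rw [← pow_two, h, scal_neg_one])
  obtain ⟨x, hx, y, hy, u, hu, h⟩ := hR.heis.exists_not_comm hn
  obtain rfl : u = -1 := (sq_eq_one_of_isom hb (hI _ (by
    rw [← inv_mul_eq_iff_eq_mul.mpr h]; exact mul_mem (inv_mem (mul_mem hx hy)) (mul_mem hy hx)))).resolve_left hu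
  rw [scal_neg_one, mul_neg_one] at h
  rcases hsq x hx with h1 | h1
  · exact plus_of_involution h2 hQ h4 (hI x hx) (hI y hy) h1 h
  rcases hsq y hy with h3 | h3
  · exact plus_of_involution h2 hQ h4 (hI y hy) (hI x hx) h3 (by rw [h, neg_neg])
  obtain ⟨a, b, hab⟩ : ∃ a b : F, a ^ 2 + b ^ 2 = -1 := by
    obtain ⟨a, b, h⟩ := FiniteField.exists_root_sum_quadratic (f := Polynomial.X ^ 2 + 1) (g := Polynomial.X ^ 2)
      (Polynomial.degree_X_pow_add_C two_pos (1 : F)) (Polynomial.degree_X_pow 2)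
      (FiniteField.odd_card_of_char_ne_two (ringChar_ne_two_of_two_ne_zero h2))
    exact ⟨a, b, by simp at h; linear_combination h⟩
  have h5 : ∀ x ∈ R, x * x = -1 → adj (RingHom.id F) (polar Q) (x : Matrix ι ι F) = -x := fun x hx h => by
    rw [hb.adj_isom (hI x hx), inv_eq_of_mul_eq_one_right (show x * -x = 1 by rw [mul_neg, h, neg_neg]), Units.val_neg]
  have h6 : (x : Matrix ι ι F) * x = -1 := congrArg Units.val h1
  have h7 : (y : Matrix ι ι F) * y = -1 := congrArg Units.val h3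
  have h8 : (y : Matrix ι ι F) * x = -(x * y) := congrArg Units.val h
  refine plus_of_idem hQ (e := (2 : F)⁻¹ • (1 + (a • x + b • y))) ?_ ?_ (Or.inl h2)
  · simp only [Matrix.smul_mul, Matrix.mul_smul, add_mul, mul_add, Matrix.mul_one, Matrix.one_mul, h6, h7, h8]
    match_scalars <;> field_simp
    · linear_combination -hab
    all_goals ring
  · rw [hb.adj_smul, hb.adj_add, hb.adj_add, hb.adj_smul, hb.adj_smul, hb.adj_one, h5 x hx h1, h5 y hy h3]
    match_scalars <;> simp
    rw [← two_mul, mul_inv_cancel₀ h2]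

end CL.Asch
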