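/-
The four-dimensional orthogonal space of plus type as a tensor product of two alternating planes.
-/
import Cfsg.Agent.Cls.MaxPlane

set_option autoImplicit false

namespace CL.Asch

open Matrix Cfsg Cfsg.Geo Module
open scoped MatrixGroups Kronecker

variable {ι : Type} [Fintype ι] [DecidableEq ι] {F : Type*} [Field F]

/-- The Gram matrix of the standard alternating plane. -/
def altTwo (F : Type*) [Field F] : Matrix (Fin 2) (Fin 2) F := !![0, 1; -1, 0]

theorem isSesq_altTwo : IsSesq (RingHom.id F) (-1) (gform (RingHom.id F) (altTwo F)) :=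
  isSesq_gform (fun _ => rfl) (by simp) (fun a b => by fin_cases a <;> fin_cases b <;> simp [altTwo])
    (by simp [altTwo, det_fin_two])

theorem isSesq_altTwo_kron : IsSesq (RingHom.id F) 1 (gform (RingHom.id F) (altTwo F ⊗ₖ altTwo F)) := by
  simpa [gramMatrix_gform] using (isSesq_altTwo (F := F)).kron isSesq_altTwo

theorem transpose_mul_altTwo (a : Matrix (Fin 2) (Fin 2) F) : aᵀ * altTwo F * a = a.det • altTwo F := by
  ext i j
  fin_cases i <;> fin_cases j <;> simp [altTwo, det_fin_two, mul_apply, Fin.sum_univ_two] <;> ring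

/-- The interchange of the two tensor factors. -/
def swapGL (κ : Type) [Fintype κ] [DecidableEq κ] (F : Type*) [Field F] : GL (κ × κ) F :=
  ⟨(Equiv.prodComm κ κ).toPEquiv.toMatrix, (Equiv.prodComm κ κ).toPEquiv.toMatrix,
    by rw [PEquiv.toMatrix_toPEquiv_mul]; ext a b; simp [PEquiv.toMatrix_apply, one_apply, Prod.ext_iff],
    by rw [PEquiv.toMatrix_toPEquiv_mul]; ext a b; simp [PEquiv.toMatrix_apply, one_apply, Prod.ext_iff]⟩

theorem coe_swapGL : (swapGL ι F).val = (Equiv.prodComm ι ι).toPEquiv.toMatrix := rfl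

theorem inv_swapGL : (swapGL ι F)⁻¹ = swapGL ι F := rfl

theorem conjAlg_swapGL (a b : Matrix ι ι F) : conjAlg (swapGL ι F) (a ⊗ₖ b) = b ⊗ₖ a := by
  rw [conjAlg_apply, inv_swapGL, coe_swapGL, PEquiv.toMatrix_toPEquiv_mul, PEquiv.mul_toMatrix_toPEquiv]
  ext x y
  simp [mul_comm]

theorem transpose_swapGL : (swapGL ι F).valᵀ = (swapGL ι F).val := (PEquiv.toMatrix_symm _).symm

theorem det_swapGL : (swapGL (Fin 2) F).val.det = -1 := by
  have h : Equiv.Perm.sign (Equiv.prodComm (Fin 2) (Fin 2)) = -1 := by decide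
  exact (det_permutation _).trans (by rw [h]; simp)

theorem exists_of_skew_four (h2 : (2 : F) ≠ 0) {x : Matrix (Fin 2 × Fin 2) (Fin 2 × Fin 2) F}
    (hx : adj (RingHom.id F) (gform (RingHom.id F) (altTwo F ⊗ₖ altTwo F)) x = -x) {c : F} (hc : x * x = c • 1) :
    x ∈ (kronLeft (Fin 2) (Fin 2) F).range ∨ x ∈ (kronRight (Fin 2) (Fin 2) F).range := by
  have h := isSesq_altTwo_kron.gram_adj x
  rw [hx, gramMatrix_gform] at h
  have e := fun a b => congrFun (congrFun h a) b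
  simp only [Prod.forall, Fin.forall_fin_two] at e
  simp [altTwo, mul_apply, Fintype.sum_prod_type, Fin.sum_univ_two] at e
  obtain ⟨⟨⟨⟨e1, e2⟩, e3, e4⟩, ⟨-, e5⟩, e6, e7⟩, ⟨⟨-, -⟩, e8, e9⟩, -, -, e10⟩ := e
  have z : ∀ {y : F}, y = -y → y = 0 := fun h => (mul_eq_zero_iff_left h2).mp (by linear_combination h)
  obtain ⟨s, hs⟩ : ∃ s, x (0, 0) (0, 0) + x (0, 1) (0, 1) = 2 * s := ⟨_, (mul_div_cancel₀ _ h2).symm⟩
  obtain ⟨a, b, ha, hb, rfl⟩ : ∃ a b : Matrix (Fin 2) (Fin 2) F, a 1 1 = -a 0 0 ∧ b 1 1 = -b 0 0 ∧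
      x = a ⊗ₖ (1 : Matrix (Fin 2) (Fin 2) F) + (1 : Matrix (Fin 2) (Fin 2) F) ⊗ₖ b := by
    refine ⟨!![s, x (0, 0) (1, 0); x (1, 0) (0, 0), -s], !![x (0, 0) (0, 0) - s, x (0, 0) (0, 1);
      x (0, 1) (0, 0), s - x (0, 0) (0, 0)], rfl, by simp, ?_⟩
    ext ⟨i, j⟩ ⟨k, l⟩
    fin_cases i <;> fin_cases j <;> fin_cases k <;> fin_cases l <;> simp [z e1, z e5.symm, z e8.symm, z e10] <;> grind
  have e := fun p q => congrFun (congrFun hc p) q
  simp only [Prod.forall, Fin.forall_fin_two] at e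
  simp [mul_apply, Fintype.sum_prod_type, Fin.sum_univ_two, ha, hb] at e
  by_cases h0 : a = 0
  · exact Or.inr ⟨b, by simp [h0, kronRight_apply]⟩
  refine Or.inl ⟨a, ?_⟩
  obtain rfl : b = 0 := by
    by_contra h1
    have h3 : a 0 0 ≠ 0 ∨ a 0 1 ≠ 0 ∨ a 1 0 ≠ 0 := by
      by_contra! h
      exact h0 (by ext i j; fin_cases i <;> fin_cases j <;> simp [ha, h])
    have h4 : b 0 0 ≠ 0 ∨ b 0 1 ≠ 0 ∨ b 1 0 ≠ 0 := by
      by_contra! h
      exact h1 (by ext i j; fin_cases i <;> fin_cases j <;> simp [hb, h])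
    clear hx hc h e1 e2 e3 e4 e5 e6 e7 e8 e9 e10 hs
    rcases h3 with h | h | h <;> rcases h4 with h' | h' | h' <;> refine mul_ne_zero h h' (z ?_) <;> grind
  simp [kronLeft_apply]

theorem adj_altTwo (a : Matrix (Fin 2) (Fin 2) F) :
    adj (RingHom.id F) (gform (RingHom.id F) (altTwo F)) a = a.trace • 1 - a :=
  isSesq_altTwo.adj_eq fun u v => by
    simp [gform, altTwo, trace_fin_two, mulVec, dotProduct, Fin.sum_univ_two, one_apply]
    ring

theorem le_or_le_of_forall {M : Type*} [AddCommGroup M] [Module F M] {S A B : Submodule F M}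
    (h : ∀ x ∈ S, x ∈ A ∨ x ∈ B) : S ≤ A ∨ S ≤ B := by
  by_contra! hc
  obtain ⟨a, ha, ha'⟩ := SetLike.not_le_iff_exists.mp hc.1
  obtain ⟨b, hb, hb'⟩ := SetLike.not_le_iff_exists.mp hc.2
  rcases h _ (add_mem ha hb) with h1 | h1
  · exact ha' ((A.add_mem_iff_left ((h b hb).resolve_right hb')).mp h1)
  · exact hb' ((B.add_mem_iff_right ((h a ha).resolve_left ha')).mp h1)

/-- A similarity of the four-dimensional space of plus type preserves or interchanges the two factors. -/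
theorem exists_kronGL_four (h2 : (2 : F) ≠ 0) {g : GL (Fin 2 × Fin 2) F}
    (hg : g ∈ similarityGroup (gform (RingHom.id F) (altTwo F ⊗ₖ altTwo F))) :
    ∃ a b : GL (Fin 2) F, g = kronGL a b ∨ g = swapGL (Fin 2) F * kronGL a b := by
  have hb := isSesq_altTwo_kron (F := F)
  let θ : Matrix (Fin 2) (Fin 2) F →ₐ[F] Matrix (Fin 2 × Fin 2) (Fin 2 × Fin 2) F :=
    (conjAlg g).toAlgHom.comp (kronLeft (Fin 2) (Fin 2) F)
  have key : ∀ A : Subalgebra F (Matrix (Fin 2 × Fin 2) (Fin 2 × Fin 2) F),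
      (LinearMap.ker (traceLinearMap (Fin 2) F F)).map θ.toLinearMap ≤ Subalgebra.toSubmodule A → ∀ a, θ a ∈ A :=
    fun A hA a => by
      have h1 := hA ⟨a - ((2 : F)⁻¹ * a.trace) • 1, by simp [mul_right_comm, h2], rfl⟩
      rw [map_sub, map_smul, AlgHom.toLinearMap_apply, AlgHom.toLinearMap_apply, map_one] at h1
      simpa using add_mem h1 (A.smul_mem (one_mem A) ((2 : F)⁻¹ * a.trace))
  rcases le_or_le_of_forall (S := (LinearMap.ker (traceLinearMap (Fin 2) F F)).map θ.toLinearMap)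
    (A := Subalgebra.toSubmodule (kronLeft (Fin 2) (Fin 2) F).range)
    (B := Subalgebra.toSubmodule (kronRight (Fin 2) (Fin 2) F).range) (by
      rintro _ ⟨a, ha, rfl⟩
      have h0 : a.trace = 0 := ha
      refine exists_of_skew_four h2 (c := -a.det) ?_ ?_
      · have := (isSesq_altTwo (F := F)).adj_kron isSesq_altTwo a 1
        rw [gramMatrix_gform, isSesq_altTwo.adj_one, adj_altTwo, h0, zero_smul, zero_sub] at this
        exact (hb.adj_conjAlg_of_sim hg _).trans ((congrArg _ this).trans (map_neg θ a))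
      · change θ a * θ a = _
        rw [← map_mul, ← map_one θ, ← map_smul]
        congr 1
        rw [trace_fin_two, add_eq_zero_iff_neg_eq] at h0
        ext i j
        fin_cases i <;> fin_cases j <;> simp [mul_apply, det_fin_two, Fin.sum_univ_two, ← h0] <;> ring) with h | h
  · obtain ⟨a, b, h⟩ := exists_kronGL_of_normalizes g fun a => (key _ h a).imp fun _ h => h.symm
    exact ⟨a, b, Or.inl h⟩
  · obtain ⟨a, b, h⟩ := exists_kronGL_of_normalizes ((swapGL (Fin 2) F)⁻¹ * g) fun a => (key _ h a).imp fun a' h => by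
      rw [conjAlg_mul, inv_swapGL, ← conjAlg_swapGL 1 a']
      exact congrArg _ h.symm
    exact ⟨a, b, Or.inr (inv_mul_eq_iff_eq_mul.mp h)⟩

theorem det_of_swap_four {a b : GL (Fin 2) F} {c : F}
    (hg : ∀ u v, gform (RingHom.id F) (altTwo F ⊗ₖ altTwo F) ((swapGL (Fin 2) F * kronGL a b).val *ᵥ u)
      ((swapGL (Fin 2) F * kronGL a b).val *ᵥ v) = c * gform (RingHom.id F) (altTwo F ⊗ₖ altTwo F) u v) :
    (swapGL (Fin 2) F * kronGL a b).val.det = -c ^ 2 := by
  have h := isSesq_altTwo_kron.gram_pullback isSesq_altTwo_kron _ c hg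
  have h1 := conjAlg_swapGL (altTwo F) (altTwo F)
  rw [conjAlg_apply, inv_swapGL] at h1
  rw [gramMatrix_gform, Units.val_mul, transpose_mul, transpose_swapGL, RingHom.coe_id, Matrix.map_id,
    Matrix.mul_assoc, Matrix.mul_assoc, ← Matrix.mul_assoc (swapGL _ F).val, ← Matrix.mul_assoc _ (swapGL _ F).val,
    h1, coe_kronGL, ← kroneckerMap_transpose, ← mul_kronecker_mul, ← mul_kronecker_mul, ← Matrix.mul_assoc,
    ← Matrix.mul_assoc, transpose_mul_altTwo, transpose_mul_altTwo] at h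
  have h3 := congrFun (congrFun h (0, 0)) (1, 1)
  simp [altTwo] at h3
  rw [Units.val_mul, det_mul, det_swapGL, coe_kronGL, det_kronecker, ← h3]
  simp
  ring

theorem det_transAlg {κ : Type} [Fintype κ] [DecidableEq κ] (e : ι ≃ κ) (P : GL ι F) (x : Matrix κ κ F) :
    (transAlg e P x).det = x.det := by
  rw [transAlg_apply, det_mul, det_mul, mul_right_comm, ← det_mul, gl_mul_inv, det_one, one_mul,
    det_submatrix_equiv_self]

/-- The two commuting matrix algebras attached to a symmetric form of square discriminant in dimension four. -/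
theorem exists_split_four [Finite F] (h2 : (2 : F) ≠ 0) {f : (Fin 4 → F) → (Fin 4 → F) → F}
    (hf : IsSesq (RingHom.id F) 1 f) (hs : IsSquare (gramMatrix f).det) :
    ∃ l r : Matrix (Fin 2) (Fin 2) F →ₐ[F] Matrix (Fin 4) (Fin 4) F,
      (∀ a, adj (RingHom.id F) f (l a) = l (a.trace • 1 - a)) ∧ (∀ a, adj (RingHom.id F) f (r a) = r (a.trace • 1 - a)) ∧
      (∀ a b, l a * r b = r b * l a) ∧ l.range ⊔ r.range = ⊤ ∧
      ∀ (g : GL (Fin 4) F) (c : F), c ≠ 0 → (∀ u v, f (g.val *ᵥ u) (g.val *ᵥ v) = c * f u v) →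
        ((∀ a, ∃ a', conjAlg g (l a) = l a') ∧ ∀ a, ∃ a', conjAlg g (r a) = r a') ∨
        (g.val.det = -c ^ 2 ∧ (∀ a, ∃ a', conjAlg g (l a) = r a') ∧ ∀ a, ∃ a', conjAlg g (r a) = l a') := by
  let e : Fin 4 ≃ Fin 2 × Fin 2 := (finProdFinEquiv (m := 2) (n := 2)).symm
  obtain ⟨A, hA⟩ := similar_of_symm_of_isSquare h2 isSesq_altTwo_kron (hf.transForm e 1) (by
    rw [gramMatrix_gform, det_kronecker, show gramMatrix (transForm e 1 f) = (gramMatrix f).submatrix e.symm e.symm by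
      ext i j
      simp only [gramMatrix, transForm, Units.val_one, one_mulVec, submatrix_apply]
      congr 1 <;> ext k <;> simp [Pi.single_apply, Equiv.eq_symm_apply], det_submatrix_equiv_self]
    simpa [altTwo, det_fin_two] using hs)
  have hP : ∀ x y, transForm e (glReindex e.symm A) f x y =
      1 * gform (RingHom.id F) (gramMatrix (gform (RingHom.id F) (altTwo F)) ⊗ₖ
        gramMatrix (gform (RingHom.id F) (altTwo F))) x y := fun x y => by
    rw [gramMatrix_gform, one_mul, ← hA, transForm, transForm, glReindex_symm_mulVec, glReindex_symm_mulVec,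
      Units.val_one, one_mulVec, one_mulVec]
  generalize glReindex e.symm A = P at hP
  have hadj := adj_trans_kron hf isSesq_altTwo isSesq_altTwo hP
  refine ⟨kL e P, kR e P, fun a => by rw [kL_apply, hadj, isSesq_altTwo.adj_one, adj_altTwo, kL_apply],
    fun a => by rw [kR_apply, hadj, isSesq_altTwo.adj_one, adj_altTwo, kR_apply], kL_comm_kR e P, kL_sup_kR e P,
    fun g c hc hg => ?_⟩
  obtain ⟨g, rfl⟩ := (transGL e P).surjective g
  have h1 : ∀ u v, gform (RingHom.id F) (altTwo F ⊗ₖ altTwo F) (g.val *ᵥ u) (g.val *ᵥ v) =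
      c * gform (RingHom.id F) (altTwo F ⊗ₖ altTwo F) u v := fun u v => by
    have := hg (P.val *ᵥ (u ∘ e)) (P.val *ᵥ (v ∘ e))
    rw [coe_transGL, transAlg_mulVec, transAlg_mulVec] at this
    simpa only [gramMatrix_gform, one_mul] using (hP _ _).symm.trans (this.trans (congrArg (c * ·) (hP u v)))
  obtain ⟨a, b, rfl | rfl⟩ := exists_kronGL_four h2 ⟨Units.mk0 c hc, h1⟩
  · exact Or.inl ⟨fun x => ⟨conjAlg a x, by rw [kL_apply, conjAlg_transGL, conjAlg_kronGL, map_one, kL_apply]⟩,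
      fun x => ⟨conjAlg b x, by rw [kR_apply, conjAlg_transGL, conjAlg_kronGL, map_one, kR_apply]⟩⟩
  · exact Or.inr ⟨by rw [coe_transGL, det_transAlg, det_of_swap_four h1], fun x => ⟨conjAlg a x, by
      rw [kL_apply, conjAlg_transGL, conjAlg_mul, conjAlg_kronGL, map_one, conjAlg_swapGL, kR_apply]⟩,
      fun x => ⟨conjAlg b x, by
      rw [kR_apply, conjAlg_transGL, conjAlg_mul, conjAlg_kronGL, map_one, conjAlg_swapGL, kL_apply]⟩⟩

theorem IsSesq.adj_alt_two {ε : F} {f : (Fin 2 → F) → (Fin 2 → F) → F} (hf : IsSesq (RingHom.id F) ε f)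
    (halt : ∀ v, f v v = 0) (a : Matrix (Fin 2) (Fin 2) F) : adj (RingHom.id F) f a = a.trace • 1 - a :=
  hf.adj_eq fun u v => by
    have h := hf.skew_of_alt halt (Pi.single 1 1) (Pi.single 0 1)
    rw [hf.isSL.eq_gform, hf.isSL.eq_gform u]
    simp [gform, gramMatrix, trace_fin_two, mulVec, dotProduct, Fin.sum_univ_two, one_apply, halt, h]
    ring

theorem IsSesq.adj_of_mult {ε : F} {f : (ι → F) → (ι → F) → F} (hf : IsSesq (RingHom.id F) ε f) {g : GL ι F} {c : F}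
    (hg : ∀ u v, f (g.val *ᵥ u) (g.val *ᵥ v) = c * f u v) : adj (RingHom.id F) f g.val * g.val = c • 1 :=
  hf.ext_right fun u v => by
    rw [← mulVec_mulVec, ← hf.adj_spec, hg, smul_mulVec, one_mulVec, hf.isSL.smul_right, RingHom.id_apply]

theorem IsSesq.det_sq_of_mult {ε : F} {f : (ι → F) → (ι → F) → F} (hf : IsSesq (RingHom.id F) ε f) {g : GL ι F} {c : F}
    (hg : ∀ u v, f (g.val *ᵥ u) (g.val *ᵥ v) = c * f u v) : g.val.det ^ 2 = c ^ Fintype.card ι := by
  have h := congrArg det (hf.gram_pullback hf _ c hg)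
  rw [RingHom.coe_id, Matrix.map_id, det_mul, det_mul, det_transpose, det_smul] at h
  exact mul_right_cancel₀ hf.isUnit_gram.ne_zero (by linear_combination h)

theorem isom_comm_of_sim {f : (ι → F) → (ι → F) → F} {g h : GL ι F} (hg : g ∈ similarityGroup f)
    (hh : h ∈ similarityGroup f) : Isom f (g * h * g⁻¹ * h⁻¹) := fun u v => by
  obtain ⟨c, hc⟩ := hg
  obtain ⟨d, hd⟩ := hh
  simp only [Units.val_mul, ← mulVec_mulVec]
  rw [hc, hd, mul_left_comm, ← hc, gl_mulVec_inv, gl_mulVec_inv, ← hd, gl_mulVec_inv, gl_mulVec_inv]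

theorem IsSesq.plus_iff_det [Finite F] {f : (ι → F) → (ι → F) → F} (hf : IsSesq (RingHom.id F) 1 f) (h2 : (2 : F) ≠ 0)
    {m : ℕ} (hm : Fintype.card ι = 2 * m) :
    IsPlusTypeOn (fun v => f v v) ⊤ ↔ IsSquare ((-1) ^ m * (gramMatrix f).det) := by
  have hs : ∀ u v, f v u = f u v := fun u v => by simpa using hf.symm u v
  rw [show gramMatrix f = LinearMap.BilinForm.toMatrix (Pi.basisFun F ι) hf.bil by
    ext i j; simp [gramMatrix, hf.bil_apply], ← CL.Cls.symm_plus_iff_isSquare_det h2 (B := hf.bil)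
      ⟨fun u v => hs v u⟩ ⟨hf.nondeg', hf.nondeg⟩ (m := m) (by simpa using hm)]
  refine ⟨fun ⟨X, _, h, hd⟩ => ⟨X, by simp at hd; omega, fun x hx y hy => ?_⟩,
    fun ⟨X, hd, h⟩ => ⟨X, le_top, fun x hx => h x hx x hx, by simp; omega⟩⟩
  exact (mul_eq_zero_iff_left h2).mp ((hf.polar_self_form x y).symm.trans (singularFor_of_quad h x hx y hy))

namespace TensorPair

variable {ε : F} {f : (ι → F) → (ι → F) → F} {H : Subgroup (GL ι F)} {k m : ℕ}
  {e : ι ≃ Fin k × Fin m} {P : GL ι F} {φ : Matrix (Fin k) (Fin k) F →ₐ[F] Matrix ι ι F}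
  {ψ : Matrix (Fin m) (Fin m) F →ₐ[F] Matrix ι ι F} {ε₁ ε₂ : F} {f₁ : (Fin k → F) → (Fin k → F) → F}
  {f₂ : (Fin m → F) → (Fin m → F) → F}

/-- The two factors of an isometry preserving a tensor decomposition. -/
theorem exists_factors [Nonempty ι] (h : TensorPair (RingHom.id F) ε f H e P φ ψ ε₁ ε₂ f₁ f₂)
    (hf : IsSesq (RingHom.id F) ε f) (hI : ∀ g ∈ H, Isom f g) {g : GL ι F} (hg : g ∈ H) :
    ∃ (a : GL (Fin k) F) (b : GL (Fin m) F) (c d : F), c * d = 1 ∧
      (∀ u v, f₁ (a.val *ᵥ u) (a.val *ᵥ v) = c * f₁ u v) ∧ (∀ u v, f₂ (b.val *ᵥ u) (b.val *ᵥ v) = d * f₂ u v) ∧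
      g.val.det = a.val.det ^ m * b.val.det ^ k ∧ (∀ x, conjAlg g (φ x) = φ (conjAlg a x)) ∧
      ∀ x, conjAlg g (ψ x) = ψ (conjAlg b x) := by
  obtain ⟨i⟩ := ‹Nonempty ι›
  have : Nonempty ι := ⟨i⟩
  have : Nonempty (Fin k) := ⟨(e i).1⟩
  have : Nonempty (Fin m) := ⟨(e i).2⟩
  obtain ⟨a, b, hab⟩ := (mem_tensorProductSubgroup e P g).mp (h.le hg)
  have h0 : g = transGL e P (kronGL a b) := Units.ext hab
  have h1 : ∀ x, conjAlg g (φ x) = φ (conjAlg a x) := fun x => by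
    rw [h0, h.left, conjAlg_transGL, conjAlg_kronGL, map_one, h.left]
  have h2 : ∀ x, conjAlg g (ψ x) = ψ (conjAlg b x) := fun x => by
    rw [h0, h.right, conjAlg_transGL, conjAlg_kronGL, map_one, h.right]
  obtain ⟨c, hc⟩ := indGrp_le_similarityGroup hf h.sesqL h.adjL (le_sim_of_isom hI) ⟨g, hg, h1⟩
  obtain ⟨d, hd⟩ := indGrp_le_similarityGroup hf h.sesqR h.adjR (le_sim_of_isom hI) ⟨g, hg, h2⟩
  refine ⟨a, b, c, d, ?_, hc, hd, by rw [hab, det_transAlg, det_kronecker]; simp, h1, h2⟩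
  have h3 : g.val = φ a * ψ b := by
    rw [hab, h.left, h.right, ← map_mul, ← mul_kronecker_mul, Matrix.mul_one, Matrix.one_mul]
  have h4 := hf.adj_of_mult (c := 1) fun u v => by rw [hI g hg, one_mul]
  rw [h3, hf.adj_mul, h.adjL, h.adjR, Matrix.mul_assoc, ← Matrix.mul_assoc (φ _), ← map_mul, h.sesqL.adj_of_mult hc,
    map_smul, map_one, Matrix.smul_mul, Matrix.one_mul, Matrix.mul_smul, ← map_mul, h.sesqR.adj_of_mult hd, map_smul,
    map_one, smul_smul] at h4
  exact smul_left_injective F one_ne_zero h4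

/-- An odd-dimensional factor times a four-dimensional factor of plus type: a plane splits off. -/
theorem exists_two_of_four [Finite F] {e : ι ≃ Fin k × Fin 4} {ψ : Matrix (Fin 4) (Fin 4) F →ₐ[F] Matrix ι ι F}
    {f₂ : (Fin 4 → F) → (Fin 4 → F) → F} (h : TensorPair (RingHom.id F) ε f H e P φ ψ ε₁ 1 f₁ f₂) (h2 : (2 : F) ≠ 0)
    (hk : Odd k) (hf : IsSesq (RingHom.id F) ε f) (hI : ∀ g ∈ H, Isom f g) (hd : H ≤ specialLinear ι F)
    (hs : IsSquare (gramMatrix f₂).det) :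
    ∃ θ : Matrix (Fin 2) (Fin 2) F →ₐ[F] Matrix ι ι F, H ≤ subalgebraNormalizer θ.range ∧
      ∀ x ∈ θ.range, adj (RingHom.id F) f x ∈ θ.range := by
  have : Nonempty ι := ⟨e.symm (⟨0, hk.pos⟩, 0)⟩
  obtain ⟨l, r, hl, -, -, -, hg⟩ := exists_split_four h2 h.sesqR hs
  refine ⟨ψ.comp l, le_subalgebraNormalizer ?_, ?_⟩
  · rintro g hg' _ ⟨x, rfl⟩
    obtain ⟨a, b, c, d, hcd, ha, hb, h3, -, h4⟩ := h.exists_factors hf hI hg'
    rcases hg b d (right_ne_zero_of_mul_eq_one hcd) hb with ⟨h5, -⟩ | ⟨h5, -⟩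
    · obtain ⟨y, hy⟩ := h5 x
      exact ⟨y, ((h4 _).trans (congrArg ψ hy)).symm⟩
    · have h6 := h.sesqL.det_sq_of_mult ha
      rw [mem_specialLinear_iff.mp (hd hg'), h5, show 4 = 2 * 2 from rfl, pow_mul, h6, hk.neg_pow, Fintype.card_fin,
        ← pow_mul, ← pow_mul, mul_comm 2 k, mul_neg, ← mul_pow, hcd, one_pow] at h3
      exact absurd (by linear_combination h3) h2
  · rintro _ ⟨x, rfl⟩
    exact ⟨_, ((h.adjR _).trans (congrArg ψ (hl x))).symm⟩

/-- The stabiliser of a decomposition into an alternating plane and a four-space of plus type is not maximal. -/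
theorem not_max_two_four [Finite F] {e : ι ≃ Fin 2 × Fin 4} {φ : Matrix (Fin 2) (Fin 2) F →ₐ[F] Matrix ι ι F}
    {ψ : Matrix (Fin 4) (Fin 4) F →ₐ[F] Matrix ι ι F} {f₁ : (Fin 2 → F) → (Fin 2 → F) → F}
    {f₂ : (Fin 4 → F) → (Fin 4 → F) → F} (h : TensorPair (RingHom.id F) ε f H e P φ ψ ε₁ 1 f₁ f₂) (h2 : (2 : F) ≠ 0)
    (hf : IsSesq (RingHom.id F) ε f) (halt : ∀ v, f₁ v v = 0) (hs : IsSquare (gramMatrix f₂).det)
    {G : Subgroup (GL ι F)} {q : QuadraticForm F (ι → F)} (hG : Rich G q) (hq : SingBig q)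
    (hGf : ∀ g, g ∈ G ↔ Isom f g) : ¬ IsMaximalIn G H := by
  intro hH
  have : Nonempty ι := ⟨e.symm (0, 0)⟩
  obtain ⟨l, r, hl, hr, hc, hsup, hg⟩ := exists_split_four h2 h.sesqR hs
  let θ : Fin 3 → (Matrix (Fin 2) (Fin 2) F →ₐ[F] Matrix ι ι F) := ![φ, ψ.comp l, ψ.comp r]
  have hcomm : ∀ i j, i ≠ j → ∀ a b, θ i a * θ j b = θ j b * θ i a := fun i j hij a b => by
    fin_cases i <;> fin_cases j <;> simp [θ, h.comm, ← map_mul, hc] at hij ⊢
  have hgen : ⨆ i, (θ i).range = ⊤ := by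
    refine top_le_iff.mp (h.sup ▸ sup_le (le_iSup (fun i => (θ i).range) 0) ?_)
    rw [← Algebra.map_top, ← hsup, Algebra.map_sup]
    exact sup_le (le_iSup_of_le 1 (AlgHom.range_comp l ψ).ge) (le_iSup_of_le 2 (AlgHom.range_comp r ψ).ge)
  have hadj : ∀ i a, adj (RingHom.id F) f (θ i a) = θ i (a.trace • 1 - a) := fun i a => by
    fin_cases i
    · exact (h.adjL a).trans (congrArg φ (h.sesqL.adj_alt_two halt a))
    · exact (h.adjR _).trans (congrArg ψ (hl a))
    · exact (h.adjR _).trans (congrArg ψ (hr a))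
  obtain ⟨e', P', hθ⟩ := exists_trans_of_commuting two_pos θ hcomm hgen
  have hle : H ≤ tensorWreathSubgroup 2 3 e' P' := fun g hg' => by
    obtain ⟨a, b, c, d, hcd, -, hb, -, h3, h4⟩ := h.exists_factors hf (fun g hg => (hGf g).mp (hH.1.le hg)) hg'
    rcases hg b d (right_ne_zero_of_mul_eq_one hcd) hb with ⟨h5, h6⟩ | ⟨-, h5, h6⟩
    · refine mem_tensorWreathSubgroup_of_permutes three_pos e' P' g 1 fun i x => ?_
      simp only [← hθ]
      fin_cases i
      exacts [⟨_, h3 x⟩, (h5 x).imp fun y hy => (h4 _).trans (congrArg ψ hy),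
        (h6 x).imp fun y hy => (h4 _).trans (congrArg ψ hy)]
    · refine mem_tensorWreathSubgroup_of_permutes three_pos e' P' g (Equiv.swap 1 2) fun i x => ?_
      simp only [← hθ]
      fin_cases i
      exacts [⟨_, h3 x⟩, (h5 x).imp fun y hy => (h4 _).trans (congrArg ψ hy),
        (h6 x).imp fun y hy => (h4 _).trans (congrArg ψ hy)]
  have heq := eq_inf_of_max hH hle (hG.not_le_tensorWreathSubgroup hq le_rfl (by omega) e' P')
  have hs : ∀ π : Equiv.Perm (Fin 3), ∃ s ∈ tensorWreathSubgroup 2 3 e' P', s ∈ similarityGroup f ∧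
      ∀ i a, conjAlg s (θ i a) = θ (π i) a := fun π => by
    have h3 : ∀ i a, conjAlg (transGL e' P' (permGL 2 F π)) (θ i a) = θ (π i) a := fun i a => by
      rw [hθ, conjAlg_transGL, conjAlg_permGL_slot, hθ]
    refine ⟨_, (mem_tensorWreathSubgroup_iff_transGL e' P' _).mpr (permGL_mem π), hf.mem_similarityGroup_of_adj
      (⋃ i, ((θ i).range : Set (Matrix ι ι F)))
      (by simpa only [Algebra.adjoin_iUnion, Algebra.adjoin_eq] using hgen) ?_, h3⟩
    rintro _ ⟨_, ⟨i, rfl⟩, a, rfl⟩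
    exact (congrArg _ (h3 i a)).trans ((hadj _ a).trans ((h3 i _).symm.trans (congrArg _ (hadj i a).symm)))
  obtain ⟨s, hs1, hs2, hs3⟩ := hs (Equiv.swap 0 1)
  obtain ⟨t, ht1, ht2, ht3⟩ := hs (Equiv.swap 1 2)
  have h3 : s * t * s⁻¹ * t⁻¹ ∈ H := heq ▸ Subgroup.mem_inf.mpr
    ⟨mul_mem (mul_mem (mul_mem hs1 ht1) (inv_mem hs1)) (inv_mem ht1), (hGf _).mpr (isom_comm_of_sim hs2 ht2)⟩
  have h4 : ∀ a, conjAlg (s * t * s⁻¹ * t⁻¹) (φ a) = θ 2 a := fun a => by
    have h5 : conjAlg t⁻¹ (φ a) = θ 0 a := by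
      rw [← conjAlg_inv_conjAlg t (θ 0 a), ht3]; rfl
    have h6 : conjAlg s⁻¹ (θ 0 a) = θ 1 a := by
      rw [← conjAlg_inv_conjAlg s (θ 1 a), hs3]; rfl
    rw [conjAlg_mul, conjAlg_mul, conjAlg_mul, h5, h6, ht3, hs3]
    rfl
  obtain ⟨a, ha⟩ := conj_mem_of_normalizes h.normL h3 (φ.mem_range_self (single 0 1 1))
  have h5 := hcomm 0 2 (by decide) a (single 1 0 1)
  rw [show θ 0 a = θ 2 (single 0 1 1) from ha.trans (h4 _), ← map_mul, ← map_mul] at h5
  simpa using congrFun (congrFun (algHom_injective _ h5) 0) 0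

end TensorPair

end CL.Asch
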