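/-
The maximal subgroups of the symplectic groups: the geometric cases with their side conditions.
-/
import Cfsg.Agent.Cls.MaxTools
import Cfsg.Agent.Cls.AschSp

set_option autoImplicit false

namespace CL.Asch

open Matrix Cfsg Cfsg.Geo Module
open scoped MatrixGroups

theorem conj_isom_of_sim {ι : Type} [Fintype ι] [DecidableEq ι] {F : Type*} [Field F] {f : (ι → F) → (ι → F) → F}
    {x g : GL ι F} (hx : x ∈ similarityGroup f) (hg : Isom f g) : Isom f (x * g * x⁻¹) := fun u v => by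
  obtain ⟨c, hc⟩ := hx
  rw [Units.val_mul, Units.val_mul, ← mulVec_mulVec, ← mulVec_mulVec, ← mulVec_mulVec, ← mulVec_mulVec, hc, hg, ← hc,
    gl_mulVec_inv, gl_mulVec_inv]

/-- The list of geometric types of maximal subgroups of `Sp_{2m}(q)`. -/
def SpList (m : ℕ) (F : Type*) [Field F] [Fintype F] (H : Subgroup (GL (Fin m ⊕ Fin m) F)) : Prop :=
  (∃ W : Submodule F (Fin m ⊕ Fin m → F), W ≠ ⊥ ∧ IsTotallySingularFor (sympForm m F) W ∧
    H = subspaceStabilizer W ⊓ spGL m F) ∨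
  (∃ W : Submodule F (Fin m ⊕ Fin m → F), 2 < m ∧ W ≠ ⊥ ∧ IsNondegenerateOn (sympForm m F) W ∧ finrank F W < m ∧
    H = subspaceStabilizer W ⊓ spGL m F) ∨
  (∃ (t k : ℕ) (D : Fin t → Submodule F (Fin m ⊕ Fin m → F)), 2 ≤ t ∧ 1 ≤ k ∧ t * k = m ∧
    (k = 1 → 3 ≤ Fintype.card F) ∧ IsNondegenerateMDecomposition (sympForm m F) (2 * k) D ∧
    H = decompositionStabilizer D ⊓ spGL m F) ∨
  (Odd (Fintype.card F) ∧ Irr H ∧ ∃ D : Fin 2 → Submodule F (Fin m ⊕ Fin m → F), IsMDecomposition m D ∧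
    (∀ i, IsTotallySingularFor (sympForm m F) (D i)) ∧ H = decompositionStabilizer D ⊓ spGL m F) ∨
  (∃ (r : ℕ) (K : Subalgebra F (Matrix (Fin m ⊕ Fin m) (Fin m ⊕ Fin m) F)), r.Prime ∧ r ∣ m ∧
    IsFieldSubalgebra r K ∧ IsSelfAdjointFor (sympForm m F) K ∧ (∀ k ∈ K, ∀ v, sympForm m F (k *ᵥ v) v = 0) ∧
    H = subalgebraNormalizer K ⊓ spGL m F) ∨
  (Odd (Fintype.card F) ∧ ∃ K : Subalgebra F (Matrix (Fin m ⊕ Fin m) (Fin m ⊕ Fin m) F), IsFieldSubalgebra 2 K ∧
    IsAdjointClosedFor (sympForm m F) K ∧ ¬ IsSelfAdjointFor (sympForm m F) K ∧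
    H = subalgebraNormalizer K ⊓ spGL m F) ∨
  (Odd (Fintype.card F) ∧ Irr H ∧ ∃ (k l : ℕ) (e : (Fin m ⊕ Fin m) ≃ Fin (2 * k) × Fin l) (P : GL (Fin m ⊕ Fin m) F)
    (f₁ : (Fin (2 * k) → F) → (Fin (2 * k) → F) → F) (f₂ : (Fin l → F) → (Fin l → F) → F), 1 ≤ k ∧ 3 ≤ l ∧
    k * l = m ∧ (l = 3 → 5 ≤ Fintype.card F) ∧ IsSymplecticForm f₁ ∧ IsSymmetricForm f₂ ∧
    IsTensorFormStructure id (sympForm m F) f₁ f₂ e P ∧ H = tensorProductSubgroup (2 * k) l e P ⊓ spGL m F) ∨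
  (∃ (F₀ : Subfield F) (r : ℕ) (P : GL (Fin m ⊕ Fin m) F) (ζ : F), r.Prime ∧ Fintype.card F = Nat.card F₀ ^ r ∧
    ζ ≠ 0 ∧ IsFormRationalStructure (sympForm m F) F₀ ζ P ∧ H = subfieldSubgroup F₀ P ⊓ spGL m F) ∨
  (∃ (k p : ℕ) (R : Subgroup (GL (Fin m ⊕ Fin m) F)), 2 ^ k = 2 * m ∧ p.Prime ∧ Odd p ∧ Fintype.card F = p ∧
    IsSymplecticTypeGroup 2 R ∧ ActsAbsolutelyIrreducibly (matrixSet R) ∧ R ≤ similarityGroup (sympForm m F) ∧
    Nat.card R = 2 ^ (1 + 2 * k) ∧ Nat.card (Subgroup.center R) = 2 ∧ IsOfMinusType k R ∧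
    H = subgroupNormalizer R ⊓ spGL m F) ∨
  (Odd (Fintype.card F) ∧ ∃ (k t : ℕ) (e : (Fin m ⊕ Fin m) ≃ (Fin t → Fin k)) (P : GL (Fin m ⊕ Fin m) F)
    (f₁ : (Fin k → F) → (Fin k → F) → F), 2 ≤ k ∧ 3 ≤ t ∧ k ^ t = 2 * m ∧ (k = 2 → 5 ≤ Fintype.card F) ∧
    IsSymplecticForm f₁ ∧ IsTensorPowerFormStructure id (sympForm m F) f₁ e P ∧
    H = tensorWreathSubgroup k t e P ⊓ spGL m F) ∨
  (¬ Odd (Fintype.card F) ∧ ∃ Q : (Fin m ⊕ Fin m → F) → F, IsNondegenerateQuadraticForm Q ∧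
    (∀ u v, QuadraticMap.polar Q u v = sympForm m F u v) ∧ H = quadSimilarityGroup Q ⊓ spGL m F) ∨
  InSymplecticResidualClass H

variable {F : Type*} [Field F] [Fintype F] {m : ℕ} {H : Subgroup (GL (Fin m ⊕ Fin m) F)}

theorem five_le_of_odd (hodd : Odd (Fintype.card F)) (h3 : Fintype.card F ≠ 3) : 5 ≤ Fintype.card F := by
  have := Fintype.one_lt_card (α := F)
  obtain ⟨s, hs⟩ := hodd
  omega

theorem spList_of_quad (hm : 2 ≤ m) (hG : Rich (spGL m F) 0) (hH : IsMaximalIn (spGL m F) H)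
    (hev : ¬ Odd (Fintype.card F)) {Q : (Fin m ⊕ Fin m → F) → F} (hQ : IsNondegenerateQuadraticForm Q)
    (hp : ∀ u v, QuadraticMap.polar Q u v = sympForm m F u v) (hle : H ≤ quadSimilarityGroup Q) : SpList m F H := by
  iterate 10 right
  exact Or.inl ⟨hev, Q, hQ, hp, eq_inf_of_max hH hle (hG.not_le_quadSimilarityGroup (by simp; omega) hQ)⟩

theorem spList_of_dec (hm : 2 ≤ m) (hG : Rich (spGL m F) 0) (hH : IsMaximalIn (spGL m F) H) {t k : ℕ}
    {D : Fin t → Submodule F (Fin m ⊕ Fin m → F)} (hD : IsNondegenerateMDecomposition (sympForm m F) k D)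
    (hle : H ≤ decompositionStabilizer D) : SpList m F H := by
  have hb := isSesq_sympForm (F := F) m
  have ht := hD.decomp.two_le
  have h1 := CL.Cls.card_eq_mul_of_isMDecomposition hD.decomp
  obtain ⟨s, hs⟩ := hb.even_finrank (W := D ⟨0, by omega⟩) (fun v _ => sympForm_alt m v) (hD.nondegenerate _)
  obtain rfl : k = 2 * s := by rw [hD.decomp.finrank_eq] at hs; omega
  have h2 : t * s = m := by
    simp only [Fintype.card_sum, Fintype.card_fin] at h1
    nlinarith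
  by_cases h3 : s = 1 ∧ Fintype.card F = 2
  · obtain ⟨rfl, h3⟩ := h3
    obtain ⟨Q, hQ, hp, hfix⟩ := exists_quad_of_planes h3 hb (sympForm_alt m) hD
    exact spList_of_quad hm hG hH (by rw [h3]; decide) hQ hp fun g hg =>
      ⟨1, fun v => by simp [hfix g (hle hg) (hH.1.le hg)]⟩
  refine Or.inr (Or.inr (Or.inl ⟨t, s, D, ht, Nat.pos_of_ne_zero ?_, h2, fun h => ?_, hD,
    eq_inf_of_max hH hle (hG.not_le_decompositionStabilizer hD.decomp)⟩))
  · rintro rfl
    omega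
  · have := Fintype.one_lt_card (α := F)
    omega

theorem spList_of_nondeg (hG : Rich (spGL m F) 0) (hH : IsMaximalIn (spGL m F) H)
    {W : Submodule F (Fin m ⊕ Fin m → F)} (h0 : W ≠ ⊥) (hW : IsNondegenerateOn (sympForm m F) W)
    (hd : finrank F W < m) (hle : H ≤ subspaceStabilizer W) : SpList m F H := by
  obtain ⟨s, hs⟩ := (isSesq_sympForm m).even_finrank (fun v _ => sympForm_alt m v) hW
  have h1 : finrank F W ≠ 0 := fun h => h0 (Submodule.finrank_eq_zero.mp h)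
  exact Or.inr (Or.inl ⟨W, by omega, h0, hW, hd, eq_inf_of_max hH hle (hG.not_le_subspaceStabilizer h0
    (ne_bot_top_of_finrank (by omega) (by simp; omega)).2)⟩)

/-- The case division for a maximal subgroup of `Sp_{2m}(q)`. -/
theorem sp_cases (hm : 2 ≤ m) (hex : ¬ (m = 2 ∧ Fintype.card F = 2)) (hH : IsMaximalIn (spGL m F) H) :
    SpList m F H := by
  have : Nonempty (Fin m ⊕ Fin m) := ⟨.inl ⟨0, by omega⟩⟩
  have hb := isSesq_sympForm (F := F) m
  have hG := rich_spGL hm hex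
  have hS : H ≤ similarityGroup (sympForm m F) := le_sim_of_isom hH.1.le
  have hc : Fintype.card (Fin m ⊕ Fin m) = 2 * m := by simp; omega
  have hts : ∀ W, W ≠ ⊥ → IsTotallySingularFor (sympForm m F) W → H ≤ subspaceStabilizer W → SpList m F H :=
    fun W h0 hW hle => Or.inl ⟨W, h0, hW, eq_inf_of_max hH hle
      (hG.not_le_subspaceStabilizer h0 (hb.ne_top_of_singular hW))⟩
  by_cases hirr : Irr H
  swap
  · obtain ⟨W, h0, h1, hW, -, h | h⟩ := hb.reducible_cases hS hirr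
    · exact hts W h0 h hW
    · rcases hb.nondeg_cases hS h0 h1 hW h with ⟨W', h0', h', hd, hW'⟩ | ⟨k, D, hD, hle⟩
      · exact spList_of_nondeg hG hH h0' h' (by omega) hW'
      · exact spList_of_dec hm hG hH hD hle
  rcases aschbacher_symplectic (by omega) H hH.1.le with ⟨M, hM, hle⟩ | h
  swap
  · iterate 11 right
    exact h
  rcases hM with (⟨W, h0, hW, rfl⟩ | ⟨W, h0, hW, hd, rfl⟩ | ⟨t, k, D, hD, rfl⟩ | ⟨D, hodd, hD, hs, rfl⟩ |
    ⟨F₀, r, P, ζ, hr, hF, hζ, hP, rfl⟩ | ⟨R, p, k, hR, hR1, hR2, hp, hodd, hF, h1, h2, h3, rfl⟩ |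
    ⟨Q, hev, hQ, hp, rfl⟩) | ⟨r, K, hr, hK, hs, halt, rfl⟩ | ⟨K, hodd, hK, h1, h2, rfl⟩ |
    ⟨k, l, e, P, f₁, f₂, hodd, hl, h1, h2, hT, rfl⟩ | ⟨k, t, e, P, f₁, hodd, -, ht, h1, h2, hT, rfl⟩
  all_goals replace hle := hle.trans inf_le_left
  · exact hts W h0 hW hle
  · exact spList_of_nondeg hG hH h0 hW hd hle
  · exact spList_of_dec hm hG hH hD hle
  · iterate 3 right
    exact Or.inl ⟨hodd, hirr, D, hD, hs, eq_inf_of_max hH hle (hG.not_le_decompositionStabilizer hD)⟩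
  · iterate 7 right
    exact Or.inl ⟨F₀, r, P, ζ, hr, hF, hζ, hP, eq_inf_of_max hH hle
      (hG.not_le_subfieldSubgroup (subfield_ne_top_of_prime hr hF) P)⟩
  · have h4 := isHeis_of_symp_two hR hR1
    have h5 := h4.card_eq
    rw [h1, h2, hc, pow_add, pow_one, mul_comm 2 k, pow_mul] at h5
    iterate 8 right
    refine Or.inl ⟨k, p, R, Nat.pow_left_injective two_ne_zero (Nat.eq_of_mul_eq_mul_left two_pos h5), hp, hodd, hF,
      hR, hR1, hR2, h1, h2, h3, eq_inf_of_max hH hle (hG.not_le_subgroupNormalizer Nat.prime_two hR.pGroup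
        ((irr_of_spanAlg_eq_top h4.span).not_le_scalars (by omega)) fun x hx g hg => conj_isom_of_sim (hR2 hx) hg)⟩
  · exact spList_of_quad hm hG hH hev hQ hp hle
  · iterate 4 right
    have h1 := hb.two_mul_dvd (isFld_of hK) hs halt
    rw [hK.finrank_eq, hc] at h1
    exact Or.inl ⟨r, K, hr, Nat.dvd_of_mul_dvd_mul_left two_pos h1, hK, hs, halt,
      eq_inf_of_max hH hle (hG.not_le_subalgebraNormalizer hr.ne_one hK)⟩
  · iterate 5 right
    exact Or.inl ⟨hodd, K, hK, h1, h2, eq_inf_of_max hH hle (hG.not_le_subalgebraNormalizer (by omega) hK)⟩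
  · have h3 := isSesq_of_symplectic h1
    have h4 := isSesq_of_symmetric h2
    obtain ⟨s, hs⟩ := h3.even_card (h3.alt_of_skew (two_ne_zero_of_odd hodd))
    obtain rfl : k = 2 * s := by simp at hs; omega
    have h5 : s * l = m := by
      have := TensorPair.card_eq e
      nlinarith
    have h6 : 1 ≤ s := Nat.pos_of_ne_zero fun h => by subst h; omega
    by_cases h7 : l = 3 ∧ Fintype.card F = 3
    · obtain ⟨rfl, h7⟩ := h7
      have hP := tensorPair_of_structure hb h3 h4 (Or.inr ⟨rfl, rfl⟩) (Or.inl rfl) (fun _ => by simp) hT hle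
      obtain ⟨E, hE, hE1, hτ⟩ := exists_frame_O3_three (by rw [Nat.card_eq_fintype_card, h7]) h4
      obtain ⟨k, D, hD, hle', -⟩ := hb.exists_nondegDecomp hirr
        ((hE.mono (indGrp_le_similarityGroup hb h4 hP.adjR hS)).map hP.normR) (by rw [Finset.card_map, hE1]; omega)
        fun x hx => by
          obtain ⟨y, hy, rfl⟩ := Finset.mem_map.mp hx
          exact (hP.adjR y).trans (congrArg (kR e P) (hτ y hy))
      exact spList_of_dec hm hG hH hD hle'
    iterate 6 right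
    exact Or.inl ⟨hodd, hirr, s, l, e, P, f₁, f₂, h6, hl, h5, fun h => five_le_of_odd hodd fun h' => h7 ⟨h, h'⟩, h1, h2,
      hT, eq_inf_of_max hH hle (hG.not_le_tensorProductSubgroup (singBig_zero (by omega)) (by omega) (by omega) e P)⟩
  · have h3 : k ^ t = 2 * m := by rw [← hc, Fintype.card_congr e]; simp
    have h4 : 2 ≤ k := by
      rcases k with _ | _ | k
      · rw [zero_pow (by omega)] at h3; omega
      · rw [zero_add, one_pow] at h3; omega
      · omega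
    iterate 9 right
    exact Or.inl ⟨hodd, k, t, e, P, f₁, h4, ht, h3, fun h => five_le_of_odd hodd fun h' => h1 ⟨h', h⟩, h2, hT,
      eq_inf_of_max hH hle (hG.not_le_tensorWreathSubgroup (singBig_zero (by omega)) h4 (by omega) e P)⟩

end CL.Asch
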