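/-
The maximal subgroups of the even-dimensional groups `Ω`: the geometric cases with their side conditions.
-/
import Cfsg.Agent.Cls.MaxFour
import Cfsg.Agent.Cls.MaxSpCases
import Cfsg.Agent.Cls.LinCases

set_option autoImplicit false

namespace CL.Asch

open Matrix Cfsg Cfsg.Geo Module QuadraticMap CL.Cls
open scoped MatrixGroups Kronecker

variable {ι : Type} [Fintype ι] [DecidableEq ι] {F : Type*} [Field F] [Fintype F]

/-- The list of geometric types of maximal subgroups of `Ω_{2m}^±(q)`. -/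
def EvenList (m : ℕ) (Q : (ι → F) → F) (H : Subgroup (GL ι F)) : Prop :=
  (∃ W : Submodule F (ι → F), W ≠ ⊥ ∧ IsTotallySingularQuad Q W ∧ (IsPlusTypeOn Q ⊤ → finrank F W + 1 ≠ m) ∧
    H = subspaceStabilizer W ⊓ omegaGL Q) ∨
  (∃ W : Submodule F (ι → F), 0 < finrank F W ∧ finrank F W ≤ m ∧ (finrank F W = m → Even m ∧ ¬ IsPlusTypeOn Q ⊤) ∧
    (Odd (finrank F W) → Odd (Fintype.card F)) ∧ (finrank F W = 2 → IsPlusTypeOn Q W → 4 ≤ Fintype.card F) ∧
    IsNondegenerateOn (polar Q) W ∧ H = subspaceStabilizer W ⊓ omegaGL Q) ∨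
  (¬ Odd (Fintype.card F) ∧ ∃ v : ι → F, Q v ≠ 0 ∧ H = subspaceStabilizer (Submodule.span F {v}) ⊓ omegaGL Q) ∨
  (∃ (t k : ℕ) (D : Fin t → Submodule F (ι → F)), 2 ≤ t ∧ t * k = 2 * m ∧ (k = 1 → (Fintype.card F).Prime) ∧
    (Odd k → Odd (Fintype.card F) ∧ (IsPlusTypeOn Q ⊤ ↔ Even m ∨ Fintype.card F % 4 = 1)) ∧
    (Even k → ∀ i, IsPlusTypeOn Q ⊤ ↔ Even t ∨ IsPlusTypeOn Q (D i)) ∧
    ((∀ i, IsPlusTypeOn Q (D i)) ∨ ∀ i, ¬ IsPlusTypeOn Q (D i)) ∧
    (k = 2 → Fintype.card F ≠ 3 ∧ ((∀ i, IsPlusTypeOn Q (D i)) → 7 ≤ Fintype.card F)) ∧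
    (k = 3 → Fintype.card F ≠ 3) ∧ (k = 4 → (∀ i, IsPlusTypeOn Q (D i)) → Fintype.card F ≠ 2) ∧
    IsOrthogonalMDecomposition Q k D ∧ H = decompositionStabilizer D ⊓ omegaGL Q) ∨
  (Odd m ∧ Odd (Fintype.card F) ∧ (IsPlusTypeOn Q ⊤ ↔ ¬ Fintype.card F % 4 = 1) ∧
    ∃ D : Fin 2 → Submodule F (ι → F), IsNondegenerateMDecomposition (polar Q) m D ∧
      ¬ AreIsometricFor Q (D 0) (D 1) ∧ H = decompositionStabilizer D ⊓ omegaGL Q) ∨
  (Even m ∧ IsPlusTypeOn Q ⊤ ∧ ∃ D : Fin 2 → Submodule F (ι → F), IsMDecomposition m D ∧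
    (∀ i, IsTotallySingularQuad Q (D i)) ∧ H = decompositionStabilizer D ⊓ omegaGL Q) ∨
  (∃ (r : ℕ) (K : Subalgebra F (Matrix ι ι F)), r.Prime ∧ r ∣ 2 * m ∧ (r = 2 → Odd (Fintype.card F) ∨ Even m) ∧
    (Odd r → r ≠ m) ∧ IsFieldSubalgebra r K ∧ IsSelfAdjointFor (polar Q) K ∧
    H = subalgebraNormalizer K ⊓ omegaGL Q) ∨
  ((IsPlusTypeOn Q ⊤ → Even m) ∧ ∃ K : Subalgebra F (Matrix ι ι F), IsFieldSubalgebra 2 K ∧
    IsAdjointClosedFor (polar Q) K ∧ ¬ IsSelfAdjointFor (polar Q) K ∧ (∀ k ∈ K, ∃ c : F, ∀ v, Q (k *ᵥ v) = c * Q v) ∧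
    H = subalgebraNormalizer K ⊓ omegaGL Q) ∨
  (∃ (k l : ℕ) (e : ι ≃ Fin k × Fin l) (P : GL ι F) (f₁ : (Fin k → F) → (Fin k → F) → F)
    (f₂ : (Fin l → F) → (Fin l → F) → F), 2 ≤ k ∧ k ≤ l ∧ k * l = 2 * m ∧ Even k ∧ Even l ∧
    (k = 2 → IsPlusTypeOn Q ⊤ ∧ 3 ≤ Fintype.card F) ∧ IsSymplecticForm f₁ ∧ IsSymplecticForm f₂ ∧
    IsTensorFormStructure id (polar Q) f₁ f₂ e P ∧
    (∀ (x₁ : Fin k → F) (x₂ : Fin l → F), Q ((P : Matrix ι ι F) *ᵥ (tens x₁ x₂ ∘ e)) = 0) ∧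
    H = tensorProductSubgroup k l e P ⊓ omegaGL Q) ∨
  (Odd (Fintype.card F) ∧ ∃ (k l : ℕ) (e : ι ≃ Fin k × Fin l) (P : GL ι F) (f₁ : (Fin k → F) → (Fin k → F) → F)
    (f₂ : (Fin l → F) → (Fin l → F) → F), 3 ≤ k ∧ k ≤ l ∧ k * l = 2 * m ∧ (k = 3 → 5 ≤ Fintype.card F) ∧
    (k = 3 → l = 4 → ¬ IsPlusTypeOn Q ⊤ ∧ ¬ IsPlusTypeOn (fun v => f₂ v v) ⊤) ∧
    IsSymmetricForm f₁ ∧ IsSymmetricForm f₂ ∧ IsTensorFormStructure id (polar Q) f₁ f₂ e P ∧
    H = tensorProductSubgroup k l e P ⊓ omegaGL Q) ∨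
  (∃ (F₀ : Subfield F) (r : ℕ) (P : GL ι F) (ζ : F), r.Prime ∧ (¬ IsPlusTypeOn Q ⊤ → Odd r) ∧
    Fintype.card F = Nat.card F₀ ^ r ∧ ζ ≠ 0 ∧ IsQuadFormRationalStructure (fun v => ζ * Q v) F₀ P ∧
    H = subfieldSubgroup F₀ P ⊓ omegaGL Q) ∨
  (∃ k t : ℕ, 2 ≤ k ∧ 2 ≤ t ∧ k ^ t = 2 * m ∧ (k = 2 → IsPlusTypeOn Q ⊤)) ∨
  InOrthogonalResidualClass H

theorem IsSesq.exists_comm_of_card_two (hq : Fintype.card F = 2) {ε : F} {b : (Fin 2 → F) → (Fin 2 → F) → F}
    (hb : IsSesq (RingHom.id F) ε b) :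
    ∃ C : Subalgebra F (Matrix (Fin 2) (Fin 2) F), (∀ x ∈ C, ∀ y ∈ C, x * y = y * x) ∧ ¬ C ≤ ⊥ ∧
      similarityGroup b ≤ subalgebraNormalizer C ∧ ∀ x ∈ C, adj (RingHom.id F) b x ∈ C := by
  have h2 : (1 : F) + 1 = 0 := one_add_one_eq_two.trans (two_eq_zero_of_not_odd (by rw [hq]; decide))
  refine ⟨Algebra.adjoin F {k | k * k = k + 1}, adjoin_comm fun x hx y hy => ?_, fun h => ?_,
    normalizes_adjoin fun g _ x hx => ?_, hb.adj_mem_adjoin fun x hx => Algebra.subset_adjoin ?_⟩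
  · rcases CL.SLn.eq_or_eq_of_sq_two hq hx with rfl | rfl <;> rcases CL.SLn.eq_or_eq_of_sq_two hq hy with rfl | rfl <;>
      simp [h2]
  · obtain ⟨c, hc⟩ := mem_bot_iff.mp (h (Algebra.subset_adjoin (a := !![0, 1; 1, 1]) (by
      ext i j; fin_cases i <;> fin_cases j <;> simp)))
    simpa using congrFun (congrFun hc 0) 1
  · change _ = _
    rw [← map_mul, show x * x = x + 1 from hx, map_add, map_one]
  · change _ = _
    rw [← hb.adj_mul, show x * x = x + 1 from hx, hb.adj_add, hb.adj_one]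

/-- The standing assumptions in the even-dimensional orthogonal case. -/
structure EvenData (m : ℕ) (Q : QuadraticForm F (ι → F)) (H : Subgroup (GL ι F)) : Prop where
  quad : IsNondegenerateQuadraticForm Q
  card : Fintype.card ι = 2 * m
  four : 4 ≤ m
  max : IsMaximalIn (omegaGL Q) H

namespace EvenData

variable {m : ℕ} {Q : QuadraticForm F (ι → F)} {H : Subgroup (GL ι F)}

omit [Fintype F] in
theorem nd (h : EvenData m Q H) : (polarBilin Q).Nondegenerate := nondeg_toQF h.quad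

omit [Fintype F] in
theorem sesq (h : EvenData m Q H) : IsSesq (RingHom.id F) 1 (polar Q) := isSesq_polar h.quad

omit [Fintype F] in
theorem eight (h : EvenData m Q H) : 8 ≤ Fintype.card ι := by have := h.card; have := h.four; omega

omit [Fintype F] in
theorem nonempty (h : EvenData m Q H) : Nonempty ι := Fintype.card_pos_iff.mp (by have := h.eight; omega)

theorem rich (h : EvenData m Q H) : Rich (omegaGL Q) Q := rich_omegaGL h.nd (by have := h.eight; omega)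

omit [Fintype F] in
theorem fix (h : EvenData m Q H) : ∀ g ∈ H, ∀ v, Q ((g : Matrix ι ι F) *ᵥ v) = Q v := fun _ hg =>
  mem_isometryGroup_iff.mp (omegaGL_le _ (h.max.1.le hg))

omit [Fintype F] in
theorem isom (h : EvenData m Q H) : ∀ g ∈ H, Isom (polar Q) g := fun g hg => isom_polar_of_quad (h.fix g hg)

omit [Fintype F] in
theorem sim (h : EvenData m Q H) : H ≤ similarityGroup (polar Q) := le_sim_of_isom h.isom

theorem odd_of_nondeg (h : EvenData m Q H) {W : Submodule F (ι → F)} (hW : IsNondegenerateOn (polar Q) W)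
    (ho : Odd (finrank F W)) : Odd (Fintype.card F) := by
  by_contra hq
  exact Nat.not_even_iff_odd.mpr ho (h.sesq.even_finrank (fun v _ => by
    rw [quad_polar_self h.quad, two_eq_zero_of_not_odd hq, zero_mul]) hW)

theorem of_ts (h : EvenData m Q H) {W : Submodule F (ι → F)} (h0 : W ≠ ⊥) (hW : IsTotallySingularQuad Q W)
    (hle : H ≤ subspaceStabilizer W) : EvenList m Q H :=
  have := h.nonempty
  Or.inl ⟨W, h0, hW, fun hp hd => not_between_of_max h.max hle (exists_between_omega_submax h.nd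
    (by have := h.eight; omega) hp hW (by rw [hd, h.card])), eq_inf_of_max h.max hle
      (h.rich.not_le_subspaceStabilizer h0 (h.sesq.ne_top_of_singular (singularFor_of_quad hW)))⟩

theorem of_nondeg (h : EvenData m Q H) {W : Submodule F (ι → F)} (h0 : 0 < finrank F W) (h1 : finrank F W ≤ m)
    (h2 : finrank F W = m → Even m ∧ ¬ IsPlusTypeOn Q ⊤) (hW : IsNondegenerateOn (polar Q) W)
    (hle : H ≤ subspaceStabilizer W) : EvenList m Q H := by
  have h3 := ne_bot_top_of_finrank h0 (by have := h.card; omega)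
  refine Or.inr (Or.inl ⟨W, h0, h1, h2, h.odd_of_nondeg hW, fun h4 hp => ?_, hW,
    eq_inf_of_max h.max hle (h.rich.not_le_subspaceStabilizer h3.1 h3.2)⟩)
  by_contra h5
  exact not_between_of_max h.max hle
    (exists_between_omega_plus_plane h.nd (by have := h.eight; omega) (by omega) h4 hW hp)

theorem of_dec (h : EvenData m Q H) {t k : ℕ} {D : Fin t → Submodule F (ι → F)}
    (hD : IsOrthogonalMDecomposition Q k D) (hk : k = 1 → (Fintype.card F).Prime)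
    (hle : H ≤ decompositionStabilizer D) : EvenList m Q H := by
  have ht := hD.decomp.decomp.two_le
  have h1 := (card_eq_mul_of_isMDecomposition hD.decomp.decomp).symm.trans h.card
  have h2 := fun hc => not_between_of_max h.max hle (exists_between_omega_dec h.nd (by have := h.eight; omega) hD hc)
  iterate 3 right
  refine Or.inl ⟨t, k, D, ht, h1, hk, fun ho => ?_, ?_, ?_, fun h3 => ⟨fun h4 => h2 (Or.inl ⟨h3, Or.inl h4⟩),
    fun hp => ?_⟩, fun h3 h4 => h2 (Or.inr (Or.inl ⟨h3, h4⟩)), fun h3 hp h4 => h2 (Or.inr (Or.inr ⟨h3, h4, hp⟩)), hD,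
    eq_inf_of_max h.max hle (h.rich.not_le_decompositionStabilizer hD.decomp.decomp)⟩
  · have h3 := h.odd_of_nondeg (hD.decomp.nondegenerate ⟨0, by omega⟩) (by rwa [hD.decomp.decomp.finrank_eq])
    exact ⟨h3, plus_iff_of_isometric h3 h.nd hD
      ((Nat.even_mul.mp (h1 ▸ even_two_mul m)).resolve_right (Nat.not_even_iff_odd.mpr ho)) h.card⟩
  · rintro ⟨s, rfl⟩
    exact plus_iff_of_even h.nd (two_mul s ▸ hD)
  · by_cases hp : IsPlusTypeOn Q (D ⟨0, by omega⟩)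
    · exact Or.inl fun i => plusOn_congr (hD.isometric _ i) hp
    · exact Or.inr fun i hi => hp (plusOn_congr (hD.isometric i _) hi)
  · have h4 := Fintype.one_lt_card (α := F)
    have h5 := CL.SLn.card_ne_six (F := F)
    have h6 : ¬ (Fintype.card F = 3 ∨ Fintype.card F = 2 ∨ Fintype.card F = 4 ∨ Fintype.card F = 5) := fun h =>
      h2 (Or.inl ⟨h3, h.imp_right fun h => ⟨hp, h⟩⟩)
    omega

theorem of_half (h : EvenData m Q H) {k : ℕ} {D : Fin 2 → Submodule F (ι → F)}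
    (hD : IsNondegenerateMDecomposition (polar Q) k D) (hle : H ≤ decompositionStabilizer D) : EvenList m Q H := by
  obtain rfl : m = k := by
    have := (card_eq_mul_of_isMDecomposition hD.decomp).symm.trans h.card
    omega
  have h4 := h.four
  by_cases hi : AreIsometricFor Q (D 0) (D 1)
  · exact h.of_dec ⟨hD, Fin.forall_fin_two.mpr ⟨Fin.forall_fin_two.mpr ⟨⟨LinearEquiv.refl F _, fun _ => rfl⟩, hi⟩,
      Fin.forall_fin_two.mpr ⟨areIsometricFor_symm hi, ⟨LinearEquiv.refl F _, fun _ => rfl⟩⟩⟩⟩ (by omega) hle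
  rcases Nat.even_or_odd m with he | ho
  · refine h.of_nondeg (W := D 0) (by rw [hD.decomp.finrank_eq]; omega) (hD.decomp.finrank_eq 0).le
      (fun _ => ⟨he, fun hp => hi ?_⟩) (hD.nondegenerate 0) fun g hg => ?_
    · obtain ⟨s, hs⟩ := he
      have h0 := ndon_iff_isNondegenerateOn.mpr (hD.nondegenerate 0)
      have h1 := ndon_iff_isNondegenerateOn.mpr (hD.nondegenerate 1)
      have h2 : ∀ i, finrank F (D i) = 2 * s := fun i => by rw [hD.decomp.finrank_eq]; omega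
      refine isometric_of_plusOn_iff h0 h1 (h2 0) (h2 1) ((plusOn_sup_iff h0 h1
        (areOrthogonalFor_iff.mp (hD.orthogonal 0 1 (by decide))) (h2 0) (h2 1)).2.mp ?_)
      rwa [(isCompl_of_isMDecomposition hD.decomp).sup_eq_top]
    · obtain ⟨π, hπ⟩ := hle hg
      have h1 := hπ 0
      generalize π 0 = j at h1
      fin_cases j
      · exact mem_subspaceStabilizer_of_map_eq h1
      · exact absurd (areIsometricFor_of_map (h.fix g hg) h1) hi
  · have h1 := h.odd_of_nondeg (hD.nondegenerate 0) (by rwa [hD.decomp.finrank_eq])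
    iterate 4 right
    exact Or.inl ⟨ho, h1, by simpa [Nat.not_even_iff_odd.mpr ho] using plus_iff_of_not_isometric h1 h.nd hD hi h.card,
      D, hD, hi, eq_inf_of_max h.max hle (h.rich.not_le_decompositionStabilizer hD.decomp)⟩

theorem of_red (h : EvenData m Q H) (hred : ¬ Irr H) : EvenList m Q H := by
  obtain ⟨W, h0, h1, hW, hmin, h2 | h2⟩ := h.sesq.reducible_cases h.sim hred
  · by_cases hq : Odd (Fintype.card F)
    · exact h.of_ts h0 (fun w hw => (mul_eq_zero_iff_left (two_ne_zero_of_odd hq)).mp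
        ((quad_polar_self h.quad w).symm.trans (h2 w hw w hw))) hW
    let U : Submodule F (ι → F) :=
      { carrier := {w | w ∈ W ∧ Q w = 0}
        add_mem' := fun {u v} hu hv => ⟨add_mem hu.1 hv.1, by rw [quad_add Q, hu.2, hv.2, h2 u hu.1 v hv.1]; simp⟩
        zero_mem' := ⟨zero_mem W, map_zero Q⟩
        smul_mem' := fun c u hu => ⟨W.smul_mem c hu.1, by rw [h.quad.smul, hu.2, mul_zero]⟩ }
    rcases hmin U (fun _ hw => hw.1) (le_subspaceStabilizer fun g hg w hw =>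
      ⟨(hW hg w).mp hw.1, (h.fix g hg w).trans hw.2⟩) with h3 | h3
    swap
    · exact h.of_ts h0 (fun w hw => (h3.ge hw).2) hW
    obtain ⟨v, hv, hv0⟩ := W.ne_bot_iff.mp h0
    have h4 : Q v ≠ 0 := fun h => hv0 (h3.le ⟨hv, h⟩)
    obtain rfl : W = Submodule.span F {v} := by
      refine le_antisymm (fun w hw => ?_) ((Submodule.span_singleton_le_iff_mem _ _).mpr hv)
      have h5 := two_eq_zero_of_not_odd hq
      obtain ⟨s, hs⟩ := exists_sq_of_two_eq_zero h5 (Q w / Q v)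
      refine Submodule.mem_span_singleton.mpr ⟨-s, ?_⟩
      rw [neg_smul, neg_eq_iff_add_eq_zero]
      refine h3.le ⟨add_mem (W.smul_mem s hv) hw, ?_⟩
      rw [quad_add Q, h.quad.smul, hs, div_mul_cancel₀ _ h4, h2 _ (W.smul_mem s hv) w hw, add_zero, ← two_mul, h5,
        zero_mul]
    exact Or.inr (Or.inr (Or.inl ⟨hq, v, h4, eq_inf_of_max h.max hW (h.rich.not_le_subspaceStabilizer h0 h1)⟩))
  · rcases h.sesq.nondeg_cases h.sim h0 h1 hW h2 with ⟨W', h3, h4, h5, h6⟩ | ⟨k, D, hD, hle⟩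
    · have := h.card
      exact h.of_nondeg (Nat.pos_of_ne_zero fun e => h3 (Submodule.finrank_eq_zero.mp e)) (by omega) (by omega) h4 h6
    · exact h.of_half hD hle

theorem of_subfield (h : EvenData m Q H) {L : Subgroup (GL ι F)} (hL : spanAlg L = ⊤)
    (hI : ∀ l ∈ L, ∀ v, Q ((l : Matrix ι ι F) *ᵥ v) = Q v) (hN : ∀ h ∈ H, ∀ l ∈ L, h * l * h⁻¹ ∈ L)
    {F₁ : Subfield F} (h1 : F₁ ≠ ⊤) (htr : ∀ l ∈ L, (l : Matrix ι ι F).trace ∈ F₁) : EvenList m Q H := by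
  obtain ⟨F₀, r, P, ζ, hr, hc, hζ, hrat, hle, -⟩ := exists_subfield_quad h.quad (by have := h.eight; omega) hL hI h1
    htr hN
  iterate 10 right
  refine Or.inl ⟨F₀, r, P, ζ, hr, fun hp => hr.eq_two_or_odd'.resolve_left ?_, hc, hζ, hrat,
    eq_inf_of_max h.max hle (h.rich.not_le_subfieldSubgroup (subfield_ne_top_of_prime hr hc) P)⟩
  rintro rfl
  exact hp (plus_of_index_two h.quad (m := m - 1) (by have := h.card; have := h.four; omega) hc hζ hrat)

theorem of_idem (h : EvenData m Q H) (hirr : Irr H) {E : Finset (Matrix ι ι F)} (hE : IdemSys H E) (h2 : 2 ≤ E.card)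
    (hτ : ∀ e ∈ E, adj (RingHom.id F) (polar Q) e = e) : EvenList m Q H := by
  obtain ⟨k, D, hD, hle, -, htr, -, hmem⟩ := h.sesq.exists_nondegDecomp hirr hE h2 hτ
  by_cases hk : k = 1 → (Fintype.card F).Prime
  · exact h.of_dec ⟨hD, fun i j => let ⟨g, hg, e⟩ := htr i j; areIsometricFor_of_map (h.fix g hg) e⟩ hk hle
  obtain ⟨rfl, hp⟩ := Classical.not_imp.mp hk
  have h3 := two_ne_zero_of_odd (h.odd_of_nondeg (hD.nondegenerate ⟨0, by omega⟩) (by simp [hD.decomp.finrank_eq]))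
  obtain ⟨L, h1, h4, h5, h6⟩ := h.sesq.exists_frame_group h3 hirr h.isom hE hτ fun e he => by
    obtain ⟨i, hi⟩ := hmem e he
    rw [← hi, hD.decomp.finrank_eq]
  exact h.of_subfield h1 (fun l hl => quad_of_isom_polar h.quad h3 (h4 l hl))
    (fun g hg l hl => mul_mem (mul_mem (h5 hg) hl) (inv_mem (h5 hg))) (subfield_bot_ne_top hp) h6

theorem of_pair (h : EvenData m Q H) (hirr : Irr H) {C : Subalgebra F (Matrix ι ι F)}
    (hC : H ≤ subalgebraNormalizer C) (hcomm : ∀ x ∈ C, ∀ y ∈ C, x * y = y * x) {E : Finset (Matrix ι ι F)}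
    (hE : IdemSys H E) (h2 : E.card = 2) (hEC : ∀ e ∈ E, e ∈ C)
    (hτ : ∀ e ∈ E, e + adj (RingHom.id F) (polar Q) e = 1) : EvenList m Q H := by
  have h1 : ∀ e ∈ E, (2 : F) ≠ 0 ∨ ∀ v, Q v = polar Q (e *ᵥ v) v := fun e he => or_iff_not_imp_left.mpr fun h3 =>
    quad_eq_of_comm (not_not.mp h3) h.quad hirr (by have := h.eight; omega) h.fix (hτ e he) fun g hg =>
      ⟨e, hτ e he, hcomm _ (hEC e he) _ (sub_mem (conj_mem_of_normalizes hC hg (hEC e he)) (hEC e he))⟩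
  obtain ⟨k, D, hD, hk, -, hle, hmem⟩ := h.sesq.exists_singularPair hirr hE h2 hτ
  obtain rfl : m = k := by have := h.card; omega
  have h3 : ∀ i, IsTotallySingularQuad Q (D i) := fun i => by
    obtain ⟨e, he, hi⟩ := hmem i
    exact hi ▸ singular_rng h.quad (hE.idem e he) (hτ e he) (h1 e he)
  obtain ⟨e, he⟩ := hE.nonempty
  iterate 5 right
  exact Or.inl ⟨(Nat.even_or_odd m).resolve_right fun ho => not_between_of_max h.max hle
    (exists_between_omega_pair h.nd (by have := h.eight; omega) ho hD h3),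
    plus_of_idem h.quad (hE.idem e he) (hτ e he) (h1 e he), D, hD, h3,
    eq_inf_of_max h.max hle (h.rich.not_le_decompositionStabilizer hD)⟩

theorem of_selfAdj (h : EvenData m Q H) {r : ℕ} (hr : r.Prime) (hrm : Odd r → r ≠ m)
    {K : Subalgebra F (Matrix ι ι F)} (hK : IsFieldSubalgebra r K) (hN : H ≤ subalgebraNormalizer K)
    (hfix : ∀ x ∈ K, adj (RingHom.id F) (polar Q) x = x) : EvenList m Q H := by
  have := h.nonempty
  have hs := h.sesq.isSelfAdjointFor.mpr hfix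
  iterate 6 right
  refine Or.inl ⟨r, K, hr, h.card ▸ hK.finrank_eq ▸ (isFld_of hK).finrank_dvd, ?_, hrm, hK, hs,
    eq_inf_of_max h.max hN (h.rich.not_le_subalgebraNormalizer hr.ne_one hK)⟩
  rintro rfl
  refine or_iff_not_imp_left.mpr fun hq => ?_
  have h2 := two_eq_zero_of_not_odd hq
  obtain ⟨s, h3⟩ := h.sesq.two_mul_dvd (isFld_of hK) hs fun k hk v => by
    obtain ⟨y, hy, rfl⟩ := (isFld_of hK).exists_sq h2 hk
    rw [← mulVec_mulVec, hs y hy, quad_polar_self h.quad, h2, zero_mul]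
  rw [hK.finrank_eq, h.card] at h3
  exact ⟨s, by omega⟩

theorem of_unitary (h : EvenData m Q H) (hirr : Irr H) {K : Subalgebra F (Matrix ι ι F)} (hK : IsFieldSubalgebra 2 K)
    (hN : H ≤ subalgebraNormalizer K) (hτ : ∀ x ∈ K, adj (RingHom.id F) (polar Q) x ∈ K) {x : Matrix ι ι F}
    (hx : x ∈ K) (hne : adj (RingHom.id F) (polar Q) x ≠ x)
    (hfix : ∀ x ∈ K, adj (RingHom.id F) (polar Q) x = x → ∃ c : F, x = c • 1) : EvenList m Q H := by
  have := h.nonempty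
  have h1 := quad_smul_of_unitary h.quad hirr (by have := h.eight; omega) h.fix hN (isFld_of hK).comm hτ hx hne hfix
  have h2 := h.sesq.isAdjointClosedFor.mpr hτ
  iterate 7 right
  refine Or.inl ⟨fun hp => ?_, K, hK, h2, fun h3 => hne (h.sesq.isSelfAdjointFor.mp h3 x hx), h1,
    eq_inf_of_max h.max hN (h.rich.not_le_subalgebraNormalizer (by omega) hK)⟩
  obtain ⟨s, hs⟩ := four_dvd_of_unitary h.quad hK h2 h1 hp
  exact ⟨s, by have := h.card; omega⟩

theorem of_comm (h : EvenData m Q H) (hirr : Irr H) {C : Subalgebra F (Matrix ι ι F)}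
    (hC : H ≤ subalgebraNormalizer C) (hcomm : ∀ x ∈ C, ∀ y ∈ C, x * y = y * x) (hne : ¬ C ≤ ⊥)
    (hτ : ∀ x ∈ C, adj (RingHom.id F) (polar Q) x ∈ C) : EvenList m Q H := by
  have := h.nonempty
  rcases h.sesq.comm_cases hirr h.sim hC hcomm hτ with hK | ⟨E, hE, h2, hE'⟩ | ⟨E, hE, h2, hEC, hE'⟩
  rotate_left
  · exact h.of_idem hirr hE h2 hE'
  · exact h.of_pair hirr hC hcomm hE h2 hEC hE'
  rcases h.sesq.field_cases h.sim hK hne hC hτ with ⟨r, K, hr, hK₀, -, hN, hfix⟩ | ⟨hK2, x, hx, hx', hfix⟩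
  swap
  · exact h.of_unitary hirr hK2 hC hτ hx hx' hfix
  by_cases hrm : Odd r → r ≠ m
  · exact h.of_selfAdj hr hrm hK₀ hN hfix
  obtain ⟨C, hC, hcomm, hτ, x, hx, hx'⟩ := exists_comm_of_plane h.quad h.fix (isFld_of hK₀) hN
    (h.sesq.isSelfAdjointFor.mpr hfix) (by rw [hK₀.finrank_eq, h.card, not_not.mp (Classical.not_imp.mp hrm).2, mul_comm])
  rcases h.sesq.comm_cases hirr h.sim hC hcomm hτ with hK | ⟨E, hE, h2, hE'⟩ | ⟨E, hE, h2, hEC, hE'⟩
  rotate_left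
  · exact h.of_idem hirr hE h2 hE'
  · exact h.of_pair hirr hC hcomm hE h2 hEC hE'
  obtain ⟨K₁, hK₁, hmem⟩ := hK.exists_sub (r := 2) (even_iff_two_dvd.mp ((Nat.even_or_odd _).resolve_right fun ho =>
    hx' (h.sesq.adj_eq_of_odd hK hτ ho x hx)))
  have h1 := normalizes_of_pow hC hmem
  have h2 := h.sesq.adj_mem_of_pow hτ hmem
  rcases h.sesq.field_cases h.sim (isFld_of hK₁) (fun h => by
    have := Submodule.finrank_mono (s := Subalgebra.toSubmodule K₁) (t := Subalgebra.toSubmodule ⊥) h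
    rw [Subalgebra.finrank_toSubmodule, Subalgebra.finrank_toSubmodule, hK₁.finrank_eq, Subalgebra.finrank_bot] at this
    omega) h1 h2 with ⟨s, K₂, hs, hK₂, hle, hN, hfix⟩ | ⟨-, x, hx, hx', hfix⟩
  · have := Submodule.finrank_mono (s := Subalgebra.toSubmodule K₂) (t := Subalgebra.toSubmodule K₁) hle
    rw [Subalgebra.finrank_toSubmodule, Subalgebra.finrank_toSubmodule, hK₁.finrank_eq, hK₂.finrank_eq] at this
    exact h.of_selfAdj hs (fun _ => by have := h.four; omega) hK₂ hN hfix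
  · exact h.of_unitary hirr hK₁ h1 h2 hx hx' hfix

section Tensor

variable {k l : ℕ} {e : ι ≃ Fin k × Fin l} {P : GL ι F} {φ : Matrix (Fin k) (Fin k) F →ₐ[F] Matrix ι ι F}
  {ψ : Matrix (Fin l) (Fin l) F →ₐ[F] Matrix ι ι F} {ε₁ ε₂ : F} {f₁ : (Fin k → F) → (Fin k → F) → F}
  {f₂ : (Fin l → F) → (Fin l → F) → F}

theorem of_comm_left (h : EvenData m Q H) (hirr : Irr H) (hk : 0 < k)
    (hT : TensorPair (RingHom.id F) 1 (polar Q) H e P φ ψ ε₁ ε₂ f₁ f₂)
    (hC : ∃ C : Subalgebra F (Matrix (Fin k) (Fin k) F), (∀ x ∈ C, ∀ y ∈ C, x * y = y * x) ∧ ¬ C ≤ ⊥ ∧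
      similarityGroup f₁ ≤ subalgebraNormalizer C ∧ ∀ x ∈ C, adj (RingHom.id F) f₁ x ∈ C) : EvenList m Q H := by
  have := h.nonempty
  have : Nonempty (Fin k) := ⟨⟨0, hk⟩⟩
  obtain ⟨C, hcomm, hne, hN, hτ⟩ := hC
  refine h.of_comm hirr (normalizes_map hT.normL ((indGrp_le_similarityGroup h.sesq hT.sesqL hT.adjL h.sim).trans hN))
    (map_comm φ hcomm) (map_not_le_bot φ hne) ?_
  rintro _ ⟨x, hx, rfl⟩
  exact ⟨_, hτ x hx, (hT.adjL x).symm⟩

theorem alt_left (h : EvenData m Q H) (hirr : Irr H) (hk : 2 ≤ k)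
    (hT : TensorPair (RingHom.id F) 1 (polar Q) H e P φ ψ ε₁ ε₂ f₁ f₂) (hε : (2 : F) = 0 ∨ ε₁ = -1) (v : Fin k → F) :
    f₁ v v = 0 := by
  have := h.nonempty
  have : Nonempty (Fin k) := ⟨⟨0, by omega⟩⟩
  by_cases h2 : (2 : F) = 0
  · have h3 : IsSesq (RingHom.id F) 1 f₁ := by
      rcases hT.epsL with rfl | ⟨rfl, -⟩
      exacts [hT.sesqL, hT.sesqL.of_char_two h2]
    exact h3.alt_of_irr h2 (hirr.ind hT.normL) (indGrp_le_similarityGroup h.sesq hT.sesqL hT.adjL h.sim)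
      (by simpa using hk) v
  · obtain rfl := hε.resolve_left h2
    exact hT.sesqL.alt_of_skew h2 v

theorem quad_eq_left (h : EvenData m Q H) (hirr : Irr H) (hl : 2 ≤ l) (h2 : (2 : F) = 0)
    (hT : TensorPair (RingHom.id F) 1 (polar Q) H e P φ ψ ε₁ ε₂ f₁ f₂) {a : Matrix (Fin k) (Fin k) F}
    (ha : φ a + adj (RingHom.id F) (polar Q) (φ a) = 1) (v : ι → F) : Q v = polar Q (φ a *ᵥ v) v := by
  have := h.nonempty
  obtain ⟨c, hc⟩ := h.sesq.exists_half_range h2 hirr h.sim hl ψ hT.normR hT.swap.adj_memL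
  refine quad_eq_of_comm h2 h.quad hirr (by have := h.eight; omega) h.fix ha (fun g hg => ⟨_, hc, ?_⟩) v
  obtain ⟨d, hd⟩ := sub_mem (conj_mem_of_normalizes hT.normL hg (φ.mem_range_self a)) (φ.mem_range_self a)
  rw [conjAlg_apply, ← hd]
  exact (hT.comm d c).symm

theorem of_alt (h : EvenData m Q H) (hirr : Irr H) (hk : 2 ≤ k) (hkl : k ≤ l)
    (hT : TensorPair (RingHom.id F) 1 (polar Q) H e P φ ψ ε₁ ε₂ f₁ f₂) (h1 : ∀ v, f₁ v v = 0) (h2 : ∀ v, f₂ v v = 0) :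
    EvenList m Q H := by
  have := h.nonempty
  by_cases h3 : k = 2 ∧ Fintype.card F = 2
  · obtain ⟨rfl, h3⟩ := h3
    exact h.of_comm_left hirr two_pos hT (hT.sesqL.exists_comm_of_card_two h3)
  iterate 8 right
  refine Or.inl ⟨k, l, e, P, f₁, f₂, hk, hkl, (TensorPair.card_eq e).symm.trans h.card,
    by simpa using hT.sesqL.even_card h1, by simpa using hT.sesqR.even_card h2, ?_, hT.sesqL.isSymplecticForm h1,
    hT.sesqR.isSymplecticForm h2, hT.form, fun x y => ?_, eq_inf_of_max h.max hT.le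
      (h.rich.not_le_tensorProductSubgroup (singBig_of_card _ h.eight) hk (by omega) e P)⟩
  · rintro rfl
    obtain ⟨a, ha, ha'⟩ := exists_idem_two hT.sesqL h1
    have h4 : φ a + adj (RingHom.id F) (polar Q) (φ a) = 1 := by rw [hT.adjL, ← map_add, ha', map_one]
    have := Fintype.one_lt_card (α := F)
    exact ⟨plus_of_idem h.quad (by rw [← map_mul, ha]) h4 (or_iff_not_imp_left.mpr fun h5 =>
      h.quad_eq_left hirr hkl (not_not.mp h5) hT h4), by omega⟩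
  obtain ⟨c, -, hc⟩ := form_tens hT.sesqL hT.sesqR hT.form
  by_cases h4 : (2 : F) = 0
  · obtain ⟨a, ha⟩ := h.sesq.exists_half_range h4 hirr h.sim hk φ hT.normL hT.adj_memL
    rw [h.quad_eq_left hirr (by omega) h4 hT ha, hT.left, transAlg_mulVec, show (a ⊗ₖ 1) *ᵥ tens x y =
      tens (a *ᵥ x) (1 *ᵥ y) from CL.SLn.kronecker_mulVec _ _ _ _, one_mulVec, hc, h2, mul_zero, mul_zero]
  · exact (mul_eq_zero_iff_left h4).mp (by rw [← quad_polar_self h.quad, hc, h2, mul_zero, mul_zero])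

omit [Fintype F] in
theorem eps_cases (hT : TensorPair (RingHom.id F) 1 (polar Q) H e P φ ψ ε₁ ε₂ f₁ f₂) :
    (((2 : F) = 0 ∨ ε₁ = -1) ∧ ((2 : F) = 0 ∨ ε₂ = -1)) ∨ ((2 : F) ≠ 0 ∧ ε₁ = 1 ∧ ε₂ = 1) := by
  by_cases h2 : (2 : F) = 0
  · exact Or.inl ⟨Or.inl h2, Or.inl h2⟩
  have h1 := hT.eps rfl
  rcases hT.epsL with rfl | ⟨rfl, -⟩ <;> rcases hT.epsR with rfl | ⟨rfl, -⟩
  · exact Or.inr ⟨h2, rfl, rfl⟩
  · exact absurd (by linear_combination h1) h2
  · exact absurd (by linear_combination h1) h2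
  · exact Or.inl ⟨Or.inr rfl, Or.inr rfl⟩

theorem of_tensor_two (h : EvenData m Q H) (hirr : Irr H) {e : ι ≃ Fin 2 × Fin l}
    {φ : Matrix (Fin 2) (Fin 2) F →ₐ[F] Matrix ι ι F} {f₁ : (Fin 2 → F) → (Fin 2 → F) → F}
    (hT : TensorPair (RingHom.id F) 1 (polar Q) H e P φ ψ ε₁ ε₂ f₁ f₂) : EvenList m Q H := by
  have hl : 2 ≤ l := by have := TensorPair.card_eq e; have := h.eight; omega
  rcases eps_cases hT with ⟨h1, h2⟩ | ⟨h2, rfl, rfl⟩
  · exact h.of_alt hirr le_rfl hl hT (h.alt_left hirr le_rfl hT h1) (h.alt_left hirr hl hT.swap h2)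
  · exact h.of_comm_left hirr two_pos hT (hT.sesqL.exists_comm_two h2)

theorem of_tensor (h : EvenData m Q H) (hirr : Irr H) (hk : 2 ≤ k) (hkl : k ≤ l)
    (hT : TensorPair (RingHom.id F) 1 (polar Q) H e P φ ψ ε₁ ε₂ f₁ f₂) : EvenList m Q H := by
  have := h.nonempty
  rcases hk.eq_or_lt with rfl | hk3
  · exact h.of_tensor_two hirr hT
  rcases eps_cases hT with ⟨h1, h2⟩ | ⟨h2, rfl, rfl⟩
  · exact h.of_alt hirr hk hkl hT (h.alt_left hirr hk hT h1) (h.alt_left hirr (by omega) hT.swap h2)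
  have hodd : Odd (Fintype.card F) := by_contra fun h => h2 (two_eq_zero_of_not_odd h)
  have hc := (TensorPair.card_eq e).symm.trans h.card
  by_cases h3 : k = 3 ∧ Fintype.card F = 3
  · obtain ⟨rfl, h3⟩ := h3
    obtain ⟨E, hE, hE1, hτ⟩ := exists_frame_O3_three (by rw [Nat.card_eq_fintype_card, h3]) hT.sesqL
    refine h.of_idem hirr ((hE.mono (indGrp_le_similarityGroup h.sesq hT.sesqL hT.adjL h.sim)).map hT.normL)
      (by rw [Finset.card_map, hE1]; omega) fun x hx => ?_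
    obtain ⟨y, hy, rfl⟩ := Finset.mem_map.mp hx
    exact (hT.adjL y).trans (congrArg φ (hτ y hy))
  by_cases h4 : k = 3 ∧ l = 4 ∧ IsSquare (gramMatrix f₂).det
  · obtain ⟨rfl, rfl, h4⟩ := h4
    obtain ⟨θ, h5, h6⟩ := hT.exists_two_of_four h2 (by decide) h.sesq h.isom
      (h.max.1.le.trans (le_specialLinear_of_perfect h.rich.perfect)) h4
    obtain ⟨_, _, _, _, _, _, _, _, h7⟩ := h.sesq.exists_tensorPair two_pos θ h5 h6
    exact h.of_tensor_two hirr h7
  iterate 9 right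
  refine Or.inl ⟨hodd, k, l, e, P, f₁, f₂, hk3, hkl, hc, fun h5 => five_le_of_odd hodd fun h6 => h3 ⟨h5, h6⟩, ?_,
    hT.sesqL.isSymmetricForm, hT.sesqR.isSymmetricForm, hT.form, eq_inf_of_max h.max hT.le
      (h.rich.not_le_tensorProductSubgroup (singBig_of_card _ h.eight) hk (by omega) e P)⟩
  rintro rfl rfl
  obtain rfl : m = 6 := by omega
  rw [plus_iff_of_tensor h2 h.nd hT.form h.card, hT.sesqR.plus_iff_det h2 (m := 2) rfl, neg_one_sq, one_mul,
    show ((-1 : F)) ^ 6 * ((gramMatrix f₁).det ^ 4 * (gramMatrix f₂).det ^ 3) =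
      ((gramMatrix f₁).det ^ 2 * (gramMatrix f₂).det) ^ 2 * (gramMatrix f₂).det by ring, isSquare_sq_mul_iff
        (mul_ne_zero (pow_ne_zero _ hT.sesqL.isUnit_gram.ne_zero) hT.sesqR.isUnit_gram.ne_zero), and_self]
  exact fun h5 => h4 ⟨rfl, rfl, h5⟩

end Tensor

theorem plus_of_tensorSys (h : EvenData m Q H) (hirr : Irr H) {t : ℕ} {P : Fin t → Subgroup (GL ι F)}
    {φ : Fin t → (Matrix (Fin 2) (Fin 2) F →ₐ[F] Matrix ι ι F)} (ht : 2 ≤ t) (hT : TensorSys H P φ) :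
    IsPlusTypeOn Q ⊤ := by
  have := h.nonempty
  let i : Fin t := ⟨0, by omega⟩
  by_cases h2 : (2 : F) = 0
  · have h1 : ∀ i, ∃ a, a * a = a ∧ φ i a + adj (RingHom.id F) (polar Q) (φ i a) = 1 := fun i => by
      obtain ⟨ε, f, h1, h3, h4⟩ := h.sesq.exists_induced (φ i) (hT.adj_mem h.sesq h.isom i)
      have h5 : IsSesq (RingHom.id F) 1 f := by
        rcases h3 with rfl | ⟨rfl, -⟩
        exacts [h1, h1.of_char_two h2]
      obtain ⟨a, ha, ha'⟩ := exists_idem_two h1 (h5.alt_of_irr h2 ((irr_of_spanAlg_eq_top hT.span).ind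
        (hT.range i ▸ normalizes_spanAlg (hT.normalizes i)))
        (indGrp_le_similarityGroup h.sesq h1 h4 (hT.iSup_le.trans h.sim)) (by simp))
      exact ⟨a, ha, by rw [h4, ← map_add, ha', map_one]⟩
    choose a ha ha' using h1
    have : Nontrivial (Fin t) := Fin.nontrivial_iff_two_le.mpr ht
    refine plus_of_idem h.quad (by rw [← map_mul, ha]) (ha' i) (Or.inr (quad_eq_of_comm h2 h.quad hirr
      (by have := h.eight; omega) h.fix (ha' i) fun g hg => ?_))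
    obtain ⟨π, hπ⟩ := hT.perm g hg
    obtain ⟨a', h3⟩ := hT.conj_apply (hπ i) (a i)
    rw [h3]
    by_cases h : π i = i
    · obtain ⟨j, hj⟩ := exists_ne i
      exact ⟨_, ha' j, by rw [h, ← map_sub, hT.comm_apply hj]⟩
    · exact ⟨_, ha' i, by rw [Matrix.mul_sub, Matrix.sub_mul, hT.comm_apply h, ← map_mul]⟩
  obtain ⟨l, e, P', ψ, ε₁, ε₂, f₁, f₂, h1⟩ := h.sesq.exists_tensorPair (H := ⊥) two_pos (φ i) bot_le
    (hT.adj_mem h.sesq h.isom i)
  obtain ⟨s, hs⟩ : 2 ^ 2 ∣ Fintype.card ι := hT.card_eq two_pos ▸ pow_dvd_pow 2 ht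
  have h3 := TensorPair.card_eq e
  have h4 := h.card
  obtain rfl : l = 2 * s := by omega
  obtain rfl : m = 2 * s := by omega
  exact (plus_iff_of_tensor h2 h.nd h1.form h.card).mpr
    ⟨(-1) ^ s * ((gramMatrix f₁).det ^ s * (gramMatrix f₂).det), by ring⟩

theorem main (h : EvenData m Q H) : EvenList m Q H := by
  have := h.nonempty
  have h8 := h.eight
  by_cases hirr : Irr H
  swap
  · exact h.of_red hirr
  rcases h.sesq.form_cases (by omega) hirr h.isom with ⟨C, hC, hcomm, hne, hτ⟩ |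
    ⟨k, l, e, P, φ, ψ, ε₁, ε₂, f₁, f₂, hk, hl, hT⟩ | ⟨r, R, hI, hR⟩ | ⟨t, k, P, φ, ht, hk, hT⟩ | ⟨P, hP⟩
  · exact h.of_comm hirr hC hcomm hne hτ
  · rcases le_total k l with hkl | hkl
    exacts [h.of_tensor hirr hk hkl hT, h.of_tensor hirr hl hkl hT.swap]
  · obtain ⟨rfl, -⟩ := hR.two_of_bilinear h.sesq hI
    obtain ⟨k, -, hd, -⟩ := hR.dim
    have hk : 2 ≤ k := by
      rcases k with _ | _ | k <;> omega
    iterate 11 right
    exact Or.inl ⟨2, k, le_rfl, hk, hd.symm.trans h.card, fun _ => plus_of_heis (by simpa using hR.ne_zero) h.quad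
      (hd ▸ pow_dvd_pow 2 hk) (by omega) hR hI⟩
  · iterate 11 right
    refine Or.inl ⟨k, t, hk, ht, (hT.card_eq (by omega)).symm.trans h.card, ?_⟩
    rintro rfl
    exact h.plus_of_tensorSys hirr ht hT
  · by_contra hgeo
    have hPI := fun l hl => h.fix l (hP.le hl)
    refine hgeo ?_
    iterate 12 right
    refine ⟨P, hP.isResidualCore fun F₀ h0 htr => hgeo (h.of_subfield hP.span hPI hP.normal h0 htr), ?_⟩
    rintro ⟨σ, f, hf, hfix⟩
    exact hgeo (h.of_subfield hP.span hPI hP.normal (fixSub_ne_top (ne_id_of_unitary hf)) fun l hl =>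
      trace_mem_fixSub (isSesq_of_unitary hf) h.sesq (fixesForm_iff.mp hfix l hl) (h.isom l (hP.le hl)))

end EvenData

/-- The case division for a maximal subgroup of `Ω_{2m}^±(q)`. -/
theorem even_cases {m : ℕ} {Q : (ι → F) → F} (hQ : IsNondegenerateQuadraticForm Q) (hc : Fintype.card ι = 2 * m)
    (hm : 4 ≤ m) {H : Subgroup (GL ι F)} (hH : IsMaximalIn (omegaGL Q) H) : EvenList m Q H :=
  EvenData.main (Q := toQF hQ) ⟨hQ, hc, hm, hH⟩

end CL.Asch
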