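/-
The exceptional inclusions among the geometric subgroups of `Sp_4(3)`.
-/
import Cfsg.Agent.Cls.MaxEven

set_option autoImplicit false

namespace CL.Asch

open Matrix Cfsg Cfsg.Geo Module
open scoped MatrixGroups

variable {ι : Type} [Fintype ι] [DecidableEq ι] {F : Type*} [Field F]

/-- A Heisenberg group of isometries of an alternating form is of symplectic type. -/
theorem IsHeis.c6Data_of_alt [Finite F] (hn : 2 ≤ Fintype.card ι) (h2 : (2 : F) ≠ 0) {b : (ι → F) → (ι → F) → F}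
    (hb : IsSesq (RingHom.id F) (-1) b) {R : Subgroup (GL ι F)} (hR : IsHeis R) (hI : ∀ x ∈ R, Isom b x) :
    C6Data 2 (subgroupNormalizer R) R := by
  have : Nonempty ι := Fintype.card_pos_iff.mp (by omega)
  have hc : ∀ x ∈ R, ∀ y ∈ R, y * x = x * y ∨ y * x = -(x * y) := fun x hx y hy => by
    obtain ⟨u, hu⟩ := hR.comm x hx y hy
    rcases sq_eq_one_of_isom hb (hI (scal ι u) (by
      rw [← inv_mul_eq_iff_eq_mul.mpr hu]; exact mul_mem (inv_mem (mul_mem hx hy)) (mul_mem hy hx))) with rfl | rfl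
    · exact Or.inl (by rw [hu, map_one, mul_one])
    · exact Or.inr (by rw [hu, scal_neg_one, mul_neg_one])
  have hsq : ∀ x ∈ R, x * x = 1 ∨ x * x = -1 := fun x hx => by
    obtain ⟨u, hu⟩ := mem_scalars_of_comm_span hR.span (g := x * x) fun y hy => by
      rcases hc x hx y hy with h | h <;> rw [← mul_assoc, h] <;> simp [mul_assoc, h]
    rcases sq_eq_one_of_isom hb (hI (scal ι u) (by rw [show scal ι u = x * x from hu]; exact mul_mem hx hx)) with
      rfl | rfl
    · exact Or.inl (hu.symm.trans (map_one (scal ι)))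
    · exact Or.inr (hu.symm.trans scal_neg_one)
  refine hR.c6Data hn Nat.prime_two (fun h hh x hx => (hh x).mp hx) (fun x hx => ?_) fun A hA hN hAc x hx => ?_
  · rcases hsq x hx with h | h
    · exact ⟨1, Or.inl rfl, by rw [pow_two, h, map_one]⟩
    · exact ⟨-1, Or.inr ⟨rfl, rfl⟩, by rw [pow_two, h, scal_neg_one]⟩
  have h1 : ∀ a ∈ R, a * a = -1 → a.val * x.val = x.val * a.val := fun a ha haa => by
    have h3 : a.val * a.val = -1 := congrArg Units.val haa
    have h4 : (1 + a.val) * ((2 : F)⁻¹ • (1 - a.val)) = 1 := by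
      rw [Matrix.mul_smul, show (1 + a.val) * (1 - a.val) = (2 : F) • 1 by
        rw [add_mul, mul_sub, mul_sub, h3, two_smul]; noncomm_ring, smul_smul, inv_mul_cancel₀ h2, one_smul]
    let g : GL ι F := ⟨_, _, h4, mul_eq_one_comm.mp h4⟩
    have h5 : ∀ y : GL ι F, y * a = -(a * y) → g * y * g⁻¹ = a * y := fun y hy => Units.ext (by
      have h6 : y.val * a.val = -(a.val * y.val) := congrArg Units.val hy
      change (1 + a.val) * y.val * ((2 : F)⁻¹ • (1 - a.val)) = a.val * y.val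
      rw [Matrix.mul_smul, show (1 + a.val) * y.val * (1 - a.val) = (2 : F) • (a.val * y.val) by
        rw [Matrix.mul_assoc, mul_sub, h6, Matrix.mul_one, sub_neg_eq_add, add_mul, mul_add a.val,
          ← Matrix.mul_assoc a.val, h3, two_smul]; noncomm_ring, smul_smul, inv_mul_cancel₀ h2, one_smul])
    have h6 : g ∈ subgroupNormalizer R := Subgroup.mem_normalizer_fintype fun y hy => by
      rcases hc a ha y hy with h | h
      · rwa [show g * y = y * g from Units.ext (by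
          simpa [g, add_mul, mul_add] using congrArg Units.val h.symm), mul_inv_cancel_right]
      · exact h5 y h ▸ mul_mem ha hy
    refine congrArg Units.val ((hc a ha x (hA hx)).elim Eq.symm fun h => ?_)
    exact hAc a ((A.mul_mem_cancel_right hx).mp (h5 x h ▸ hN g h6 x hx)) x hx
  have h3 : ∀ y : Matrix ι ι F, (y - adj (RingHom.id F) b y) * x.val = x.val * (y - adj (RingHom.id F) b y) :=
    fun y => spanAlg_induction (L := R)
      (p := fun y => (y - adj (RingHom.id F) b y) * x.val = x.val * (y - adj (RingHom.id F) b y)) (fun a ha => by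
        rcases hsq a ha with h | h
        · simp [hb.adj_isom (hI a ha), inv_eq_of_mul_eq_one_right h]
        · simp [hb.adj_isom (hI a ha), inv_eq_of_mul_eq_one_right (show a * -a = 1 by rw [mul_neg, h, neg_neg]),
            add_mul, mul_add, h1 a ha h]) (by simp [hb.adj_zero])
      (fun y z hy hz => by rw [hb.adj_add, add_sub_add_comm, add_mul, mul_add, hy, hz])
      (fun c y hy => by rw [hb.adj_smul, RingHom.id_apply, ← smul_sub, Matrix.smul_mul, Matrix.mul_smul, hy])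
      (hR.span ▸ Algebra.mem_top)
  obtain ⟨c, hc⟩ := LinearMap.exists_eq_smul_id_of_forall_notLinearIndependent (f := toLin' x.val) fun v hv => by
    obtain ⟨u, hu⟩ := hb.exists_ne (hv.ne_zero 0)
    let y : Matrix ι ι F := LinearMap.toMatrix' ((hb.bil.flip v).smulRight v)
    have h4 : ∀ u, y *ᵥ u = b u v • v := fun u => LinearMap.toMatrix'_mulVec _ _
    have h5 : adj (RingHom.id F) b y = -y := hb.adj_eq fun u w => by
      rw [neg_mulVec, h4, h4, hb.isSL.neg_right, hb.smul_left, hb.isSL.smul_right, hb.symm w v]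
      simp [mul_comm]
    have h6 := congrArg (· *ᵥ u) (h3 y)
    simp only [h5, sub_neg_eq_add, ← two_smul F, Matrix.smul_mul, Matrix.mul_smul, smul_mulVec, ← mulVec_mulVec, h4,
      mulVec_smul] at h6
    exact hu (LinearIndependent.pair_iff.mp hv (b (x.val *ᵥ u) v) (-b u v) (by
      rw [smul_right_injective _ h2 h6, neg_smul]; exact add_neg_cancel _) |>.2 |> neg_eq_zero.mp)
  exact mem_scalars_of_eq_smul (c := c) (toLin'.injective (by rw [hc]; simp [Module.End.one_eq_id]))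

theorem cases_of_card_three [Fintype F] (hq : Fintype.card F = 3) (c : F) : c = 0 ∨ c = 1 ∨ c = -1 := by
  have h : c * ((c - 1) * (c + 1)) = 0 := by
    have := FiniteField.pow_card c
    rw [hq] at this
    linear_combination this
  simpa only [mul_eq_zero, sub_eq_zero, add_eq_zero_iff_eq_neg] using h

theorem three_eq_zero' [Fintype F] (hq : Fintype.card F = 3) : (3 : F) = 0 := by
  simpa [hq] using FiniteField.cast_card_eq_zero F

/-- The standard skew element with square `δ`. -/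
def skewStd {R : Type*} [CommRing R] (δ : R) : Matrix (Fin 2 ⊕ Fin 2) (Fin 2 ⊕ Fin 2) R := fromBlocks 0 (δ • 1) 1 0

/-- Skew elements with square `±1` in dimension four over the field with three elements. -/
theorem exists_conj_skewStd [Fintype F] (hq : Fintype.card F = 3) {J : Matrix (Fin 2 ⊕ Fin 2) (Fin 2 ⊕ Fin 2) F}
    {δ : F} (hδ : δ = 1 ∨ δ = -1) (hJ : J * J = δ • 1) (ha : adj (RingHom.id F) (sympForm 2 F) J = -J) :
    ∃ P : GL (Fin 2 ⊕ Fin 2) F, Isom (sympForm 2 F) P ∧ J = conjAlg P (skewStd δ) := by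
  classical
  have hb := isSesq_sympForm (F := F) 2
  have h3 := three_eq_zero' hq
  have hs := hb.skew_of_alt (sympForm_alt 2)
  have h1 : ∀ u v, sympForm 2 F (J *ᵥ u) v = -sympForm 2 F u (J *ᵥ v) := fun u v => by
    rw [hb.adj_spec, ha, neg_mulVec, hb.isSL.neg_right]
  have h2 : ∀ v, J *ᵥ (J *ᵥ v) = δ • v := fun v => by rw [mulVec_mulVec, hJ, smul_mulVec, one_mulVec]
  have key : ∀ W : Submodule F (Fin 2 ⊕ Fin 2 → F), W ≠ ⊥ → IsNondegenerateOn (sympForm 2 F) W →
      (∀ w ∈ W, J *ᵥ w ∈ W) → ∃ v ∈ W, sympForm 2 F v (J *ᵥ v) = -1 := fun W h0 hW hJW => by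
    obtain ⟨v, hv, h4⟩ : ∃ v ∈ W, sympForm 2 F v (J *ᵥ v) ≠ 0 := by
      by_contra! h
      obtain ⟨w, hw, hw0⟩ := W.ne_bot_iff.mp h0
      refine hw0 ((Submodule.eq_bot_iff _).mp (hb.isNondegenerateOn_iff.mp hW) w ⟨hw, fun u hu => ?_⟩)
      have h5 := h _ (add_mem (hJW u hu) hw)
      rw [mulVec_add, hb.add_left, hb.isSL.add_right, hb.isSL.add_right, h _ (hJW u hu), h w hw, h1, h2, h2,
        hb.isSL.smul_right, hb.isSL.smul_right, hs u w, RingHom.id_apply] at h5
      rcases hδ with rfl | rfl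
      · linear_combination -h5 + sympForm 2 F w u * h3
      · linear_combination h5 + sympForm 2 F w u * h3
    rcases (cases_of_card_three hq _).resolve_left h4 with h5 | h5
    swap
    · exact ⟨v, hv, h5⟩
    rcases hδ with rfl | rfl
    · exact ⟨_, hJW v hv, by rw [h2, one_smul, h1, h5]⟩
    · refine ⟨_, add_mem hv (hJW v hv), ?_⟩
      rw [mulVec_add, h2, hb.add_left, hb.isSL.add_right, hb.isSL.add_right, hb.isSL.smul_right, hb.isSL.smul_right,
        sympForm_alt, sympForm_alt, h1, h5, RingHom.id_apply]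
      linear_combination h3
  obtain ⟨v, -, hv⟩ := key ⊤ top_ne_bot (hb.isNondegenerateOn_iff.mpr ((Submodule.eq_bot_iff _).mpr fun w h =>
    hb.nondeg' w fun u => h.2 u Submodule.mem_top)) fun _ _ => Submodule.mem_top
  have hW : IsNondegenerateOn (sympForm 2 F) (Submodule.span F {v, J *ᵥ v}) := by
    refine hb.isNondegenerateOn_iff.mpr ((Submodule.eq_bot_iff _).mpr fun w ⟨hw, h⟩ => ?_)
    obtain ⟨a, c, rfl⟩ := Submodule.mem_span_pair.mp hw
    have h4 := h v (Submodule.subset_span (by simp))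
    have h5 := h (J *ᵥ v) (Submodule.subset_span (by simp))
    simp only [hb.add_left, hb.smul_left, sympForm_alt, hv, h1 v v] at h4 h5
    rw [show a = 0 by linear_combination -h5, show c = 0 by linear_combination h4]
    simp
  obtain ⟨w, hw, hw'⟩ := key (hb.perp (Submodule.span F {v, J *ᵥ v})) (fun h => by
    have h4 := hb.finrank_add_perp (Submodule.span F {v, J *ᵥ v})
    have h5 := finrank_span_finset_le_card (R := F) ({v, J *ᵥ v} : Finset (Fin 2 ⊕ Fin 2 → F))
    have h6 := Finset.card_le_two (a := v) (b := J *ᵥ v)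
    rw [Set.finrank, Finset.coe_pair] at h5
    rw [h] at h4
    simp at h4
    omega) (hb.nondeg_perp hW) fun w hw u hu => by
      obtain ⟨a, c, rfl⟩ := Submodule.mem_span_pair.mp hu
      rw [h1, neg_eq_zero, mulVec_add, mulVec_smul, mulVec_smul, h2]
      exact hw _ (Submodule.mem_span_pair.mpr ⟨c * δ, a, by rw [add_comm, smul_smul]⟩)
  have h4 : sympForm 2 F w v = 0 := hw v (Submodule.subset_span (by simp))
  have h5 : sympForm 2 F w (J *ᵥ v) = 0 := hw _ (Submodule.subset_span (by simp))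
  have h6 : sympForm 2 F v w = 0 := hb.flip_zero h4
  have h7 : sympForm 2 F v (J *ᵥ w) = 0 := by rw [← neg_eq_zero, ← h1, hb.flip_zero h5]
  let M : Matrix (Fin 2 ⊕ Fin 2) (Fin 2 ⊕ Fin 2) F := (of (Sum.elim ![v, w] ![J *ᵥ v, J *ᵥ w]))ᵀ
  have h8 : ∀ x, M *ᵥ x = x (.inl 0) • v + x (.inl 1) • w + (x (.inr 0) • J *ᵥ v + x (.inr 1) • J *ᵥ w) := fun x => by
    ext i
    simp [M, mulVec, dotProduct, mul_comm]
  have h9 : ∀ x y, sympForm 2 F (M *ᵥ x) (M *ᵥ y) = sympForm 2 F x y := fun x y => by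
    rw [h8, h8, CL.Cls.witt_sympForm_eq_sum x]
    simp only [hb.add_left, hb.isSL.add_right, hb.smul_left, hb.isSL.smul_right, h1, h2, sympForm_alt, hv, hw', h4, h5,
      h6, h7, RingHom.id_apply, Fin.sum_univ_two]
    ring
  have h10 : M.det ≠ 0 := fun h => hb.isUnit_gram.ne_zero (by
    simpa [h] using congrArg det (hb.gram_pullback hb M 1 (by simpa using h9)).symm)
  refine ⟨GeneralLinearGroup.mkOfDetNeZero M h10, h9, ?_⟩
  rw [conjAlg_apply, Units.eq_mul_inv_iff_mul_eq]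
  refine matrix_ext_mulVec fun x => ?_
  change (J * M) *ᵥ x = (M * skewStd δ) *ᵥ x
  rw [← mulVec_mulVec, ← mulVec_mulVec, h8, h8]
  simp [skewStd, mulVec_add, mulVec_smul, h2, fromBlocks_mulVec, smul_smul, mul_comm, add_comm]

/-! ### Self-adjoint involutions -/

/-- The general self-adjoint matrix for the standard alternating form in dimension four. -/
def selfM {R : Type*} [CommRing R] (a b c d β γ : R) : Matrix (Fin 2 ⊕ Fin 2) (Fin 2 ⊕ Fin 2) R :=
  fromBlocks !![a, b; c, d] !![0, β; -β, 0] !![0, γ; -γ, 0] !![a, c; b, d]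

theorem map_selfM {R S : Type*} [CommRing R] [CommRing S] (φ : R →+* S) (a b c d β γ : R) :
    φ.mapMatrix (selfM a b c d β γ) = selfM (φ a) (φ b) (φ c) (φ d) (φ β) (φ γ) := by
  ext (i | i) (j | j) <;> fin_cases i <;> fin_cases j <;> simp [selfM]

theorem map_skewStd {R S : Type*} [CommRing R] [CommRing S] (φ : R →+* S) (δ : R) :
    φ.mapMatrix (skewStd δ) = skewStd (φ δ) := by
  ext (i | i) (j | j) <;> fin_cases i <;> fin_cases j <;> simp [skewStd]

theorem adj_eq_self_iff (h2 : (2 : F) ≠ 0) {x : Matrix (Fin 2 ⊕ Fin 2) (Fin 2 ⊕ Fin 2) F} :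
    adj (RingHom.id F) (sympForm 2 F) x = x ↔ ∃ a b c d β γ, x = selfM a b c d β γ := by
  have hb := isSesq_sympForm (F := F) 2
  refine ⟨fun h => ⟨x (.inl 0) (.inl 0), x (.inl 0) (.inl 1), x (.inl 1) (.inl 0), x (.inl 1) (.inl 1),
    x (.inl 0) (.inr 1), x (.inr 0) (.inl 1), ?_⟩, ?_⟩
  · have h1 := fun i j => hb.adj_spec x (Pi.single i 1) (Pi.single j 1)
    simp [h, CL.Cls.witt_sympForm_eq_sum, Fin.forall_fin_two] at h1
    ext (i | i) (j | j) <;> fin_cases i <;> fin_cases j <;> simp [selfM] <;> grind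
  · rintro ⟨a, b, c, d, β, γ, rfl⟩
    refine hb.adj_eq fun u v => ?_
    simp [CL.Cls.witt_sympForm_eq_sum, selfM, fromBlocks_mulVec, dotProduct]
    ring

/-- The identity and five anticommuting involutions. -/
def frameM : Fin 6 → Matrix (Fin 2 ⊕ Fin 2) (Fin 2 ⊕ Fin 2) (ZMod 3) :=
  ![selfM 1 0 0 1 0 0, selfM 1 0 0 (-1) 0 0, selfM 0 1 1 0 0 0, selfM 0 0 0 0 (-1) 1, selfM 0 1 (-1) 0 1 1,
    selfM 0 1 (-1) 0 (-1) (-1)]

theorem frameM_comm : ∀ k l, frameM k * frameM l = frameM l * frameM k ∨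
    frameM k * frameM l = -(frameM l * frameM k) := by decide +kernel

theorem frameM_spec : ∀ k, frameM k * frameM k = 1 ∧ (frameM k * skewStd (-1) = skewStd (-1) * frameM k ∨
    frameM k * skewStd (-1) = -(skewStd (-1) * frameM k)) := by decide +kernel

set_option synthInstance.maxSize 2000 in
theorem exists_eq_frameM (a b c d β γ : ZMod 3) (h1 : selfM a b c d β γ * selfM a b c d β γ = 1)
    (h2 : selfM a b c d β γ * skewStd (-1) = skewStd (-1) * selfM a b c d β γ ∨
      selfM a b c d β γ * skewStd (-1) = -(skewStd (-1) * selfM a b c d β γ)) :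
    ∃ k, selfM a b c d β γ = frameM k ∨ selfM a b c d β γ = -frameM k := by
  simp only [selfM, skewStd, fromBlocks_multiply, ← fromBlocks_one, fromBlocks_neg, fromBlocks_inj] at h1 h2
  simp [← Matrix.ext_iff, Fin.forall_fin_two] at h1 h2
  revert a b c d β γ
  decide +kernel

set_option synthInstance.maxSize 2000 in
theorem eq_or_eq_of_anticomm (a b c d β γ : ZMod 3) (h1 : selfM a b c d β γ * selfM a b c d β γ = 1)
    (h2 : selfM a b c d β γ * skewStd 1 = -(skewStd 1 * selfM a b c d β γ)) :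
    selfM a b c d β γ = selfM 0 0 0 0 1 (-1) ∨ selfM a b c d β γ = -selfM 0 0 0 0 1 (-1) := by
  simp only [selfM, skewStd, fromBlocks_multiply, ← fromBlocks_one, fromBlocks_neg, fromBlocks_inj] at h1 h2
  simp [← Matrix.ext_iff, Fin.forall_fin_two] at h1 h2
  revert a b c d β γ
  decide +kernel

theorem single_mem_of_frameM {S : Subring (Matrix (Fin 2 ⊕ Fin 2) (Fin 2 ⊕ Fin 2) (ZMod 3))} (h : ∀ k, frameM k ∈ S)
    (i j : Fin 2 ⊕ Fin 2) : single i j 1 ∈ S := by
  have h1 : ∀ s t : ℤ, (1 + s • frameM 1) * (1 + t • ((frameM 4 + frameM 5) * (frameM 1 * frameM 2))) ∈ S := fun s t =>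
    mul_mem (add_mem (one_mem S) (zsmul_mem (h 1) s)) (add_mem (one_mem S) (zsmul_mem
      (mul_mem (add_mem (h 4) (h 5)) (mul_mem (h 1) (h 2))) t))
  have h2 : ∀ i, single i i 1 ∈ S := fun i => by
    convert h1 (Sum.elim ![1, -1] ![1, -1] i) (Sum.elim ![1, 1] ![-1, -1] i) using 1
    revert i
    decide +kernel
  have h3 := mul_mem (mul_mem (h2 i) (mul_mem (add_mem (one_mem S) (h 2))
    (add_mem (one_mem S) (mul_mem (mul_mem (h 1) (h 2)) (h 3))))) (h2 j)
  have h4 : ∀ i j, ((1 + frameM 2) * (1 + frameM 1 * frameM 2 * frameM 3)) i j = 1 ∨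
      ((1 + frameM 2) * (1 + frameM 1 * frameM 2 * frameM 3)) i j = -1 := by decide +kernel
  rw [single_mul_mul_single, one_mul, mul_one] at h3
  rcases h4 i j with h5 | h5 <;> rw [h5] at h3
  · exact h3
  · rwa [← single_neg, neg_mem_iff] at h3

variable [Fintype F] {H : Subgroup (GL (Fin 2 ⊕ Fin 2) F)} {J : Matrix (Fin 2 ⊕ Fin 2) (Fin 2 ⊕ Fin 2) F}

theorem exists_coordinates (hq : Fintype.card F = 3) {δ : ℤ} (hδ : δ = 1 ∨ δ = -1) (hJ : J * J = (δ : F) • 1)
    (ha : adj (RingHom.id F) (sympForm 2 F) J = -J) :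
    ∃ θ : Matrix (Fin 2 ⊕ Fin 2) (Fin 2 ⊕ Fin 2) (ZMod 3) ≃+* Matrix (Fin 2 ⊕ Fin 2) (Fin 2 ⊕ Fin 2) F,
      θ (skewStd δ) = J ∧
      (∀ x, adj (RingHom.id F) (sympForm 2 F) (θ x) = θ x ↔ ∃ a b c d β γ, x = selfM a b c d β γ) ∧
      ∀ A : Subalgebra F (Matrix (Fin 2 ⊕ Fin 2) (Fin 2 ⊕ Fin 2) F), (∀ i j, θ (single i j 1) ∈ A) → A = ⊤ := by
  obtain ⟨P, hP, rfl⟩ := exists_conj_skewStd hq (δ := δ) (by rcases hδ with rfl | rfl <;> simp) hJ ha
  let φ := ZMod.ringEquivOfPrime F Nat.prime_three hq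
  refine ⟨φ.mapMatrix.trans (conjAlg P).toRingEquiv, congrArg (conjAlg P) ((map_skewStd φ.toRingHom δ).trans (by simp)),
    fun x => ?_, fun A hA => eq_top_of_conj_single P fun i j => ?_⟩
  · change adj _ _ (conjAlg P (φ.mapMatrix x)) = conjAlg P (φ.mapMatrix x) ↔ _
    rw [(isSesq_sympForm 2).adj_conjAlg hP, (conjAlg P).injective.eq_iff,
      adj_eq_self_iff (two_ne_zero_of_odd (by rw [hq]; decide))]
    exact ⟨fun ⟨a, b, c, d, β, γ, h⟩ => ⟨_, _, _, _, _, _, (φ.mapMatrix.symm_apply_apply x).symm.trans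
      ((congrArg _ h).trans (map_selfM φ.symm.toRingHom _ _ _ _ _ _))⟩, fun ⟨a, b, c, d, β, γ, h⟩ =>
        ⟨_, _, _, _, _, _, h ▸ map_selfM φ.toRingHom _ _ _ _ _ _⟩⟩
  · convert hA i j using 1
    change _ = conjAlg P ((single i j 1).map φ)
    rw [map_single, map_one]

theorem exists_heis_of_skew (hq : Fintype.card F = 3) (hJ : J * J = -1)
    (ha : adj (RingHom.id F) (sympForm 2 F) J = -J) (hI : ∀ h ∈ H, Isom (sympForm 2 F) h)
    (hN : ∀ h ∈ H, conjAlg h J = J ∨ conjAlg h J = -J) :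
    ∃ R : Subgroup (GL (Fin 2 ⊕ Fin 2) F), IsHeis R ∧ (∀ x ∈ R, Isom (sympForm 2 F) x) ∧ H ≤ subgroupNormalizer R := by
  have hb := isSesq_sympForm (F := F) 2
  obtain ⟨θ, h1, h2, h3⟩ := exists_coordinates hq (Or.inr rfl) (by simpa using hJ) ha
  rw [Int.cast_neg, Int.cast_one] at h1
  let X : Set (GL (Fin 2 ⊕ Fin 2) F) := {w | adj (RingHom.id F) (sympForm 2 F) w.val = w.val ∧ w.val * w.val = 1 ∧
    (w.val * J = J * w.val ∨ w.val * J = -(J * w.val))}
  have h4 : ∀ w ∈ X, ∃ k, w.val = θ (frameM k) ∨ w.val = -θ (frameM k) := fun w hw => by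
    obtain ⟨x, hx⟩ := θ.surjective w.val
    obtain ⟨h5, h6, h7⟩ := hw
    rw [← hx] at h5 h6 h7 ⊢
    obtain ⟨a, b, c, d, β, γ, rfl⟩ := (h2 x).mp h5
    simp only [← h1, ← map_mul, ← map_neg, θ.injective.eq_iff, EmbeddingLike.map_eq_one_iff] at h6 h7 ⊢
    exact exists_eq_frameM a b c d β γ h6 h7
  have h5 : ∀ x ∈ X, ∀ y ∈ X, y * x = x * y ∨ y * x = -(x * y) := fun x hx y hy => by
    obtain ⟨k, hk⟩ := h4 x hx
    obtain ⟨l, hl⟩ := h4 y hy
    simp only [Units.ext_iff, Units.val_mul, Units.val_neg]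
    rcases hk with hk | hk <;> rcases hl with hl | hl <;> rcases frameM_comm l k with h | h <;>
      simp [hk, hl, ← map_mul, h]
  refine ⟨Subgroup.closure X, ⟨h3 _ fun i j => single_mem_of_frameM
    (S := (spanAlg (Subgroup.closure X)).toSubring.comap θ.toRingHom) (fun k => ?_) i j, fun x hx y hy => ?_⟩,
    (Subgroup.closure_le (isoGrp _)).mpr fun w hw => hb.isom_of_adj (hw.1.trans
      (Units.inv_eq_of_mul_eq_one_right hw.2.1).symm), mem_normalizer_of_conj fun h hh =>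
      (Subgroup.closure_le ((Subgroup.closure X).comap (MulAut.conj h).toMonoidHom)).mpr fun w hw =>
        Subgroup.subset_closure ?_⟩
  · have h6 : θ (frameM k) * θ (frameM k) = 1 := by rw [← map_mul, (frameM_spec k).1, map_one]
    refine coe_mem_spanAlg (g := ⟨_, _, h6, h6⟩) (Subgroup.subset_closure ⟨(h2 _).mpr ?_, h6, ?_⟩)
    · fin_cases k <;> exact ⟨_, _, _, _, _, _, rfl⟩
    · simpa only [← h1, ← map_mul, ← map_neg, θ.injective.eq_iff] using (frameM_spec k).2
  · suffices y * x = x * y ∨ y * x = -(x * y) from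
      this.elim (fun h => ⟨1, by rw [h, map_one, mul_one]⟩) fun h => ⟨-1, by rw [h, scal_neg_one, mul_neg_one]⟩
    induction hx, hy using Subgroup.closure_induction₂ with
    | mem x y hx hy => exact h5 x hx y hy
    | one_left => simp
    | one_right => simp
    | mul_left x y z _ _ _ hx hy =>
      rcases hx with hx | hx <;> rcases hy with hy | hy <;> rw [← mul_assoc, hx] <;> simp [mul_assoc, hy]
    | mul_right y z x _ _ _ hy hz =>
      rcases hy with hy | hy <;> rcases hz with hz | hz <;> rw [mul_assoc, hz] <;> simp [← mul_assoc, hy]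
    | inv_left x y _ _ h =>
      exact h.imp (fun h => by rw [eq_inv_mul_iff_mul_eq, ← mul_assoc, ← h, mul_inv_cancel_right]) fun h => by
        rw [← mul_neg, eq_inv_mul_iff_mul_eq, ← mul_assoc, mul_inv_eq_iff_eq_mul, neg_mul, h, neg_neg]
    | inv_right x y _ _ h =>
      exact h.imp (fun h => by rw [inv_mul_eq_iff_eq_mul, ← mul_assoc, h, mul_inv_cancel_right]) fun h => by
        rw [inv_mul_eq_iff_eq_mul, mul_neg, ← mul_assoc, h, neg_mul, neg_neg, mul_inv_cancel_right]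
  · obtain ⟨h6, h7, h8⟩ := hw
    refine ⟨(hb.adj_conjAlg (hI h hh) w.val).trans (congrArg _ h6), ?_, ?_⟩
    · change conjAlg h w.val * conjAlg h w.val = 1
      rw [← map_mul, h7, map_one]
    · change conjAlg h w.val * J = J * conjAlg h w.val ∨ conjAlg h w.val * J = -(J * conjAlg h w.val)
      have h9 := h8.imp (congrArg (conjAlg h)) (congrArg (conjAlg h))
      rcases hN h hh with h10 | h10 <;> simpa [h10, neg_eq_iff_eq_neg] using h9

theorem exists_invol_of_skew (hq : Fintype.card F = 3) (hJ : J * J = 1)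
    (ha : adj (RingHom.id F) (sympForm 2 F) J = -J) (hI : ∀ h ∈ H, Isom (sympForm 2 F) h)
    (hN : ∀ h ∈ H, conjAlg h J = J ∨ conjAlg h J = -J) :
    ∃ w : Matrix (Fin 2 ⊕ Fin 2) (Fin 2 ⊕ Fin 2) F, adj (RingHom.id F) (sympForm 2 F) w = w ∧ w * w = 1 ∧ w ≠ 1 ∧
      w ≠ -1 ∧ ∀ h ∈ H, conjAlg h w = w ∨ conjAlg h w = -w := by
  obtain ⟨θ, h1, h2, -⟩ := exists_coordinates hq (Or.inl rfl) (by simpa using hJ) ha
  rw [Int.cast_one] at h1
  have h3 := (h2 (selfM 0 0 0 0 1 (-1))).mpr ⟨_, _, _, _, _, _, rfl⟩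
  have h4 : θ (selfM 0 0 0 0 1 (-1)) * θ (selfM 0 0 0 0 1 (-1)) = 1 := by
    rw [← map_mul, ← map_one θ]; exact congrArg θ (by decide +kernel)
  have h5 : θ (selfM 0 0 0 0 1 (-1)) * J = -(J * θ (selfM 0 0 0 0 1 (-1))) := by
    rw [← h1, ← map_mul, ← map_mul, ← map_neg]; exact congrArg θ (by decide +kernel)
  refine ⟨_, h3, h4, fun h => absurd (θ.injective (h.trans (map_one θ).symm)) (by decide +kernel),
    fun h => absurd (θ.injective (h.trans (by simp : _ = θ (-1)))) (by decide +kernel), fun h hh => ?_⟩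
  obtain ⟨x, hx⟩ := θ.surjective (conjAlg h (θ (selfM 0 0 0 0 1 (-1))))
  obtain ⟨a, b, c, d, β, γ, rfl⟩ := (h2 x).mp (by rw [hx, (isSesq_sympForm 2).adj_conjAlg (hI h hh), h3])
  rw [← hx, ← map_neg, θ.injective.eq_iff, θ.injective.eq_iff]
  refine eq_or_eq_of_anticomm a b c d β γ (θ.injective ?_) (θ.injective ?_)
  · rw [map_mul, hx, ← map_mul, h4, map_one, map_one]
  · have h6 := congrArg (conjAlg h) h5
    rw [map_neg, map_mul, map_mul, hx, h1]
    rcases hN h hh with h7 | h7 <;> simpa [h7, neg_eq_iff_eq_neg] using h6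

theorem exists_dec_of_pair (hq : Fintype.card F = 3) (hH : IsMaximalIn (spGL 2 F) H) (hirr : Irr H)
    {D : Fin 2 → Submodule F (Fin 2 ⊕ Fin 2 → F)} (hD : IsMDecomposition 2 D)
    (hs : ∀ i, IsTotallySingularFor (sympForm 2 F) (D i)) (hle : H ≤ decompositionStabilizer D) :
    ∃ D : Fin 2 → Submodule F (Fin 2 ⊕ Fin 2 → F), IsNondegenerateMDecomposition (sympForm 2 F) 2 D ∧
      H = decompositionStabilizer D ⊓ spGL 2 F := by
  classical
  have hb := isSesq_sympForm (F := F) 2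
  have h3 := three_eq_zero' hq
  have hc := CL.Cls.isCompl_of_isMDecomposition hD
  obtain ⟨J, h0, h1⟩ : ∃ J : Matrix (Fin 2 ⊕ Fin 2) (Fin 2 ⊕ Fin 2) F, (∀ u ∈ D 0, J *ᵥ u = u) ∧
      ∀ u ∈ D 1, J *ᵥ u = -u := ⟨LinearMap.toMatrix' ((D 0).projection _ hc - (D 1).projection _ hc.symm),
    fun u hu => by simp [sub_mulVec, Submodule.projection_apply_of_mem_left _ hu,
      Submodule.projection_apply_of_mem_right _ hu],
    fun u hu => by simp [sub_mulVec, Submodule.projection_apply_of_mem_left _ hu,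
      Submodule.projection_apply_of_mem_right _ hu]⟩
  have hdec : ∀ x, ∃ u ∈ D 0, ∃ v ∈ D 1, u + v = x := fun x => Submodule.mem_sup.mp (hc.sup_eq_top ▸ Submodule.mem_top)
  obtain ⟨w, hw1, hw2, hw3, hw4, hw5⟩ := exists_invol_of_skew (H := H) (J := J) hq (matrix_ext_mulVec fun x => by
      obtain ⟨u, hu, v, hv, rfl⟩ := hdec x
      simp [← mulVec_mulVec, mulVec_add, mulVec_neg, h0 u hu, h1 v hv]) (hb.adj_eq fun x y => by
      obtain ⟨u, hu, v, hv, rfl⟩ := hdec x
      obtain ⟨u', hu', v', hv', rfl⟩ := hdec y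
      simp [neg_mulVec, mulVec_add, h0 u hu, h1 v hv, h0 u' hu', h1 v' hv', hb.add_left, hb.isSL.add_right,
        hb.isSL.neg_left, hb.isSL.neg_right, hs 0 u hu u' hu', hs 1 v hv v' hv']) hH.1.le fun h hh => by
    obtain ⟨π, hπ⟩ := hle hh
    have h4 : ∀ i, ∀ u ∈ D i, h.val *ᵥ u ∈ D (π i) := fun i u hu => hπ i ▸ ⟨u, hu, rfl⟩
    have h5 : (π 0 = 0 ∧ π 1 = 1) ∨ (π 0 = 1 ∧ π 1 = 0) := by clear hπ h4; revert π; decide
    refine h5.imp (fun h6 => matrix_ext_mulVec fun x => ?_) fun h6 => matrix_ext_mulVec fun x => ?_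
    all_goals
      obtain ⟨u, hu, v, hv, h7⟩ := hdec ((h⁻¹).val *ᵥ x)
      have h8 := h6.1 ▸ h4 0 u hu
      have h9 := h6.2 ▸ h4 1 v hv
      rw [← gl_mulVec_inv h x, ← h7, conjAlg_mulVec]
    · simp [mulVec_add, mulVec_neg, h0 u hu, h1 v hv, h0 _ h8, h1 _ h9]
    · simp [-mulVec_mulVec, neg_mulVec, mulVec_add, mulVec_neg, h0 u hu, h1 v hv, h1 _ h8, h0 _ h9]
  have h2 : ∀ x : Matrix (Fin 2 ⊕ Fin 2) (Fin 2 ⊕ Fin 2) F, x + x + x = 0 := fun x => by
    rw [← zero_smul F x, ← h3]; module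
  have h4 : ∀ s : Matrix (Fin 2 ⊕ Fin 2) (Fin 2 ⊕ Fin 2) F, s * s = 1 → (s - 1) * (s - 1) = s - 1 := fun s hs => by
    rw [← sub_eq_zero, ← neg_eq_zero, ← h2 (s - 1), sub_mul, mul_sub, hs]; noncomm_ring
  have h5 : (w - 1) * (-w - 1) = 0 := by rw [sub_mul, mul_sub, mul_neg, hw2]; noncomm_ring
  have h6 : (-w - 1) * (w - 1) = 0 := by rw [sub_mul, mul_sub, neg_mul, hw2]; noncomm_ring
  have h7 : w - 1 ≠ 0 := sub_ne_zero.mpr hw3
  have h8 : w - 1 ≠ -w - 1 := fun h => h7 (by rw [← h4 w hw2]; exact (congrArg _ h).trans h5)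
  obtain ⟨k, D, hD, hle, hk, -⟩ := hb.exists_nondegDecomp hirr (E := {w - 1, -w - 1}) ⟨by
    simp [h4, hw2], by simpa [h7, sub_eq_zero, neg_eq_iff_eq_neg] using hw4, by simp [h5, h6], by simp,
    fun h hh => by rcases hw5 h hh with h9 | h9 <;> simp [h9]⟩ (Finset.card_pair h8).ge
    (by simp [hb.adj_sub, hb.adj_neg, hb.adj_one, hw1])
  have h9 := Finset.card_pair h8
  generalize Finset.card _ = t at D hD hle hk h9
  subst h9
  obtain rfl : k = 2 := by simp at hk; omega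
  exact ⟨D, hD, eq_inf_of_max hH hle ((rich_spGL le_rfl (by omega)).not_le_decompositionStabilizer hD.decomp)⟩

theorem exists_heis_of_unitary (hq : Fintype.card F = 3) (hH : IsMaximalIn (spGL 2 F) H)
    {K : Subalgebra F (Matrix (Fin 2 ⊕ Fin 2) (Fin 2 ⊕ Fin 2) F)} (hK : IsFieldSubalgebra 2 K)
    (hτ : IsAdjointClosedFor (sympForm 2 F) K) (hns : ¬ IsSelfAdjointFor (sympForm 2 F) K)
    (hle : H ≤ subalgebraNormalizer K) :
    ∃ R : Subgroup (GL (Fin 2 ⊕ Fin 2) F), IsSymplecticTypeGroup 2 R ∧ ActsAbsolutelyIrreducibly (matrixSet R) ∧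
      R ≤ similarityGroup (sympForm 2 F) ∧ Nat.card R = 32 ∧ Nat.card (Subgroup.center R) = 2 ∧ IsOfMinusType 2 R ∧
      H = subgroupNormalizer R ⊓ spGL 2 F := by
  have hb := isSesq_sympForm (F := F) 2
  have h2 : (2 : F) ≠ 0 := two_ne_zero_of_odd (by rw [hq]; decide)
  have hK' := isFld_of hK
  rw [hb.isAdjointClosedFor] at hτ
  rw [hb.isSelfAdjointFor] at hns
  rcases hb.field_cases (le_sim_of_isom hH.1.le) hK' (fun h => hns fun x hx => by
    obtain ⟨c, rfl⟩ := mem_bot_iff.mp (h hx)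
    exact hb.adj_smul_one c) hle hτ with ⟨r, K₀, hr, hK₀, h3, -, h4⟩ | ⟨-, x, hx, h3, h4⟩
  · refine (hns fun x hx => h4 x ?_).elim
    rwa [Subalgebra.eq_of_le_of_finrank_le h3 (by rw [hK.finrank_eq, hK₀.finrank_eq]; exact hr.two_le)]
  obtain ⟨J, hJ, h5, h6⟩ : ∃ J ∈ K, J ≠ 0 ∧ adj (RingHom.id F) (sympForm 2 F) J = -J :=
    ⟨_, sub_mem hx (hτ x hx), sub_ne_zero.mpr h3.symm, by rw [hb.adj_sub, hb.adj_adj, neg_sub]⟩
  have h7 : ∀ x ∈ K, ∀ y ∈ K, x * x = y * y → x = y ∨ x = -y := fun x hx y hy h => by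
    simpa only [sub_eq_zero, add_eq_zero_iff_eq_neg] using hK'.eq_zero_or (sub_mem hx hy) (y := x + y)
      (by rw [sub_mul, mul_add, mul_add, h, hK'.comm x hx y hy]; abel)
  have h8 : J * J = -1 := by
    obtain ⟨c, hc⟩ := h4 _ (mul_mem hJ hJ) (by rw [hb.adj_mul, h6, neg_mul_neg])
    rcases cases_of_card_three hq c with rfl | rfl | rfl
    · simpa [h5] using hK'.eq_zero_or hJ (hc.trans (zero_smul _ _))
    · refine (h5 (smul_right_injective _ h2 ?_)).elim
      have : adj (RingHom.id F) (sympForm 2 F) J = J := by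
        rcases h7 J hJ 1 (one_mem K) (by simpa using hc) with rfl | rfl <;> simp [hb.adj_neg, hb.adj_one]
      simpa [two_smul, add_eq_zero_iff_eq_neg] using this.symm.trans h6
    · simpa using hc
  obtain ⟨R, hR, hI, hN⟩ := exists_heis_of_skew hq h8 h6 hH.1.le fun h hh =>
    h7 (conjAlg h J) (conj_mem_of_normalizes hle hh hJ) J hJ (by rw [← map_mul, h8, map_neg, map_one])
  have h9 := hR.c6Data_of_alt (by simp) h2 hb hI
  have h10 := (h9.two_of_bilinear hb hI).2
  have h11 : Nat.card R = 32 := by rw [hR.card_eq, h10]; simp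
  exact ⟨R, h9.symp, absIrr_of_spanAlg_eq_top hR.span, le_sim_of_isom hI, h11, h10,
    hR.isOfMinusType hb (sympForm_alt 2) hI h11, eq_inf_of_max hH hN
      ((rich_spGL le_rfl (by omega)).not_le_subgroupNormalizer Nat.prime_two h9.symp.pGroup ((irr_of_spanAlg_eq_top hR.span).not_le_scalars (by simp))
      fun x hx g hg => conj_isom_of_sim (hI x hx).mem_similarityGroup hg)⟩

end CL.Asch
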