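/-
The subfield subgroups `GL_n(F₀) Z ∩ SL_n(F)`, `[F : F₀]` prime, are maximal in `SL_n(F)` for `n ≥ 4`.
-/
import Cfsg.Agent.Cls.GeoProper
import Cfsg.Agent.Cls.AschField

set_option autoImplicit false

namespace CL.SLn

open Module Matrix Cfsg Cfsg.Geo

section General

variable {F V G : Type*} [Field F] [AddCommGroup V] [Module F V] [Group G]
  [DistribMulAction G V] [SMulCommClass G F V]

/-- Two opposite transvections over a finite field: some element of the group they generate maps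
the centre of one to the centre of the other. -/
theorem Tv.exists_move [Finite F] [Finite V] {H : Subgroup G} {v x : V} {φ ψ : Dual F V}
    (h1 : Tv H v φ) (h2 : Tv H x ψ) (hφ : φ x ≠ 0) (hψ : ψ v ≠ 0) :
    ∃ d ∈ H, ∃ c : F, c ≠ 0 ∧ d • x = c • v ∧ (∀ z, φ z = 0 → ψ z = 0 → d • z = z) ∧
      ∀ y, d • y - y ∈ Submodule.span F {v, x} := by
  classical
  set U := Submodule.span F ({v, x} : Set V) with hU
  have hvU : v ∈ U := Submodule.subset_span (by simp)
  have hxU : x ∈ U := Submodule.subset_span (by simp)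
  let K : Subgroup G :=
    { carrier := {d | d ∈ H ∧ (∀ z, φ z = 0 → ψ z = 0 → d • z = z) ∧ ∀ y, d • y - y ∈ U}
      one_mem' := ⟨H.one_mem, fun z _ _ ↦ one_smul _ _, fun y ↦ by simp⟩
      mul_mem' := fun {a b} ha hb ↦ ⟨H.mul_mem ha.1 hb.1, fun z e e' ↦ by
        rw [mul_smul, hb.2.1 z e e', ha.2.1 z e e'], fun y ↦ by
          simpa [mul_smul] using U.add_mem (ha.2.2 (b • y)) (hb.2.2 y)⟩
      inv_mem' := fun {a} ha ↦ ⟨H.inv_mem ha.1, fun z e e' ↦ by
        rw [inv_smul_eq_iff, ha.2.1 z e e'], fun y ↦ by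
          simpa using U.neg_mem (ha.2.2 (a⁻¹ • y))⟩ }
  let Ω : SubMulAction K V :=
    { carrier := {y | ∃ (d : K) (c : F), y = c • d • x}
      smul_mem' := by
        rintro d _ ⟨d', c, rfl⟩
        exact ⟨d * d', c, by rw [mul_smul, smul_comm]⟩ }
  have hΩ : ∀ y : Ω, ∃ a b : F, a • v + b • x = y := by
    rintro ⟨_, d, c, rfl⟩
    exact Submodule.mem_span_pair.1
      (U.smul_mem c (by simpa using U.add_mem (d.2.2.2 x) hxU : (d : G) • x ∈ U))
  have := Fintype.ofFinite Ω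
  have := Fintype.ofFinite F
  obtain ⟨p, hp⟩ := CharP.exists F
  obtain ⟨n, hpp, hn⟩ := FiniteField.card F p
  have := Fact.mk hpp
  have key : ∀ {u : V} {χ : Dual F V}, χ u = 0 → ∀ s : K, (∀ y, (s : G) • y = y + χ y • u) →
      (MulAction.toPerm s : Equiv.Perm Ω) ^ p ^ 1 = 1 := fun {u χ} h0 s hs ↦ by
    ext y
    rw [pow_one, ← MulAction.toPermHom_apply, ← map_pow]
    change ((s : G) ^ p) • (y : V) = y
    rw [pow_smul_of_fixed (hs y) (by rw [smul_comm, hs, h0, zero_smul, add_zero]),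
      ← Nat.cast_smul_eq_nsmul F, CharP.cast_eq_zero, zero_smul, add_zero]
  obtain ⟨a0, s, hs, hsx⟩ := h1
  obtain ⟨b0, t, ht, htx⟩ := h2
  have hsK : s ∈ K := ⟨hs, fun z e _ ↦ by simp [hsx, e], fun y ↦ by simpa [hsx] using U.smul_mem _ hvU⟩
  have htK : t ∈ K := ⟨ht, fun z _ e ↦ by simp [htx, e], fun y ↦ by simpa [htx] using U.smul_mem _ hxU⟩
  have hx0 : x ≠ 0 := by rintro rfl; simp at hφ
  have hv0 : v ≠ 0 := by rintro rfl; simp at hψ
  have hdvd : p ∣ Fintype.card Ω := by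
    have h3 := Equiv.Perm.card_compl_support_modEq (key b0 ⟨t, htK⟩ htx)
    have h4 : (MulAction.toPerm (⟨t, htK⟩ : K) : Equiv.Perm Ω).supportᶜ.card = Fintype.card F := by
      symm
      refine Finset.card_bij (s := Finset.univ) (fun c _ ↦ ⟨c • x, 1, c, by simp⟩) (fun c _ ↦ ?_)
        (fun c _ c' _ e ↦ smul_left_injective F hx0 (congrArg Subtype.val e)) fun y hy ↦ ?_
      · rw [Finset.mem_compl, Equiv.Perm.mem_support, not_not]
        exact Subtype.ext (show t • c • x = c • x by simp [htx, b0])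
      · rw [Finset.mem_compl, Equiv.Perm.mem_support, not_not] at hy
        have h5 : t • (y : V) = y := congrArg Subtype.val hy
        obtain ⟨a, b, e⟩ := hΩ y
        rw [htx, add_eq_left, smul_eq_zero, ← e] at h5
        have h6 : a = 0 := by simpa [b0, hψ] using h5.resolve_right hx0
        exact ⟨b, Finset.mem_univ _, Subtype.ext (by rw [← e, h6, zero_smul, zero_add])⟩
    rw [h4, hn] at h3
    exact (Nat.modEq_zero_iff_dvd.1 (h3.symm.trans (Nat.modEq_zero_iff_dvd.2 (dvd_pow_self p n.ne_zero))))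
  obtain ⟨y, hy, hy0⟩ := Equiv.Perm.exists_fixed_point_of_prime' hdvd (key a0 ⟨s, hsK⟩ hsx)
    (a := ⟨0, 1, 0, by simp⟩) (Subtype.ext (smul_zero s))
  have h5 : s • (y : V) = y := congrArg Subtype.val hy
  obtain ⟨a, b, e⟩ := hΩ y
  rw [hsx, add_eq_left, smul_eq_zero, ← e] at h5
  have h6 : b = 0 := by simpa [a0, hφ] using h5.resolve_right hv0
  obtain ⟨_, d, c, rfl⟩ := y
  rw [h6, zero_smul, add_zero] at e
  have hc : c ≠ 0 := by rintro rfl; exact hy0 (Subtype.ext (zero_smul _ _))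
  have h7 : (d : G) • x = (c⁻¹ * a) • v := by
    rw [mul_smul, e]; exact (inv_smul_smul₀ hc _).symm
  refine ⟨d, d.2.1, c⁻¹ * a, fun h0 ↦ hx0 ?_, h7, d.2.2.1, d.2.2.2⟩
  rwa [h0, zero_smul, smul_eq_zero_iff_eq] at h7

end General

variable {ι : Type} [Fintype ι] [DecidableEq ι] {F : Type*} [Field F] {F₀ : Subfield F}

/-- A vector over the subfield as a vector over the field. -/
def ratV (w : ι → F₀) : ι → F := fun i ↦ w i

/-- The extension of a functional over the subfield. -/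
def ratD (α : Dual F₀ (ι → F₀)) : Dual F (ι → F) :=
  ∑ i, (α (Pi.single i 1) : F) • LinearMap.proj i

theorem ratD_apply (α : Dual F₀ (ι → F₀)) (x : ι → F) :
    ratD α x = ∑ i, (α (Pi.single i 1) : F) * x i := by simp [ratD]

@[simp] theorem ratD_ratV (α : Dual F₀ (ι → F₀)) (w : ι → F₀) : ratD α (ratV w) = α w := by
  rw [ratD_apply, LinearMap.pi_apply_eq_sum_univ α w]
  simp only [AddSubmonoidClass.coe_finsetSum, smul_eq_mul, MulMemClass.coe_mul, ratV]
  refine Finset.sum_congr rfl fun i _ ↦ ?_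
  rw [mul_comm]
  congr 3
  ext j
  simp [Pi.single_apply, eq_comm]

@[simp] theorem ratD_proj (i : ι) : ratD (LinearMap.proj i : Dual F₀ (ι → F₀)) = LinearMap.proj i := by
  ext j
  simp [ratD_apply, Pi.single_apply, apply_ite, eq_comm]

omit [Fintype ι] in
@[simp] theorem ratV_single (i : ι) : ratV (Pi.single i (1 : F₀)) = Pi.single i (1 : F) := by
  ext j
  simp [ratV, Pi.single_apply, apply_ite]

omit [Fintype ι] [DecidableEq ι] in
theorem ratV_add (u w : ι → F₀) : ratV (u + w) = ratV u + ratV w := rfl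

omit [Fintype ι] [DecidableEq ι] in
theorem ratV_sub (u w : ι → F₀) : ratV (u - w) = ratV u - ratV w := rfl

omit [Fintype ι] [DecidableEq ι] in
theorem ratV_smul (c : F₀) (w : ι → F₀) : ratV (c • w) = (c : F) • ratV w := rfl

theorem ratD_add (α β : Dual F₀ (ι → F₀)) : ratD (α + β) = ratD α + ratD β := by
  ext j; simp [ratD_apply, add_mul, Finset.sum_add_distrib]

theorem ratD_sub (α β : Dual F₀ (ι → F₀)) : ratD (α - β) = ratD α - ratD β := by
  ext j; simp [ratD_apply, sub_mul, Finset.sum_sub_distrib]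

theorem ratD_smul (c : F₀) (α : Dual F₀ (ι → F₀)) : ratD (c • α) = (c : F) • ratD α := by
  ext j; simp [ratD_apply, Finset.mul_sum, mul_assoc]

/-- `H` holds the transvections defined over the subfield. -/
def HasRat (F₀ : Subfield F) (H : Subgroup (GL ι F)) : Prop :=
  ∀ (w : ι → F₀) (α : Dual F₀ (ι → F₀)), α w = 0 → Tv H (ratV w) (ratD α)

namespace HasRat

variable {H : Subgroup (GL ι F)}

theorem move_left (hH : HasRat F₀ H) (hn : 3 ≤ Fintype.card ι) {c : F} {a : ι → F₀} (ha : a ≠ 0)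
    {α : Dual F₀ (ι → F₀)} (h : Tv H (c • ratV a) (ratD α)) {b : ι → F₀} (hb : α b = 0) :
    Tv H (c • ratV b) (ratD α) := by
  have key : ∀ a b : ι → F₀, Tv H (c • ratV a) (ratD α) → α b = 0 → (∀ d : F₀, d • b ≠ a) →
      Tv H (c • ratV b) (ratD α) := fun a b h hb hab ↦ by
    obtain ⟨β, h1, h0⟩ := exists_dual_pair hab
    simpa [h1] using (hH b β h0).comm h (by simp [hb])
  by_cases hab : ∀ d : F₀, d • b ≠ a
  · exact key a b h hb hab
  push Not at hab
  obtain ⟨d, rfl⟩ := hab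
  obtain ⟨δ, hδ⟩ := exists_dual_eq_one (F := F₀) ha
  obtain ⟨u, hu0, h1, h2⟩ := exists_ne_zero_ker₂ (by rwa [finrank_vec]) α δ
  refine key u b (key _ u h h1 fun e he ↦ ?_) hb fun e he ↦ hu0 ?_
  · simpa [h2, hδ] using congrArg δ he
  · have h3 : δ b ≠ 0 := fun h0 ↦ by simp [h0] at hδ
    have h4 : e = 0 := by simpa [h2, h3] using congrArg δ he
    rw [← he, h4, zero_smul]

theorem move_right (hH : HasRat F₀ H) (hn : 3 ≤ Fintype.card ι) {c : F} {a : ι → F₀}
    {α : Dual F₀ (ι → F₀)} (hα : α ≠ 0) (h : Tv H (c • ratV a) (ratD α)) {β : Dual F₀ (ι → F₀)}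
    (hβ : β a = 0) : Tv H (c • ratV a) (ratD β) := by
  have key : ∀ α β : Dual F₀ (ι → F₀), Tv H (c • ratV a) (ratD α) → β a = 0 →
      (∃ w, β w = 0 ∧ α w ≠ 0) → Tv H (c • ratV a) (ratD β) := by
    rintro α β h hβ ⟨w, h0, h1⟩
    simpa [h1] using h.comm (hH ((α w)⁻¹ • w) β (by simp [h0])) (by simp [hβ])
  by_cases hab : ∃ w, β w = 0 ∧ α w ≠ 0
  · exact key α β h hβ hab
  push Not at hab
  obtain ⟨u, hu⟩ := exists_apply_eq_one hα
  obtain ⟨γ, hγ0, h1, h2⟩ := exists_dual_ne_zero₂ (F := F₀) (by rwa [finrank_vec]) a u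
  refine key γ β (key α γ h h1 ⟨u, h2, by simp [hu]⟩) hβ ?_
  by_contra hc
  push Not at hc
  obtain ⟨e, he⟩ := exists_smul_of_ker_le hc
  have h3 : β u ≠ 0 := fun h0 ↦ by simpa [hu] using hab u h0
  have h4 : e = 0 := by simpa [h2, h3] using LinearMap.congr_fun he u
  exact hγ0 (by rw [he, h4, zero_smul])

theorem move (hH : HasRat F₀ H) (hn : 3 ≤ Fintype.card ι) {c : F} {a : ι → F₀} (ha : a ≠ 0)
    {α : Dual F₀ (ι → F₀)} (hα : α ≠ 0) (h : Tv H (c • ratV a) (ratD α)) (b : ι → F₀)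
    (β : Dual F₀ (ι → F₀)) (hb : β b = 0) : Tv H (c • ratV b) (ratD β) := by
  obtain ⟨u, hu0, h1, h2⟩ := exists_ne_zero_ker₂ (by rwa [finrank_vec]) α β
  exact hH.move_left hn hu0 (hH.move_right hn hα (hH.move_left hn ha h h1) h2) hb

/-- A transvection with rational centre and axis has its parameter in the subfield. -/
theorem mem_of_tv (hH : HasRat F₀ H) (hn : 3 ≤ Fintype.card ι) (hp : (finrank F₀ F).Prime)
    (hle : ¬ specialLinear ι F ≤ H) {c : F} {a : ι → F₀} (ha : a ≠ 0)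
    {α : Dual F₀ (ι → F₀)} (hα : α ≠ 0) (h : Tv H (c • ratV a) (ratD α)) : c ∈ F₀ := by
  obtain ⟨i, j, k, hij, hik, hjk⟩ := Fintype.two_lt_card_iff.1 hn
  let R : Subalgebra F₀ F :=
    { carrier := {c | ∀ (b : ι → F₀) (β : Dual F₀ (ι → F₀)), β b = 0 → Tv H (c • ratV b) (ratD β)}
      add_mem' := fun {c d} hc hd b β hb ↦ by
        rw [add_smul]; exact (hc b β hb).add_left (hd b β hb)
      mul_mem' := fun {c d} hc hd ↦ by
        have h1 := (hc (Pi.single i 1) (LinearMap.proj k) (by simp [hik.symm])).comm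
          (hd (Pi.single k 1) (LinearMap.proj j) (by simp [hjk])) (by simp [hij.symm])
        refine hH.move hn (a := Pi.single i 1) (α := LinearMap.proj j) (by simp)
          (fun h0 ↦ by simpa using LinearMap.congr_fun h0 (Pi.single j 1)) ?_
        convert h1 using 1
        simp [smul_smul, mul_comm]
      algebraMap_mem' := fun c b β hb ↦ hH (c • b) β (by simp [hb]) }
  have := Subalgebra.isSimpleOrder_of_finrank_prime F₀ F hp
  rcases eq_bot_or_eq_top R with h0 | h0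
  · have h1 : c ∈ R := hH.move hn ha hα h
    rw [h0, Algebra.mem_bot] at h1
    obtain ⟨c, rfl⟩ := h1
    exact c.2
  · refine absurd (specialLinear_le_of_basis (Pi.basisFun F ι) fun i j hij c ↦ ?_) hle
    have h1 : c ∈ R := h0 ▸ Algebra.mem_top
    convert h1 (Pi.single i 1) (LinearMap.proj j) (by simp [hij.symm]) using 1
    · simp
    · ext; simp

/-- The transvection `(x, ψ)` is defined over the subfield. -/
def RatTv (F₀ : Subfield F) (x : ι → F) (ψ : Dual F (ι → F)) : Prop :=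
  ∀ (β : Dual F₀ (ι → F₀)) (w : ι → F₀), ratD β x * ψ (ratV w) ∈ F₀

variable (hH : HasRat F₀ H) (hn : 3 ≤ Fintype.card ι) (hp : (finrank F₀ F).Prime)
  (hle : ¬ specialLinear ι F ≤ H) {x : ι → F} {ψ : Dual F (ι → F)} (h : Tv H x ψ)

include hH hn hp hle h

theorem mul_mem_of_left {u : ι → F₀} (hu : u ≠ 0) (h0 : ψ (ratV u) = 0) {β : Dual F₀ (ι → F₀)}
    (hβ : β u = 0) (w : ι → F₀) : ratD β x * ψ (ratV w) ∈ F₀ := by
  obtain ⟨γ, hγ, h1, h2⟩ := exists_dual_ne_zero₂ (F := F₀) (by rwa [finrank_vec]) u w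
  have h3 := ((hH u β hβ).comm h h0).comm (hH w γ h2) (by simp [h1])
  rw [smul_smul, mul_comm] at h3
  exact hH.mem_of_tv hn hp hle hu hγ h3

theorem mul_mem_of_right {γ : Dual F₀ (ι → F₀)} (hγ : γ ≠ 0) (h0 : ratD γ x = 0)
    (β : Dual F₀ (ι → F₀)) {w : ι → F₀} (hw : γ w = 0) : ratD β x * ψ (ratV w) ∈ F₀ := by
  obtain ⟨u, hu, h1, h2⟩ := exists_ne_zero_ker₂ (by rwa [finrank_vec]) γ β
  have h3 := (hH u β h2).comm (h.comm (hH w γ hw) h0) (by simp [h1])
  rw [map_smul, smul_eq_mul, mul_comm] at h3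
  exact hH.mem_of_tv hn hp hle hu hγ h3

theorem ratTv_of_left₂ {u u' : ι → F₀} (hu' : u' ≠ 0) (h0 : ψ (ratV u) = 0) (h0' : ψ (ratV u') = 0)
    {δ : Dual F₀ (ι → F₀)} (h1 : δ u = 1) (h2 : δ u' = 0) : RatTv F₀ x ψ := fun β w ↦ by
  have h3 := F₀.add_mem (hH.mul_mem_of_left hn hp hle h (by rintro rfl; simp at h1) h0
    (β := β - β u • δ) (by simp [h1]) w) (hH.mul_mem_of_left hn hp hle h hu' h0'
    (β := β u • δ) (by simp [h2]) w)
  rwa [← add_mul, ← LinearMap.add_apply, ← ratD_add, sub_add_cancel] at h3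

theorem ratTv_of_right₂ {γ γ' : Dual F₀ (ι → F₀)} (hγ' : γ' ≠ 0) (h0 : ratD γ x = 0)
    (h0' : ratD γ' x = 0) {u : ι → F₀} (h1 : γ u = 1) (h2 : γ' u = 0) : RatTv F₀ x ψ := fun β w ↦ by
  have h3 := F₀.add_mem (hH.mul_mem_of_right hn hp hle h (by rintro rfl; simp at h1) h0 β
    (w := w - γ w • u) (by simp [h1])) (hH.mul_mem_of_right hn hp hle h hγ' h0' β
    (w := γ w • u) (by simp [h2]))
  rwa [← mul_add, ← map_add, ← ratV_add, sub_add_cancel] at h3

theorem ratTv_of_left {u : ι → F₀} (hu : u ≠ 0) (h0 : ψ (ratV u) = 0) : RatTv F₀ x ψ := by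
  have hn' : 3 ≤ finrank F₀ (ι → F₀) := by rwa [finrank_vec]
  by_cases hx : ∀ β : Dual F₀ (ι → F₀), β u = 0 → ratD β x = 0
  · obtain ⟨γ, hγ, h1, -⟩ := exists_dual_ne_zero₂ hn' u u
    obtain ⟨w, hw⟩ := exists_apply_eq_one hγ
    obtain ⟨γ', hγ', h2, h3⟩ := exists_dual_ne_zero₂ hn' u w
    exact hH.ratTv_of_right₂ hn hp hle h hγ' (hx γ h1) (hx γ' h2) hw h3
  · push Not at hx
    obtain ⟨β, hβ, hb⟩ := hx
    have h1 := hH.mul_mem_of_left hn hp hle h hu h0 hβ
    let α : Dual F₀ (ι → F₀) :=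
      { toFun := fun w ↦ ⟨_, h1 w⟩
        map_add' := fun a b ↦ Subtype.ext (by simp [ratV_add, mul_add])
        map_smul' := fun c a ↦ Subtype.ext (by simp [ratV_smul, mul_left_comm]) }
    obtain ⟨δ, hδ⟩ := exists_dual_eq_one (F := F₀) hu
    obtain ⟨u', hu', h2, h3⟩ := exists_ne_zero_ker₂ hn' α δ
    exact hH.ratTv_of_left₂ hn hp hle h hu' h0
      ((mul_eq_zero.1 (congrArg Subtype.val h2)).resolve_left hb) hδ h3

theorem ratTv_of_right {γ : Dual F₀ (ι → F₀)} (hγ : γ ≠ 0) (h0 : ratD γ x = 0) : RatTv F₀ x ψ := by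
  have hn' : 3 ≤ finrank F₀ (ι → F₀) := by rwa [finrank_vec]
  by_cases hx : ∀ w : ι → F₀, γ w = 0 → ψ (ratV w) = 0
  · obtain ⟨u, hu, h1, -⟩ := exists_ne_zero_ker₂ hn' γ γ
    exact hH.ratTv_of_left hn hp hle h hu (hx u h1)
  · push Not at hx
    obtain ⟨w, hw, hb⟩ := hx
    have h1 := fun β ↦ hH.mul_mem_of_right hn hp hle h hγ h0 β hw
    let y : ι → F₀ := fun i ↦ ⟨_, h1 (LinearMap.proj i)⟩
    have hy : ratV y = ψ (ratV w) • x := by
      ext i
      simp [ratV, y, mul_comm]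
    obtain ⟨u, hu⟩ := exists_apply_eq_one hγ
    obtain ⟨γ', hγ', h2, h3⟩ := exists_dual_ne_zero₂ hn' y u
    refine hH.ratTv_of_right₂ hn hp hle h hγ' h0 ?_ hu h3
    have h4 := ratD_ratV γ' y
    rw [hy, h2, map_smul, smul_eq_mul] at h4
    exact (mul_eq_zero.1 h4).resolve_left hb

omit hn in
/-- Every transvection of a proper overgroup is defined over the subfield. -/
theorem ratTv [Finite F] (hn : 4 ≤ Fintype.card ι) : RatTv F₀ x ψ := by
  by_contra hcon
  have hL : ∀ u : ι → F₀, u ≠ 0 → ψ (ratV u) ≠ 0 := fun u hu h0 ↦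
    hcon (hH.ratTv_of_left (by omega) hp hle h hu h0)
  have hR : ∀ γ : Dual F₀ (ι → F₀), γ ≠ 0 → ratD γ x ≠ 0 := fun γ hγ h0 ↦
    hcon (hH.ratTv_of_right (by omega) hp hle h hγ h0)
  obtain ⟨f⟩ : Nonempty (Fin 4 ↪ ι) := Function.Embedding.nonempty_of_card_le (by simpa using hn)
  have hf : ∀ {i j : Fin 4}, i ≠ j → f i ≠ f j := fun hij e ↦ hij (f.injective e)
  set v : ι → F := Pi.single (f 0) 1 with hv
  have hψ : ψ v ≠ 0 := by simpa using hL (Pi.single (f 0) 1) (by simp)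
  have hx : ∀ i, x i ≠ 0 := fun i ↦ by
    simpa using hR (LinearMap.proj i) fun h0 ↦ by simpa using LinearMap.congr_fun h0 (Pi.single i 1)
  have hs : ∀ i, i ≠ f 0 → Tv H v (LinearMap.proj i) := fun i hi ↦ by
    simpa using hH (Pi.single (f 0) 1) (LinearMap.proj i) (by simp [hi])
  obtain ⟨d₁, hd₁, c₁, hc₁, a1, a2, a3⟩ := (hs _ (hf (by decide : (1 : Fin 4) ≠ 0))).exists_move h (hx _) hψ
  obtain ⟨d₂, hd₂, c₂, hc₂, b1, b2, b3⟩ := (hs _ (hf (by decide : (2 : Fin 4) ≠ 0))).exists_move h (hx _) hψ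
  simp only [LinearMap.proj_apply] at a2 b2
  have hv' : ∀ i, i ≠ 0 → v (f i) = 0 := fun i hi ↦ by simp [hv, hf hi]
  have b1' : d₂⁻¹ • v = c₂⁻¹ • x := by
    rw [inv_smul_eq_iff, smul_comm, b1, inv_smul_smul₀ hc₂]
  have e1 : ∀ z, ψ z = 0 → (d₁ • z) (f 1) = 0 := fun z hz ↦ by
    have h1 := a2 (z - (z (f 1) / x (f 1)) • x) (by simp [hx]) (by simp [hz, h.1])
    rw [smul_sub, smul_comm, a1, sub_eq_iff_eq_add] at h1
    simp [h1, hx, hv' 1 (by decide)]
  have e2 : ∀ w : ι → F, w (f 2) = 0 → ψ (d₂⁻¹ • w) = 0 := fun w hw ↦ by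
    have h1 := b2 (w - (ψ w / ψ v) • v) (by simp [hw, hv' 2 (by decide)]) (by simp [hψ])
    rw [← eq_inv_smul_iff, smul_sub, smul_comm, b1', eq_sub_iff_add_eq] at h1
    simp [← h1, hψ, h.1]
  have e3 : ∀ y : ι → F, x (f 3) * (d₁ • d₂⁻¹ • y) (f 1) - x (f 1) * (d₁ • d₂⁻¹ • y) (f 3) =
      x (f 3) * y (f 1) - x (f 1) * y (f 3) := fun y ↦ by
    obtain ⟨α, β, e⟩ := Submodule.mem_span_pair.1
      (Submodule.sub_mem _ (a3 (d₂⁻¹ • y)) (b3 (d₂⁻¹ • y)))
    rw [smul_inv_smul, sub_sub_sub_cancel_right, eq_sub_iff_add_eq] at e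
    simp only [← e, Pi.add_apply, Pi.smul_apply, smul_eq_mul, hv' 1 (by decide), hv' 3 (by decide)]
    ring
  have hd : d₂ * d₁⁻¹ ∈ H := H.mul_mem hd₂ (H.inv_mem hd₁)
  have hdv : (d₂ * d₁⁻¹) • v = (c₁⁻¹ * c₂) • v := by
    rw [mul_smul, show d₁⁻¹ • v = c₁⁻¹ • x by rw [inv_smul_eq_iff, smul_comm, a1, inv_smul_smul₀ hc₁],
      smul_comm, b1, smul_smul]
  have h3 := (hs _ (hf (by decide : (3 : Fin 4) ≠ 0))).conj hd
  rw [hdv] at h3
  have h4 : ∀ w : ι → F₀, c₁⁻¹ * c₂ * (d₁ • d₂⁻¹ • ratV w) (f 3) ∈ F₀ := fun w ↦ by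
    simpa [hv, mul_smul] using hH.ratTv_of_right (by omega) hp hle h3 (γ := LinearMap.proj (f 1))
      (fun h0 ↦ by simpa using LinearMap.congr_fun h0 (Pi.single (f 1) 1))
      (by simp [hv' 1 (by decide)]) (LinearMap.proj (f 0)) w
  have h5 := e3 (Pi.single (f 3) 1)
  have h6 := e3 (Pi.single (f 1) 1)
  rw [e1 _ (e2 _ (by simp [hf]))] at h5 h6
  simp only [mul_zero, zero_sub, Pi.single_eq_same, mul_one, Pi.single_eq_of_ne (hf (by decide : (1 : Fin 4) ≠ 3)),
    Pi.single_eq_of_ne (hf (by decide : (3 : Fin 4) ≠ 1)), neg_inj, sub_zero] at h5 h6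
  have h7 := h4 (Pi.single (f 3) 1)
  have h8 := h4 (Pi.single (f 1) 1)
  rw [ratV_single] at h7 h8
  rw [mul_left_cancel₀ (hx _) (h5.trans (mul_one _).symm), mul_one] at h7
  have h9 := F₀.div_mem h8 h7
  rw [mul_div_cancel_left₀ _ (mul_ne_zero (inv_ne_zero hc₁) hc₂)] at h9
  refine hR (LinearMap.proj (f 3) + (⟨_, h9⟩ : F₀) • LinearMap.proj (f 1)) (fun h0 ↦ ?_) ?_
  · simpa [hf] using LinearMap.congr_fun h0 (Pi.single (f 3) 1)
  · rw [ratD_add, ratD_smul]
    simp only [ratD_proj, LinearMap.add_apply, LinearMap.proj_apply, LinearMap.smul_apply, smul_eq_mul]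
    linear_combination -h6

end HasRat

theorem hasRat_subfieldStd : HasRat F₀ (subfieldStd ι F₀ ⊓ specialLinear ι F) := fun w α h ↦ by
  have h0 : ratD α (ratV w) = 0 := by simp [h]
  refine (Tv.of_mem h0 (mem_subfieldStd.2 ⟨1, one_ne_zero, fun i j ↦ ?_⟩)).inf_sl
  have h1 := congrFun (tv_smul (ratV w) (ratD α) h0 (Pi.single j 1)) i
  rw [gl_smul_def, mulVec_single_one] at h1
  rw [one_mul, show (tv (ratV w) (ratD α) h0 : Matrix ι ι F) i j = _ from h1, ← ratV_single (F₀ := F₀),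
    ratD_ratV, ← ratV_smul, ← ratV_add]
  exact Subtype.prop _

theorem isMaximalIn_subfieldStd [Finite F] (hn : 4 ≤ Fintype.card ι) (hp : (finrank F₀ F).Prime) :
    IsMaximalIn (specialLinear ι F) (subfieldStd ι F₀ ⊓ specialLinear ι F) := by
  refine isMaximalIn_of (not_sl_le_subfieldStd (by omega) ?_) fun H hH _ g hg hgM ↦ ?_
  · rintro rfl
    refine hp.one_lt.ne' (Subalgebra.bot_eq_top_iff_finrank_eq_one.1 (eq_top_iff.2 fun a _ ↦ ?_))
    exact Algebra.mem_bot.2 ⟨⟨a, trivial⟩, rfl⟩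
  by_contra hle
  have hR : HasRat F₀ H := fun w α h ↦ (hasRat_subfieldStd w α h).mono hH
  have h1 : ∀ i j, i ≠ j → ∀ k l, g.val k i * (g⁻¹).val j l ∈ F₀ := fun i j hij k l ↦ by
    have := hR.ratTv hp hle ((hR (Pi.single i 1) (LinearMap.proj j) (by simp [hij.symm])).conj hg) hn
      (LinearMap.proj k) (Pi.single l 1)
    simpa only [ratV_single, ratD_proj, dact_apply, gl_smul_def, mulVec_single_one,
      LinearMap.proj_apply, col_apply] using this
  have h2 : ∀ j, ∃ l, (g⁻¹).val j l ≠ 0 := fun j ↦ by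
    by_contra hc
    push Not at hc
    have := congrFun (congrFun (Units.inv_mul g) j) j
    simp [mul_apply, -Matrix.coe_units_inv, hc] at this
  have h3 : ∀ i, ∃ k, g.val k i ≠ 0 := fun i ↦ by
    by_contra hc
    push Not at hc
    have := congrFun (congrFun (Units.inv_mul g) i) i
    simp [mul_apply, hc] at this
  choose l hl using h2
  obtain ⟨a, b, c, hab, hac, hbc⟩ := Fintype.two_lt_card_iff.1 (show 2 < Fintype.card ι by omega)
  obtain ⟨k₀, hk₀⟩ := h3 c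
  refine hgM (mem_subfieldStd.2 ⟨_, hl a, fun k i ↦ ?_⟩)
  by_cases hi : i = a
  · have := F₀.mul_mem (F₀.div_mem (h1 c a hac.symm k₀ (l a)) (h1 c b hbc.symm k₀ (l b)))
      (h1 i b (hi ▸ hab) k (l b))
    convert this using 1
    have := hl b
    field_simp
  · rw [mul_comm]; exact h1 i a hi k (l a)

theorem isMaximalIn_subfieldSubgroup [Fintype F] (hn : 4 ≤ Fintype.card ι) (F₀ : Subfield F) {r : ℕ}
    (hr : r.Prime) (hcard : Fintype.card F = Nat.card F₀ ^ r) (P : GL ι F) :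
    IsMaximalIn (specialLinear ι F) (subfieldSubgroup F₀ P ⊓ specialLinear ι F) := by
  have hp : (finrank F₀ F).Prime := by
    have h1 := CL.Asch.card_eq_pow_finrank_subfield F₀
    rw [Nat.card_eq_fintype_card, hcard] at h1
    rwa [← Nat.pow_right_injective (Finite.one_lt_card (α := F₀)) h1]
  exact isMaximalIn_map_inf (θ := MulAut.conj P) (map_conj_specialLinear P)
    (isMaximalIn_subfieldStd hn hp)

end CL.SLn
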