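/-
Overgroups of `SL(V₁) ⊗ SL(V₂)`, `dim V₁ < dim V₂`, part 1: a new element of the unipotent radical
of the stabiliser of `V₁ ⊗ y` yields all transvections between pure tensors.
-/
import Cfsg.Agent.Cls.GeoProper

set_option autoImplicit false

namespace CL.SLn

open Module

variable {F V₁ V₂ V G : Type*} [Field F] [AddCommGroup V₁] [Module F V₁] [AddCommGroup V₂]
  [Module F V₂] [AddCommGroup V] [Module F V] [Group G] [DistribMulAction G V] [SMulCommClass G F V]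

/-- A subspace of `End V₁` stable under conjugation by transvections and with a non-scalar element
has a nilpotent element of rank one. -/
theorem exists_rankOne_mem [FiniteDimensional F V₁]
    (hq : 3 ≤ finrank F V₁ ∨ ∃ c : F, c ≠ 0 ∧ c ≠ 1) {B : Submodule F (V₁ →ₗ[F] V₁)}
    (hB : ∀ (u : V₁) (α : Dual F V₁), α u = 0 → ∀ f ∈ B,
      (LinearMap.id + α.smulRight u) ∘ₗ f ∘ₗ (LinearMap.id - α.smulRight u) ∈ B)
    {f : V₁ →ₗ[F] V₁} (hf : f ∈ B) {u : V₁} (hu : ∀ c : F, c • u ≠ f u) :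
    ∃ β : Dual F V₁, β ≠ 0 ∧ β u = 0 ∧ β.smulRight u ∈ B := by
  obtain ⟨α, h1, h0⟩ := exists_dual_pair hu
  rcases hq with h3 | ⟨c, hc0, hc1⟩
  · obtain ⟨β, hβ, h2, h4⟩ := exists_dual_ne_zero₂ h3 u (f u)
    have h5 := B.sub_mem (hB u β h2 f hf) hf
    refine ⟨β, hβ, h2, ?_⟩
    convert B.sub_mem h5 (hB u α h0 _ h5) using 1
    ext x
    simp [h0, h1, h2, h4]
    module
  · refine ⟨α, fun e ↦ by simp [e] at h1, h0, ?_⟩
    have h5 := B.sub_mem (B.smul_mem c (B.sub_mem (hB u α h0 f hf) hf))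
      (B.sub_mem (hB u (c • α) (by simp [h0]) f hf) hf)
    rw [← B.smul_mem_iff (mul_ne_zero hc0 (sub_ne_zero.2 hc1))]
    convert h5 using 1
    ext x
    simp only [LinearMap.smul_apply, LinearMap.smulRight_apply, LinearMap.sub_apply,
      LinearMap.comp_apply, LinearMap.add_apply, LinearMap.id_apply, map_sub, map_smul, h1,
      smul_eq_mul]
    module

/-- `V = V₁ ⊗ V₂` with its contractions, and `H` induces the transvections of both factors. -/
structure TenData (ten : V₁ →ₗ[F] V₂ →ₗ[F] V) (cr : Dual F V₂ →ₗ[F] V →ₗ[F] V₁)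
    (cl : Dual F V₁ →ₗ[F] V →ₗ[F] V₂) (H : Subgroup G) : Prop where
  cr_ten : ∀ χ u y, cr χ (ten u y) = χ y • u
  cl_ten : ∀ α u y, cl α (ten u y) = α u • y
  span : Submodule.span F {w | ∃ u y, ten u y = w} = ⊤
  right : ∀ y χ, χ y = 0 → ∃ g ∈ H, ∀ x, g • x = x + ten (cr χ x) y
  left : ∀ u α, α u = 0 → ∃ g ∈ H, ∀ x, g • x = x + ten u (cl α x)

namespace TenData

variable {ten : V₁ →ₗ[F] V₂ →ₗ[F] V} {cr : Dual F V₂ →ₗ[F] V →ₗ[F] V₁}
  {cl : Dual F V₁ →ₗ[F] V →ₗ[F] V₂} {H : Subgroup G}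

omit [SMulCommClass G F V] in
theorem flip (D : TenData ten cr cl H) : TenData ten.flip cl cr H where
  cr_ten α y u := D.cl_ten α u y
  cl_ten χ y u := D.cr_ten χ u y
  span := by
    rw [← D.span]
    congr 1
    ext w
    exact ⟨fun ⟨y, u, e⟩ ↦ ⟨u, y, e⟩, fun ⟨u, y, e⟩ ↦ ⟨y, u, e⟩⟩
  right := D.left
  left := D.right

omit [SMulCommClass G F V] in
theorem ext (D : TenData ten cr cl H) {W : Type*} [AddCommGroup W] [Module F W] {f g : V →ₗ[F] W}
    (h : ∀ u y, f (ten u y) = g (ten u y)) : f = g :=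
  LinearMap.ext_on D.span (by rintro _ ⟨u, y, rfl⟩; exact h u y)

omit [SMulCommClass G F V] in
theorem swap (D : TenData ten cr cl H) (α : Dual F V₁) (χ : Dual F V₂) (w : V) :
    χ (cl α w) = α (cr χ w) :=
  LinearMap.congr_fun (D.ext (f := χ ∘ₗ cl α) (g := α ∘ₗ cr χ) fun u y ↦ by
    simp [D.cr_ten, D.cl_ten, mul_comm]) w

omit [SMulCommClass G F V] in
theorem eq_zero [FiniteDimensional F V₂] (D : TenData ten cr cl H) {w : V}
    (h : ∀ χ, cr χ w = 0) : w = 0 := by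
  let b := finBasis F V₂
  have h1 : (LinearMap.id : V →ₗ[F] V) = ∑ j, ten.flip (b j) ∘ₗ cr (b.coord j) := D.ext fun u y ↦ by
    simp only [LinearMap.id_apply, LinearMap.sum_apply, LinearMap.comp_apply, D.cr_ten,
      LinearMap.flip_apply, map_smul, Basis.coord_apply]
    conv_lhs => rw [← b.sum_repr y, map_sum]
    simp only [map_smul]
  simpa [h] using LinearMap.congr_fun h1 w

omit [SMulCommClass G F V] in
theorem eq_ten [FiniteDimensional F V₂] (D : TenData ten cr cl H) {w : V} {y : V₂} {δ : Dual F V₂}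
    (hδ : δ y = 1) (h : ∀ χ, χ y = 0 → cr χ w = 0) : w = ten (cr δ w) y := by
  refine sub_eq_zero.1 (D.eq_zero fun χ ↦ ?_)
  simpa [D.cr_ten] using h (χ - χ y • δ) (by simp [hδ])

omit [SMulCommClass G F V] in
theorem ten_ne_zero (D : TenData ten cr cl H) {u : V₁} {y : V₂} (hu : u ≠ 0) (hy : y ≠ 0) :
    ten u y ≠ 0 := fun e ↦ by
  obtain ⟨δ, hδ⟩ := exists_dual_eq_one (F := F) hy
  simpa [D.cr_ten, hδ, hu] using congrArg (cr δ) e

/-- `H` holds the transvections with centre `u ⊗ y` and axis `β ⊗ χ`, `β u = χ y = 0`. -/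
def Flag (ten : V₁ →ₗ[F] V₂ →ₗ[F] V) (cr : Dual F V₂ →ₗ[F] V →ₗ[F] V₁) (H : Subgroup G) (u : V₁)
    (y : V₂) : Prop :=
  ∀ (c : F) (β : Dual F V₁) (χ : Dual F V₂), β u = 0 → χ y = 0 → Tv H (c • ten u y) (β ∘ₗ cr χ)

omit [SMulCommClass G F V] in
theorem flag_flip (D : TenData ten cr cl H) {u : V₁} {y : V₂} (h : Flag ten cr H u y) :
    Flag ten.flip cl H y u := fun c χ β h1 h2 ↦ by
  rw [show χ ∘ₗ cl β = β ∘ₗ cr χ from LinearMap.ext (D.swap β χ)]
  exact h c β χ h2 h1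

theorem move_axis (D : TenData ten cr cl H) {u : V₁} {y : V₂} {β : Dual F V₁} {χ : Dual F V₂}
    (hχ : χ ≠ 0) (h : ∀ c : F, Tv H (c • ten u y) (β ∘ₗ cr χ)) {χ' : Dual F V₂} (h' : χ' y = 0)
    (c : F) : Tv H (c • ten u y) (β ∘ₗ cr χ') := by
  by_cases hc : ∃ y', χ' y' = 0 ∧ χ y' ≠ 0
  · obtain ⟨y', h1, h2⟩ := hc
    obtain ⟨g, hg, hgx⟩ := D.right ((χ y')⁻¹ • y') χ' (by simp [h1])
    have h3 := (h c).conj' hg (ψ := β ∘ₗ cr (χ - χ')) fun x ↦ by
      simp [hgx, D.cr_ten, h1, h2]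
    rw [hgx] at h3
    simp only [map_smul, D.cr_ten, h', zero_smul, smul_zero, map_zero, LinearMap.zero_apply,
      add_zero] at h3
    convert (h c).sub_right h3 using 1
    ext x
    simp
  · push Not at hc
    obtain ⟨e, he⟩ := exists_smul_of_ker_le hc
    have he0 : e ≠ 0 := by rintro rfl; exact hχ (by simpa using he)
    refine (h (c / e)).congr (by simp [D.cr_ten, h']) fun x ↦ ?_
    simp only [he, map_smul, LinearMap.comp_apply, LinearMap.smul_apply, smul_eq_mul, smul_smul]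
    congr 1
    field_simp

theorem flag_of (D : TenData ten cr cl H) {u : V₁} {y : V₂} {β : Dual F V₁} {χ : Dual F V₂}
    (hβ : β ≠ 0) (hχ : χ ≠ 0) (h : ∀ c : F, Tv H (c • ten u y) (β ∘ₗ cr χ)) :
    Flag ten cr H u y := fun c β' χ' h1 h2 ↦ by
  have h3 := D.flip.move_axis (u := y) (y := u) (β := χ') hβ (fun c ↦ by
    rw [show χ' ∘ₗ cl β = β ∘ₗ cr χ' from LinearMap.ext (D.swap β χ')]
    exact D.move_axis hχ h h2 c) h1 c
  rwa [show χ' ∘ₗ cl β' = β' ∘ₗ cr χ' from LinearMap.ext (D.swap β' χ')] at h3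

theorem flag_move (D : TenData ten cr cl H) {u : V₁} {y : V₂} (hy : y ≠ 0) (h : Flag ten cr H u y)
    (y' : V₂) : Flag ten cr H u y' := fun c β χ h1 h2 ↦ by
  by_cases hc : ∀ d : F, d • (y' - y) ≠ y
  · obtain ⟨δ, h3, h4⟩ := exists_dual_pair hc
    obtain ⟨g, hg, hgx⟩ := D.right (y' - y) δ h4
    have h5 := (h c β (χ - χ y • δ) h1 (by simp [h3])).conj' hg (ψ := β ∘ₗ cr χ) fun x ↦ by
      simp [hgx, D.cr_ten, h2, sub_eq_add_neg]
    convert h5 using 1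
    simp [hgx, D.cr_ten, h3, smul_sub]
  · push Not at hc
    obtain ⟨d, hd⟩ := hc
    have hd0 : d ≠ 0 := by rintro rfl; exact hy (by simpa using hd.symm)
    have h3 : y' = (d⁻¹ + 1) • y := by
      rw [add_smul, one_smul, ← sub_eq_iff_eq_add, eq_inv_smul_iff₀ hd0, hd]
    by_cases h4 : d⁻¹ + 1 = 0
    · rw [h3, h4, zero_smul, map_zero, smul_zero]; exact Tv.zero_left
    · rw [h3, map_smul, smul_smul]
      exact h _ β χ h1 (by simpa [h3, h4] using h2)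

theorem flag_all (D : TenData ten cr cl H) {u : V₁} {y : V₂} (hu : u ≠ 0) (hy : y ≠ 0)
    (h : Flag ten cr H u y) (u' : V₁) (y' : V₂) : Flag ten cr H u' y' :=
  D.flip.flag_flip (D.flip.flag_move hu (D.flag_flip (D.flag_move hy h y')) u')

theorem tv_of_flag [FiniteDimensional F V₁] [FiniteDimensional F V₂] (D : TenData ten cr cl H)
    (h2 : 2 ≤ finrank F V₁) (h3 : 3 ≤ finrank F V₂) (h : ∀ u y, Flag ten cr H u y) (u : V₁) (y : V₂)
    (β : Dual F V₁) (χ : Dual F V₂) (h0 : β u = 0 ∨ χ y = 0) : Tv H (ten u y) (β ∘ₗ cr χ) := by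
  have key : ∀ u y β χ, χ y = 0 → Tv H (ten u y) (β ∘ₗ cr χ) := fun u y β χ hχ ↦ by
    by_cases hβ : β u = 0
    · simpa using h u y 1 β χ hβ hχ
    by_cases hy : y = 0
    · rw [hy, map_zero]; exact Tv.zero_left
    obtain ⟨v, hv0, hv⟩ : ∃ v, v ≠ 0 ∧ β v = 0 := by
      obtain ⟨v, hv, hv0⟩ := Submodule.exists_mem_ne_zero_of_ne_bot
        (LinearMap.ker_ne_bot_of_finrank_lt (f := β) (by rw [finrank_self]; omega))
      exact ⟨v, hv0, hv⟩
    obtain ⟨γ, a1, a2⟩ := exists_dual_pair (F := F) (u := u) (v := v) fun c hc ↦ hv0 (by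
      have : c = 0 := by simpa [hv, hβ] using congrArg β hc
      rw [← hc, this, zero_smul])
    obtain ⟨δ, hδ⟩ := exists_dual_eq_one (F := F) hy
    obtain ⟨y₁, hy₁, b1, b2⟩ := exists_ne_zero_ker₂ h3 χ δ
    obtain ⟨χ₁, c1, c2⟩ := exists_dual_pair (F := F) (u := y) (v := y₁) fun c hc ↦ hy₁ (by
      have : c = 0 := by simpa [hδ, b2] using congrArg δ hc
      rw [← hc, this, zero_smul])
    simpa [D.cr_ten, a1, c1] using (h u y 1 γ χ₁ a2 c2).comm (h v y₁ 1 β χ hv b1)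
      (by simp [D.cr_ten, hχ])
  by_cases hχ : χ y = 0
  · exact key u y β χ hχ
  have hβ := h0.resolve_right hχ
  obtain ⟨y₁, hy₁, b1, -⟩ := exists_ne_zero_ker₂ h3 χ χ
  obtain ⟨χ₁, c1, c2⟩ := exists_dual_pair (F := F) (u := y) (v := y₁) fun c hc ↦ hy₁ (by
    have : c = 0 := by simpa [hχ, b1] using congrArg χ hc
    rw [← hc, this, zero_smul])
  have : Nontrivial V₁ := Module.nontrivial_of_finrank_pos (R := F) (by omega)
  obtain ⟨v, hv⟩ := exists_ne (0 : V₁)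
  obtain ⟨γ, hγ⟩ := exists_dual_eq_one (F := F) hv
  simpa [D.cr_ten, hγ, c1] using (key u y γ χ₁ c2).comm (key v y₁ β χ b1) (by simp [D.cr_ten, hβ])

/-- The part of `H` in the unipotent radical of the stabiliser of `V₁ ⊗ y`. -/
def NS (ten : V₁ →ₗ[F] V₂ →ₗ[F] V) (H : Subgroup G) (y : V₂) : AddSubgroup (V →ₗ[F] V₁) where
  carrier := {S | (∀ u, S (ten u y) = 0) ∧ ∃ m ∈ H, ∀ x, m • x = x + ten (S x) y}
  add_mem' := by
    rintro S S' ⟨h1, m, hm, e⟩ ⟨h1', m', hm', e'⟩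
    refine ⟨fun k ↦ by simp [h1, h1'], m * m', mul_mem hm hm', fun x ↦ ?_⟩
    rw [mul_smul, e, e', map_add, h1, add_zero, LinearMap.add_apply, map_add, LinearMap.add_apply]
    abel
  zero_mem' := ⟨fun _ ↦ rfl, 1, one_mem H, fun x ↦ by simp⟩
  neg_mem' := by
    rintro S ⟨h1, m, hm, e⟩
    refine ⟨fun k ↦ by simp [h1], m⁻¹, inv_mem hm, fun x ↦ ?_⟩
    rw [inv_smul_eq_iff, e, map_add, h1, LinearMap.neg_apply]
    simp

theorem flag_of_NS [FiniteDimensional F V₁] [FiniteDimensional F V₂] (D : TenData ten cr cl H)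
    (hq : 3 ≤ finrank F V₁ ∨ ∃ c : F, c ≠ 0 ∧ c ≠ 1) (h3 : 3 ≤ finrank F V₂) {y : V₂} (hy : y ≠ 0)
    {S : V →ₗ[F] V₁} (hS : S ∈ NS ten H y) (hne : ∀ χ, S ≠ cr χ) (u' : V₁) (y' : V₂) :
    Flag ten cr H u' y' := by
  obtain ⟨z, u, hu⟩ : ∃ z u, ∀ c : F, c • u ≠ S (ten u z) := by
    by_contra hc
    push Not at hc
    have h1 : ∀ z, ∃ c : F, ∀ u, S (ten u z) = c • u := fun z ↦
      exists_smul_of_forall (f := S ∘ₗ ten.flip z) fun u ↦ (hc z u).imp fun _ e ↦ e.symm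
    choose c hc using h1
    by_cases h0 : ∀ u : V₁, u = 0
    · exact hne 0 (LinearMap.ext fun x ↦ by rw [h0 (S x), h0 (cr 0 x)])
    push Not at h0
    obtain ⟨u, hu⟩ := h0
    let χ : Dual F V₂ :=
      { toFun := c
        map_add' := fun a b ↦ smul_left_injective F hu (by simp only [← hc, map_add, add_smul])
        map_smul' := fun a b ↦ smul_left_injective F hu (by
          simp only [← hc, map_smul, RingHom.id_apply, smul_eq_mul, mul_smul]) }
    exact hne χ (D.ext fun u z ↦ by rw [hc, D.cr_ten]; rfl)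
  obtain ⟨χ, hχ, h1, h2⟩ := exists_dual_ne_zero₂ h3 y z
  let B : Submodule F (V₁ →ₗ[F] V₁) :=
    { carrier := {f | ∀ c : F, (c • f) ∘ₗ cr χ ∈ NS ten H y}
      zero_mem' := fun c ↦ by simp
      add_mem' := fun {a b} ha hb c ↦ by
        rw [smul_add, LinearMap.add_comp]; exact add_mem (ha c) (hb c)
      smul_mem' := fun d a ha c ↦ by rw [smul_smul]; exact ha _ }
  have hf : S ∘ₗ ten.flip z ∈ B := fun c ↦ by
    obtain ⟨r, hr, hrx⟩ := D.right (c • z) χ (by simp [h2])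
    obtain ⟨s0, m, hm, e⟩ := hS
    have h4 : S + (c • S ∘ₗ ten.flip z) ∘ₗ cr χ ∈ NS ten H y := by
      refine ⟨fun u ↦ by simp [s0, D.cr_ten, h1], r⁻¹ * m * r,
        mul_mem (mul_mem (inv_mem hr) hm) hr, fun x ↦ ?_⟩
      rw [mul_smul, mul_smul, inv_smul_eq_iff, e, smul_add, hrx, hrx]
      simp [D.cr_ten, h1]
    simpa using sub_mem h4 (show S ∈ NS ten H y from ⟨s0, m, hm, e⟩)
  obtain ⟨β, hβ, h4, h5⟩ := exists_rankOne_mem hq (B := B) (fun u α h0 f hf c ↦ by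
    obtain ⟨r, hr, hrx⟩ := D.left u α h0
    obtain ⟨s0, m, hm, e⟩ := hf c
    have h4 : ∀ x, r⁻¹ • x = x - ten u (cl α x) := fun x ↦ by
      rw [inv_smul_eq_iff, hrx]; simp [D.cl_ten, h0]
    refine ⟨fun u ↦ by simp [D.cr_ten, h1], r * m * r⁻¹, mul_mem (mul_mem hr hm) (inv_mem hr),
      fun x ↦ ?_⟩
    rw [mul_smul, mul_smul, e, smul_add, smul_inv_smul, hrx, h4]
    simp [D.cr_ten, D.cl_ten, D.swap, smul_sub, smul_add, smul_smul, mul_comm, mul_left_comm,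
      sub_smul]) hf hu
  have hu0 : u ≠ 0 := by rintro rfl; exact hu 0 (by simp)
  refine D.flag_all hu0 hy (D.flag_of hβ hχ fun c ↦ ?_) u' y'
  obtain ⟨-, m, hm, e⟩ := h5 c
  exact ⟨by simp [D.cr_ten, h1], m, hm, fun x ↦ by simp [e, smul_smul, mul_comm]⟩

end TenData

end CL.SLn
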