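/-
Overgroups of `SL(V₁) ⊗ SL(V₂)`, `dim V₁ < dim V₂`, part 2: maximality of the tensor product
subgroups of `SL_n(F)`.
-/
import Cfsg.Agent.Cls.MaxTen

set_option autoImplicit false

namespace CL.SLn

open Module
open scoped Pointwise

section General

variable {F V₁ V₂ V G : Type*} [Field F] [AddCommGroup V₁] [Module F V₁] [AddCommGroup V₂]
  [Module F V₂] [AddCommGroup V] [Module F V] [Group G] [DistribMulAction G V] [SMulCommClass G F V]

theorem mem_smul_sub {g : G} {L : Submodule F V} {x : V} : x ∈ g • L ↔ g⁻¹ • x ∈ L := by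
  rw [Submodule.mem_smul_pointwise_iff_exists]
  exact ⟨fun ⟨b, hb, e⟩ ↦ by rwa [← e, inv_smul_smul], fun h ↦ ⟨_, h, smul_inv_smul g x⟩⟩

theorem finrank_smul_sub (g : G) (L : Submodule F V) : finrank F (g • L : Submodule F V) = finrank F L :=
  LinearEquiv.finrank_map_eq (DistribMulAction.toLinearEquiv F V g) L

theorem smul_sub_inf (g : G) (A B : Submodule F V) : g • (A ⊓ B) = g • A ⊓ g • B := by
  ext x; simp only [Submodule.mem_inf, mem_smul_sub]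

/-- A map into `A` from a space of dimension at least `dim A` meets every `B` with `A ⊓ B ≠ ⊥`. -/
theorem exists_apply_mem {X : Type*} [AddCommGroup X] [Module F X] [FiniteDimensional F X]
    [FiniteDimensional F V] {A B : Submodule F V} (hAB : A ⊓ B ≠ ⊥) (hX : finrank F A ≤ finrank F X)
    (f : X →ₗ[F] V) (hf : ∀ x, f x ∈ A) : ∃ x, x ≠ 0 ∧ f x ∈ B := by
  have h1 := (B.comap A.subtype).finrank_quotient_add_finrank
  have h2 : B.comap A.subtype ≠ ⊥ := by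
    obtain ⟨z, hz, hz0⟩ := Submodule.exists_mem_ne_zero_of_ne_bot hAB
    exact (Submodule.ne_bot_iff _).2 ⟨⟨z, hz.1⟩, hz.2, fun e ↦ hz0 (congrArg Subtype.val e)⟩
  have h3 : finrank F (B.comap A.subtype) ≠ 0 := fun e ↦ h2 (Submodule.finrank_eq_zero.1 e)
  obtain ⟨x, hx, hx0⟩ := Submodule.exists_mem_ne_zero_of_ne_bot
    (LinearMap.ker_ne_bot_of_finrank_lt (f := (B.comap A.subtype).mkQ ∘ₗ f.codRestrict A hf) (by omega))
  exact ⟨x, hx0, (Submodule.Quotient.mk_eq_zero (B.comap A.subtype)).1 (LinearMap.mem_ker.1 hx)⟩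

/-- A conjugate of `L` meeting `L` in a subspace of the largest dimension. -/
theorem exists_max_meet [FiniteDimensional F V] {H : Subgroup G} {L : Submodule F V} {g₀ : G}
    (hg₀ : g₀ ∈ H) (h1 : g₀ • L ≠ L) (h2 : g₀ • L ⊓ L ≠ ⊥) :
    ∃ g ∈ H, g • L ≠ L ∧ g • L ⊓ L ≠ ⊥ ∧ ∀ m ∈ H, (∀ z ∈ g • L ⊓ L, m • z = z) →
      ∀ w ∈ g • L, w ∉ L → m • w ∈ g • L → m • g • L = g • L := by
  obtain ⟨g, ⟨hg, hgL⟩, hmax⟩ := (InvImage.wf (fun g : G ↦
    finrank F V - finrank F (g • L ⊓ L : Submodule F V)) Nat.lt_wfRel.wf).has_min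
    {g | g ∈ H ∧ g • L ≠ L} ⟨g₀, hg₀, h1⟩
  have hle : ∀ g' ∈ H, g' • L ≠ L →
      finrank F (g' • L ⊓ L : Submodule F V) ≤ finrank F (g • L ⊓ L : Submodule F V) :=
    fun g' a b ↦ by
      have h3 : ¬ (finrank F V - finrank F (g' • L ⊓ L : Submodule F V) <
        finrank F V - finrank F (g • L ⊓ L : Submodule F V)) := hmax g' ⟨a, b⟩
      have := Submodule.finrank_le (g' • L ⊓ L)
      omega
  refine ⟨g, hg, hgL, fun e ↦ h2 ?_, fun m hm hz w hw hwL hmw ↦ ?_⟩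
  · have := hle g₀ hg₀ h1
    rwa [e, finrank_bot, Nat.le_zero, Submodule.finrank_eq_zero] at this
  by_contra hne
  have h3 := hle (g⁻¹ * m * g) (H.mul_mem (H.mul_mem (H.inv_mem hg) hm) hg) fun e ↦ hne (by
    rwa [mul_smul, mul_smul, inv_smul_eq_iff] at e)
  rw [← finrank_smul_sub (m⁻¹ * g), smul_sub_inf, smul_smul,
    show m⁻¹ * g * (g⁻¹ * m * g) = g by group] at h3
  have h4 : g • L ⊓ L < g • L ⊓ (m⁻¹ * g) • L := by
    refine lt_of_le_of_ne (fun z h ↦ ⟨h.1, ?_⟩) fun e ↦ hwL ?_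
    · rw [mul_smul, SetLike.mem_coe, mem_smul_sub, inv_inv, hz z h]; exact h.1
    · have : w ∈ g • L ⊓ (m⁻¹ * g) • L := ⟨hw, by
        rwa [mul_smul, SetLike.mem_coe, mem_smul_sub, inv_inv]⟩
      exact (e ▸ this : w ∈ g • L ⊓ L).2
  exact absurd (Submodule.finrank_lt_finrank_of_lt h4) (not_lt.2 h3)

namespace TenData

variable {ten : V₁ →ₗ[F] V₂ →ₗ[F] V} {cr : Dual F V₂ →ₗ[F] V →ₗ[F] V₁}
  {cl : Dual F V₁ →ₗ[F] V →ₗ[F] V₂} {H : Subgroup G}
  [FiniteDimensional F V₁] [FiniteDimensional F V₂] [FiniteDimensional F V]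

omit [SMulCommClass G F V] [FiniteDimensional F V₁] [FiniteDimensional F V₂]
  [FiniteDimensional F V] in
theorem finrank_range (D : TenData ten cr cl H) {y : V₂} (hy : y ≠ 0) :
    finrank F (LinearMap.range (ten.flip y)) = finrank F V₁ :=
  LinearMap.finrank_range_of_inj (LinearMap.ker_eq_bot.1 (eq_bot_iff.2 fun u hu ↦ by
    by_contra h0
    exact D.ten_ne_zero h0 hy hu))

/-- If the unipotent radical holds nothing new, two conjugates of `V₁ ⊗ y` meet trivially. -/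
theorem smul_eq_of_inf (D : TenData ten cr cl H) (hlt : finrank F V₁ < finrank F V₂) {y : V₂}
    (hy : y ≠ 0) (hN : ∀ S ∈ NS ten H y, ∃ χ, S = cr χ) {g₀ : G} (hg₀ : g₀ ∈ H)
    (h2 : g₀ • LinearMap.range (ten.flip y) ⊓ LinearMap.range (ten.flip y) ≠ ⊥) :
    g₀ • LinearMap.range (ten.flip y) = LinearMap.range (ten.flip y) := by
  by_contra h1
  set L := LinearMap.range (ten.flip y) with hL
  have hLm : ∀ u, ten u y ∈ L := fun u ↦ ⟨u, rfl⟩
  have hLr : finrank F L = finrank F V₁ := D.finrank_range hy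
  obtain ⟨g, hg, a1, a2, a3⟩ := exists_max_meet hg₀ h1 h2
  obtain ⟨δ, hδ⟩ := exists_dual_eq_one (F := F) hy
  obtain ⟨w, hw, hwL⟩ : ∃ w ∈ g • L, w ∉ L := by
    by_contra hc
    push Not at hc
    exact a1 (Submodule.eq_of_le_of_finrank_eq hc (finrank_smul_sub g L))
  obtain ⟨⟨χ₀, hχ₀⟩, b0, b1⟩ := exists_apply_mem (X := LinearMap.ker (Dual.eval F V₂ y))
    (A := L) (B := g • L) (by rwa [inf_comm]) (by
      have := Module.Dual.finrank_ker_add_one_of_ne_zero (f := Dual.eval F V₂ y)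
        fun e ↦ by simpa [hδ] using LinearMap.congr_fun e δ
      rw [Subspace.dual_finrank_eq] at this
      omega) (ten.flip y ∘ₗ cr.flip w ∘ₗ Submodule.subtype _) fun x ↦ hLm _
  replace hχ₀ : χ₀ y = 0 := hχ₀
  replace b0 : χ₀ ≠ 0 := fun e ↦ b0 (Subtype.ext e)
  obtain ⟨m, hm, hmx⟩ := D.right y χ₀ hχ₀
  have hmL : ∀ z ∈ L, m • z = z := by
    rintro _ ⟨u, rfl⟩
    simp [hmx, D.cr_ten, hχ₀]
  have hmW := a3 m hm (fun z hz ↦ hmL z hz.2) w hw hwL (by rw [hmx]; exact add_mem hw b1)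
  -- the conjugate `s` of `m` stabilises `L`
  obtain ⟨s, hs, hsL, hsW, hsx, hs1⟩ : ∃ s ∈ H, s • L = L ∧ (∀ z ∈ g⁻¹ • L, s • z = z) ∧
      (∀ x, s • x - x ∈ g⁻¹ • L) ∧ ∃ x : V, s • x ≠ x := by
    refine ⟨g⁻¹ * m * g, H.mul_mem (H.mul_mem (H.inv_mem hg) hm) hg, ?_, fun z hz ↦ ?_, fun x ↦ ?_, ?_⟩
    · rw [mul_smul, mul_smul, hmW, inv_smul_smul]
    · rw [mem_smul_sub, inv_inv] at hz
      rw [mul_smul, mul_smul, hmL _ hz, inv_smul_smul]
    · rw [mem_smul_sub, inv_inv, smul_sub, mul_smul, mul_smul, smul_inv_smul, hmx, add_sub_cancel_left]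
      exact hLm _
    · obtain ⟨z, hz⟩ := exists_apply_eq_one b0
      obtain ⟨_, ⟨-, u, rfl⟩, hu⟩ := Submodule.exists_mem_ne_zero_of_ne_bot a2
      refine ⟨g⁻¹ • ten u z, fun e ↦ hu ?_⟩
      rw [mul_smul, mul_smul, smul_inv_smul, smul_left_cancel_iff, hmx, add_eq_left, D.cr_ten, hz,
        one_smul] at e
      exact e
  set W := g⁻¹ • L with hW
  have hWL : W ⊓ L ≠ ⊥ := fun e ↦ a2 (by
    rw [← smul_inv_smul g L, ← smul_sub_inf, smul_inv_smul, inf_comm, e]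
    exact Submodule.smul_bot' g)
  have hWr : finrank F W = finrank F V₁ := (finrank_smul_sub _ L).trans hLr
  let sl := DistribSMul.toLinearMap F V s
  let σ : V₁ →ₗ[F] V₁ := cr δ ∘ₗ sl ∘ₗ ten.flip y
  have hσ : ∀ u, s • ten u y = ten (σ u) y := fun u ↦ by
    obtain ⟨u', hu'⟩ : s • ten u y ∈ L := hsL ▸ Submodule.smul_mem_pointwise_smul _ _ _ (hLm u)
    rw [show σ u = cr δ (s • ten u y) from rfl, ← hu']
    simp [D.cr_ten, hδ]
  have c1 : ∀ χ : Dual F V₂, χ y = 0 → ∃ χ', ∀ x, σ (cr χ x) = cr χ' (s • x) := fun χ hχ ↦ by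
    obtain ⟨r, hr, hrx⟩ := D.right y χ hχ
    obtain ⟨χ', e⟩ := hN (σ ∘ₗ cr χ ∘ₗ DistribSMul.toLinearMap F V s⁻¹) ⟨fun u ↦ by
      obtain ⟨u', hu'⟩ : s⁻¹ • ten u y ∈ L := mem_smul_sub.1 (hsL.symm ▸ hLm u)
      change σ (cr χ (s⁻¹ • ten u y)) = 0
      simp [← hu', D.cr_ten, hχ], s * r * s⁻¹, H.mul_mem (H.mul_mem hs hr) (H.inv_mem hs), fun x ↦ by
        rw [mul_smul, mul_smul, hrx, smul_add, smul_inv_smul, hσ]; rfl⟩
    exact ⟨χ', fun x ↦ by simpa using LinearMap.congr_fun e (s • x)⟩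
  have c2 : ∀ (χ χ' : Dual F V₂), χ y = 0 → (∀ x, σ (cr χ x) = cr χ' (s • x)) → ∀ u z,
      s • ten u z - ten u z ∈ L → χ z • σ u = χ' z • u := fun χ χ' hχ e u z h ↦ by
    obtain ⟨u', hu'⟩ := h
    have h3 : χ' y = 0 := by
      obtain ⟨_, ⟨h4, u₀, rfl⟩, hu₀⟩ := Submodule.exists_mem_ne_zero_of_ne_bot hWL
      have h5 := e (ten u₀ y)
      rw [show s • ten u₀ y = ten u₀ y from hsW _ h4, D.cr_ten, D.cr_ten, hχ, zero_smul, map_zero, eq_comm, smul_eq_zero] at h5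
      exact h5.resolve_right fun h6 ↦ hu₀ (by simp [h6])
    have h4 := e (ten u z)
    rw [← sub_add_cancel (s • ten u z) (ten u z), ← hu'] at h4
    simpa [D.cr_ten, h3] using h4
  have c3 : ∀ u, σ u = u := by
    obtain ⟨c, hc⟩ := exists_smul_of_forall (f := σ) fun u ↦ by
      obtain ⟨⟨z, hz⟩, z0, z1⟩ := exists_apply_mem (X := LinearMap.ker δ) hWL (by
        have := Module.Dual.finrank_ker_add_one_of_ne_zero (f := δ) fun e ↦ by simp [e] at hδ
        omega) ((sl - LinearMap.id) ∘ₗ ten u ∘ₗ Submodule.subtype _) fun x ↦ hsx _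
      obtain ⟨χ, d1, d0⟩ := exists_dual_pair (F := F) (u := y) (v := z) fun c hc ↦ z0 (by
        have : c = 0 := by simpa [hδ, LinearMap.mem_ker.1 hz] using congrArg δ hc
        exact Subtype.ext (show z = 0 by rw [← hc, this, zero_smul]))
      obtain ⟨χ', e⟩ := c1 χ d0
      exact ⟨χ' z, by simpa [d1] using c2 χ χ' d0 e u z z1⟩
    obtain ⟨_, ⟨h4, u₀, rfl⟩, hu₀⟩ := Submodule.exists_mem_ne_zero_of_ne_bot hWL
    have h5 := hσ u₀
    rw [show s • ten u₀ y = ten u₀ y from hsW _ h4, hc, map_smul, LinearMap.smul_apply] at h5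
    have h6 : c = 1 := smul_left_injective F (show ten u₀ y ≠ 0 from hu₀) (by simpa using h5.symm)
    simpa [h6] using hc
  have c4 : ∀ x, s • x - x = ten (cr δ (s • x - x)) y := fun x ↦ D.eq_ten hδ fun χ hχ ↦ by
    obtain ⟨χ', e⟩ := c1 χ hχ
    have h3 : χ = χ' := LinearMap.ext fun z ↦ by
      obtain ⟨u, u0, u1⟩ := exists_apply_mem hWL hWr.le ((sl - LinearMap.id) ∘ₗ ten.flip z)
        fun x ↦ hsx _
      have := c2 χ χ' hχ e u z u1
      rw [c3] at this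
      exact smul_left_injective F u0 this
    rw [map_sub, h3, ← e, c3, h3, sub_self]
  obtain ⟨χ₁, e⟩ := hN (cr δ ∘ₗ (sl - LinearMap.id)) ⟨fun u ↦ by
    change cr δ (s • ten u y - ten u y) = 0
    rw [hσ, c3, sub_self, map_zero], s, hs, fun x ↦ by rw [← sub_eq_iff_eq_add']; exact c4 x⟩
  have c5 : ∀ x, s • x - x = ten (cr χ₁ x) y := fun x ↦ by rw [c4, ← e]; rfl
  obtain ⟨x, hx⟩ := hs1
  obtain ⟨z, hz⟩ := exists_apply_eq_one (φ := χ₁) fun h0 ↦ hx (by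
    rw [← sub_eq_zero, c5, h0]; simp)
  have h3 : L = W := Submodule.eq_of_le_of_finrank_eq (by
    rintro _ ⟨u, rfl⟩
    have := hsx (ten u z)
    rwa [c5, D.cr_ten, hz, one_smul] at this) (hLr.trans hWr.symm)
  exact a1 (by rw [hW, eq_inv_smul_iff] at h3; exact h3)

omit [SMulCommClass G F V] [FiniteDimensional F V] in
/-- A subspace of dimension `dim V₁` stabilised by the stabilisers of its vectors has a pure
tensor. -/
theorem exists_pure (D : TenData ten cr cl H) (h2 : 2 ≤ finrank F V₁) (h3 : 3 ≤ finrank F V₂)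
    (hq : 3 ≤ finrank F V₁ ∨ ∃ c : F, c ≠ 0 ∧ c ≠ 1) {W : Submodule F V}
    (hW : finrank F W = finrank F V₁)
    (hst : ∀ m ∈ H, ∀ w₁ ∈ W, w₁ ≠ 0 → m • w₁ = w₁ → ∀ w ∈ W, m • w ∈ W) :
    ∃ u y, u ≠ 0 ∧ y ≠ 0 ∧ ten u y ∈ W := by
  by_contra hc
  have hp : ∀ u y, ten u y ∈ W → ten u y = 0 := fun u y h ↦ by
    by_contra h0
    exact hc ⟨u, y, by rintro rfl; simp at h0, by rintro rfl; simp at h0, h⟩
  have hk : ∀ w₁ ∈ W, w₁ ≠ 0 → ∀ χ, cr χ w₁ = 0 → ∀ w ∈ W, cr χ w = 0 := fun w₁ h1 h0 χ hχ w hw ↦ by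
    obtain ⟨y, hy, a1, -⟩ := exists_ne_zero_ker₂ h3 χ χ
    obtain ⟨m, hm, e⟩ := D.right y χ a1
    have := hst m hm w₁ h1 h0 (by simp [e, hχ]) w hw
    rw [e, W.add_mem_iff_right hw] at this
    by_contra h4
    exact D.ten_ne_zero h4 hy (hp _ _ this)
  obtain ⟨w₁, h1, h0⟩ := Submodule.exists_mem_ne_zero_of_ne_bot (p := W) fun e ↦ by
    rw [e, finrank_bot] at hW; omega
  obtain ⟨ξ, hξ⟩ : ∃ ξ, cr ξ w₁ ≠ 0 := by
    by_contra hc
    push Not at hc
    exact h0 (D.eq_zero hc)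
  set u := cr ξ w₁ with hu
  have hinj : ∀ w ∈ W, cr ξ w = 0 → w = 0 := fun w hw e ↦ by
    by_contra h4
    exact hξ (hk w hw h4 ξ e w₁ h1)
  have : Module.Finite F W := Module.finite_of_finrank_pos (by omega)
  have hsurj : ∀ v, ∃ w ∈ W, cr ξ w = v := fun v ↦ by
    obtain ⟨w, hw⟩ := (LinearMap.injective_iff_surjective_of_finrank_eq_finrank
      (f := cr ξ ∘ₗ W.subtype) hW).1 (LinearMap.ker_eq_bot.1 (eq_bot_iff.2 fun w hw ↦
        Subtype.ext (hinj w w.2 hw))) v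
    exact ⟨w, w.2, hw⟩
  have key : ∀ α : Dual F V₁, α u = 0 → ∀ w ∈ W, ten u (cl α w) - ten (cr ξ w) (cl α w₁) -
      α (cr ξ w) • ten u (cl α w₁) = α (cr ξ w) • w₁ := fun α hα w hw ↦ by
    have a1 : ξ (cl α w₁) = 0 := by rw [D.swap, hα]
    obtain ⟨l, hl, e1⟩ := D.left u α hα
    obtain ⟨r, hr, e2⟩ := D.right (-cl α w₁) ξ (by simp [a1])
    have a2 := hst (l * r) (H.mul_mem hl hr) w₁ h1 h0 (by
      simp [mul_smul, e1, e2, D.cl_ten, ← hu, hα]) w hw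
    refine sub_eq_zero.1 (hinj _ ?_ (by simp [D.cr_ten, D.swap, hα, ← hu]))
    convert W.sub_mem (W.sub_mem a2 hw) (W.smul_mem (α (cr ξ w)) h1) using 2
    simp only [mul_smul, e1, e2, D.cl_ten, map_add, map_neg, map_smul]
    module
  obtain ⟨ε, hε⟩ := exists_dual_eq_one (F := F) hξ
  suffices hs : ∀ α : Dual F V₁, α u = 0 → cl α w₁ = 0 by
    have := D.flip.eq_ten hε hs
    exact h0 (this.trans (hp _ _ (this ▸ h1 : ten.flip (cl ε w₁) u ∈ W)))
  intro α hα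
  rcases hq with hq | ⟨c, hc0, hc1⟩
  · obtain ⟨v, hv, a1, a2⟩ := exists_ne_zero_ker₂ hq α ε
    obtain ⟨w, hw, rfl⟩ := hsurj v
    obtain ⟨γ, b1, b0⟩ := exists_dual_pair (F := F) (u := u) (v := cr ξ w) fun c hc ↦ hv (by
      have : c = 0 := by simpa [hε, a2] using congrArg ε hc
      rw [← hc, this, zero_smul])
    simpa [D.cl_ten, a1, b1, b0] using congrArg (cl γ) (key α hα w hw)
  · by_cases hα0 : α = 0
    · simp [hα0]
    obtain ⟨v, hv⟩ := exists_apply_eq_one hα0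
    obtain ⟨w, hw, rfl⟩ := hsurj v
    have a1 := congrArg (cl ε) (key α hα w hw)
    have a2 := congrArg (cl ε) (key (c • α) (by simp [hα]) w hw)
    simp only [map_sub, map_smul, D.cl_ten, hε, hv, one_smul, LinearMap.smul_apply, smul_eq_mul,
      mul_one] at a1 a2
    refine smul_right_injective V₂ (mul_ne_zero hc0 (sub_ne_zero.2 hc1)) ?_
    linear_combination (norm := module) c • a1 - a2

omit [SMulCommClass G F V] [FiniteDimensional F V₁] [FiniteDimensional F V] in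
theorem exists_move (D : TenData ten cr cl H) (h3 : 3 ≤ finrank F V₂) {y y' : V₂} (hy : y ≠ 0)
    (hy' : y' ≠ 0) : ∃ h ∈ H, ∀ u, h • ten u y = ten u y' := by
  have key : ∀ y y' : V₂, y ≠ 0 → (∀ c : F, y' ≠ c • y) → ∃ h ∈ H, ∀ u, h • ten u y = ten u y' :=
    fun y y' hy hne ↦ by
      obtain ⟨δ, a1, a0⟩ := exists_dual_pair (F := F) (u := y' - y) (v := y) fun d hd ↦ by
        have hd0 : d ≠ 0 := by rintro rfl; exact hy (by simpa using hd.symm)
        exact hne (d⁻¹ + 1) (by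
          rw [add_smul, one_smul, ← sub_eq_iff_eq_add, eq_inv_smul_iff₀ hd0, hd])
      obtain ⟨g, hg, e⟩ := D.right (y' - y) δ a0
      exact ⟨g, hg, fun u ↦ by simp [e, D.cr_ten, a1]⟩
  obtain ⟨δ, δ', a1, a2⟩ : ∃ δ δ' : Dual F V₂, δ y = 1 ∧ δ' y' = 1 :=
    let ⟨δ, h⟩ := exists_dual_eq_one (F := F) hy
    let ⟨δ', h'⟩ := exists_dual_eq_one (F := F) hy'
    ⟨δ, δ', h, h'⟩
  obtain ⟨z, hz, b1, b2⟩ := exists_ne_zero_ker₂ h3 δ δ'
  obtain ⟨g, hg, e⟩ := key y z hy fun c hc ↦ hz (by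
    have : c = 0 := by simpa [a1, b1] using (congrArg δ hc).symm
    rw [hc, this, zero_smul])
  obtain ⟨g', hg', e'⟩ := key y' z hy' fun c hc ↦ hz (by
    have : c = 0 := by simpa [a2, b2] using (congrArg δ' hc).symm
    rw [hc, this, zero_smul])
  exact ⟨g'⁻¹ * g, H.mul_mem (H.inv_mem hg') hg, fun u ↦ by rw [mul_smul, e, inv_smul_eq_iff, e']⟩

omit [SMulCommClass G F V] [FiniteDimensional F V₁] [FiniteDimensional F V₂]
  [FiniteDimensional F V] in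
/-- A map preserving every `V₁ ⊗ y` comes from `End V₁`. -/
theorem exists_left (D : TenData ten cr cl H) (h3 : 3 ≤ finrank F V₂) {f : V →ₗ[F] V}
    (hf : ∀ u y, ∃ u', f (ten u y) = ten u' y) :
    ∃ a : V₁ →ₗ[F] V₁, ∀ u y, f (ten u y) = ten (a u) y := by
  have : Nontrivial V₂ := Module.nontrivial_of_finrank_pos (R := F) (by omega)
  obtain ⟨y₀, hy₀⟩ := exists_ne (0 : V₂)
  obtain ⟨δ, hδ⟩ := exists_dual_eq_one (F := F) hy₀
  refine ⟨cr δ ∘ₗ f ∘ₗ ten.flip y₀, fun u y ↦ ?_⟩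
  obtain ⟨u₁, e₁⟩ := hf u y₀
  have a1 : (cr δ ∘ₗ f ∘ₗ ten.flip y₀) u = u₁ := by simp [e₁, D.cr_ten, hδ]
  rw [a1, ← sub_add_cancel y (δ y • y₀), map_add, map_add, map_add, map_smul, map_smul, map_smul, e₁,
    add_left_inj]
  generalize hz : y - δ y • y₀ = z
  have a2 : δ z = 0 := by simp [← hz, hδ]
  by_cases hz0 : z = 0
  · simp [hz0]
  obtain ⟨χ, b1, b0⟩ := exists_dual_pair (F := F) (u := y₀) (v := z) fun c hc ↦ hz0 (by
    have : c = 0 := by simpa [hδ, a2] using congrArg δ hc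
    rw [← hc, this, zero_smul])
  obtain ⟨u₂, e₂⟩ := hf u z
  obtain ⟨u₃, e₃⟩ := hf u (y₀ + z)
  rw [map_add, map_add, e₁, e₂] at e₃
  have a3 : u₁ = u₃ := by simpa [D.cr_ten, hδ, a2] using congrArg (cr δ) e₃
  have a4 : u₂ = u₃ := by simpa [D.cr_ten, b1, b0] using congrArg (cr χ) e₃
  rw [e₂, a3, a4]

/-- An overgroup of `SL(V₁) ⊗ SL(V₂)` holds all transvections between pure tensors or normalises
`End V₁ ⊗ 1`. -/
theorem tv_or_normalizes (D : TenData ten cr cl H) (h2 : 2 ≤ finrank F V₁)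
    (hlt : finrank F V₁ < finrank F V₂) (hq : 3 ≤ finrank F V₁ ∨ ∃ c : F, c ≠ 0 ∧ c ≠ 1) :
    (∀ u y (β : Dual F V₁) (χ : Dual F V₂), β u = 0 ∨ χ y = 0 → Tv H (ten u y) (β ∘ₗ cr χ)) ∨
      ∀ g ∈ H, ∀ (a : V₁ →ₗ[F] V₁) (f : V →ₗ[F] V), (∀ u y, f (ten u y) = ten (a u) y) →
        ∃ a' : V₁ →ₗ[F] V₁, ∀ u y, g • f (g⁻¹ • ten u y) = ten (a' u) y := by
  have h3 : 3 ≤ finrank F V₂ := by omega
  by_cases hN : ∀ y, y ≠ 0 → ∀ S ∈ NS ten H y, ∃ χ, S = cr χ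
  swap
  · push Not at hN
    obtain ⟨y, hy, S, hS, hne⟩ := hN
    exact Or.inl (D.tv_of_flag h2 h3 (D.flag_of_NS hq h3 hy hS hne))
  right
  have key : ∀ g ∈ H, ∀ y, y ≠ 0 → ∃ y', g • LinearMap.range (ten.flip y) =
      LinearMap.range (ten.flip y') := fun g hg y hy ↦ by
    obtain ⟨u, y', hu, hy', hm⟩ := D.exists_pure h2 h3 hq (W := g • LinearMap.range (ten.flip y))
      ((finrank_smul_sub _ _).trans (D.finrank_range hy)) fun m hm w₁ h1 h0 e w hw ↦ by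
        have a1 := D.smul_eq_of_inf hlt hy (hN y hy) (g₀ := g⁻¹ * m * g)
          (H.mul_mem (H.mul_mem (H.inv_mem hg) hm) hg) ((Submodule.ne_bot_iff _).2
            ⟨g⁻¹ • w₁, ⟨by
              rw [← e, mul_smul, mul_smul]
              exact Submodule.smul_mem_pointwise_smul _ _ _
                (Submodule.smul_mem_pointwise_smul _ _ _ h1), mem_smul_sub.1 h1⟩,
              (smul_ne_zero_iff_ne _).2 h0⟩)
        rw [mul_smul, mul_smul, inv_smul_eq_iff] at a1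
        exact a1 ▸ Submodule.smul_mem_pointwise_smul _ _ _ hw
    obtain ⟨h, hh, e⟩ := D.exists_move h3 hy' hy
    have a1 := D.smul_eq_of_inf hlt hy (hN y hy) (H.mul_mem hh hg) ((Submodule.ne_bot_iff _).2
      ⟨ten u y, ⟨by
        rw [← e, mul_smul]
        exact Submodule.smul_mem_pointwise_smul _ _ _ hm, u, rfl⟩, D.ten_ne_zero hu hy⟩)
    refine ⟨y', ?_⟩
    rw [mul_smul, ← eq_inv_smul_iff] at a1
    rw [a1]
    ext x
    rw [mem_smul_sub, inv_inv]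
    exact ⟨fun ⟨v, hv⟩ ↦ ⟨v, smul_left_cancel h ((e v).trans hv)⟩, fun ⟨v, hv⟩ ↦ ⟨v, by
      rw [← hv]; exact (e v).symm⟩⟩
  intro g hg a f hf
  refine D.exists_left h3 (f := DistribSMul.toLinearMap F V g ∘ₗ f ∘ₗ DistribSMul.toLinearMap F V g⁻¹)
    fun u y ↦ ?_
  by_cases hy : y = 0
  · exact ⟨0, by simp [hy]⟩
  obtain ⟨y', e⟩ := key g⁻¹ (H.inv_mem hg) y hy
  obtain ⟨v, hv⟩ : g⁻¹ • ten u y ∈ LinearMap.range (ten.flip y') :=
    e ▸ Submodule.smul_mem_pointwise_smul _ _ _ ⟨u, rfl⟩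
  have a1 : ten (a v) y' ∈ g⁻¹ • LinearMap.range (ten.flip y) := e ▸ ⟨a v, rfl⟩
  rw [mem_smul_sub, inv_inv] at a1
  obtain ⟨u', hu'⟩ := a1
  exact ⟨u', show g • f (g⁻¹ • ten u y) = _ by rw [← hv, LinearMap.flip_apply, hf, ← hu']; rfl⟩

end TenData

end General

section Matrices

open Matrix Cfsg Cfsg.Geo
open scoped Kronecker

variable {F : Type*} [Field F] {κ μ : Type} [Fintype κ] [DecidableEq κ] [Fintype μ] [DecidableEq μ]

/-- The pure tensor `u ⊗ y`. -/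
def vten (κ μ : Type) (F : Type*) [Field F] : (κ → F) →ₗ[F] (μ → F) →ₗ[F] (κ × μ → F) :=
  LinearMap.mk₂ F (fun u y p ↦ u p.1 * y p.2) (fun _ _ _ ↦ by ext; simp [add_mul])
    (fun _ _ _ ↦ by ext; simp [mul_assoc]) (fun _ _ _ ↦ by ext; simp [mul_add])
    (fun _ _ _ ↦ by ext; simp [mul_left_comm])

/-- Contraction of the second factor. -/
def vcr (κ μ : Type) (F : Type*) [Field F] : Dual F (μ → F) →ₗ[F] (κ × μ → F) →ₗ[F] (κ → F) :=
  LinearMap.mk₂ F (fun χ x i ↦ χ fun j ↦ x (i, j)) (fun _ _ _ ↦ rfl) (fun _ _ _ ↦ rfl)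
    (fun χ _ _ ↦ funext fun _ ↦ χ.map_add _ _) (fun c χ _ ↦ funext fun _ ↦ χ.map_smul c _)

/-- Contraction of the first factor. -/
def vcl (κ μ : Type) (F : Type*) [Field F] : Dual F (κ → F) →ₗ[F] (κ × μ → F) →ₗ[F] (μ → F) :=
  LinearMap.mk₂ F (fun α x j ↦ α fun i ↦ x (i, j)) (fun _ _ _ ↦ rfl) (fun _ _ _ ↦ rfl)
    (fun α _ _ ↦ funext fun _ ↦ α.map_add _ _) (fun c α _ ↦ funext fun _ ↦ α.map_smul c _)

omit [Fintype κ] [DecidableEq κ] [Fintype μ] [DecidableEq μ] in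
theorem vcr_vten (χ : Dual F (μ → F)) (u : κ → F) (y : μ → F) :
    vcr κ μ F χ (vten κ μ F u y) = χ y • u := funext fun i ↦
  (χ.map_smul (u i) y).trans (mul_comm _ _)

omit [Fintype κ] [DecidableEq κ] [Fintype μ] [DecidableEq μ] in
theorem vcl_vten (α : Dual F (κ → F)) (u : κ → F) (y : μ → F) :
    vcl κ μ F α (vten κ μ F u y) = α u • y := funext fun j ↦ by
  change α (fun i ↦ u i * y j) = α u * y j
  rw [mul_comm, ← smul_eq_mul, ← map_smul]
  congr 1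
  ext i
  exact mul_comm _ _

omit [Fintype κ] [Fintype μ] in
theorem vten_single (p : κ × μ) (c : F) :
    vten κ μ F (Pi.single p.1 c) (Pi.single p.2 1) = Pi.single p c := by
  ext ⟨i, j⟩
  change (Pi.single p.1 c : κ → F) i * (Pi.single p.2 1 : μ → F) j = _
  simp only [Pi.single_apply, Prod.ext_iff]
  by_cases h1 : i = p.1 <;> by_cases h2 : j = p.2 <;> simp [h1, h2]

omit [DecidableEq κ] [DecidableEq μ] in
theorem span_vten : Submodule.span F {w | ∃ u y, vten κ μ F u y = w} = ⊤ := by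
  classical
  rw [eq_top_iff, ← (Pi.basisFun F (κ × μ)).span_eq]
  refine Submodule.span_mono ?_
  rintro _ ⟨p, rfl⟩
  exact ⟨_, _, (vten_single p 1).trans (Pi.basisFun_apply F _ p).symm⟩

theorem kronGL_smul (a : GL κ F) (b : GL μ F) (u : κ → F) (y : μ → F) :
    Asch.kronGL a b • vten κ μ F u y = vten κ μ F (a • u) (b • y) :=
  kronecker_mulVec _ _ u y

theorem smul_eq_of_vten {g : GL (κ × μ) F} {f : (κ × μ → F) →ₗ[F] (κ × μ → F)}
    (h : ∀ u y, g • vten κ μ F u y = vten κ μ F u y + f (vten κ μ F u y)) (x : κ × μ → F) :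
    g • x = x + f x := by
  have : toLin' g.val = LinearMap.id + f := LinearMap.ext_on span_vten (by
    rintro _ ⟨u, y, rfl⟩
    exact h u y)
  exact LinearMap.congr_fun this x

theorem tenData_of {H : Subgroup (GL (κ × μ) F)}
    (h : ∀ a ∈ specialLinear κ F, ∀ b ∈ specialLinear μ F, Asch.kronGL a b ∈ H) :
    TenData (vten κ μ F) (vcr κ μ F) (vcl κ μ F) H where
  cr_ten := vcr_vten
  cl_ten := vcl_vten
  span := span_vten
  right y χ h0 := ⟨_, h 1 (one_mem _) _ (tv_mem_specialLinear y χ h0), smul_eq_of_vten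
    (f := (vten κ μ F).flip y ∘ₗ vcr κ μ F χ) fun u z ↦ by simp [kronGL_smul, vcr_vten]⟩
  left u α h0 := ⟨_, h _ (tv_mem_specialLinear u α h0) 1 (one_mem _), smul_eq_of_vten
    (f := vten κ μ F u ∘ₗ vcl κ μ F α) fun v z ↦ by simp [kronGL_smul, vcl_vten]⟩

theorem kronGL_mem_specialLinear {a : GL κ F} {b : GL μ F} (ha : a ∈ specialLinear κ F)
    (hb : b ∈ specialLinear μ F) : Asch.kronGL a b ∈ specialLinear (κ × μ) F := by
  rw [mem_specialLinear] at *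
  rw [Asch.coe_kronGL, det_kronecker, ha, hb, one_pow, one_pow, one_mul]

/-- An overgroup of `SL ⊗ SL` contains `SL` or consists of Kronecker products. -/
theorem sl_le_or_kron (h2 : 2 ≤ Fintype.card κ) (hlt : Fintype.card κ < Fintype.card μ)
    (hq : 3 ≤ Fintype.card κ ∨ ∃ c : F, c ≠ 0 ∧ c ≠ 1) {H : Subgroup (GL (κ × μ) F)}
    (h : ∀ a ∈ specialLinear κ F, ∀ b ∈ specialLinear μ F, Asch.kronGL a b ∈ H) :
    specialLinear (κ × μ) F ≤ H ∨ ∀ g ∈ H, ∃ a b, g = Asch.kronGL a b := by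
  have D := tenData_of h
  rcases D.tv_or_normalizes (by rwa [finrank_vec]) (by rwa [finrank_vec, finrank_vec])
    (by rwa [finrank_vec]) with h1 | h1
  · refine Or.inl (specialLinear_le_of_basis (Pi.basisFun F (κ × μ)) fun p q hpq c ↦ ?_)
    have := h1 (Pi.single p.1 c) (Pi.single p.2 1) (LinearMap.proj q.1) (LinearMap.proj q.2) (by
      by_cases e : p.1 = q.1
      · exact Or.inr (Pi.single_eq_of_ne' (fun e' ↦ hpq (Prod.ext e e')) _)
      · exact Or.inl (Pi.single_eq_of_ne' e _))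
    rw [vten_single] at this
    convert this using 1
    · rw [Pi.basisFun_apply, ← Pi.single_smul, smul_eq_mul, mul_one]
    · ext x; rfl
  · have : Nonempty κ := Fintype.card_pos_iff.1 (by omega)
    have : Nonempty μ := Fintype.card_pos_iff.1 (by omega)
    refine Or.inr fun g hg ↦ Asch.exists_kronGL_of_normalizes g fun a ↦ ?_
    obtain ⟨a', e⟩ := h1 g hg (toLin' a) (toLin' (a ⊗ₖ (1 : Matrix μ μ F))) fun u y ↦
      (kronecker_mulVec a (1 : Matrix μ μ F) u y).trans (by rw [one_mulVec]; rfl)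
    refine ⟨LinearMap.toMatrix' a', toLin'.injective (D.ext fun u y ↦ ?_)⟩
    rw [toLin'_apply, toLin'_apply, Asch.conjAlg_apply, ← mulVec_mulVec, ← mulVec_mulVec]
    refine (e u y).trans ?_
    have := kronecker_mulVec (LinearMap.toMatrix' a') (1 : Matrix μ μ F) u y
    rw [one_mulVec, LinearMap.toMatrix'_mulVec] at this
    exact this.symm

theorem isMaximalIn_tensor {ι : Type} [Fintype ι] [DecidableEq ι] {n₁ n₂ : ℕ} (h2 : 2 ≤ n₁)
    (hlt : n₁ < n₂) (hq : 3 ≤ n₁ ∨ ∃ c : F, c ≠ 0 ∧ c ≠ 1) (e : ι ≃ Fin n₁ × Fin n₂) (P : GL ι F) :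
    IsMaximalIn (specialLinear ι F) (tensorProductSubgroup n₁ n₂ e P ⊓ specialLinear ι F) := by
  rw [tensorProductSubgroup, Asch.map_map_eq_map_transGL]
  refine isMaximalIn_map_inf (map_transGL_specialLinear e P)
    (isMaximalIn_of (not_sl_le_kroneckerSubgroup h2 (by omega)) fun H h1 _ g hg hgM ↦ ?_)
  refine (sl_le_or_kron (by simpa) (by simpa) (by simpa) fun a ha b hb ↦
    h1 ⟨⟨a, b, rfl⟩, kronGL_mem_specialLinear ha hb⟩).resolve_right fun h ↦ ?_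
  obtain ⟨a, b, rfl⟩ := h g hg
  exact hgM ⟨a, b, rfl⟩

theorem exists_ne_zero_one [Fintype F] (h : Fintype.card F ≠ 2) : ∃ c : F, c ≠ 0 ∧ c ≠ 1 := by
  classical
  by_contra hc
  push Not at hc
  refine h (Finset.card_eq_two.2 ⟨0, 1, zero_ne_one, Finset.ext fun c ↦ ?_⟩)
  simpa using or_iff_not_imp_left.2 (hc c)

end Matrices

end CL.SLn
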