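/-
Tensor decomposition stabilisers with a small factor (`O_3(3)` or `Sp_2(2)`) are not maximal.
-/
import Cfsg.Agent.Cls.MaxEven

set_option autoImplicit false

namespace CL.Asch

open Matrix Cfsg Cfsg.Geo Module QuadraticMap
open scoped MatrixGroups Kronecker

variable {ι : Type} [Fintype ι] [DecidableEq ι] {F : Type*} [Field F]

theorem Rich.not_le_normalizer_comm [Finite F] {G : Subgroup (GL ι F)} {q : QuadraticForm F (ι → F)} (hG : Rich G q)
    {C : Subalgebra F (Matrix ι ι F)} (hcomm : ∀ x ∈ C, ∀ y ∈ C, x * y = y * x) (hne : ¬ C ≤ ⊥) :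
    ¬ G ≤ subalgebraNormalizer C := fun h => by
  have : Nonempty ι := Fintype.card_pos_iff.mp (by have := hG.two_le_card; omega)
  rcases hG.irr.comm_dichotomy h hcomm with hK | ⟨E, hE, h2, -⟩
  · exact hG.not_le_subalgebraNormalizer (finrank_ne_one_of_not_le_bot hne) (IsFld.isFieldSubalgebra ⟨hcomm, hK⟩) h
  · obtain ⟨_, _, -, -, -, hD, hle, -⟩ := hE.exists_decomp hG.irr rfl h2
    exact hG.not_le_decompositionStabilizer hD hle

/-- The pure tensors of a tensor decomposition. -/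
noncomputable def pureV {κ μ : Type} (e : ι ≃ κ × μ) (P : GL ι F) (a : κ → F) (b : μ → F) : ι → F :=
  (coordEquiv e P).symm (tens a b)

section Pure

variable {κ μ : Type} (e : ι ≃ κ × μ) (P : GL ι F)

theorem pureV_eq (a : κ → F) (b : μ → F) : pureV e P a b = (P : Matrix ι ι F) *ᵥ (tens a b ∘ e) := rfl

theorem coord_pureV (a : κ → F) (b : μ → F) : coordEquiv e P (pureV e P a b) = tens a b :=
  LinearEquiv.apply_symm_apply _ _

theorem pureV_add_left (a a' : κ → F) (b : μ → F) : pureV e P (a + a') b = pureV e P a b + pureV e P a' b := by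
  rw [pureV, tens_add_left, map_add]; rfl

theorem pureV_add_right (a : κ → F) (b b' : μ → F) : pureV e P a (b + b') = pureV e P a b + pureV e P a b' := by
  rw [pureV, tens_add_right, map_add]; rfl

theorem pureV_smul_left (c : F) (a : κ → F) (b : μ → F) : pureV e P (c • a) b = c • pureV e P a b := by
  rw [pureV, tens_smul_left, map_smul]; rfl

theorem pureV_smul_right (c : F) (a : κ → F) (b : μ → F) : pureV e P a (c • b) = c • pureV e P a b := by
  rw [pureV, tens_smul_right, map_smul]; rfl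

theorem transAlg_kron_pureV [Fintype κ] [DecidableEq κ] [Fintype μ] [DecidableEq μ] (x : Matrix κ κ F)
    (y : Matrix μ μ F) (a : κ → F) (b : μ → F) :
    transAlg e P (x ⊗ₖ y) *ᵥ pureV e P a b = pureV e P (x *ᵥ a) (y *ᵥ b) := by
  rw [pureV_eq, transAlg_mulVec, pureV_eq]
  exact congrArg (fun z => (P : Matrix ι ι F) *ᵥ (z ∘ e)) (CL.SLn.kronecker_mulVec x y a b)

theorem evL_pureV (α : Dual F (κ → F)) (a : κ → F) (b : μ → F) :
    evL μ α (coordEquiv e P (pureV e P a b)) = α a • b := by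
  rw [coord_pureV, evL_tens]

end Pure

namespace TensorPair

variable {ε : F} {f : (ι → F) → (ι → F) → F} {H G : Subgroup (GL ι F)} {q : QuadraticForm F (ι → F)} {k m : ℕ}
  {e : ι ≃ Fin k × Fin m} {P : GL ι F} {φ : Matrix (Fin k) (Fin k) F →ₐ[F] Matrix ι ι F}
  {ψ : Matrix (Fin m) (Fin m) F →ₐ[F] Matrix ι ι F} {ε₁ ε₂ : F} {f₁ : (Fin k → F) → (Fin k → F) → F}
  {f₂ : (Fin m → F) → (Fin m → F) → F}

theorem left_pureV {σ : F →+* F} (hT : TensorPair σ ε f H e P φ ψ ε₁ ε₂ f₁ f₂) (x : Matrix (Fin k) (Fin k) F)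
    (a : Fin k → F) (b : Fin m → F) : φ x *ᵥ pureV e P a b = pureV e P (x *ᵥ a) b := by
  rw [hT.left, transAlg_kron_pureV, one_mulVec]

theorem form_pureV (hT : TensorPair (RingHom.id F) ε f H e P φ ψ ε₁ ε₂ f₁ f₂) :
    ∃ c : F, c ≠ 0 ∧ ∀ a a' b b', f (pureV e P a b) (pureV e P a' b') = c * (f₁ a a' * f₂ b b') :=
  form_tens hT.sesqL hT.sesqR hT.form

/-- A tensor stabiliser is not maximal if the similarities of the left factor normalise a commutative algebra
centralised by an element moving a pure tensor to a non-pure one. -/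
theorem between [Finite F] {σ : F →+* F} (hT : TensorPair σ ε f H e P φ ψ ε₁ ε₂ f₁ f₂) (hk : 0 < k)
    (hf : IsSesq σ ε f) (hG : Rich G q) (hHG : H ≤ G) (hS : H ≤ similarityGroup f)
    {S : Set (Matrix (Fin k) (Fin k) F)} (hcomm : ∀ x ∈ S, ∀ y ∈ S, x * y = y * x) (hne : ¬ Algebra.adjoin F S ≤ ⊥)
    (hN : ∀ h ∈ similarityGroup f₁, ∀ x ∈ S, conjAlg h x ∈ S) {g : GL ι F} (hg : g ∈ G)
    (hc : ∀ x ∈ S, (g : Matrix ι ι F) * φ x = φ x * g) {a : Fin k → F} {b : Fin m → F}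
    (hnp : ∀ a' b', (g : Matrix ι ι F) *ᵥ pureV e P a b ≠ pureV e P a' b') : ∃ K, H < K ∧ K < G := by
  have : Nonempty ι := Fintype.card_pos_iff.mp (by have := hG.two_le_card; omega)
  have : Nonempty (Fin k) := ⟨⟨0, hk⟩⟩
  have h1 := normalizes_map hT.normL ((indGrp_le_similarityGroup hf hT.sesqL hT.adjL hS).trans (normalizes_adjoin hN))
  refine ⟨subalgebraNormalizer ((Algebra.adjoin F S).map φ) ⊓ G, lt_of_le_not_ge (le_inf h1 hHG) fun h => ?_,
    lt_of_le_not_ge inf_le_right fun h => hG.not_le_normalizer_comm (map_comm φ (adjoin_comm hcomm))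
      (map_not_le_bot φ hne) (h.trans inf_le_left)⟩
  obtain ⟨x, y, hxy⟩ := (mem_tensorProductSubgroup e P g).mp (hT.le (h ⟨CL.SLn.mem_subalgebraNormalizer_of_comm (by
    rw [AlgHom.map_adjoin]
    exact fun z hz => Algebra.commute_of_mem_adjoin_of_forall_mem_commute hz (by
      rintro _ ⟨x, hx, rfl⟩; exact hc x hx)), hg⟩))
  exact hnp _ _ (by rw [hxy, transAlg_kron_pureV])

/-- The case of a factor `O_3(3)`: the group stabilises the decomposition given by the orthogonal frame. -/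
theorem between_frame [Finite F] (hF : Nat.card F = 3) {e : ι ≃ Fin 3 × Fin m}
    {φ : Matrix (Fin 3) (Fin 3) F →ₐ[F] Matrix ι ι F} {f₁ : (Fin 3 → F) → (Fin 3 → F) → F}
    (hT : TensorPair (RingHom.id F) ε f H e P φ ψ 1 ε₂ f₁ f₂) (hf : IsSesq (RingHom.id F) ε f) (hG : Rich G q)
    (hHG : H ≤ G) (hS : H ≤ similarityGroup f)
    (hg : ∀ p, f₁ p p ≠ 0 → ∃ g ∈ G, (∀ x, ∃ y, (g : Matrix ι ι F) *ᵥ x = x + pureV e P p y) ∧
      (∀ x, (∀ y, f x (pureV e P p y) = 0) → (g : Matrix ι ι F) *ᵥ x = x) ∧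
      ∃ z z', z ≠ 0 ∧ (g : Matrix ι ι F) *ᵥ pureV e P p z = pureV e P p z' ∧ ∀ c : F, z' ≠ c • z) :
    ∃ K, H < K ∧ K < G := by
  obtain ⟨t, h1, h2⟩ := exists_frame_O3_three' hF hT.sesqL
  set E : Fin 3 → Matrix (Fin 3) (Fin 3) F := fun i => conjAlg t (single i i 1) with hE
  set p : Fin 3 → Fin 3 → F := fun i => (t : Matrix (Fin 3) (Fin 3) F) *ᵥ Pi.single i 1 with hp
  let α : Fin 3 → Dual F (Fin 3 → F) := fun i => LinearMap.proj i ∘ₗ toLin' ((t⁻¹ : GL (Fin 3) F) : Matrix _ _ F)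
  have hα : ∀ i j, α i (p j) = if i = j then 1 else 0 := fun i j => by
    simp only [α, hp, LinearMap.comp_apply, toLin'_apply, gl_inv_mulVec, LinearMap.proj_apply, Pi.single_apply]
  have hEα : ∀ i x, E i *ᵥ x = α i x • p i := fun i x => by
    rw [← gl_mulVec_inv t x, hE, conjAlg_mulVec, hp, ← mulVec_smul, gl_mulVec_inv]
    congr 1
    ext j
    rw [single_mulVec]
    simp [α, Function.update_apply, Pi.single_apply]
  have hEp : ∀ i j, E i *ᵥ p j = if i = j then p j else 0 := fun i j => by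
    rw [hEα, hα]; split_ifs with h <;> simp [h]
  have hEE : ∀ i j, E i * E j = if i = j then E j else 0 := fun i j => matrix_ext_mulVec fun x => by
    rw [← mulVec_mulVec, hEα j, mulVec_smul, hEp]; split_ifs <;> simp [hEα]
  have hp0 : f₁ (p 0) (p 0) ≠ 0 := fun h => by
    have := hT.sesqL.nondeg' (p 0) fun x => by
      have := hT.sesqL.adj_spec (E 0) (p 0) x
      rwa [h2, hEp, if_pos rfl, hEα, hT.sesqL.isSL.smul_right, h, mul_zero] at this
    simpa [this] using hα 0 0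
  obtain ⟨g, hg, h3, h4, z, z', hz, h5, h6⟩ := hg _ hp0
  have h7 : ∀ i x y, f (φ (E i) *ᵥ x) (pureV e P (p 0) y) = if i = 0 then f x (pureV e P (p 0) y) else 0 :=
    fun i x y => by
      rw [hf.adj_spec, hT.adjL, h2, hT.left_pureV, hEp]
      split_ifs
      · rfl
      · rw [← zero_smul F (0 : Fin 3 → F), pureV_smul_left, zero_smul, hf.isSL.zero_right]
  refine hT.between three_pos hf hG hHG hS (S := Set.range E) ?_ (fun h => ?_) ?_ hg ?_ (a := p 0 + p 1) (b := z)
    fun a' b' h => ?_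
  · rintro _ ⟨i, rfl⟩ _ ⟨j, rfl⟩
    rw [hEE, hEE]
    by_cases h : i = j <;> simp [h, eq_comm]
  · obtain ⟨d, hd⟩ := mem_bot_iff.mp (h (Algebra.subset_adjoin ⟨0, rfl⟩))
    have h8 := congrArg (α 0) (hEp 0 0)
    have h9 := congrArg (α 1) (hEp 0 1)
    rw [hd] at h8 h9
    simp [smul_mulVec, hα] at h8 h9
    exact one_ne_zero (h8.symm.trans h9)
  · rintro h hh _ ⟨i, rfl⟩
    obtain ⟨j, hj⟩ := h1 h hh i
    exact ⟨j, hj.symm⟩
  · rintro _ ⟨i, rfl⟩
    refine matrix_ext_mulVec fun x => ?_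
    obtain ⟨y, hy⟩ := h3 x
    rw [← mulVec_mulVec, ← mulVec_mulVec, hy, mulVec_add, hT.left_pureV, hEp]
    split_ifs with h
    · have := h4 (x - φ (E i) *ᵥ x) fun y => by rw [hf.isSL.sub_left, h7, if_pos h, sub_self]
      rw [mulVec_sub, hy] at this
      linear_combination (exp := 1) -this
    · rw [h4 _ fun y => by rw [h7, if_neg h], ← zero_smul F (0 : Fin 3 → F), pureV_smul_left, zero_smul, add_zero]
  · rw [pureV_add_left, mulVec_add, h5, h4 (pureV e P (p 1) z) fun y => by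
      have := h7 1 (pureV e P (p 1) z) y
      rwa [hT.left_pureV, hEp, if_pos rfl, if_neg one_ne_zero] at this] at h
    have h8 := congrArg (fun x => evL _ (α 0) (coordEquiv e P x)) h
    have h9 := congrArg (fun x => evL _ (α 1) (coordEquiv e P x)) h
    simp only [map_add, evL_pureV, hα] at h8 h9
    simp only [if_true, one_smul, zero_ne_one, one_ne_zero, if_false, zero_smul, add_zero, zero_add] at h8 h9
    have h10 : α 1 a' ≠ 0 := fun h => hz (by rw [h9, h, zero_smul])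
    exact h6 (α 0 a' / α 1 a') (by rw [h8, h9, smul_smul, div_mul_cancel₀ _ h10])

/-- The symplectic group over the field of three elements. -/
theorem between_sp [Fintype F] (hq : Fintype.card F = 3) {n : ℕ} (hn : 2 ≤ n) {H : Subgroup (GL (Fin n ⊕ Fin n) F)}
    {e : (Fin n ⊕ Fin n) ≃ Fin 3 × Fin m} {P : GL (Fin n ⊕ Fin n) F}
    {φ : Matrix (Fin 3) (Fin 3) F →ₐ[F] Matrix (Fin n ⊕ Fin n) (Fin n ⊕ Fin n) F}
    {ψ : Matrix (Fin m) (Fin m) F →ₐ[F] Matrix (Fin n ⊕ Fin n) (Fin n ⊕ Fin n) F}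
    {f₁ : (Fin 3 → F) → (Fin 3 → F) → F} (hT : TensorPair (RingHom.id F) (-1) (sympForm n F) H e P φ ψ 1 ε₂ f₁ f₂)
    (halt : ∀ v, f₂ v v = 0) (hH : H ≤ spGL n F) : ∃ K, H < K ∧ K < spGL n F := by
  obtain ⟨c, hc0, hc⟩ := hT.form_pureV
  have hA := CL.Sp.stdForm_isAlt (Fin n) F
  have : Nonempty (Fin m) := ⟨(e (Sum.inl ⟨0, by omega⟩)).2⟩
  obtain ⟨z, hz⟩ := hT.sesqR.exists_ne (v := 1) one_ne_zero
  refine hT.between_frame (by rw [Nat.card_eq_fintype_card, hq]) (isSesq_sympForm n) (rich_spGL hn (by omega)) hH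
    (le_sim_of_isom fun g hg => hH hg) fun p hp => ⟨(CL.Sp.glEquiv _ F).symm (CL.Sp.tv hA (pureV e P p 1) 1),
      (CL.Sp.mem_spGL_iff _).mpr (by rw [MulEquiv.apply_symm_apply]; exact CL.Sp.tv_mem_isom hA _ 1), fun x => ?_,
      fun x hx => ?_, z, z + (c * (f₁ p p * f₂ z 1)) • 1, fun h => hz (by rw [h, hT.sesqR.isSL.zero_left]), ?_,
      fun d h => ?_⟩
  · exact ⟨_, by rw [CL.Sp.glEquiv_symm_mulVec, CL.Sp.tv_apply, ← pureV_smul_right]⟩
  · rw [CL.Sp.glEquiv_symm_mulVec, CL.Sp.tv_apply_of_ortho hA _ (by rw [CL.Sp.stdForm_eq_sympForm, hx])]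
  · rw [CL.Sp.glEquiv_symm_mulVec, CL.Sp.tv_apply, CL.Sp.stdForm_eq_sympForm, hc, one_mul, pureV_add_right,
      pureV_smul_right]
  · have h1 := congrArg (f₂ · 1) h
    simp only [hT.sesqR.add_left, hT.sesqR.smul_left, halt, mul_zero, add_zero] at h1
    rw [(mul_left_eq_self₀.mp h1.symm).resolve_right hz, one_smul, add_eq_left] at h
    exact smul_ne_zero (mul_ne_zero hc0 (mul_ne_zero hp hz)) one_ne_zero h

/-- The orthogonal groups over the field of three elements. -/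
theorem between_omega [Fintype F] (hq : Fintype.card F = 3) {Q : QuadraticForm F (ι → F)}
    (hQ : IsNondegenerateQuadraticForm Q) (hm : 3 ≤ m) {e : ι ≃ Fin 3 × Fin m}
    {φ : Matrix (Fin 3) (Fin 3) F →ₐ[F] Matrix ι ι F} {f₁ : (Fin 3 → F) → (Fin 3 → F) → F}
    (hT : TensorPair (RingHom.id F) 1 (polar Q) H e P φ ψ 1 1 f₁ f₂) (hH : H ≤ omegaGL Q) :
    ∃ K, H < K ∧ K < omegaGL Q := by
  obtain ⟨c, hc0, hc⟩ := hT.form_pureV
  have hn : Fintype.card ι = 3 * m := TensorPair.card_eq e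
  have hN : (polarBilin Q).Nondegenerate := nondeg_toQF hQ
  have h5 : 5 ≤ finrank F (ι → F) := by rw [Module.finrank_fintype_fun_eq_card]; omega
  have h2 : (2 : F) ≠ 0 := two_ne_zero_of_odd (by rw [hq]; decide)
  obtain ⟨u, hu0, hu, -⟩ := exists_sing_ker (k := 0) hT.sesqR.bil.toQuadraticMap ![] (by simpa using hm)
  change f₂ u u = 0 at hu
  obtain ⟨z, hz⟩ := hT.sesqR.exists_ne' hu0
  obtain ⟨w, hw0, hw⟩ := exists_common_ker ![hT.sesqR.bil u, hT.sesqR.bil z] (by simp; omega)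
  have hw1 : f₂ u w = 0 := hw 0
  have hw2 : f₂ z w = 0 := hw 1
  refine hT.between_frame (by rw [Nat.card_eq_fintype_card, hq]) (isSesq_polar hQ) (rich_omegaGL hN (by omega)) hH
    (le_sim_of_isom fun g hg => isom_polar_of_quad (mem_isometryGroup_iff.mp (omegaGL_le _ (hH hg)))) fun p hp => ?_
  have h3 : Q (pureV e P p u) = 0 := by
    have := hc p p u u
    rw [polar_self, hu, mul_zero, mul_zero, nsmul_eq_mul, Nat.cast_ofNat] at this
    exact (mul_eq_zero.mp this).resolve_left h2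
  have h4 : polar Q (pureV e P p u) (pureV e P p w) = 0 := by rw [hc, hw1, mul_zero, mul_zero]
  have h6 : ∀ x, (CL.Cls.eich Q (pureV e P p u) (pureV e P p w)).1 x = x + pureV e P p ((polar Q (pureV e P p w) x -
      Q (pureV e P p w) * polar Q (pureV e P p u) x) • u + (-polar Q (pureV e P p u) x) • w) := fun x => by
    rw [CL.Cls.eich_app h3 h4, pureV_add_right, pureV_smul_right, pureV_smul_right]
    module
  refine ⟨_, ogGL_mem_omegaGL.mpr (CL.Cls.eich_mem_commutator hN h5 (pureV e P p u) (pureV e P p w)),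
    fun x => ⟨_, by rw [ogGL_mulVec, h6]⟩, fun x hx => ?_, z, _, fun h => hz (by rw [h, hT.sesqR.isSL.zero_right]),
    by rw [ogGL_mulVec, h6, ← pureV_add_right], fun d h => ?_⟩
  · rw [ogGL_mulVec]
    exact CL.Cls.eich_app_of_polar (by rw [polar_comm, hx]) (by rw [polar_comm, hx])
  · obtain ⟨y, hy⟩ := hT.sesqR.exists_ne hw0
    have h1 := congrArg (f₂ u) h
    simp only [hT.sesqR.isSL.add_right, hT.sesqR.isSL.smul_right, hu, hw1, mul_zero, add_zero, RingHom.id_apply] at h1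
    rw [(mul_left_eq_self₀.mp h1.symm).resolve_right hz, one_smul, add_eq_left] at h
    have h7 := congrArg (f₂ z) h
    simp only [hT.sesqR.isSL.add_right, hT.sesqR.isSL.smul_right, hw2, mul_zero, add_zero, RingHom.id_apply,
      hT.sesqR.isSL.zero_right] at h7
    rw [(mul_eq_zero.mp h7).resolve_right fun h => hz (hT.sesqR.flip_zero h), zero_smul, zero_add, hc] at h
    exact smul_ne_zero (neg_ne_zero.mpr (mul_ne_zero hc0 (mul_ne_zero hp hz))) hw0 h

/-- The orthogonal groups over the field of two elements, with a factor `Sp_2(2)`. -/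
theorem between_two [Fintype F] (hq : Fintype.card F = 2) {Q : QuadraticForm F (ι → F)}
    (hQ : IsNondegenerateQuadraticForm Q) (hm : 3 ≤ m) {e : ι ≃ Fin 2 × Fin m}
    {φ : Matrix (Fin 2) (Fin 2) F →ₐ[F] Matrix ι ι F} {f₁ : (Fin 2 → F) → (Fin 2 → F) → F}
    (hT : TensorPair (RingHom.id F) 1 (polar Q) H e P φ ψ ε₁ ε₂ f₁ f₂) (h1 : ∀ v, f₁ v v = 0) (h2 : ∀ v, f₂ v v = 0)
    (hp : ∀ a b, Q (pureV e P a b) = 0) (hH : H ≤ omegaGL Q) : ∃ K, H < K ∧ K < omegaGL Q := by
  obtain ⟨c, hc0, hc⟩ := hT.form_pureV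
  have hn : Fintype.card ι = 2 * m := TensorPair.card_eq e
  have hN : (polarBilin Q).Nondegenerate := nondeg_toQF hQ
  have hb := isSesq_polar hQ
  have h5 : 5 ≤ finrank F (ι → F) := by rw [Module.finrank_fintype_fun_eq_card]; omega
  have h11 : (1 : F) + 1 = 0 := one_add_one_eq_two.trans (two_eq_zero_of_not_odd (by rw [hq]; decide))
  have h01 : ∀ x : F, x ≠ 0 → x = 1 := fun x hx => by
    simpa [hq] using FiniteField.pow_card_sub_one_eq_one x hx
  have : Nonempty (Fin m) := ⟨⟨0, by omega⟩⟩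
  obtain ⟨z, hz⟩ := hT.sesqR.exists_ne' (v := 1) one_ne_zero
  obtain ⟨w, hw0, hw⟩ := exists_common_ker ![hT.sesqR.bil 1, hT.sesqR.bil z] (by simp; omega)
  have hw1 : f₂ 1 w = 0 := hw 0
  have hw2 : f₂ z w = 0 := hw 1
  obtain ⟨a, ha⟩ := hT.sesqL.exists_ne' (v := Pi.single 0 1) (by simp)
  set ω : Matrix (Fin 2) (Fin 2) F := !![0, 1; 1, 1] with hω
  have hω2 : ω * ω = ω + 1 := by ext i j; fin_cases i <;> fin_cases j <;> simp [hω]
  have hωa : adj (RingHom.id F) (polar Q) (φ ω) = 1 - φ ω := by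
    rw [hT.adjL, hT.sesqL.adj_alt_two h1, map_sub, show ω.trace = 1 by simp [hω], one_smul, map_one]
  have hU : ∀ s s' : Fin 2 → F, Q (pureV e P s 1 + pureV e P s' w) = 0 := fun s s' => by
    rw [QuadraticMap.map_add Q, hp, hp, hc, hw1]; simp
  obtain ⟨u, hu⟩ : ∃ u, u = pureV e P (Pi.single 0 1) 1 + pureV e P (Pi.single 1 1) w := ⟨_, rfl⟩
  have hωu : φ ω *ᵥ u = pureV e P (Pi.single 1 1) 1 + pureV e P (Pi.single 0 1 + Pi.single 1 1) w := by
    rw [hu, mulVec_add, hT.left_pureV, hT.left_pureV]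
    congr 2 <;> ext i <;> fin_cases i <;> simp [hω]
  have h3 : polar Q u (φ ω *ᵥ u) = 0 := by
    rw [hωu, hu]
    simp only [polar_add_left, polar_add_right, hc, h2, hw1, hT.sesqR.flip_zero hw1, mul_zero, add_zero]
  have h4 : ∀ x, (CL.Cls.eich Q u (φ ω *ᵥ u)).1 x = x + polar Q (φ ω *ᵥ u) x • u - polar Q u x • φ ω *ᵥ u :=
    fun x => by rw [CL.Cls.eich_app (hu ▸ hU _ _) h3, show Q (φ ω *ᵥ u) = 0 from hωu ▸ hU _ _]; simp
  have h6 : ((ogGL Q (CL.Cls.eich Q u (φ ω *ᵥ u)) : GL ι F) : Matrix ι ι F) * φ ω =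
      φ ω * (ogGL Q (CL.Cls.eich Q u (φ ω *ᵥ u)) : GL ι F) := matrix_ext_mulVec fun x => by
    have h7 : ∀ y, φ ω *ᵥ φ ω *ᵥ y = φ ω *ᵥ y + y := fun y => by
      rw [mulVec_mulVec, ← map_mul, hω2, map_add, map_one, add_mulVec, one_mulVec]
    have h8 : polar Q u (φ ω *ᵥ x) = polar Q u x - polar Q (φ ω *ᵥ u) x := by
      rw [← hb.adj_spec', hωa, sub_mulVec, one_mulVec, polar_sub_left]
    have h9 : polar Q (φ ω *ᵥ u) (φ ω *ᵥ x) = -polar Q u x := by
      rw [hb.adj_spec, hωa, sub_mulVec, one_mulVec, h7, sub_add_cancel_left, polar_neg_right]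
    rw [← mulVec_mulVec, ← mulVec_mulVec, ogGL_mulVec, ogGL_mulVec, h4, h4, h8, h9, mulVec_sub, mulVec_add,
      mulVec_smul, mulVec_smul, h7]
    module
  refine hT.between two_pos hb (rich_omegaGL hN (by omega)) hH
    (le_sim_of_isom fun g hg => isom_polar_of_quad (mem_isometryGroup_iff.mp (omegaGL_le _ (hH hg))))
    (S := {k | k * k = k + 1}) (fun x hx y hy => ?_) (fun h => ?_) (fun g _ x hx => ?_)
    (ogGL_mem_omegaGL.mpr (CL.Cls.eich_mem_commutator hN h5 u (φ ω *ᵥ u))) (fun x hx => ?_) (a := a) (b := z)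
    fun a' b' h => ?_
  · rcases CL.SLn.eq_or_eq_of_sq_two hq hx with rfl | rfl <;> rcases CL.SLn.eq_or_eq_of_sq_two hq hy with rfl | rfl <;>
      simp [h11]
  · obtain ⟨d, hd⟩ := mem_bot_iff.mp (h (Algebra.subset_adjoin (a := ω) hω2))
    simpa [hω] using congrFun (congrFun hd 0) 1
  · change _ = _
    rw [← map_mul, show x * x = x + 1 from hx, map_add, map_one]
  · rcases CL.SLn.eq_or_eq_of_sq_two hq hx with rfl | rfl
    · exact h6
    · rw [show (!![1, 1; 1, 0] : Matrix (Fin 2) (Fin 2) F) = ω + 1 by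
        ext i j; fin_cases i <;> fin_cases j <;> simp [hω, h11], map_add, map_one, mul_add, add_mul, h6, mul_one,
        one_mul]
  · obtain ⟨α, s, hα, hs⟩ := exists_dual_kill a'
    have h7 : polar Q u (pureV e P a z) = 1 := h01 _ (by
      rw [hu, polar_add_left, hc, hc, hT.sesqR.flip_zero hw2, mul_zero, mul_zero, add_zero]
      exact mul_ne_zero hc0 (mul_ne_zero ha hz))
    rw [ogGL_mulVec, h4, h7, one_smul] at h
    generalize polar Q (φ ω *ᵥ u) (pureV e P a z) = d at h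
    have h8 := congrArg (fun x => evL _ α (coordEquiv e P x)) h
    rw [hωu, hu] at h8
    simp only [map_add, map_sub, map_smul, evL_pureV, hα, zero_smul] at h8
    have h9 := congrArg (f₂ 1) h8
    simp only [hT.sesqR.isSL.add_right, hT.sesqR.isSL.sub_right, hT.sesqR.isSL.smul_right, h2, hw1, mul_zero, add_zero,
      RingHom.id_apply, hT.sesqR.isSL.zero_right, sub_zero] at h9
    rw [(mul_eq_zero.mp h9).resolve_right hz, zero_smul, zero_add] at h8
    have h10 := congrArg (f₂ z) h8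
    simp only [hT.sesqR.isSL.add_right, hT.sesqR.isSL.sub_right, hT.sesqR.isSL.smul_right, hw2, mul_zero, add_zero,
      RingHom.id_apply, hT.sesqR.isSL.zero_right] at h10
    rw [← mul_assoc, ← sub_mul] at h10
    have h12 := (mul_eq_zero.mp h10).resolve_right fun h => hz (hT.sesqR.flip_zero h)
    have h13 : (d * α (Pi.single 1 1) - (α (Pi.single 0 1) + α (Pi.single 1 1))) • w = 0 := by
      linear_combination (norm := module) h8 - h12 • (1 : Fin m → F)
    have h14 := (smul_eq_zero.mp h13).resolve_right hw0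
    have h15 : α s = s 0 * α (Pi.single 0 1) + s 1 * α (Pi.single 1 1) := by
      rw [← smul_eq_mul, ← smul_eq_mul, ← map_smul, ← map_smul, ← map_add]
      congr 1
      ext i; fin_cases i <;> simp
    by_cases hd : d = 0
    · subst hd
      exact one_ne_zero (α := F) (by linear_combination -hs + h15 - s 0 * h14 + (s 0 - s 1) * h12)
    · obtain rfl := h01 d hd
      exact one_ne_zero (α := F) (by linear_combination -hs + h15 - (s 0 + s 1) * h14 - s 1 * h12)

end TensorPair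

end CL.Asch
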