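import Cfsg.Agent.Cls.OmTen

set_option autoImplicit false

/-!
Orthogonal spaces of odd characteristic: invariant spaces of skew and of self-adjoint maps.
-/

namespace CL.Sp

open Module CL.SLn QuadraticMap
open CL.Uni (UG UG_apply_left)
open CL.Cls hiding glEquiv

variable {F V : Type*} [Field F] [AddCommGroup V] [Module F V] {Q : QuadraticForm F V}

theorem mem_OG_of_UG (two : (2 : F) ≠ 0) {g : V ≃ₗ[F] V} (hg : g ∈ UG (polarBilin Q)) : g ∈ OG Q := fun v =>
  mul_left_cancel₀ two (by rw [← polar_self', ← polar_self']; exact hg v v)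

theorem mem_of_sing {v v' : V} (h : IsHyp Q v v') {S : Submodule F V} (hv : v ∈ S)
    (hS : ∀ c, Q c = 0 → polar Q v c ≠ 0 → c ∈ S) (a : V) : a ∈ S := by
  have h1 : ∀ x, polar Q v x ≠ 0 → x ∈ S := fun x hx => by
    simpa using add_mem (hS (x - (Q x / polar Q v x) • v)
      (by simp [Cls.map_sub', map_smul', h.left, polar_comm Q x v, hx]) (by simpa [h.left] using hx))
      (S.smul_mem (Q x / polar Q v x) hv)
  by_cases ha : polar Q v a = 0
  · simpa using sub_mem (h1 (a + v') (by simp [ha, h.polar_eq])) (h1 v' (by simp [h.polar_eq]))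
  · exact h1 a ha

theorem smul_mem_of_sq (two : (2 : F) ≠ 0) {M : Type*} [AddCommGroup M] [Module F M] {S : AddSubgroup M}
    (h : ∀ c : F, c ≠ 0 → ∀ x ∈ S, (c * c) • x ∈ S) (c : F) {x : M} (hx : x ∈ S) : c • x ∈ S := by
  have h1 : ∀ c : F, (c * c) • x ∈ S := fun c => by
    by_cases c0 : c = 0
    · simp [c0]
    · exact h c c0 x hx
  convert sub_mem (h1 ((c + 1) / 2)) (h1 ((c - 1) / 2)) using 1
  rw [← sub_smul]
  congr 1
  field_simp
  ring

/-- `x` acts trivially on the factors of the flag `W ≤ W^⊥`. -/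
def Fl (Q : QuadraticForm F V) (W : Submodule F V) (x : V ≃ₗ[F] V) : Prop :=
  (∀ v ∈ W, x v = v) ∧ ∀ v, (∀ y ∈ W, polar Q y v = 0) → x v - v ∈ W

theorem Fl.conj {W : Submodule F V} {x g : V ≃ₗ[F] V} (h : Fl Q W x) (hg : g ∈ OG Q) :
    Fl Q (W.map (g : V →ₗ[F] V)) (g * x * g⁻¹) :=
  ⟨by rintro _ ⟨v, hv, rfl⟩; simp [inv_apply_apply, h.1 v hv], fun v hv =>
    ⟨_, h.2 (g⁻¹ v) fun y hy => (OG.polar_app_left ⟨g, hg⟩ y v).symm.trans (hv _ ⟨y, hy, rfl⟩),
      by simp [apply_inv_apply]⟩⟩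

theorem UF.mem_of_fl {X H : Subgroup (V ≃ₗ[F] V)} {k s : V ≃ₗ[F] V} (U : UF X H k) (hX : X ≤ OG Q)
    {W : Submodule F V} (hk : Fl Q W k) (hs : s ∈ X) (hs' : Fl Q W s) : s ∈ H := by
  have h1 : ∀ {x : V ≃ₗ[F] V}, x ∈ X → Fl Q W x → ∀ v, ∀ y ∈ W, polar Q y (x v - v) = 0 := fun hx h v y hy =>
    polar_app_sub_of_fixed ⟨_, hX hx⟩ (h.1 y hy) v
  have h2 : ∀ v, k (s v) - s (k v) ∈ W := fun v => by
    convert sub_mem (hk.2 _ (h1 hs hs' v)) (hs'.2 _ (h1 U.memX hk v)) using 1
    simp only [map_sub]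
    abel
  have h3 : ∀ v, ((s * k)⁻¹ * (k * s)) v = v + (k (s v) - s (k v)) := fun v => (s * k).injective (by
    rw [LinearEquiv.mul_apply _⁻¹, apply_inv_apply, map_add, LinearEquiv.mul_apply s k (_ - _), hk.1 _ (h2 v),
      hs'.1 _ (h2 v)]
    simp)
  have h4 := U.mem_of_comm (mul_mem (inv_mem (mul_mem hs U.memX)) (mul_mem U.memX hs)) (LinearEquiv.ext fun v => by
    have e1 := hk.1 _ (hs'.2 _ (h1 U.memX hk v))
    have e2 := hs'.1 _ (hk.2 _ (h1 U.memX hk v))
    rw [LinearEquiv.mul_apply, LinearEquiv.mul_apply _ k, h3, h3, map_add, hk.1 _ (h2 v)]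
    simp only [map_sub] at e1 e2
    linear_combination (norm := module) e2 - e1)
  exact U.uniq s hs (by simpa [mul_assoc] using mul_mem U.mem h4)

variable [FiniteDimensional F V]

theorem exists_nonsing_perp (two : (2 : F) ≠ 0) {W : Submodule F V} (hW : NDon Q W) (h2 : 2 ≤ finrank F W) {u : V}
    (hu : u ∈ W) (h0 : Q u ≠ 0) : ∃ u' ∈ W ⊓ perp Q u, Q u' ≠ 0 := by
  refine NDon.exists_nonsingular (fun x hx hx' => hW x hx.1 fun y hy => ?_) fun e => ?_
  · simpa [show polar Q x u = 0 from polar_comm Q _ _ ▸ hx.2] using hx' (y - (polar Q u y / (2 * Q u)) • u)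
      ⟨sub_mem hy (Submodule.smul_mem _ _ hu), mem_perp.2 (by simp [h0, two])⟩
  · have := finrank_le_finrank_inf_perp_succ (Q := Q) W u
    rw [e, finrank_bot] at this
    omega

variable (R : RF (RingHom.id F) 1 (polarBilin Q))
include R

theorem RF.exists_nonsing {k : ℕ} (a : Fin k → V) (h : 2 * k < finrank F V) :
    ∃ b, Q b ≠ 0 ∧ ∀ i, polar Q (a i) b = 0 := by
  obtain ⟨y, y', h1, h2, e⟩ := R.exists_pair a h
  by_contra hc
  push Not at hc
  have h3 : ∀ b, (∀ i, polar Q (a i) b = 0) → Q b = 0 := fun b hb => by_contra fun h => (hc b h).elim fun i hi => hi (hb i)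
  have := h3 (y + y') fun i => by rw [polar_add_right, show polar Q (a i) y = 0 from h1 i]; simpa using h2 i
  simp [map_add', h3 y h1, h3 y' h2, show polar Q y y' = 1 from e] at this

theorem RF.exists_dual' {a b : V} (hb : ∀ c : F, c • a ≠ b) : ∃ c, polar Q c a = 0 ∧ polar Q c b = 1 := by
  obtain ⟨f, f1, f0⟩ := exists_dual_pair (F := F) hb
  obtain ⟨c, rfl⟩ := R.repr f
  exact ⟨c, f0, f1⟩

variable (two : (2 : F) ≠ 0) (h3 : 3 ≤ finrank F V)
include two

include h3 in
/-- A unipotent similarity of rank at most one is trivial. -/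
theorem eq_one_of_rank {a : V ≃ₗ[F] V} {m : F} (h : ∀ x y, polar Q (a x) (a y) * m = polar Q x y) {n : ℕ}
    (hn : ((a : End F V) - 1) ^ n = 0) (hr : finrank F (LinearMap.range ((a : End F V) - 1)) ≤ 1) : a = 1 := by
  obtain ⟨⟨u, hu⟩, h1⟩ := finrank_le_one_iff.1 hr
  by_cases u0 : u = 0
  · refine LinearEquiv.ext fun x => ?_
    obtain ⟨c, hc⟩ := h1 ⟨_, x, rfl⟩
    exact sub_eq_zero.1 (by simpa [u0] using (congrArg Subtype.val hc).symm)
  obtain ⟨g, hg⟩ := exists_dual_eq_one (F := F) u0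
  obtain ⟨t, ht⟩ := R.repr (g ∘ₗ ((a : End F V) - 1))
  have h2 : ∀ x, a x = x + polar Q t x • u := fun x => by
    obtain ⟨c, hc⟩ := h1 ⟨_, x, rfl⟩
    have hc' : c • u = a x - x := congrArg Subtype.val hc
    have : polar Q t x = g (a x - x) := LinearMap.congr_fun ht x
    rw [this, ← hc', map_smul, hg, smul_eq_mul, mul_one, hc', add_sub_cancel]
  have h4 : polar Q t u = 0 := by
    have : ∀ k, (((a : End F V) - 1) ^ k) u = polar Q t u ^ k • u := fun k => by
      induction k with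
      | zero => simp
      | succ k ih => simp [pow_succ', ih, h2, smul_smul, mul_comm]
    exact (pow_eq_zero_iff n.succ_ne_zero).1 (by simpa [pow_succ', hn, u0] using (this (n + 1)).symm)
  obtain ⟨y, y', e1, e2, e3⟩ := R.exists_pair ![t] (by omega)
  obtain rfl : m = 1 := by
    simpa [h2, show polar Q t y = 0 from e1 0, show polar Q t y' = 0 from e2 0, show polar Q y y' = 1 from e3]
      using h y y'
  by_contra hc
  obtain ⟨x, -, h5, h6⟩ := exists_both_ne_zero ⊤ (polarBilin Q t) (polarBilin Q u)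
    (by_contra fun h => hc (LinearEquiv.ext fun x => by
      push Not at h
      simp [h2, show polar Q t x = 0 from h x trivial]))
    ((exists_polar_ne_zero R.nondegenerate u0).imp fun _ h => ⟨trivial, h⟩)
  have e1 := h x u
  have e2 := h x x
  simp only [h2, h4, zero_smul, add_zero, polar_add_left, polar_add_right, polar_smul_left, polar_smul_right,
    smul_eq_mul, mul_one, polar_comm Q x u, polarBilin_apply_apply] at e1 e2 h5 h6
  exact mul_ne_zero two (mul_ne_zero h5 h6) (by linear_combination e2 - polar Q t x * e1)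

variable [Finite F]

theorem eich_mem_OmL (u v : V) : (eich Q u v).1 ∈ OmL Q := by
  by_cases h : Q u = 0 ∧ polar Q u v = 0
  · refine mem_OmL.2 (mem_commutator_of_cube R.nondegenerate two fun x => ?_)
    rw [eich_app_of_perp h.1 h.2 (polar_app_sub_of_fixed _ (eich_app_self u v) x), add_sub_cancel_left, map_smul,
      eich_app_self]
  · rw [eich_of_not h]; exact one_mem _

/-- There is no totally singular plane unless the dimension is at least five. -/
def W5 (Q : QuadraticForm F V) : Prop :=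
  5 ≤ finrank F V ∨ ∀ u v, u ≠ 0 → Q u = 0 → Q v = 0 → polar Q u v = 0 → ∃ c : F, c • u = v

theorem exists_nonsing_mem (h5 : W5 Q) {v c : V} (v0 : v ≠ 0) (hv : Q v = 0) {C : Submodule F V}
    (hC : ∀ g ∈ OmL Q, g v = v → ∀ c ∈ C, g c ∈ C) (hc : c ∈ C) (h1 : polar Q v c = 0) (h2 : ∀ l : F, l • v ≠ c) :
    ∃ c ∈ C, polar Q v c = 0 ∧ Q c ≠ 0 := by
  by_cases h0 : Q c = 0
  swap
  · exact ⟨c, hc, h1, h0⟩
  have h5 := h5.resolve_right fun h => (h v c v0 hv h0 h1).elim h2
  obtain ⟨u, e0, e1⟩ := R.exists_dual' h2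
  obtain ⟨u, hu, e0, e1⟩ : ∃ u, Q u = 0 ∧ polar Q u v = 0 ∧ polar Q u c = 1 :=
    ⟨u - Q u • c, by simp [Cls.map_sub', map_smul', h0, e1], by simp [e0, polar_comm Q c v, h1], by simp [e1, h0]⟩
  obtain ⟨b, hb, e2⟩ := R.exists_nonsing ![u, v] (by omega)
  have e3 : polar Q u b = 0 := e2 0
  have e4 : polar Q v b = 0 := e2 1
  refine ⟨_, sub_mem (hC _ (eich_mem_OmL R two u b) (eich_app_of_polar e0 (polar_comm Q _ _ ▸ e4)) c hc) hc, ?_, ?_⟩
  · simp [eich_app hu e3, e4, polar_comm Q v u, e0]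
  · rwa [show (eich Q u b).1 c - c = -(b - (polar Q b c - Q b) • u) by rw [eich_app hu e3, e1]; module,
      QuadraticMap.map_neg, map_sub_smul_singular hu e3]

include h3

theorem exists_move_point {u u' : V} (h0 : u ≠ 0) (h0' : u' ≠ 0) (hu : Q u = 0) (hu' : Q u' = 0) :
    ∃ g ∈ OmL Q, ∃ c : F, c ≠ 0 ∧ g u = c • u' := by
  obtain ⟨z, -, hz, h1, h2⟩ := (ndon_top R.nondegenerate).exists_singular_common (by simpa) trivial trivial h0 h0' hu hu'
  rw [polar_comm] at h1 h2
  exact ⟨_, eich_mem_OmL R two _ _, _, div_ne_zero h1 h2,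
    eich_app_eq hz h1 (by simp [h2]) (by simp [map_smul', hu, hu'])⟩

/-- An invariant group of skew maps contains a root element. -/
theorem exists_root (S : AddSubgroup (V →ₗ[F] V)) (hc : ∀ g ∈ OmL Q, ∀ A ∈ S, cnj g A ∈ S)
    (hs : ∀ A ∈ S, ∀ a b, polar Q a (A b) = -polar Q (A a) b) {A : V →ₗ[F] V} (hA : A ∈ S) (A0 : A ≠ 0) :
    ∃ v c, v ≠ 0 ∧ Q v = 0 ∧ polar Q v c = 0 ∧ (∀ l : F, l • v ≠ c) ∧
      (polarBilin Q c).smulRight v - (polarBilin Q v).smulRight c ∈ S := by
  have h0 : ∀ A ∈ S, ∀ a, polar Q (A a) a = 0 := fun A hA a => mul_left_cancel₀ two (by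
    linear_combination hs A hA a a - polar_comm Q a (A a))
  obtain ⟨v, hv, hAv⟩ : ∃ v, Q v = 0 ∧ A v ≠ 0 := by
    by_contra h
    push Not at h
    obtain ⟨x, x0, hx⟩ := exists_singular_of_three_le Q h3
    exact A0 (LinearMap.ker_eq_top.1 (top_le_iff.1
      ((ndon_top R.nondegenerate).le_of_singular trivial x0 hx fun y _ => h y)))
  have v0 : v ≠ 0 := fun e => hAv (by simp [e])
  have he : ∀ b, polar Q v b = 0 → ∀ x, (eich Q v b).1⁻¹ x = (eich Q v (-b)).1 x := fun b hb x => by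
    rw [← eich_inv hv hb]; rfl
  obtain ⟨A, hA, l, l0, e⟩ : ∃ A ∈ S, ∃ l : F, l ≠ 0 ∧ A v = l • v := by
    by_cases h : ∃ l : F, l • v = A v
    · obtain ⟨l, hl⟩ := h
      exact ⟨A, hA, l, fun e => hAv (by simp [← hl, e]), hl.symm⟩
    obtain ⟨b, e0, e1⟩ := R.exists_dual' (not_exists.1 h)
    rw [polar_comm] at e0
    refine ⟨_, sub_mem (hc _ (eich_mem_OmL R two v b) A hA) hA, 1, one_ne_zero, ?_⟩
    rw [LinearMap.sub_apply, cnj_apply, he b e0, eich_app_self, eich_app_of_perp hv e0 (polar_comm Q _ _ ▸ h0 A hA v), e1,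
      add_sub_cancel_left]
  obtain ⟨b, hb, e1⟩ := R.exists_nonsing ![v] (by omega)
  have e1 : polar Q v b = 0 := e1 0
  refine ⟨v, -(l • b + A b), v0, hv, by simp [hs A hA, e, e1], fun k hk => ?_, ?_⟩
  · have := congrArg (fun x => polar Q x b) hk
    simp [e1, h0 A hA, l0, hb, two] at this
  convert sub_mem (hc _ (eich_mem_OmL R two v b) A hA) hA using 1
  ext x
  simp only [cnj_apply, he b e1, eich_app hv e1, eich_app hv (show polar Q v (-b) = 0 by simp [e1]), map_add, map_sub,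
    map_smul, map_neg, e, LinearMap.sub_apply, LinearMap.smulRight_apply, polarBilin_apply_apply, polar_add_right,
    polar_sub_right, polar_smul_right, polar_neg_right, polar_add_left, polar_smul_left, polar_neg_left, hs A hA,
    h0 A hA, e1, polar_comm Q b v, polar_self', hv, smul_eq_mul, QuadraticMap.map_neg, LinearMap.add_apply,
    LinearMap.neg_apply, LinearMap.smul_apply]
  module

variable (ex : 5 ≤ Nat.card F ∨ 4 ≤ finrank F V)
include ex

omit h3 [Finite F] two R [FiniteDimensional F V] in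
theorem exists_sq_ne (h : ¬ 4 ≤ finrank F V) : ∃ t : F, t ≠ 0 ∧ t ^ 2 - 1 ≠ 0 := by
  by_contra hc
  push Not at hc
  have := natCard_le_three_of_sq fun t ht => sub_eq_zero.1 (hc t ht)
  omega

/-- A self-adjoint map whose quadratic form vanishes on the singular vectors is a scalar. -/
theorem scalar_of_sing {S : V →ₗ[F] V} (hS : ∀ a b, polar Q (S a) b = polar Q a (S b))
    (h : ∀ v, Q v = 0 → polar Q v (S v) = 0) : ∃ s : F, ∀ a, S a = s • a := by
  obtain ⟨v, v0, hv⟩ := exists_singular_of_three_le Q h3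
  obtain ⟨v', H⟩ := exists_hyp R.nondegenerate v0 hv
  have hS' : ∀ a b, polar Q a (S b) = polar Q b (S a) := fun a b => by rw [← hS, polar_comm]
  have h1 : ∀ {v v'}, IsHyp Q v v' → ∀ u ∈ hypC Q ⊤ v v', polar Q u (S u) = 2 * Q u * polar Q v (S v') ∧
      polar Q v' (S u) = Q u * polar Q v (S u) := fun {v v'} H u hu => by
    have e : ∀ u ∈ hypC Q ⊤ v v', polar Q u (S u) - 2 * Q u * polar Q v (S v') +
        2 * (polar Q v' (S u) - Q u * polar Q v (S u)) = 0 := fun u hu => by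
      have := h _ (show Q ((-Q u) • v + (1 : F) • v' + u) = 0 by
        rw [H.map_comb_add _ _ (mem_hypC.1 hu).2.1 (mem_hypC.1 hu).2.2]; simp)
      simp only [map_add, map_smul, polar_add_left, polar_add_right, polar_smul_left, polar_smul_right, h v H.left,
        h v' H.right, hS' u v, hS' u v', hS' v' v, smul_eq_mul] at this
      linear_combination this
    have e' := e _ (neg_mem hu)
    simp only [map_neg, polar_neg_left, polar_neg_right, QuadraticMap.map_neg] at e'
    exact ⟨mul_left_cancel₀ two (by linear_combination e u hu + e'),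
      mul_left_cancel₀ (mul_ne_zero two two) (by linear_combination e u hu - e')⟩
  have hc : ∀ {v v'}, hypC Q ⊤ v' v = hypC Q ⊤ v v' := inf_right_comm _ _ _
  have h2 : ∀ {v v'}, IsHyp Q v v' → ∀ u ∈ hypC Q ⊤ v v', polar Q v' (S u) = 0 := fun {v v'} H u hu => by
    by_cases h4 : 4 ≤ finrank F V
    · by_cases h0 : Q u = 0
      · simpa [h0] using (h1 H u hu).2
      have hd := finrank_hypC (W := ⊤) H trivial trivial
      obtain ⟨u', hu', h0'⟩ := exists_nonsing_perp two ((ndon_top R.nondegenerate).hypC H trivial trivial)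
        (by rw [finrank_top] at hd; omega) hu h0
      have e1 := (h1 H.symm _ (hc ▸ add_mem hu hu'.1)).2
      have e2 := (h1 H.symm _ (hc ▸ sub_mem hu hu'.1)).2
      have e3 := (h1 H.symm _ (hc ▸ hu)).2
      simp only [map_add, map_sub, polar_add_right, polar_sub_right, map_add', Cls.map_sub', mem_perp.1 hu'.2] at e1 e2
      exact mul_left_cancel₀ (mul_ne_zero two h0') (by linear_combination 2 * e3 - e1 - e2)
    obtain ⟨t, t0, t1⟩ := exists_sq_ne ex h4
    have e1 := (h1 H _ (Submodule.smul_mem _ t hu)).2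
    simp only [map_smul, polar_smul_right, map_smul', smul_eq_mul] at e1
    exact mul_left_cancel₀ (mul_ne_zero t0 t1) (by linear_combination t ^ 3 * (h1 H u hu).2 - e1)
  refine ⟨polar Q v (S v'), fun a => R.ext' fun b => ?_⟩
  have ha := H.proj_mem (W := ⊤) (x := a) trivial trivial trivial
  have hb := H.proj_mem (W := ⊤) (x := b) trivial trivial trivial
  have e1 := (h1 H _ (add_mem ha hb)).1
  have e2 := (h1 H _ ha).1
  have e3 := (h1 H _ hb).1
  have e4 := h2 H _ ha
  have e5 := h2 H _ hb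
  have e6 := h2 H.symm _ (hc ▸ ha)
  have e7 := h2 H.symm _ (hc ▸ hb)
  rw [map_add', map_add, polar_add_left, polar_add_right, polar_add_right, e2, e3] at e1
  simp only [map_sub, map_smul, polar_sub_left, polar_sub_right, polar_smul_left, polar_smul_right, h v H.left,
    h v' H.right, hS' v' v, H.polar_left, H.polar_right, H.polar_eq, H.polar_eq', smul_eq_mul, hS' a b, hS' a v,
    hS' a v', hS' b v, hS' b v', polarBilin_apply_apply, polar_comm Q a v, polar_comm Q a v', polar_comm Q a b]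
    at e1 e4 e5 e6 e7 ⊢
  refine mul_left_cancel₀ two ?_
  linear_combination e1 + 2 * polar Q v b * e4 + 2 * polar Q v a * e5 + 2 * polar Q v' b * e6 + 2 * polar Q v' a * e7

/-- A combination of conjugations which projects the self-adjoint maps onto a line. -/
theorem exists_proj {v : V} (hv : Q v = 0) (v0 : v ≠ 0) :
    ∃ Φ ∈ Submodule.span F {Φ : End F V →ₗ[F] End F V | ∃ g ∈ OmL Q, ∀ S, Φ S = cnj g S}, ∃ κ : F, κ ≠ 0 ∧
      ∀ S : End F V, (∀ a b, polar Q a (S b) = polar Q (S a) b) →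
        ∀ a, Φ S a = (κ * polar Q (S v) v * polar Q v a) • v := by
  set 𝒜 := Submodule.span F {Φ : End F V →ₗ[F] End F V | ∃ g ∈ OmL Q, ∀ S, Φ S = cnj g S}
  have h1 : ∀ b, polar Q v b = 0 → ∃ Φ ∈ 𝒜, ∀ S : End F V, (∀ a b, polar Q a (S b) = polar Q (S a) b) → ∀ a,
      Φ S a = (Q b ^ 2 * polar Q (S v) v * polar Q v a) • v - (Q b * polar Q v a) • S v - (Q b * polar Q (S v) a) • v -
        (polar Q b a * polar Q (S b) v - polar Q v a * polar Q (S b) b) • v +
        (polar Q b a * polar Q (S v) v - polar Q v a * polar Q (S b) v) • b := fun b hb => by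
    have h0 : ∀ b, ((eich Q v b).1.conj : End F V →ₗ[F] End F V) ∈ 𝒜 := fun b =>
      Submodule.subset_span ⟨_, eich_mem_OmL R two v b, fun _ => rfl⟩
    refine ⟨_, 𝒜.smul_mem 2⁻¹ (sub_mem (add_mem (h0 b) (h0 (-b))) (𝒜.smul_mem 2
      (Submodule.subset_span (a := LinearMap.id) ⟨1, one_mem _, fun _ => rfl⟩))), fun S hS a => ?_⟩
    have he : ∀ b, polar Q v b = 0 → (eich Q v b).1.symm = (eich Q v (-b)).1 := fun b hb => by
      rw [← eich_inv hv hb]; rfl
    have hb' : polar Q v (-b) = 0 := by simp [hb]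
    simp only [LinearMap.smul_apply, LinearMap.sub_apply, LinearMap.add_apply, LinearEquiv.coe_coe,
      LinearEquiv.conj_apply_apply, he b hb, he _ hb', neg_neg, LinearMap.id_apply]
    rw [inv_smul_eq_iff₀ two]
    simp only [eich_app hv hb, eich_app hv hb', map_add, map_sub, map_smul, map_neg, polar_add_right, polar_sub_right,
      polar_smul_right, polar_neg_right, polar_neg_left, hS, QuadraticMap.map_neg, smul_eq_mul,
      show polar Q (S v) b = polar Q (S b) v by rw [← hS, polar_comm]]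
    module
  obtain ⟨v', H⟩ := exists_hyp R.nondegenerate v0 hv
  have hN := (ndon_top R.nondegenerate).hypC H trivial trivial
  have hd := finrank_hypC (W := ⊤) H trivial trivial
  rw [finrank_top] at hd
  obtain ⟨b, hb', hb⟩ := hN.exists_nonsingular fun e => by rw [e, finrank_bot] at hd; omega
  have e := (mem_hypC.1 hb').2.1
  obtain ⟨Φ, hΦ, h⟩ := h1 b e
  by_cases h4 : 4 ≤ finrank F V
  · obtain ⟨b', ⟨e', e''⟩, hb'⟩ := exists_nonsing_perp two hN (by omega) hb' hb
    replace e' := (mem_hypC.1 e').2.1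
    replace e'' := mem_perp.1 e''
    obtain ⟨Φ₁, h₁, k₁⟩ := h1 b' e'
    obtain ⟨Φ₂, h₂, k₂⟩ := h1 (b + b') (by simp [e, e'])
    obtain ⟨Φ₃, h₃, k₃⟩ := h1 (b - b') (by simp [e, e'])
    refine ⟨_, sub_mem (add_mem h₂ h₃) (𝒜.smul_mem 2 (add_mem hΦ h₁)), 2 * 2 * Q b * Q b', by simp [two, hb, hb'],
      fun S hS a => ?_⟩
    simp only [LinearMap.smul_apply, LinearMap.sub_apply, LinearMap.add_apply, h S hS, k₁ S hS, k₂ S hS, k₃ S hS,
      map_add', Cls.map_sub', e'', map_add, map_sub, polar_add_left, polar_add_right, polar_sub_left, polar_sub_right]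
    module
  obtain ⟨t, t0, t1⟩ := exists_sq_ne ex h4
  obtain ⟨Φ₁, h₁, k₁⟩ := h1 (t • b) (by simp [e])
  refine ⟨_, sub_mem h₁ (𝒜.smul_mem (t ^ 2) hΦ), t ^ 2 * (t ^ 2 - 1) * Q b ^ 2, by simp [t0, t1, hb], fun S hS a => ?_⟩
  simp only [LinearMap.smul_apply, LinearMap.sub_apply, h S hS, k₁ S hS, map_smul', map_smul, polar_smul_left,
    polar_smul_right, smul_eq_mul]
  module

end CL.Sp
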