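import Cfsg.Agent.Cls.OO1

set_option autoImplicit false

/-!
Overgroups of `Ω(V₁) ⊗ Ω(V₂)` in the orthogonal group of `V₁ ⊗ V₂`, part 1: a subgroup with new elements in the
unipotent radical of the stabiliser of `V₁ ⊗ w` contains `Ω`.
-/

namespace CL.Sp

open Module CL.SLn QuadraticMap
open CL.Uni (UG)
open CL.Cls hiding glEquiv

variable {F V₁ V₂ V : Type*} [Field F] [AddCommGroup V₁] [Module F V₁] [AddCommGroup V₂] [Module F V₂]
  [AddCommGroup V] [Module F V] {Q : QuadraticForm F V} {X : Subgroup (V ≃ₗ[F] V)}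
  {Q₁ : QuadraticForm F V₁} {Q₂ : QuadraticForm F V₂}

/-- A group of isometries containing `Ω(V₁) ⊗ Ω(V₂)`. -/
structure OB (T : TF (RingHom.id F) 1 1 1 (polarBilin Q₁) (polarBilin Q₂) (polarBilin Q))
    (X : Subgroup (V ≃ₗ[F] V)) : Prop where
  two : (2 : F) ≠ 0
  le : X ≤ OG Q
  kron : ∀ a ∈ OmL Q₁, ∀ t ∈ OmL Q₂, T.kron a t ∈ X
  h₁ : 3 ≤ finrank F V₁
  h₂ : 3 ≤ finrank F V₂
  w₁ : W5 Q₁
  w₂ : W5 Q₂

namespace OB

variable {T : TF (RingHom.id F) 1 1 1 (polarBilin Q₁) (polarBilin Q₂) (polarBilin Q)} (O : OB T X)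
include O

theorem sw : OB T.sw X :=
  ⟨O.two, O.le, fun t ht a ha => T.sw_kron a t ▸ O.kron a ha t ht, O.h₂, O.h₁, O.w₂, O.w₁⟩

theorem leU : X ≤ UG (polarBilin Q) := O.le.trans OG_le_UG

theorem Q_tm (a : V₁) (y : V₂) : Q (T.tm a y) = 2 * Q₁ a * Q₂ y :=
  mul_left_cancel₀ O.two (by rw [← polar_self', T.polar_tm]; simp; ring)

theorem nontrivial : Nontrivial V₁ := Module.nontrivial_of_finrank_pos (R := F) (by have := O.h₁; omega)

theorem ES_move {g : V₁ ≃ₗ[F] V₁} (hg : g ∈ OmL Q₁) {t : V₂ ≃ₗ[F] V₂} (ht : t ∈ OmL Q₂) {v v' : V₁} {w w' : V₂}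
    {l k : F} (l0 : l ≠ 0) (k0 : k ≠ 0) (e : g v = l • v') (e' : t w = k • w') (h : Q (T.tm v' w') = 0) {a : V₁}
    {y : V₂} (hy : T.tm a y ∈ ES Q X (T.tm v w)) : T.tm (g a) (t y) ∈ ES Q X (T.tm v' w') := by
  have := ES_app O.le (O.kron g hg t ht) hy
  rw [T.kron_tm, T.kron_tm, e, e'] at this
  simpa [smul_smul, mul_assoc, l0, k0] using ES_smul (by simp [map_smul', h]) (l⁻¹ * k⁻¹) this

variable [FiniteDimensional F V₁] [FiniteDimensional F V₂] [Finite F]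

section Gen

variable {v : V₁} {w : V₂} (v0 : v ≠ 0) (hv : Q₁ v = 0) (w0 : w ≠ 0) (hw : Q₂ w = 0)
include v0 hv w0 hw

theorem gen (hA : ∀ v w z, Q₁ v = 0 → T.tm v z ∈ ES Q X (T.tm v w)) {a : V₁} {z : V₂} (hz : polar Q₂ w z = 0) :
    T.tm a z ∈ ES Q X (T.tm v w) := by
  obtain ⟨v', H⟩ := exists_hyp T.r₁.nondegenerate v0 hv
  by_cases z0 : z = 0
  · simp [z0]
  obtain ⟨u, hu⟩ := T.r₂.exists_one' z0
  obtain ⟨z', -, h0, h⟩ := T.r₂.exists_perp ⊤ ![w, u] (by have := O.h₂; simp; omega)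
  obtain ⟨y, e0, e1⟩ := T.r₂.exists_dual' (a := z) (b := z') fun l hl => h0 (by
    have : polarBilin Q₂ u z' = 0 := h 1
    simp only [← hl, map_smul, hu, smul_eq_mul, mul_one] at this
    rw [← hl, this, zero_smul])
  exact mem_of_sing H (S := (ES Q X (T.tm v w)).comap (T.tm.flip z)) (hA v w z hv) (fun c hc hc' =>
    ES_step₁ O.le (by simp [O.Q_tm, hc]) (hA c z z' hc) (hA v w y hv) (by simp [T.polar_tm, polar_comm Q₂ z w, hz])
      (by simp [T.polar_tm, show polar Q₂ z' w = 0 from T.r₂.flip0 (h 0)])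
      (by simp [T.polar_tm, polar_comm Q₂ z y, e0])
      (by simp [T.polar_tm, polar_comm Q₂ z' y, e1, polar_comm Q₁ c v, hc'])) a

theorem gen' (hA : ∀ v w z, Q₁ v = 0 → T.tm v z ∈ ES Q X (T.tm v w)) (x : V) (hx : polar Q (T.tm v w) x = 0) :
    x ∈ ES Q X (T.tm v w) := by
  obtain ⟨v', H⟩ := exists_hyp T.r₁.nondegenerate v0 hv
  obtain ⟨w', H'⟩ := exists_hyp T.r₂.nondegenerate w0 hw
  have h1 := ES_step₂ O.le (by simp [O.Q_tm, hv])
    (O.gen v0 hv H'.symm.left_ne_zero H'.right hA (a := T.ψ' w x) H'.polar_right)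
    (O.gen v0 hv w0 hw hA (a := v') H'.polar_left) (by simp [T.polar_tm, hv])
    (by rw [T.polar_ψ] at hx; simp [T.polar_tm, T.r₁.flip0 hx]) (hA v w w' hv)
    (by simp [T.polar_tm, H.polar_eq, H'.polar_eq'])
  simpa using add_mem (T.mem_of_perp (w' := w') H'.polar_eq (fun a z => O.gen v0 hv w0 hw hA)
    (x := x - T.tm (T.ψ' w x) w') (by simp [T.ψ_tm, H'.polar_eq])) h1

theorem M_le {c : V₁} (h1 : polar Q₁ v c = 0) (h2 : ∀ l : F, l • v ≠ c) (h : T.tm c w ∈ ES Q X (T.tm v w)) (z : V₂) :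
    T.tm v z ∈ ES Q X (T.tm v w) := by
  obtain ⟨c, h, h1, h2⟩ := exists_nonsing_mem T.r₁ O.two O.w₁ v0 hv (C := (ES Q X (T.tm v w)).comap (T.tm.flip w))
    (fun g hg e c hc => O.ES_move hg (one_mem _) one_ne_zero one_ne_zero (by rw [e, one_smul]) (one_smul F w).symm
      (by simp [O.Q_tm, hv]) hc) h h1 h2
  obtain ⟨w', H⟩ := exists_hyp T.r₂.nondegenerate w0 hw
  refine mem_of_sing H (S := (ES Q X (T.tm v w)).comap (T.tm v)) (self_mem_ES (by simp [O.Q_tm, hv]))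
    (fun u hu hu' => ?_) z
  obtain ⟨t, ht, k, k0, e⟩ := exists_move_point T.r₂ O.two O.h₂ w0 (fun e => hu' (by simp [e])) hw hu
  have h3 := O.ES_move (one_mem _) ht one_ne_zero k0 (one_smul F v).symm e (by simp [O.Q_tm, hv]) h
  rw [e, map_smul, Submodule.smul_mem_iff _ k0] at h3
  exact ES_step₁ O.le (by simp [O.Q_tm, hv]) h3 h (by simp [T.polar_tm, hv])
    (by simp [T.polar_tm, polar_comm Q₁ c v, h1]) (by simp [T.polar_tm, h1])
    (by simp [T.polar_tm, polar_comm Q₂ u w, hu', h2, O.two])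

variable [FiniteDimensional F V]

theorem OmL_le {c : V₁} (h1 : polar Q₁ v c = 0) (h2 : ∀ l : F, l • v ≠ c) (h : T.tm c w ∈ ES Q X (T.tm v w)) :
    OmL Q ≤ X := by
  have h3 : ∀ v' w' z, Q₁ v' = 0 → Q₂ w' = 0 → T.tm v' z ∈ ES Q X (T.tm v' w') := fun v' w' z hv' hw' => by
    by_cases h0 : v' = 0 ∨ w' = 0
    · rcases h0 with rfl | rfl <;> simpa using ES_zero _
    push Not at h0
    obtain ⟨g, hg, l, l0, e⟩ := exists_move_point T.r₁ O.two O.h₁ v0 h0.1 hv hv'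
    obtain ⟨t, ht, k, k0, e'⟩ := exists_move_point T.r₂ O.two O.h₂ w0 h0.2 hw hw'
    have := O.ES_move hg ht l0 k0 e e' (by simp [O.Q_tm, hv']) (O.M_le v0 hv w0 hw h1 h2 h (t⁻¹ z))
    rwa [e, apply_inv_apply, LinearMap.map_smul₂, Submodule.smul_mem_iff _ l0] at this
  have hA : ∀ v w z, Q₁ v = 0 → T.tm v z ∈ ES Q X (T.tm v w) := fun v u z hv =>
    (ndon_top T.r₂.nondegenerate).le_of_singular (S := (ES Q X (T.tm v u)).comap (T.tm v)) trivial w0 hw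
      (fun y _ hy => ES_swap (by simp [O.Q_tm, hv]) (by simp [O.Q_tm, hv]) (h3 v y u hv hy)) trivial
  obtain ⟨v', H⟩ := exists_hyp T.r₁.nondegenerate v0 hv
  obtain ⟨w', H'⟩ := exists_hyp T.r₂.nondegenerate w0 hw
  refine OmL_le_of_ES T.r.nondegenerate ?_ ⟨by simp [O.Q_tm, hv], by simp [O.Q_tm, H.right],
    by simp [T.polar_tm, H.polar_eq, H'.polar_eq]⟩ (O.gen' v0 hv w0 hw hA)
    (O.gen' H.symm.left_ne_zero H.right H'.symm.left_ne_zero H'.right hA)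
  have := Nat.mul_le_mul O.h₁ O.h₂
  rw [← T.finrank_eq] at this
  omega

theorem OmL_le' {z : V₂} (h1 : polar Q₂ w z = 0) (h2 : ∀ l : F, l • w ≠ z) (h : T.tm v z ∈ ES Q X (T.tm v w)) :
    OmL Q ≤ X := by
  obtain ⟨c, hc, e⟩ := T.r₁.exists_nonsing ![v] (by have := O.h₁; omega)
  exact O.OmL_le v0 hv w0 hw (e 0) (fun l hl => hc (by simp [← hl, map_smul', hv])) (O.sw.M_le w0 hw v0 hv h1 h2 h c)

end Gen

variable {w : V₂} (w0 : w ≠ 0) (hw : Q₂ w = 0)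
include w0 hw

omit [FiniteDimensional F V₁] in
theorem rad_eich {z : V₂} (hz : polar Q₂ w z = 0) : T.Rad w (T.kron 1 (eich Q₂ w z).1) ∧
    ∀ x, T.ψ' w x = 0 → T.kron 1 (eich Q₂ w z).1 x = x + T.tm (T.ψ' z x) w := by
  obtain ⟨w', hw'⟩ := T.r₂.exists_one w0
  exact TF.rad_kron hw' (eich_app_self w z) fun y hy => eich_app_of_perp hw hz hy

omit [FiniteDimensional F V₁] in
theorem ψ'_mem {z : V₂} (hz : polar Q₂ w z = 0) : T.ψ' z ∈ T.RD (X ⊓ T.KS) w :=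
  ⟨_, ⟨O.kron 1 (one_mem _) _ (eich_mem_OmL T.r₂ O.two w z), T.kron_mem_KS _ _⟩, O.rad_eich w0 hw hz⟩

omit [FiniteDimensional F V₁] in
theorem RD_smul (c : F) {D : V →ₗ[F] V₁} (hD : D ∈ T.RD X w) : c • D ∈ T.RD X w := by
  obtain ⟨w', H⟩ := exists_hyp T.r₂.nondegenerate w0 hw
  refine smul_mem_of_sq O.two (fun c c0 D hD => ?_) c hD
  have c1 : (c * c)⁻¹ ≠ 0 := by simp [c0]
  refine TF.RD_congr' (w' := w') H.polar_eq (TF.RD_conj O.leU hD (O.kron 1 (one_mem _) _ (mem_OmL.2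
    (hypTorus_mem_commutator T.r₂.nondegenerate H c1 ⟨c⁻¹, mul_inv c c⟩))) (α := Units.mk0 _ c1 • 1)
    fun a => by rw [T.kron_tm, hypTorus_app_left H c1]; simp)
    fun a y hy => (Units.mk0 _ c1 • 1 : V₁ ≃ₗ[F] V₁).injective ?_
  simp only [LinearMap.comp_apply, LinearEquiv.coe_coe, apply_inv_apply, T.kron_tm, hypTorus_app H c1,
    show polar Q₂ w y = 0 from hy, map_add, map_smul, TF.RD_self w0 H.polar_left hD]
  simp [smul_smul, mul_mul_mul_comm c c, c0]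

variable [FiniteDimensional F V] (h4 : 4 ≤ finrank F V₂) (hn : ¬ OmL Q ≤ X)
include h4 hn

theorem ZA_eq_zero {hw' : polarBilin Q₂ w w = 0} {A : V₁ →ₗ[F] V₁} (hA : A ∈ T.ZA X hw') : A = 0 := by
  obtain ⟨w', hww⟩ := T.r₂.exists_one w0
  by_contra A0
  obtain ⟨v, c, v0, hv, h1, h2, h⟩ := exists_root T.r₁ O.two O.h₁ (T.ZA X hw')
    (fun a ha A hA => by simpa using TF.ZA_conj hA (O.kron a ha 1 (one_mem _)) (one_mem _) hw' (one_smul F w).symm)
    (fun A hA a b => by simpa [eq_neg_iff_add_eq_zero, add_comm] using TF.ZA_skew O.leU hww hA a b) hA A0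
  refine hn (O.OmL_le v0 hv w0 hw h1 h2 (TF.mem_ES_of_ZA (hw := hw') (fun a => by simp [O.Q_tm, hw]) fun l =>
    smul_mem_of_sq O.two (fun c c0 A hA => ?_) l h))
  obtain ⟨t, ht, e⟩ := exists_eich_trans_of_four_le (ndon_top T.r₂.nondegenerate) (by simpa)
    (fun u _ v _ => mem_OmL.1 (eich_mem_OmL T.r₂ O.two u v)) trivial w0 trivial (smul_ne_zero c0 w0)
    (by simp [map_smul', hw])
  exact TF.ZA_conj hA (O.kron 1 (one_mem _) _ (mem_OmL.2 ht.1)) (OG_le_UG t.2) hw' e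

theorem mem_KS_of_rad (ex : 5 ≤ Nat.card F ∨ 4 ≤ finrank F V₁) (hlt : finrank F V₁ < finrank F V₂) {k : V ≃ₗ[F] V}
    (hk : k ∈ X) (R : T.Rad w k) : k ∈ T.KS := by
  have := O.nontrivial
  obtain ⟨w', H⟩ := exists_hyp T.r₂.nondegenerate w0 hw
  have hww : polarBilin Q₂ w w' = 1 := H.polar_eq
  have hw' : polarBilin Q₂ w w = 0 := H.polar_left
  obtain ⟨D, hD⟩ := R.exists_D w0
  have hD' : D ∈ T.RD X w := ⟨k, hk, R, hD⟩
  have hS : ∀ z, polar Q₂ w z = 0 → ∀ a b, polar Q₁ a (D (T.tm b z)) = polar Q₁ (D (T.tm a z)) b := fun z hz a b => by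
    obtain ⟨A, hA, e⟩ := TF.exists_comm_ψ O.leU hw' hww hD' hz (TF.RD_mono inf_le_left (O.ψ'_mem w0 hw hz))
    exact (sub_eq_zero.1 (by simpa [O.ZA_eq_zero w0 hw h4 hn hA] using (e b a).symm)).symm
  refine TF.mem_KS_of_scalar O.leU hw' hww (fun z => O.ψ'_mem w0 hw)
    (fun A hA => ⟨0, fun a => by simp [O.ZA_eq_zero w0 hw h4 hn hA]⟩) hk R hD fun z hz =>
    scalar_of_sing T.r₁ O.two O.h₁ ex (S := D ∘ₗ T.tm.flip z) (fun a b => (hS z hz a b).symm) fun v hv => ?_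
  by_contra h0
  have v0 : v ≠ 0 := fun e => h0 (by simp [e])
  obtain ⟨Φ, hΦ, κ, κ0, e⟩ := exists_proj T.r₁ O.two O.h₁ ex hv v0
  obtain ⟨D', hD'', e'⟩ : ∃ D' ∈ T.RD X w, ∀ a y, D' (T.tm a y) = Φ (D ∘ₗ T.tm.flip y) a := by
    clear e
    induction hΦ using Submodule.span_induction with
    | mem Φ h =>
      obtain ⟨g, hg, h⟩ := h
      exact ⟨_, TF.RD_conj O.leU hD' (O.kron g⁻¹ (inv_mem hg) 1 (one_mem _)) (α := g⁻¹) fun a => T.kron_tm _ _ _ _,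
        fun a y => by simp [h, cnj_apply, T.kron_tm]⟩
    | zero => exact ⟨0, zero_mem _, fun _ _ => rfl⟩
    | add _ _ _ _ h h' =>
      obtain ⟨D, hD, e⟩ := h
      obtain ⟨D', hD', e'⟩ := h'
      exact ⟨_, add_mem hD hD', fun a y => by simp [e, e']⟩
    | smul c _ _ h =>
      obtain ⟨D, hD, e⟩ := h
      exact ⟨_, O.RD_smul w0 hw c hD, fun a y => by simp [e]⟩
  obtain ⟨u, hu⟩ := T.r₂.repr (κ • polarBilin Q₁ v ∘ₗ D ∘ₗ T.tm v)
  have hu : ∀ y, polar Q₂ u y = κ * polar Q₁ v (D (T.tm v y)) := LinearMap.congr_fun hu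
  have hu' : polar Q₂ w u = 0 := by rw [polar_comm, hu, TF.RD_self w0 hw' hD', polar_zero_right, mul_zero]
  have h1 := H.proj_mem (W := ⊤) (x := u) trivial trivial trivial
  rw [hu', zero_smul, sub_zero] at h1
  have h2 : ∀ y, polar Q₂ w y = 0 → polar Q₂ (u - polar Q₂ w' u • w) y = κ * polar Q₁ v (D (T.tm v y)) :=
    fun y hy => by simp [hy, hu]
  generalize u - polar Q₂ w' u • w = u at h1 h2
  have hd := finrank_hypC (W := ⊤) H trivial trivial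
  rw [finrank_top] at hd
  obtain ⟨t, ht, ht', h3⟩ := exists_movIn_commutator_app_ne T.r₂.nondegenerate
    ((ndon_top T.r₂.nondegenerate).hypC H trivial trivial) (by omega) (fun h => by omega) h1
    fun e => mul_ne_zero κ0 h0 (by simpa [e] using (h2 z hz).symm)
  have htw : t.1 w = w := movIn_app_of_mem_operp T.r₂.nondegenerate ht
    (mem_operp'.2 fun y hy => (mem_hypC.1 hy).2.1)
  have h5 := mem_hypC.1 (ht u)
  have hk' := O.kron 1 (one_mem _) _ (mem_OmL.2 ht')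
  have hr : Q (T.tm v w) = 0 := by simp [O.Q_tm, hv]
  refine hn (O.OmL_le' v0 hv w0 hw h5.2.1 (fun l hl => h3 ?_) ⟨by simp [T.polar_tm, hv], fun l => ?_⟩)
  · have := h5.2.2
    simp only [← hl, polar_smul_right, H.polar_eq', smul_eq_mul, mul_one] at this
    rw [← sub_eq_zero, ← hl, this, zero_smul]
  obtain ⟨h, hh, -, eh⟩ := O.RD_smul w0 hw l hD''
  have h6 : T.ψ' w (l • T.tm v u) = 0 := by simp [T.ψ_tm, (mem_hypC.1 h1).2.1]
  have h7 := TF.comm_eq (T := T) hww (O.leU hh) (OG_le_UG (eich Q (T.tm v w) (l • T.tm v u)).2)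
    (t := T.kron 1 t.1) (fun x hx => by
      rw [eh x hx, (TF.eich_rad hr h6 hw').2 x hx, T.ext_perp hww (f := l • D')
        (g := (polarBilin Q (l • T.tm v u)).smulRight v) (fun a y hy => ?_) hx]
      simp [e', e (D ∘ₗ T.tm.flip y) (hS y hy), T.polar_tm, h2 y hy, polar_comm Q₁ _ v, smul_smul, mul_comm, mul_left_comm])
    (fun a => by rw [T.kron_tm, htw]; rfl) fun x => by
      rw [T.ψ'_kron _ (OG_le_UG t.2), ← htw, inv_apply_apply, htw]; rfl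
  have h8 := congrArg Subtype.val (commutator_eich hr (v := l • T.tm v u) (by simp [T.polar_tm, hv]) ⟨_, O.le hk'⟩
    (by rw [T.kron_tm, htw]; rfl))
  simp only [map_smul, T.kron_tm, ← smul_sub, LinearEquiv.coe_one, id, ← map_sub] at h8
  exact (h7.trans h8) ▸ mul_mem (mul_mem (mul_mem hk' hh) (inv_mem hk')) (inv_mem hh)

omit w0 hw in
/-- Elements of a proper overgroup which map `V₁ ⊗ u` onto `V₁ ⊗ u'` are Kronecker products. -/
theorem mem_KS_of_map (ex : 5 ≤ Nat.card F ∨ 4 ≤ finrank F V₁) (hlt : finrank F V₁ < finrank F V₂)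
    (h1 : T.KS ⊓ OmL Q ≤ X) (h2 : X ≤ OmL Q) : ∀ u u', u ≠ 0 → u' ≠ 0 → polarBilin Q₂ u u = 0 →
    polarBilin Q₂ u' u' = 0 → ∀ k ∈ X, (∀ a, k (T.tm a u) ∈ T.L u') → k ∈ T.KS := by
  have := O.nontrivial
  have h0 : ∀ {u}, polarBilin Q₂ u u = 0 → Q₂ u = 0 := fun h => by simpa [O.two] using h
  have h5 : 5 ≤ finrank F V := by
    have := Nat.mul_le_mul O.h₁ O.h₂
    rw [← T.finrank_eq] at this
    omega
  exact TF.mem_KS_of_map O.leU O.h₂
    (fun w w0 hw => (exists_hyp T.r₂.nondegenerate w0 (h0 hw)).imp fun _ h => ⟨h.polar_eq, h.polar_right⟩)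
    (fun _ _ u0 u0' hu hu' => by
      obtain ⟨t, ht, c, -, e⟩ := exists_move_point T.r₂ O.two O.h₂ u0 u0' (h0 hu) (h0 hu')
      exact ⟨t, c, O.kron 1 (one_mem _) t ht, e⟩)
    (fun w w0 z hw hz => TF.RD_mono inf_le_left (O.ψ'_mem w0 (h0 hw) hz))
    (fun _ w0 hw _ => O.mem_KS_of_rad w0 (h0 hw) h4 hn ex hlt)
    fun w w0 hw a t k hk hU R => h1 ⟨T.kron_mem_KS _ _, by
      simpa using mul_mem (h2 hk) (inv_mem (R.mem_OmL h5 w0 hw (fun a => by simp [O.Q_tm, h0 hw])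
        (mul_mem (inv_mem (mem_OG_of_UG O.two hU)) (O.le hk))))⟩

end OB

end CL.Sp
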