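import Cfsg.Agent.Cls.OO2
import Cfsg.Agent.Cls.SpTen5

set_option autoImplicit false

/-!
Overgroups of `Ω(V₁) ⊗ Ω(V₂)` in the orthogonal group of `V₁ ⊗ V₂`, part 2: maximality.
-/

namespace CL.Sp

open Module CL.SLn QuadraticMap
open CL.Uni (UG)
open CL.Cls hiding glEquiv

variable {F V₁ V₂ V : Type*} [Field F] [AddCommGroup V₁] [Module F V₁] [AddCommGroup V₂] [Module F V₂]
  [AddCommGroup V] [Module F V] {Q : QuadraticForm F V} {X : Subgroup (V ≃ₗ[F] V)}
  {Q₁ : QuadraticForm F V₁} {Q₂ : QuadraticForm F V₂}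

theorem TL.map_LS (T : TL F V₁ V₂ V) {g : V ≃ₗ[F] V} {e t : V₂ ≃ₗ[F] V₂} (h : g⁻¹ * T.kron 1 e * g = T.kron 1 t)
    (n : ℕ) : (T.LS (LinearMap.range (((t : End F V₂) - 1) ^ n))).map (g : V →ₗ[F] V) =
      T.LS (LinearMap.range (((e : End F V₂) - 1) ^ n)) := by
  have h1 : ∀ t : V₂ ≃ₗ[F] V₂, LinearMap.range (((T.kron 1 t : End F V) - 1) ^ n) =
      T.LS (LinearMap.range (((t : End F V₂) - 1) ^ n)) := fun t => T.range_eq_LS fun a y => by
    induction n with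
    | zero => rfl
    | succ n ih => simp [pow_succ', ih, T.kron_tm]
  have h2 : ((T.kron 1 e : End F V) - 1) ^ n = cnj g (((T.kron 1 t : End F V) - 1) ^ n) := by
    clear h1
    induction n with
    | zero => ext; simp [cnj_apply, apply_inv_apply]
    | succ n ih => ext; simp [pow_succ', ih, cnj_apply, ← h, apply_inv_apply]
  rw [← h1, ← h1, h2, range_cnj]

theorem TL.finrank_eq_of_map_LS [FiniteDimensional F V₁] [FiniteDimensional F V₂] [Nontrivial V₁] (T : TL F V₁ V₂ V)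
    {g : V ≃ₗ[F] V} {W W' : Submodule F V₂} (h : (T.LS W).map (g : V →ₗ[F] V) = T.LS W') :
    finrank F W = finrank F W' := by
  have := g.finrank_map_eq (T.LS W)
  rw [h, T.finrank_LS, T.finrank_LS] at this
  exact (Nat.eq_of_mul_eq_mul_left finrank_pos this).symm

theorem range_eich_le (w z : V) : LinearMap.range (((eich Q w z).1 : End F V) - 1) ≤ .span F (Set.range ![w, z]) := by
  rintro _ ⟨y, rfl⟩
  exact eich_app_sub_mem w z y (Submodule.subset_span ⟨0, rfl⟩) (Submodule.subset_span ⟨1, rfl⟩)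

theorem finrank_range_eich_le (w z : V) : finrank F (LinearMap.range (((eich Q w z).1 : End F V) - 1)) ≤ 2 :=
  have : FiniteDimensional F (Submodule.span F (Set.range ![w, z])) :=
    FiniteDimensional.span_of_finite F (Set.finite_range _)
  (Submodule.finrank_mono (range_eich_le w z)).trans (finrank_range_le_card (R := F) ![w, z])

namespace OB

variable {T : TF (RingHom.id F) 1 1 1 (polarBilin Q₁) (polarBilin Q₂) (polarBilin Q)} (O : OB T X)
  [FiniteDimensional F V₁] [FiniteDimensional F V₂] [FiniteDimensional F V] [Finite F]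
  (hlt : finrank F V₁ < finrank F V₂) {w z : V₂}
include O hlt

theorem exists_kron_one (w0 : w ≠ 0) (hw : Q₂ w = 0) (hz : polar Q₂ w z = 0) {g : V ≃ₗ[F] V} (hg : g ∈ X)
    (h : g⁻¹ * T.kron 1 (eich Q₂ w z).1 * g ∈ T.KS) : ∃ t, g⁻¹ * T.kron 1 (eich Q₂ w z).1 * g = T.kron 1 t := by
  have := O.nontrivial
  have : Nontrivial V₂ := ⟨_, _, w0⟩
  obtain ⟨a₀, ha₀⟩ := exists_ne (0 : V₁)
  have : Nontrivial V := ⟨_, _, T.tm_ne_zero ha₀ w0⟩
  obtain ⟨p, hp⟩ := CharP.exists F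
  have hpp : Fact p.Prime := ⟨CharP.char_is_prime F p⟩
  have hk := O.kron 1 (one_mem _) _ (eich_mem_OmL T.r₂ O.two w z)
  obtain ⟨a, t, e, ha, -⟩ := TL.exists_unipotent (p := p) (n := 2) h (by
    have := conj_pow (i := p ^ 2) (a := g⁻¹) (b := T.kron 1 (eich Q₂ w z).1)
    rwa [(O.rad_eich w0 hw hz).1.pow (O.leU hk), mul_one, mul_inv_cancel, inv_inv] at this)
  have h1 := T.rank_kron t ha
  rw [← e, show ((g⁻¹ * T.kron 1 (eich Q₂ w z).1 * g : V ≃ₗ[F] V) : End F V) - 1 =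
    cnj g⁻¹ ((T.kron 1 (eich Q₂ w z).1 : End F V) - 1) by ext; simp [cnj_apply, inv_apply_apply], finrank_range_cnj,
    T.range_eq_LS (f := ((eich Q₂ w z).1 : End F V₂) - 1) fun a y => by simp [T.kron_tm], T.finrank_LS] at h1
  obtain ⟨w', hw'⟩ := T.r₂.exists_one w0
  have hU := O.leU (e ▸ mul_mem (mul_mem (inv_mem hg) hk) hg)
  obtain rfl := eq_one_of_rank T.r₁ O.two O.h₁ (m := polar Q₂ (t w) (t w')) (fun x y => by
    simpa [T.kron_tm, T.polar_tm, show polar Q₂ w w' = 1 from hw'] using hU (T.tm x w) (T.tm y w')) ha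
    (by_contra fun h2 => by
      have := finrank_range_eich_le (Q := Q₂) w z
      nlinarith)
  exact ⟨t, e⟩

variable (hQ : ∀ u u', u ≠ 0 → u' ≠ 0 → polarBilin Q₂ u u = 0 → polarBilin Q₂ u' u' = 0 → ∀ k ∈ X,
  (∀ a, k (T.tm a u) ∈ T.L u') → k ∈ T.KS)
include hQ

theorem uf_of_ne (w0 : w ≠ 0) (hw : Q₂ w = 0) (hz : polar Q₂ w z = 0) (hz' : Q₂ z ≠ 0) :
    UF X T.KS (T.kron 1 (eich Q₂ w z).1) := by
  refine ⟨O.kron 1 (one_mem _) _ (eich_mem_OmL T.r₂ O.two w z), T.kron_mem_KS _ _, fun g hg h => ?_⟩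
  have := O.nontrivial
  obtain ⟨t, e⟩ := O.exists_kron_one hlt w0 hw hz hg h
  have h1 := T.map_LS e 2
  obtain ⟨w', hw'⟩ := exists_polar_eq_one T.r₂.nondegenerate w0
  have h2 : ∀ y, ((((eich Q₂ w z).1 : End F V₂) - 1) ^ 2 : End F V₂) y = (-(2 * Q₂ z) * polar Q₂ w y) • w := fun y => by
    simp only [pow_two, End.mul_apply, LinearMap.sub_apply, LinearEquiv.coe_coe, End.one_apply, eich_app hw hz, map_add,
      map_sub, map_smul, polar_add_right, polar_sub_right, polar_smul_right, polar_self', hw, hz, polar_comm Q₂ z w]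
    module
  rw [show LinearMap.range ((((eich Q₂ w z).1 : End F V₂) - 1) ^ 2) = F ∙ w from le_antisymm
    (by rintro _ ⟨y, rfl⟩; exact Submodule.mem_span_singleton.2 ⟨_, (h2 y).symm⟩)
    ((Submodule.span_singleton_le_iff_mem _ _).2 ⟨(-(2 * Q₂ z))⁻¹ • w', by
      rw [map_smul, h2, hw', mul_one, inv_smul_smul₀ (by simp [hz', O.two])]⟩)] at h1
  have h3 := T.finrank_eq_of_map_LS h1
  rw [finrank_span_singleton w0] at h3
  obtain ⟨u, hu, u0⟩ := Submodule.exists_mem_ne_zero_of_ne_bot (p := LinearMap.range (((t : End F V₂) - 1) ^ 2))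
    fun e => by rw [e, finrank_bot] at h3; omega
  rw [← Submodule.eq_of_le_of_finrank_eq ((Submodule.span_singleton_le_iff_mem _ _).2 hu)
    ((finrank_span_singleton u0).trans h3.symm), T.LS_span, T.LS_span] at h1
  have h4 : ∀ a, g⁻¹ (T.tm a w) ∈ T.L u := fun a => by
    obtain ⟨x, hx, e⟩ := h1.ge (T.tm_mem_L a w)
    rwa [← e, LinearEquiv.coe_coe, inv_apply_apply]
  have hw'' : polarBilin Q₂ w w = 0 := by simp [hw]
  simpa using inv_mem (hQ w u w0 u0 hw'' (TF.iso_of_map (O.leU (inv_mem hg)) w0 hw'' u0 h4) _ (inv_mem hg) h4)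

theorem exists_fl (h5 : 5 ≤ finrank F V₂) {W : Submodule F V₂} (h0 : W ≠ ⊥) (h2 : finrank F W ≤ 2)
    (hW : ∀ y ∈ W, Q₂ y = 0) : ∃ k, UF X T.KS k ∧ Fl Q (T.LS W) k := by
  obtain ⟨w, hw, w0⟩ := Submodule.exists_mem_ne_zero_of_ne_bot h0
  have := finrank_add_finrank_operp T.r₂.nondegenerate W
  obtain ⟨z, hz, hz'⟩ := exists_nonsingular_of_lt T.r₂.nondegenerate (Z := operp Q₂ W) (by omega)
  refine ⟨_, O.uf_of_ne hlt hQ w0 (hW w hw) (mem_operp.1 hz w hw) hz', fun v hv => ?_, fun v hv => ?_⟩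
  · exact T.LS_le (S := LinearMap.eqLocus (T.kron 1 (eich Q₂ w z).1 : V →ₗ[F] V) LinearMap.id) (fun a y hy =>
      (T.kron_tm _ _ _ _).trans (by
        rw [eich_app_of_polar (polar_eq_zero_of_sing hW hw hy) (mem_operp'.1 hz y hy)]; rfl)) hv
  · obtain ⟨a, e⟩ := T.mem_L.1 ((O.rad_eich w0 (hW w hw) (mem_operp.1 hz w hw)).1.sub v
      (T.r₁.nondeg' _ fun b => (T.polar_ψ b w v).symm.trans (hv _ (T.tm_mem_LS b hw))))
    exact e ▸ T.tm_mem_LS a hw

theorem uf (w0 : w ≠ 0) (hw : Q₂ w = 0) (hz : polar Q₂ w z = 0) (hz' : ∀ l : F, l • w ≠ z) :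
    UF X T.KS (T.kron 1 (eich Q₂ w z).1) := by
  by_cases h0 : Q₂ z = 0
  swap
  · exact O.uf_of_ne hlt hQ w0 hw hz h0
  refine ⟨O.kron 1 (one_mem _) _ (eich_mem_OmL T.r₂ O.two w z), T.kron_mem_KS _ _, fun g hg h => ?_⟩
  have := O.nontrivial
  have h5 := O.w₂.resolve_right fun h => (h w z w0 hw h0 hz).elim hz'
  obtain ⟨t, e⟩ := O.exists_kron_one hlt w0 hw hz hg h
  have h1 := T.map_LS e 1
  rw [pow_one, pow_one] at h1
  have h2 := T.finrank_eq_of_map_LS h1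
  have h3 := finrank_range_eich_le (Q := Q₂) w z
  have h4 : ∀ y ∈ LinearMap.range (((eich Q₂ w z).1 : End F V₂) - 1), Q₂ y = 0 := fun y hy => by
    obtain ⟨c, rfl⟩ := (Submodule.mem_span_range_iff_exists_fun F).1 (range_eich_le w z hy)
    simp [map_add', map_smul', hw, h0, hz]
  have h6 : LinearMap.range (((eich Q₂ w z).1 : End F V₂) - 1) ≠ ⊥ := fun e => by
    obtain ⟨y, e0, e1⟩ := T.r₂.exists_dual' hz'
    have := e.le ⟨y, rfl⟩
    simp [eich_app_of_perp hw hz (polar_comm Q₂ _ _ ▸ e0), polar_comm Q₂ z y, e1, w0] at this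
  generalize LinearMap.range (((eich Q₂ w z).1 : End F V₂) - 1) = W at h1 h2 h3 h4 h6
  generalize LinearMap.range ((t : End F V₂) - 1) = W' at h1 h2
  obtain ⟨k, U, hk⟩ := O.exists_fl hlt hQ h5 h6 h3 h4
  obtain ⟨k', U', hk'⟩ := O.exists_fl hlt hQ h5 (W := W') (fun e => h6 (Submodule.finrank_eq_zero.1 (by rw [← h2, e, finrank_bot]))) (by omega)
    fun y hy => by
      obtain ⟨a, ha, -⟩ := T.r₁.exists_nonsing (k := 0) ![] (by have := O.h₁; omega)
      have h7 : T.LS W ≤ operp Q (T.LS W) := T.LS_le fun a y hy => mem_operp'.2 fun x hx =>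
        T.LS_le (S := perp Q (T.tm a y)) (fun b y' hy' => mem_perp.2 (by
          simp [T.polar_tm, polar_eq_zero_of_sing h4 hy hy'])) hx
      have h8 := h1.le ⟨_, T.tm_mem_LS a hy, rfl⟩
      have h9 := (OG.polar_app ⟨g, O.le hg⟩ _ _).symm.trans (mem_operp.1 (h7 h8) _ h8)
      simpa [O.Q_tm, O.two, ha] using h9
  have := U.mem_of_fl O.le hk (mul_mem (mul_mem hg U'.memX) (inv_mem hg)) (h1 ▸ hk'.conj (O.le hg))
  simpa using inv_mem (U'.uniq g⁻¹ (inv_mem hg) (by rwa [inv_inv]))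

theorem le_KS (ex : 5 ≤ Nat.card F ∨ 4 ≤ finrank F V₁) : X ≤ T.KS := by
  have := O.nontrivial
  obtain ⟨w, w0, hw⟩ := exists_singular_of_three_le Q₂ O.h₂
  obtain ⟨w', H⟩ := exists_hyp T.r₂.nondegenerate w0 hw
  suffices h : ∀ {u u'}, IsHyp Q₂ u u' → ∀ S : Finset _, (∀ φ, φ ∈ S ↔ T.Oth X φ) →
      ∑ φ ∈ S, φ ∈ TrTr.mfil (Fin 4) (T.dfl u) 4 by
    refine TF.le_KS_of_depth O.leU w0 H.polar_left hQ H.polar_right H.polar_eq ?_
    rintro _ (rfl | rfl)
    exacts [h H, h H.symm]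
  intro u u' H S hS
  obtain ⟨p, hp⟩ := CharP.exists F
  have hpp : Fact p.Prime := ⟨CharP.char_is_prime F p⟩
  have : Finite V₂ := Module.finite_of_finite F
  obtain ⟨c, h1, h2⟩ : ∃ c, p ^ c ≤ Nat.card (hypC Q₂ ⊤ u u') ∧ 5 ≤ c * (p - 1) := by
    have hd := finrank_hypC (W := ⊤) H trivial trivial
    have h3 := O.h₁
    rw [finrank_top] at hd
    have := Fintype.ofFinite F
    obtain ⟨k, hk⟩ : p ∣ Nat.card F := Nat.card_eq_fintype_card (α := F) ▸ (prime_dvd_char_iff_dvd_card p).1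
      (ringChar.eq F p ▸ dvd_rfl)
    have h0 : 0 < k := Nat.pos_of_mul_pos_left (hk ▸ Nat.card_pos)
    have h4 : p ≤ Nat.card F := hk ▸ Nat.le_mul_of_pos_right p h0
    have h5 : p ≠ 2 := by rintro rfl; exact O.two (CharP.cast_eq_zero F 2)
    have h6 := hpp.out.two_le
    rw [Module.natCard_eq_pow_finrank (K := F)]
    by_cases h7 : p = 3
    · subst h7
      refine ⟨3, ?_, by norm_num⟩
      rcases ex with ex | ex
      · exact le_trans (by norm_num) ((Nat.pow_le_pow_left (show 6 ≤ Nat.card F by omega) 2).trans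
          (Nat.pow_le_pow_right (by omega) (by omega)))
      · exact (Nat.pow_le_pow_left h4 3).trans (Nat.pow_le_pow_right (by omega) (by omega))
    · exact ⟨2, (Nat.pow_le_pow_left h4 2).trans (Nat.pow_le_pow_right (by omega) (by omega)), by omega⟩
  have hz : ∀ z : hypC Q₂ ⊤ u u', polar Q₂ u z = 0 := fun z => (mem_hypC.1 z.2).2.1
  have hk : ∀ z : V₂, T.kron 1 (eich Q₂ u z).1 ∈ X := fun z => O.kron 1 (one_mem _) _ (eich_mem_OmL T.r₂ O.two u z)
  refine TrTr.mfil_mono _ (by omega) (TF.sum_mem_of_uf O.leU H.left_ne_zero H.polar_left hQ p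
    (fun a => by rw [← Nat.cast_smul_eq_nsmul F, CharP.cast_eq_zero, zero_smul])
    (fun z : hypC Q₂ ⊤ u u' => T.kron 1 (eich Q₂ u z).1) (by simp [eich_zero_right, T.kron_one])
    (fun a b => by rw [T.kron_mul, mul_one, Submodule.coe_add, ← eich_mul H.left (hz a) (hz b)]; rfl)
    (fun a => (O.rad_eich H.left_ne_zero H.left (hz a)).1.step (O.leU (hk a)))
    (fun a a0 => O.uf hlt hQ H.left_ne_zero H.left (hz a) fun l hl => a0 (Subtype.ext ?_)) h1 S
    (fun φ h => (hS φ).1 h) fun a φ h => (hS _).2 (((hS φ).1 h).map (hk a) (T.kron_mem_KS _ _)))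
  have := (mem_hypC.1 a.2).2.2
  simp only [← hl, polar_smul_right, H.polar_eq', smul_eq_mul, mul_one] at this
  rw [← hl, this, zero_smul, Submodule.coe_zero]

end OB

namespace TF

variable {T : TF (RingHom.id F) 1 1 1 (polarBilin Q₁) (polarBilin Q₂) (polarBilin Q)}

theorem OmL_le_rightOf (two : (2 : F) ≠ 0) : OmL Q₂ ≤ T.rightOf (OmL Q) := by
  rintro _ ⟨t, ht, rfl⟩
  let f : OG Q₂ →* OG Q := MonoidHom.mk'
    (fun t => ⟨T.kron 1 t.1, mem_OG_of_UG two (T.kron_mem_UG' (one_mem _) (OG_le_UG t.2))⟩)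
    fun t t' => Subtype.ext (by simp [T.kron_mul])
  exact (mem_OmL (g := f t)).2 (Subgroup.commutator_mono le_top le_top
    (Subgroup.map_commutator ⊤ ⊤ f ▸ Subgroup.mem_map_of_mem f ht))

/-- A proper overgroup of the stabiliser of the decomposition in `Ω` preserves the decomposition. -/
theorem le_KS_of_symm [FiniteDimensional F V₁] [FiniteDimensional F V₂] [FiniteDimensional F V] [Finite F]
    (two : (2 : F) ≠ 0) (h3 : 3 ≤ finrank F V₁) (hlt : finrank F V₁ < finrank F V₂) (w₁ : W5 Q₁) (w₂ : W5 Q₂)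
    (ex : 5 ≤ Nat.card F ∨ 4 ≤ finrank F V₁) (h1 : T.KS ⊓ OmL Q ≤ X) (h2 : X ≤ OmL Q) (hn : ¬ OmL Q ≤ X) :
    X ≤ T.KS :=
  have O : OB T X := ⟨two, h2.trans OmL_le, fun _ ha _ ht => h1 ⟨T.kron_mem_KS _ _,
    T.kron_mem (OmL_le_rightOf (T := T.sw) two ha) (OmL_le_rightOf two ht)⟩, h3, by omega, w₁, w₂⟩
  O.le_KS hlt (O.mem_KS_of_map (by omega) hn ex hlt h1 h2) ex

end TF

theorem exists_quad_of_symm (two : (2 : F) ≠ 0) {B : LinearMap.BilinForm F V} (h : ∀ x y, B x y = B y x) :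
    ∃ Q : QuadraticForm F V, ∀ x y, polar Q x y = B x y :=
  ⟨LinearMap.BilinMap.toQuadraticMap ((2 : F)⁻¹ • B), fun x y => by
    rw [LinearMap.BilinMap.polar_toQuadraticMap]
    simp [h y x, ← mul_add, ← two_mul, two]⟩

theorem W5_of {n : ℕ} {Q : QuadraticForm F (Fin n → F)} (hQ : (polarBilin Q).Nondegenerate)
    {f : (Fin n → F) → F} (hf : ∀ v, Q v = 0 → f v = 0) (h : n = 4 → ¬ Cfsg.Geo.IsPlusTypeOn f ⊤) : W5 Q := by
  refine or_iff_not_imp_right.2 fun hc => ?_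
  push Not at hc
  obtain ⟨u, v, u0, hu, hv, huv, hc⟩ := hc
  have h1 : ∀ y ∈ Submodule.span F (Set.range ![u, v]), Q y = 0 := fun y hy => by
    obtain ⟨c, rfl⟩ := (Submodule.mem_span_range_iff_exists_fun F).1 hy
    simp [map_add', map_smul', hu, hv, huv]
  have h2 := finrank_span_eq_card ((LinearIndependent.pair_iff' u0).2 hc)
  have h3 := two_mul_finrank_le_of_singular hQ h1
  by_contra h5
  simp only [Module.finrank_fin_fun, Fintype.card_fin] at h2 h3 h5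
  exact h (by omega) ⟨_, le_top, fun y hy => hf y (h1 y hy), by simp only [finrank_top, Module.finrank_fin_fun]; omega⟩

open Cfsg Cfsg.Geo in
/-- The stabiliser of a tensor decomposition into orthogonal spaces is maximal in `Ω`. -/
theorem isMaximalIn_omega_orth_tensor [Fintype F] (hodd : Odd (Fintype.card F)) {ι : Type} [Fintype ι]
    [DecidableEq ι] {Q : QuadraticForm F (ι → F)} (hQ : (polarBilin Q).Nondegenerate) {n₁ n₂ : ℕ} (h₁ : 3 ≤ n₁)
    (h₂ : 3 ≤ n₂) (hne : n₁ ≠ n₂) (hex : Fintype.card F = 3 → n₁ ≠ 3 ∧ n₂ ≠ 3) (e : ι ≃ Fin n₁ × Fin n₂) (P : GL ι F)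
    {f₁ : (Fin n₁ → F) → (Fin n₁ → F) → F} {f₂ : (Fin n₂ → F) → (Fin n₂ → F) → F} (hf₁ : IsSymmetricForm f₁)
    (hf₂ : IsSymmetricForm f₂) (p₁ : n₁ = 4 → ¬ IsPlusTypeOn (fun v => f₁ v v) ⊤)
    (p₂ : n₂ = 4 → ¬ IsPlusTypeOn (fun v => f₂ v v) ⊤) (hT : IsTensorFormStructure id (polar Q) f₁ f₂ e P) :
    IsMaximalIn (omegaGL Q) (tensorProductSubgroup n₁ n₂ e P ⊓ omegaGL Q) := by
  obtain ⟨c, hc, h⟩ := exists_form_tenE hf₁.bilinear hf₂.bilinear hT
  have two := two_ne_zero_of_odd_card hodd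
  obtain ⟨Q₁, e₁⟩ := exists_quad_of_symm two (B := bilinOf hf₁.bilinear) hf₁.symm
  obtain ⟨Q₂, e₂⟩ := exists_quad_of_symm two (B := c • bilinOf hf₂.bilinear) fun x y => by simp [hf₂.symm x y]
  have hR : ∀ {W : Type _} [AddCommGroup W] [Module F W] {Q : QuadraticForm F W},
      (∀ x, (∀ y, polar Q x y = 0) → x = 0) → RF (RingHom.id F) 1 (polarBilin Q) :=
    fun h => ⟨fun _ => rfl, by simp, fun x y => by simp [polar_comm _ x], h⟩
  let T : TF (RingHom.id F) 1 1 1 (polarBilin Q₁) (polarBilin Q₂) (polarBilin Q) :=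
    { E := tenE e P
      r₁ := hR fun x hx => (bilinOf_nondegenerate hf₁.bilinear hf₁.nondegenerate).1 x fun y => e₁ x y ▸ hx y
      r₂ := hR fun x hx => (bilinOf_nondegenerate hf₂.bilinear hf₂.nondegenerate).1 x fun y => by
        simpa [e₂, hc] using hx y
      r := hR hQ.1
      form := fun a y a' y' => by simpa [e₁, e₂] using h a y a' y' }
  have w₁ := W5_of T.r₁.nondegenerate (fun v hv => by simpa [hv, eq_comm] using e₁ v v) p₁
  have w₂ := W5_of T.r₂.nondegenerate (fun v hv => by simpa [hv, hc] using e₂ v v) p₂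
  have h1 := Fintype.card_congr e
  simp only [Fintype.card_prod, Fintype.card_fin] at h1
  have ex : 5 ≤ Nat.card F ∨ 4 ≤ n₁ ∧ 4 ≤ n₂ := by
    by_cases hq : Fintype.card F = 3
    · have := hex hq
      omega
    · exact Or.inl (five_le_card hodd hq)
  obtain ⟨w, w0, hw⟩ := exists_singular_of_three_le Q₂ (by simpa)
  refine isMaximalIn_omega_tensor hQ (by nlinarith) e P (K := T.KS) rfl
    (TF.exists_not_mem_KS (T := T) (by simpa) w0 (by simp [hw]) fun a => mul_left_cancel₀ two (by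
      rw [← polar_self', T.polar_tm]; simp [hw])) fun X => ?_
  rcases hne.lt_or_gt with h | h
  · exact TF.le_KS_of_symm two (by simpa) (by simpa) w₁ w₂ (by simpa using ex.imp_right And.left)
  · rw [← T.sw_KS]
    exact TF.le_KS_of_symm two (by simpa) (by simpa) w₂ w₁ (by simpa using ex.imp_right And.right)

end CL.Sp
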