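/-
Elements of order three of orthogonal groups in characteristic three: products of commuting Eichler transformations.
-/
import Cfsg.Agent.Cls.OAut2
import Cfsg.Agent.Cls.OrthMaxTools

set_option autoImplicit false
set_option linter.unusedSectionVars false

open QuadraticMap Module

namespace CL.Cls

variable {F V : Type*} [Field F] [AddCommGroup V] [Module F V] {Q : QuadraticForm F V}

/-- The quadratic form `Q ((g - 1) x)` attached to an isometry. -/
def bet (g : OG Q) (x : V) : F := Q (g.1 x - x)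

theorem bet_conj (h g : OG Q) (x : V) : bet (h * g * h⁻¹) (h.1 x) = bet g x := by
  rw [bet, OG.mul_app, OG.mul_app, OG.inv_app_app, ← map_sub, OG.map_app, bet]

theorem bet_inv (g : OG Q) (x : V) : bet g⁻¹ (g.1 x) = bet g x := by
  rw [bet, OG.inv_app_app, ← neg_sub, QuadraticMap.map_neg, bet]

theorem commute_eich {e w e' w' : V} (h1 : polar Q e e' = 0) (h2 : polar Q w e' = 0) (h3 : polar Q e w' = 0)
    (h4 : polar Q w w' = 0) : Commute (eich Q e w) (eich Q e' w') := by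
  rw [Commute, SemiconjBy, ← mul_inv_eq_iff_eq_mul, eich_conj, eich_app_of_polar h1 h2, eich_app_of_polar h3 h4]

/-- The data of one block `eich e w` of a unipotent isometry inside `W`, with complement `W'`. -/
structure EBlk (Q : QuadraticForm F V) (W W' : Submodule F V) (e w f d : V) : Prop where
  e_mem : e ∈ W
  w_mem : w ∈ W
  f_mem : f ∈ W
  d_mem : d ∈ W
  qe : Q e = 0
  ew : polar Q e w = 0
  ef : polar Q e f = 1
  wf : polar Q w f = 0
  ed : polar Q e d = 0
  wd : polar Q w d ≠ 0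
  nd : NDon Q W'
  eq : W' = W ⊓ perp Q e ⊓ perp Q f ⊓ perp Q w ⊓ perp Q d

/-- Two orthogonal blocks. -/
structure EFr (Q : QuadraticForm F V) (e w e' w' : V) : Prop where
  qe : Q e = 0
  qe' : Q e' = 0
  ew : polar Q e w = 0
  ee' : polar Q e e' = 0
  ew' : polar Q e w' = 0
  we' : polar Q w e' = 0
  ww' : polar Q w w' = 0
  e'w' : polar Q e' w' = 0
  dual : ∀ a b, ∃ x, polar Q e x = a ∧ polar Q e' x = b

theorem bet_eich {e w : V} (he : Q e = 0) (hew : polar Q e w = 0) (x : V) :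
    bet (eich Q e w) x = polar Q e x ^ 2 * Q w := by
  rw [bet, eich_app he hew, show x + polar Q w x • e - polar Q e x • w - (Q w * polar Q e x) • e - x =
    (-polar Q e x) • w - (Q w * polar Q e x - polar Q w x) • e by module,
    map_sub_smul_singular he (by rw [polar_smul_right, hew, smul_zero]), map_smul', neg_sq]

theorem EFr.bet {e w e' w' : V} (h : EFr Q e w e' w') (x : V) :
    bet (eich Q e w * eich Q e' w') x = polar Q e x ^ 2 * Q w + polar Q e' x ^ 2 * Q w' := by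
  have h1 : (eich Q e w).1 ((eich Q e' w').1 x - x) = (eich Q e' w').1 x - x := by
    rw [eich_app h.qe' h.e'w']
    refine eich_app_of_polar ?_ ?_ <;>
      simp [polar_sub_right, polar_add_right, polar_smul_right, h.ee', h.ew', h.we', h.ww']
  have h2 : (eich Q e w * eich Q e' w').1 x - x = ((eich Q e w).1 x - x) + ((eich Q e' w').1 x - x) := by
    rw [← h1, OG.mul_app, map_sub]; abel
  rw [← bet_eich h.qe h.ew, ← bet_eich h.qe' h.e'w', CL.Cls.bet, h2, map_add', ← h1, OG.map_app,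
    polar_comm, h1, polar_app_sub_of_fixed _ h1, add_zero]
  rfl

theorem EFr.commute {e w e' w' : V} (h : EFr Q e w e' w') : Commute (eich Q e w) (eich Q e' w') :=
  commute_eich h.ee' h.we' h.ew' h.ww'

theorem EFr.pow_three [CharP F 3] {e w e' w' : V} (h : EFr Q e w e' w') : (eich Q e w * eich Q e' w') ^ 3 = 1 := by
  rw [h.commute.mul_pow, eich_pow_char, eich_pow_char, one_mul]

variable [FiniteDimensional F V] (hQ : (polarBilin Q).Nondegenerate)
include hQ

theorem exists_conj_eich {e w a b : V} (h : LinearIndependent F ![e, w]) (h' : LinearIndependent F ![a, b])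
    (he : Q e = 0) (ha : Q a = 0) (hew : polar Q e w = 0) (hab : polar Q a b = 0) (hq : Q w = Q b) :
    ∃ k : OG Q, k * eich Q e w * k⁻¹ = eich Q a b := by
  obtain ⟨k, -, h1, h2⟩ := (isWittForm_of_nondeg hQ).exists_isometry_fin _ _ h h' (fun i j => by
    fin_cases i <;> fin_cases j <;> simp [polar_comm Q w, polar_comm Q b, *])
    fun i => by fin_cases i <;> simp [*]
  exact ⟨⟨k, h1⟩, by rw [eich_conj]; exact congrArg₂ _ (h2 0) (h2 1)⟩

theorem EFr.exists_conj {e w e' w' a b a' b' : V} (h : EFr Q e w e' w') (h' : EFr Q a b a' b')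
    (l : LinearIndependent F ![e, w, e', w']) (l' : LinearIndependent F ![a, b, a', b']) (hq : Q w = Q b)
    (hq' : Q w' = Q b') : ∃ k : OG Q, k * (eich Q e w * eich Q e' w') * k⁻¹ = eich Q a b * eich Q a' b' := by
  obtain ⟨k, -, h1, h2⟩ := (isWittForm_of_nondeg hQ).exists_isometry_fin _ _ l l' (fun i j => by
    fin_cases i <;> fin_cases j <;> simp [polar_comm Q w e, polar_comm Q e' e, polar_comm Q w' e,
      polar_comm Q e' w, polar_comm Q w' w, polar_comm Q w' e', polar_comm Q b a, polar_comm Q a' a, polar_comm Q b' a,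
      polar_comm Q a' b, polar_comm Q b' b, polar_comm Q b' a', h.qe, h.qe', h.ew, h.ee', h.ew', h.we', h.ww', h.e'w',
      h'.qe, h'.qe', h'.ew, h'.ee', h'.ew', h'.we', h'.ww', h'.e'w', hq, hq'])
    fun i => by fin_cases i <;> simp [h.qe, h.qe', h'.qe, h'.qe', hq, hq']
  refine ⟨⟨k, h1⟩, ?_⟩
  rw [← conj_mul, eich_conj, eich_conj]
  exact congrArg₂ _ (congrArg₂ _ (h2 0) (h2 1)) (congrArg₂ _ (h2 2) (h2 3))

variable [CharP F 3] {W W' : Submodule F V} {g : OG Q} {e w f d : V}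

omit hQ in
theorem three_eq_zero' : (3 : F) = 0 := CharP.cast_eq_zero F 3

omit hQ in
theorem EBlk.split (h : EBlk Q W W' e w f d) (hg : g ∈ movIn Q W) (h3 : g ^ 3 = 1)
    (H : ∀ x ∈ ({e, f, w, d} : Set V), g.1 x = (eich Q e w).1 x) :
    ∃ g₁ ∈ movIn Q W', g = eich Q e w * g₁ ∧ g₁ ^ 3 = 1 := by
  have h1 : ∀ x ∈ ({e, f, w, d} : Set V), ((eich Q e w)⁻¹ * g).1 x = x := fun x hx => by
    rw [OG.mul_app, H x hx, OG.inv_app_app]
  refine ⟨(eich Q e w)⁻¹ * g, h.eq ▸ mem_movIn_inf_perp (mem_movIn_inf_perp (mem_movIn_inf_perp (mem_movIn_inf_perp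
    (mul_mem (inv_mem (eich_mem_movIn h.e_mem h.w_mem)) hg) (h1 _ (by simp))) (h1 _ (by simp))) (h1 _ (by simp)))
    (h1 _ (by simp)), by simp, ?_⟩
  have h2 : Commute ((eich Q e w)⁻¹ * g) (eich Q e w) := by
    rw [Commute, SemiconjBy, ← mul_inv_eq_iff_eq_mul, eich_conj, h1 _ (by simp), h1 _ (by simp)]
  have := h2.symm.mul_pow 3
  rw [mul_inv_cancel_left, h3, eich_pow_char, one_mul] at this
  exact this.symm

theorem exists_mem_app_sub (hW : NDon Q W) (hg : g ∈ movIn Q W) (v : V) : ∃ u ∈ W, g.1 u - u = g.1 v - v := by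
  obtain ⟨a, ha, b, hb, rfl⟩ := hW.exists_add hQ v
  exact ⟨a, ha, by rw [map_add, movIn_app_of_mem_operp hQ hg hb]; abel⟩

theorem exists_eBlk_three (hW : NDon Q W) (hg : g ∈ movIn Q W) (h3 : g ^ 3 = 1) {v : V} (hv : bet g v ≠ 0) :
    ∃ W' e w f d, EBlk Q W W' e w f d ∧ Q w = bet g v ∧ finrank F W' + 3 = finrank F W ∧
      ∃ g₁ ∈ movIn Q W', g = eich Q e w * g₁ ∧ g₁ ^ 3 = 1 := by
  have t := three_eq_zero' (F := F)
  obtain ⟨u, hu, e⟩ := exists_mem_app_sub hQ hW hg v
  rw [bet, ← e] at hv ⊢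
  obtain ⟨x, hx⟩ : ∃ x, g.1 u = u + x := ⟨_, (add_sub_cancel _ _).symm⟩
  obtain ⟨y, hy⟩ : ∃ y, g.1 x = x + y := ⟨_, (add_sub_cancel _ _).symm⟩
  have xW : x ∈ W := by simpa [hx] using hg u
  have yW : y ∈ W := by simpa [hy] using hg x
  have hz : g.1 y = y := by
    have h1 : g.1 (g.1 (g.1 u)) = u := congrArg (fun k : OG Q => k.1 u) h3
    simp only [hx, hy, map_add] at h1
    linear_combination (norm := module) h1 - t • (x + y)
  have yx : polar Q y x = 0 := by simpa [hx] using polar_app_sub_of_fixed g hz u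
  have yy : polar Q y y = 0 := by simpa [hy] using polar_app_sub_of_fixed g hz x
  have qy : Q y = 0 := by rw [polar_self'] at yy; linear_combination -yy + Q y * t
  rw [hx, add_sub_cancel_left] at hv ⊢
  have yu : polar Q y u = Q x := by
    have h1 := OG.polar_app g u x
    rw [hx, hy, polar_add_left, polar_add_right, polar_add_right, polar_self', polar_comm Q x y, yx,
      polar_comm Q u y] at h1
    linear_combination h1 - Q x * t
  have xu : polar Q x u = -Q x := by
    have := map_app_sub g u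
    rw [hx, add_sub_cancel_left, polar_comm] at this
    linear_combination this
  have qw : Q (-(x + y)) = Q x := by rw [QuadraticMap.map_neg, ← hy, OG.map_app]
  have qe : Q ((Q x)⁻¹ • y) = 0 := by rw [map_smul', qy, mul_zero]
  have eW := W.smul_mem (Q x)⁻¹ yW
  have fW := W.sub_mem hu (W.smul_mem (Q u * (Q x)⁻¹) yW)
  have wW := W.neg_mem (W.add_mem xW yW)
  have hef : IsHyp Q ((Q x)⁻¹ • y) (u - (Q u * (Q x)⁻¹) • y) := ⟨qe, by
    rw [map_sub', map_smul', qy, polar_smul_right, polar_comm, yu, smul_eq_mul]; field_simp; ring, by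
    simp [polar_sub_right, polar_smul_left, polar_smul_right, yu, yy, hv]⟩
  have ew : polar Q ((Q x)⁻¹ • y) (-(x + y)) = 0 := by simp [polar_smul_left, polar_add_right, yx, yy]
  have wf : polar Q (-(x + y)) (u - (Q u * (Q x)⁻¹) • y) = 0 := by
    simp [polar_sub_right, polar_add_left, polar_smul_right, xu, yu, yy, polar_comm Q x y, yx]
  have ww : polar Q (-(x + y)) (-(x + y)) ≠ 0 := by
    rw [polar_self', qw, show (2 : F) = -1 by linear_combination t]; simpa using hv
  have wH : -(x + y) ∈ hypC Q W _ _ := mem_hypC.2 ⟨wW, ew, (polar_comm _ _ _).trans wf⟩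
  have B : EBlk Q W (hypC Q W ((Q x)⁻¹ • y) (u - (Q u * (Q x)⁻¹) • y) ⊓ perp Q (-(x + y))) _ _ _ _ :=
    ⟨eW, wW, fW, wW, qe, ew, hef.polar_eq, wf, ew, ww, (hW.hypC hef eW fW).inf_perp wH ww, by
      rw [inf_assoc _ (perp Q _), inf_idem]; rfl⟩
  refine ⟨_, _, _, _, _, B, qw, by have := finrank_inf_perp wH ww; have := finrank_hypC hef eW fW; omega,
    B.split hg h3 ?_⟩
  have hw : g.1 (-(x + y)) = (eich Q ((Q x)⁻¹ • y) (-(x + y))).1 (-(x + y)) := by
    rw [eich_app_of_perp qe ew ew, polar_self', qw, smul_smul, mul_assoc, mul_inv_cancel₀ hv, map_neg, map_add, hy, hz]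
    linear_combination (norm := module) -t • y
  rintro _ (rfl | rfl | rfl | rfl)
  · rw [eich_app_self, map_smul, hz]
  · rw [eich_app qe ew, wf, hef.polar_eq, qw, mul_one, smul_smul, smul_smul, mul_inv_cancel₀ hv, map_sub, map_smul, hx, hz]
    module
  exacts [hw, hw]

theorem exists_eBlk_two (hW : NDon Q W) (hg : g ∈ movIn Q W) (h3 : g ^ 3 = 1) (h1 : g ≠ 1) (h0 : ∀ v, bet g v = 0) :
    ∃ W' e w f d, EBlk Q W W' e w f d ∧ Q w = 0 ∧ finrank F W' + 4 = finrank F W ∧
      ∃ g₁ ∈ movIn Q W', g = eich Q e w * g₁ ∧ g₁ ^ 3 = 1 := by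
  have pol : ∀ x y, polar Q (g.1 x - x) (g.1 y - y) = 0 := fun x y => by
    have := h0 (x + y)
    rw [bet, map_add, show g.1 x + g.1 y - (x + y) = (g.1 x - x) + (g.1 y - y) by abel, map_add'] at this
    have h1 := h0 x
    have h2 := h0 y
    simp only [bet] at h1 h2
    linear_combination this - h1 - h2
  have fix : ∀ x, g.1 (g.1 x - x) = g.1 x - x := fun x => sub_eq_zero.1 (nondeg_iff.1 hQ _ fun y => by
    obtain ⟨y, rfl⟩ := g.1.surjective y
    rw [polar_sub_left, OG.polar_app, ← polar_sub_right, ← neg_sub (g.1 y), polar_neg_right, pol, neg_zero])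
  obtain ⟨u₀, h2⟩ : ∃ u, g.1 u - u ≠ 0 := by
    by_contra! H
    exact h1 (OG.ext' fun v => sub_eq_zero.1 (H v))
  obtain ⟨u, hu, e⟩ := exists_mem_app_sub hQ hW hg u₀
  rw [← e] at h2
  obtain ⟨v, hv, av⟩ := hW.exists_polar_eq (hg u) h2 1
  have qa := h0 u
  have qb := h0 v
  have ab := pol u v
  have au := map_app_sub g u
  have bv := map_app_sub g v
  have ga := fix u
  have gb := fix v
  have aW := hg u
  have bW := hg v
  simp only [bet] at qa qb
  obtain ⟨a, ha⟩ : ∃ x, g.1 u = u + x := ⟨_, (add_sub_cancel _ _).symm⟩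
  obtain ⟨b, hb⟩ : ∃ x, g.1 v = v + x := ⟨_, (add_sub_cancel _ _).symm⟩
  simp only [ha, hb, add_sub_cancel_left] at h2 av qa qb ab au bv ga gb aW bW
  rw [qa, zero_eq_neg, polar_comm] at au
  rw [qb, zero_eq_neg, polar_comm] at bv
  have bu : polar Q b u = -1 := by
    have := OG.polar_app g u v
    rw [ha, hb, polar_add_left, polar_add_right, polar_add_right, av, ab, polar_comm Q u b] at this
    linear_combination this
  have aa : polar Q a a = 0 := by rw [polar_self', qa, mul_zero]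
  have bb : polar Q b b = 0 := by rw [polar_self', qb, mul_zero]
  have ba := (polar_comm _ _ _).trans ab
  obtain ⟨d, hd⟩ : ∃ d, d = u + Q u • b := ⟨_, rfl⟩
  obtain ⟨f, hf⟩ : ∃ f, f = v - Q v • a + polar Q d (v - Q v • a) • b := ⟨_, rfl⟩
  have dW : d ∈ W := hd ▸ W.add_mem hu (W.smul_mem _ bW)
  have fW : f ∈ W := hf ▸ W.add_mem (W.sub_mem hv (W.smul_mem _ aW)) (W.smul_mem _ bW)
  have ad : polar Q a d = 0 := by simp [hd, polar_add_right, polar_smul_right, au, ab]
  have bd : polar Q b d = -1 := by simp [hd, polar_add_right, polar_smul_right, bu, bb]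
  have bf : polar Q b f = 0 := by rw [hf]; simp [polar_add_right, polar_sub_right, polar_smul_right, bv, ba, bb]
  have df : polar Q f d = 0 := by rw [polar_comm, hf, polar_add_right, polar_smul_right, polar_comm Q d b, bd]; simp
  have hef : IsHyp Q a f := ⟨qa, by
    rw [hf, map_add', map_sub', map_smul', map_smul', qa, qb, polar_smul_right, polar_smul_right, polar_sub_left,
      polar_smul_left, polar_comm Q v a, av, ab, polar_comm Q v b, bv]; simp, by
    rw [hf]; simp [polar_add_right, polar_sub_right, polar_smul_right, av, aa, ab]⟩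
  have hwd : IsHyp Q (-b) d := ⟨by rw [QuadraticMap.map_neg, qb], by
    rw [hd, map_add', map_smul', qb, polar_smul_right, polar_comm, bu]; simp, by simp [bd]⟩
  have ew : polar Q a (-b) = 0 := by simp [ab]
  have wf : polar Q (-b) f = 0 := by simp [bf]
  have wH : -b ∈ hypC Q W a f := mem_hypC.2 ⟨W.neg_mem bW, ew, (polar_comm _ _ _).trans wf⟩
  have dH : d ∈ hypC Q W a f := mem_hypC.2 ⟨dW, ad, df⟩
  have B : EBlk Q W (hypC Q (hypC Q W a f) (-b) d) a (-b) f d := ⟨aW, W.neg_mem bW, fW, dW, qa, ew, hef.polar_eq, wf, ad,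
    hwd.polar_eq ▸ one_ne_zero, (hW.hypC hef aW fW).hypC hwd wH dH, rfl⟩
  refine ⟨_, _, _, _, _, B, hwd.1, by have := finrank_hypC hwd wH dH; have := finrank_hypC hef aW fW; omega,
    B.split hg h3 ?_⟩
  rintro _ (rfl | rfl | rfl | rfl)
  · rw [eich_app_self, ga]
  · rw [eich_app qa ew, wf, hef.polar_eq, hwd.1, hf]
    simp only [map_add, map_sub, map_smul, hb, ga, gb]
    module
  · rw [eich_app_of_polar ew hwd.polar_left, map_neg, gb]
  · rw [eich_app_of_perp qa ew ad, hwd.polar_eq, hd, map_add, map_smul, ha, gb]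
    module

theorem exists_eBlk (hW : NDon Q W) (hg : g ∈ movIn Q W) (h3 : g ^ 3 = 1) (h1 : g ≠ 1) {v : V}
    (hv : bet g v = 0 → ∀ x, bet g x = 0) : ∃ W' e w f d, EBlk Q W W' e w f d ∧ Q w = bet g v ∧
      finrank F W' + 3 ≤ finrank F W ∧ ∃ g₁ ∈ movIn Q W', g = eich Q e w * g₁ ∧ g₁ ^ 3 = 1 := by
  by_cases h : bet g v = 0
  · obtain ⟨W', e, w, f, d, a, b, c, H⟩ := exists_eBlk_two hQ hW hg h3 h1 (hv h)
    exact ⟨W', e, w, f, d, a, b.trans h.symm, by omega, H⟩
  · obtain ⟨W', e, w, f, d, a, b, c, H⟩ := exists_eBlk_three hQ hW hg h3 h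
    exact ⟨W', e, w, f, d, a, b, c.le, H⟩

omit hQ [FiniteDimensional F V] [CharP F 3] in
theorem exists_bet_imp (g : OG Q) : ∃ v, bet g v = 0 → ∀ x, bet g x = 0 := by
  by_cases h : ∀ x, bet g x = 0
  · exact ⟨0, fun _ => h⟩
  · obtain ⟨x, hx⟩ := not_forall.1 h
    exact ⟨x, fun h => absurd h hx⟩

/-- Elements of order three in dimension at most eight. -/
theorem exists_eich_or (h8 : finrank F V ≤ 8) (h3 : g ^ 3 = 1) (h1 : g ≠ 1) {v : V} (hv : bet g v = 0 → ∀ x, bet g x = 0) :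
    (∃ e w, LinearIndependent F ![e, w] ∧ Q e = 0 ∧ polar Q e w = 0 ∧ Q w = bet g v ∧ g = eich Q e w) ∨
      ∃ e w e' w', EFr Q e w e' w' ∧ LinearIndependent F ![e, w, e', w'] ∧ Q w = bet g v ∧
        g = eich Q e w * eich Q e' w' := by
  obtain ⟨W₁, e, w, f, d, B, a1, a2, g₁, a3, rfl, a4⟩ := exists_eBlk hQ (ndon_top hQ) (movIn_top (Q := Q) ▸ trivial) h3 h1 hv
  by_cases b0 : g₁ = 1
  · refine Or.inl ⟨e, w, LinearIndependent.pair_iff.2 fun s t h => ?_, B.qe, B.ew, a1, by rw [b0, mul_one]⟩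
    have h1 := congrArg (polar Q · f) h
    have h2 := congrArg (polar Q · d) h
    simp [polar_add_left, polar_smul_left, B.ef, B.wf, B.ed, B.wd] at h1 h2
    exact ⟨h1, h2⟩
  obtain ⟨v', hv'⟩ := exists_bet_imp g₁
  obtain ⟨W₂, e', w', f', d', B', -, b2, g₂, b3, rfl, b4⟩ := exists_eBlk hQ B.nd a3 a4 b0 hv'
  obtain rfl : g₂ = 1 := by
    by_contra c0
    obtain ⟨v'', hv''⟩ := exists_bet_imp g₂
    obtain ⟨W₃, -, -, -, -, -, -, c2, -⟩ := exists_eBlk hQ B'.nd b3 b4 c0 hv''
    rw [finrank_top] at a2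
    omega
  have m : ∀ {x}, x ∈ W₁ → polar Q e x = 0 ∧ polar Q f x = 0 ∧ polar Q w x = 0 ∧ polar Q d x = 0 := fun h => by
    rw [B.eq] at h
    exact ⟨h.1.1.1.2, h.1.1.2, h.1.2, h.2⟩
  obtain ⟨c1, c2, c3, c4⟩ := m B'.e_mem
  obtain ⟨c5, c6, c7, c8⟩ := m B'.w_mem
  obtain ⟨c9, -, c10, -⟩ := m B'.f_mem
  obtain ⟨c11, -, c12, -⟩ := m B'.d_mem
  rw [polar_comm] at c2 c4 c6 c8
  refine Or.inr ⟨e, w, e', w', ⟨B.qe, B'.qe, B.ew, c1, c5, c3, c7, B'.ew,
    fun a b => ⟨a • f + b • f', by simp [polar_add_right, polar_smul_right, B.ef, c9], by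
      simp [polar_add_right, polar_smul_right, B'.ef, c2]⟩⟩, Fintype.linearIndependent_iff.2 fun c h => ?_, a1, by rw [mul_one]⟩
  have h1 := congrArg (polar Q · f) h
  have h2 := congrArg (polar Q · d) h
  have h3 := congrArg (polar Q · f') h
  have h4 := congrArg (polar Q · d') h
  simp [Fin.sum_univ_four, polar_add_left, polar_smul_left, B.ef, B.wf, B.ed, B.wd, B'.ef, B'.wf, B'.ed, B'.wd, c2, c4, c6,
    c8, c9, c10, c11, c12] at h1 h2 h3 h4
  intro i
  fin_cases i <;> simpa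

end CL.Cls
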