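/-
Almost simple groups with socle `PΩ₈⁺(3)` and quotient `S₃`.
-/
import Cfsg.Agent.Cls.OTri2
import Cfsg.Agent.Loc.FStar

set_option autoImplicit false

open QuadraticMap Module Cfsg Equiv

namespace CL.Cls

section Embed

variable {G K : Type*} [Group G] [Group K]

/-- A self-centralising normal subgroup with trivial centre embeds the group in its automorphism group. -/
theorem exists_hom_mulAut (L : Subgroup G) [L.Normal] (hC : Subgroup.centralizer (L : Set G) ≤ L) (e : L ≃* K)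
    (hZ : Subgroup.center K = ⊥) : ∃ ψ : G →* MulAut K, Function.Injective ψ ∧
      (∀ g (x : L), ψ g (e x) = e (MulAut.conjNormal g x)) ∧ Cfsg.Inn K ≤ ψ.range ∧
        Nat.card (ψ.range.map (QuotientGroup.mk' (Cfsg.Inn K))) = L.index := by
  let ψ : G →* MulAut K := (MulAut.congr e).toMonoidHom.comp MulAut.conjNormal
  have h1 : ∀ g (x : L), ψ g (e x) = e (MulAut.conjNormal g x) := fun g x => by simp [ψ]
  have h2 : ∀ x : L, ψ x = MulAut.conj (e x) := fun x => MulEquiv.ext fun y => by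
    obtain ⟨y, rfl⟩ := e.surjective y
    rw [h1, MulAut.conj_apply, ← map_inv, ← map_mul, ← map_mul]
    rfl
  have h3 : Function.Injective ψ := (injective_iff_map_eq_one ψ).2 fun g hg => by
    have hc : ∀ x : L, g * x * g⁻¹ = x := fun x => congrArg Subtype.val (e.injective ((h1 g x).symm.trans (by rw [hg]; rfl)))
    have hL : g ∈ L := hC fun x hx => (mul_inv_eq_iff_eq_mul.1 (hc ⟨x, hx⟩)).symm
    have : e ⟨g, hL⟩ ∈ Subgroup.center K := Subgroup.mem_center_iff.2 fun y => by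
      obtain ⟨y, rfl⟩ := e.surjective y
      rw [← map_mul, ← map_mul]
      exact congrArg e (Subtype.ext (mul_inv_eq_iff_eq_mul.1 (hc y)).symm)
    rw [hZ, Subgroup.mem_bot, map_eq_one_iff _ e.injective] at this
    exact congrArg Subtype.val this
  refine ⟨ψ, h3, h1, ?_, ?_⟩
  · rintro _ ⟨y, rfl⟩
    obtain ⟨y, rfl⟩ := e.surjective y
    exact ⟨y, h2 y⟩
  rw [← MonoidHom.range_comp, ← Subgroup.index_ker]
  congr 1
  ext g
  refine (QuotientGroup.eq_one_iff _).trans ⟨fun ⟨y, hy⟩ => ?_, fun hg => ⟨_, (h2 ⟨g, hg⟩).symm⟩⟩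
  obtain ⟨y, rfl⟩ := e.surjective y
  exact h3 ((h2 y).trans hy) ▸ y.2

theorem exists_eq_stabilizer_of_card_six {H : Subgroup (Perm (Fin 4))} (h : Nat.card H = 6) :
    ∃ i : Fin 4, H = MulAction.stabilizer (Perm (Fin 4)) i := by
  have : Fact (Nat.Prime 3) := ⟨Nat.prime_three⟩
  obtain ⟨c, hc⟩ := exists_prime_orderOf_dvd_card' (G := H) 3 (by rw [h]; decide)
  have hn : (Subgroup.zpowers c).Normal := Subgroup.normal_of_index_eq_two (by
    have := (Subgroup.zpowers c).index_mul_card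
    rw [Nat.card_zpowers, hc, h] at this
    omega)
  obtain ⟨i, hi⟩ := (by decide +kernel : ∀ c : Perm (Fin 4), c ^ 3 = 1 → c ≠ 1 →
    ∃ i, ∀ g, g * c * g⁻¹ * c = c * (g * c * g⁻¹) → g i = i) c
    (congrArg Subtype.val (hc ▸ pow_orderOf_eq_one c : c ^ 3 = 1))
    (fun h1 => by rw [show c = 1 from Subtype.ext h1, orderOf_one] at hc; omega)
  refine ⟨i, Subgroup.eq_of_le_of_card_ge (fun g hg => hi g ?_) ?_⟩
  · obtain ⟨k, hk⟩ := hn.conj_mem c (Subgroup.mem_zpowers c) ⟨g, hg⟩
    have h1 := ((Commute.refl c).zpow_left k).eq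
    rw [show c ^ k = _ from hk] at h1
    exact congrArg Subtype.val h1
  · have := (MulAction.stabilizer (Perm (Fin 4)) i).index_mul_card
    rw [MulAction.index_stabilizer_of_transitive, Nat.card_perm, Nat.card_fin] at this
    simp only [Nat.factorial] at this
    omega

theorem exists_conj_of_card_six (e : K ≃* Perm (Fin 4)) {H H' : Subgroup K} (h : Nat.card H = 6) (h' : Nat.card H' = 6) :
    ∃ y, H' = H.map (MulAut.conj y).toMonoidHom := by
  obtain ⟨i, hi⟩ := exists_eq_stabilizer_of_card_six ((Subgroup.card_map_of_injective (f := e.toMonoidHom) e.injective).trans h)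
  obtain ⟨j, hj⟩ := exists_eq_stabilizer_of_card_six ((Subgroup.card_map_of_injective (f := e.toMonoidHom) e.injective).trans h')
  refine ⟨e.symm (swap i j), Subgroup.map_injective (f := e.toMonoidHom) e.injective ?_⟩
  rw [hj, show j = swap i j • i from (swap_apply_left i j).symm, MulAction.stabilizer_smul_eq_stabilizer_map_conj, ← hi,
    Subgroup.map_map, Subgroup.map_map]
  congr 1
  ext1 x
  simp

/-- Groups of automorphisms of index four in a group with outer automorphism group `S₄` are conjugate. -/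
theorem exists_conj_aut (e : Cfsg.Out K ≃* Perm (Fin 4)) {H H' : Subgroup (MulAut K)} (hI : Cfsg.Inn K ≤ H)
    (hI' : Cfsg.Inn K ≤ H') (h : Nat.card (H.map (QuotientGroup.mk' (Cfsg.Inn K))) = 6)
    (h' : Nat.card (H'.map (QuotientGroup.mk' (Cfsg.Inn K))) = 6) : ∃ θ, H' = H.map (MulAut.conj θ).toMonoidHom := by
  obtain ⟨y, hy⟩ := exists_conj_of_card_six e h h'
  obtain ⟨θ, rfl⟩ := QuotientGroup.mk'_surjective _ y
  refine ⟨θ, Subgroup.map_injective_of_ker_le (QuotientGroup.mk' (Cfsg.Inn K)) ((QuotientGroup.ker_mk' _).le.trans hI')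
    ((QuotientGroup.ker_mk' _).le.trans fun x hx => ⟨θ⁻¹ * x * θ, hI ((Cfsg.innNormal K).conj_mem' x hx θ), by simp [mul_assoc]⟩)
    ?_⟩
  rw [hy, Subgroup.map_map, Subgroup.map_map]
  rfl

end Embed

theorem out_plus_four_three : Nonempty (Cfsg.Out (POm (qfPlus 4 (ZMod 3))) ≃* Perm (Fin 4)) :=
  have : Fact (Nat.Prime 3) := ⟨Nat.prime_three⟩
  let ⟨e⟩ := out_plus_four_odd (F := ZMod 3) (p := 3) (f := 1) le_rfl (by simp) (by decide)
  ⟨e.trans MulEquiv.prodUnique⟩

theorem exists_hom_of_fstar {G : Type*} [Group G] [Finite G] {L : Subgroup G} (hL : L = Cfsg.generalizedFittingSubgroup G)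
    [L.Normal] (e : L ≃* POm (qfPlus 4 (ZMod 3))) (hq : Nonempty (G ⧸ L ≃* Perm (Fin 3))) :
    ∃ ψ : G →* MulAut (POm (qfPlus 4 (ZMod 3))), Function.Injective ψ ∧
      (∀ g (x : L), ψ g (e x) = e (MulAut.conjNormal g x)) ∧ Cfsg.Inn _ ≤ ψ.range ∧
        Nat.card (ψ.range.map (QuotientGroup.mk' (Cfsg.Inn _))) = 6 := by
  have : Fact (Nat.Prime 3) := ⟨Nat.prime_three⟩
  obtain ⟨ψ, h1, h2, h3, h4⟩ := exists_hom_mulAut L (hL ▸ CL.Loc.centralizer_fstar_le) e
    (center_POm nondeg_qfPlus (by rw [finrank_plus]; omega))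
  exact ⟨ψ, h1, h2, h3, h4.trans ((Nat.card_congr hq.some.toEquiv).trans (by simp [Fintype.card_perm, Nat.factorial]))⟩

end CL.Cls
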