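/-
Orbits on subgroups of order three: general tools, and invariants of elements of order three of orthogonal groups over `𝔽₃`.
-/
import Cfsg.Agent.Cls.OThree1
import Cfsg.Agent.Cls.OTri3
import Cfsg.Agent.Cls.OrthExt

set_option autoImplicit false
set_option linter.unusedSectionVars false

open QuadraticMap Module Subgroup

namespace CL.Cls

section Abstract

variable {K G : Type*} [Group K] [Group G] {H : Subgroup (MulAut K)} {x y z : K}

/-- `x` is mapped to `y` or its inverse by an automorphism in `H`. -/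
def Rel3 (H : Subgroup (MulAut K)) (x y : K) : Prop := ∃ θ ∈ H, θ x = y ∨ θ x = y⁻¹

namespace Rel3

theorem app {θ : MulAut K} (hθ : θ ∈ H) (x : K) : Rel3 H x (θ x) := ⟨θ, hθ, Or.inl rfl⟩

theorem refl (x : K) : Rel3 H x x := app (one_mem _) x

theorem inv (x : K) : Rel3 H x x⁻¹ := ⟨1, one_mem _, Or.inr (inv_inv x).symm⟩

theorem symm (h : Rel3 H x y) : Rel3 H y x := by
  obtain ⟨θ, hθ, h⟩ := h
  refine ⟨θ⁻¹, inv_mem hθ, h.imp (fun h => ?_) fun h => ?_⟩
  · simp [← h]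
  · simp [inv_eq_iff_eq_inv.2 h |>.symm]

theorem trans (h : Rel3 H x y) (h' : Rel3 H y z) : Rel3 H x z := by
  obtain ⟨θ, hθ, h⟩ := h
  obtain ⟨θ', hθ', h'⟩ := h'
  refine ⟨θ' * θ, mul_mem hθ' hθ, ?_⟩
  rcases h with h | h <;> rcases h' with h' | h' <;> simp [h, h']

theorem mono {H' : Subgroup (MulAut K)} (hH : H ≤ H') (h : Rel3 H x y) : Rel3 H' x y :=
  let ⟨θ, hθ, h⟩ := h
  ⟨θ, hH hθ, h⟩

theorem map [hn : H.Normal] (h : Rel3 H x y) (α : MulAut K) : Rel3 H (α x) (α y) := by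
  obtain ⟨θ, hθ, h⟩ := h
  exact ⟨_, hn.conj_mem θ hθ α, by rcases h with h | h <;> simp [h]⟩

theorem of_map [H.Normal] {α : MulAut K} (h : Rel3 H (α x) (α y)) : Rel3 H x y := by simpa using h.map α⁻¹

end Rel3

/-- `r` represents the orbits of `H` on the subgroups of order three. -/
structure Cl3 {ι : Type*} (H : Subgroup (MulAut K)) (r : ι → K) : Prop where
  ord : ∀ i, orderOf (r i) = 3
  inj : ∀ i j, Rel3 H (r i) (r j) → i = j
  surj : ∀ x, orderOf x = 3 → ∃ i, Rel3 H x (r i)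

theorem eq_or_inv_of_mem_zpowers (hy : orderOf y = 3) (hx : x ∈ zpowers y) (h1 : x ≠ 1) : x = y ∨ x = y⁻¹ := by
  obtain ⟨k, rfl⟩ := hx
  have h3 : y ^ 3 = 1 := hy ▸ pow_orderOf_eq_one y
  simp only [← zpow_mod_orderOf y k, hy] at h1 ⊢
  obtain h | h | h : k % 3 = 0 ∨ k % 3 = 1 ∨ k % 3 = 2 := by omega
  · simp [h] at h1
  · simp [h]
  · exact Or.inr (by simpa [h, eq_inv_iff_mul_eq_one, zpow_ofNat, ← pow_succ] using h3)

namespace Cl3

variable {ι κ : Type*} {r : ι → K}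

theorem reindex (h : Cl3 H r) (e : κ ≃ ι) : Cl3 H (r ∘ e) :=
  ⟨fun _ => h.ord _, fun _ _ h' => e.injective (h.inj _ _ h'), fun x hx =>
    let ⟨i, hi⟩ := h.surj x hx
    ⟨e.symm i, by simpa using hi⟩⟩

theorem conj (h : Cl3 H r) (θ : MulAut K) : Cl3 (H.map (MulAut.conj θ).toMonoidHom) (θ ∘ r) := by
  have key : ∀ x y, Rel3 (H.map (MulAut.conj θ).toMonoidHom) (θ x) (θ y) ↔ Rel3 H x y := fun x y => by
    refine ⟨?_, fun ⟨α, hα, h⟩ => ⟨_, ⟨α, hα, rfl⟩, by rcases h with h | h <;> simp [h]⟩⟩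
    rintro ⟨_, ⟨α, hα, rfl⟩, h⟩
    exact ⟨α, hα, by simpa [← map_inv] using h⟩
  refine ⟨fun i => (θ.orderOf_eq _).trans (h.ord i), fun i j h' => h.inj i j ((key _ _).1 h'), fun x hx => ?_⟩
  obtain ⟨x, rfl⟩ := θ.surjective x
  obtain ⟨i, hi⟩ := h.surj x ((θ.orderOf_eq _).symm.trans hx)
  exact ⟨i, (key _ _).2 hi⟩

theorem fuse [H.Normal] (h : Cl3 H r) (S : Set (MulAut K)) (π : ι → κ) (ρ : κ → ι) (hπ : ∀ k, π (ρ k) = k)
    (h1 : ∀ a ∈ S, ∀ i j, Rel3 H (a (r i)) (r j) → π i = π j) (h2 : ∀ i, Rel3 (H ⊔ closure S) (r i) (r (ρ (π i)))) :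
    Cl3 (H ⊔ closure S) (r ∘ ρ) := by
  let P : Subgroup (MulAut K) :=
    { carrier := {θ | ∀ i j, Rel3 H (θ (r i)) (r j) → π i = π j}
      one_mem' := fun i j h' => congrArg π (h.inj i j h')
      mul_mem' := fun {a b} ha hb i j h' => by
        obtain ⟨k, hk⟩ := h.surj (b (r i)) ((b.orderOf_eq _).trans (h.ord i))
        exact (hb i k hk).trans (ha k j ((hk.map a).symm.trans h'))
      inv_mem' := fun {a} ha i j h' => (ha j i (by simpa using (h'.map a).symm)).symm }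
  have hP : H ⊔ closure S ≤ P := sup_le (fun θ hθ i j h' => congrArg π (h.inj i j ((Rel3.app hθ _).trans h')))
    ((closure_le P).2 h1)
  refine ⟨fun _ => h.ord _, fun k l ⟨θ, hθ, h'⟩ => ?_, fun x hx => ?_⟩
  · rw [← hπ k, ← hπ l]
    exact hP hθ _ _ ⟨1, one_mem _, h'⟩
  · obtain ⟨i, hi⟩ := h.surj x hx
    exact ⟨π i, (hi.mono le_sup_left).trans (h2 i)⟩

theorem subgroups {L : Subgroup G} [L.Normal] (e : L ≃* K) (ψ : G →* MulAut K)
    (hψ : ∀ g (x : L), ψ g (e x) = e (MulAut.conjNormal g x)) (h : Cl3 ψ.range r) :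
    ∃ Y : ι → Subgroup G, (∀ i, Y i ≤ L ∧ Nat.card (Y i) = 3) ∧
      (∀ i j, (∃ g : G, (Y i).map (MulAut.conj g).toMonoidHom = Y j) → i = j) ∧
      ∀ X : Subgroup G, X ≤ L → Nat.card X = 3 → ∃ i, ∃ g : G, X.map (MulAut.conj g).toMonoidHom = Y i := by
  have ho : ∀ x : L, orderOf (x : G) = orderOf (e x) := fun x => by rw [e.orderOf_eq, Subgroup.orderOf_coe]
  have key : ∀ x y : L, orderOf (e x) = 3 → orderOf (e y) = 3 →
      ((∃ g : G, (zpowers (x : G)).map (MulAut.conj g).toMonoidHom = zpowers (y : G)) ↔ Rel3 ψ.range (e x) (e y)) := by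
    refine fun x y hx hy => ⟨fun ⟨g, hg⟩ => ⟨_, ⟨g, rfl⟩, ?_⟩, ?_⟩
    · rw [MonoidHom.map_zpowers] at hg
      rw [hψ, ← map_inv, e.apply_eq_iff_eq, e.apply_eq_iff_eq, Subtype.ext_iff, Subtype.ext_iff]
      refine eq_or_inv_of_mem_zpowers ((ho y).trans hy) (hg ▸ mem_zpowers _) fun h1 => ?_
      rw [← ho, ← (MulAut.conj g).orderOf_eq, show MulAut.conj g (x : G) = 1 from h1, orderOf_one] at hx
      omega
    · rintro ⟨_, ⟨g, rfl⟩, hg⟩
      rw [hψ, ← map_inv, e.apply_eq_iff_eq, e.apply_eq_iff_eq, Subtype.ext_iff, Subtype.ext_iff] at hg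
      refine ⟨g, (MonoidHom.map_zpowers _ _).trans ?_⟩
      rcases hg with hg | hg
      exacts [congrArg zpowers hg, (congrArg zpowers hg).trans zpowers_inv]
  have h3 : ∀ i, orderOf (e (e.symm (r i))) = 3 := fun i => by rw [e.apply_symm_apply, h.ord]
  refine ⟨fun i => zpowers (e.symm (r i) : G), fun i => ⟨zpowers_le.2 (e.symm (r i)).2, by rw [Nat.card_zpowers, ho, h3]⟩,
    fun i j h' => h.inj i j (by simpa using (key _ _ (h3 i) (h3 j)).1 h'), fun X hX hc => ?_⟩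
  have : Finite X := Nat.finite_of_card_ne_zero (by omega)
  have : Fact (Nat.Prime 3) := ⟨Nat.prime_three⟩
  obtain ⟨x, hx⟩ := exists_prime_orderOf_dvd_card' (G := X) 3 hc.symm.dvd
  rw [← Subgroup.orderOf_coe] at hx
  have h4 := (ho ⟨x, hX x.2⟩).symm.trans hx
  obtain ⟨i, hi⟩ := h.surj _ h4
  rw [← Subgroup.eq_of_le_of_card_ge (zpowers_le.2 x.2) (by rw [Nat.card_zpowers, hx, hc])]
  exact ⟨i, (key _ _ h4 (h3 i)).2 (by simpa using hi)⟩

theorem subgroups_inn (e : G ≃* K) (h : Cl3 (Cfsg.Inn K) r) :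
    ∃ Y : ι → Subgroup G, (∀ i, Nat.card (Y i) = 3) ∧
      (∀ i j, (∃ g : G, (Y i).map (MulAut.conj g).toMonoidHom = Y j) → i = j) ∧
      ∀ X : Subgroup G, Nat.card X = 3 → ∃ i, ∃ g : G, X.map (MulAut.conj g).toMonoidHom = Y i := by
  obtain ⟨Y, h1, h2, h3⟩ := subgroups (topEquiv.trans e) (MulAut.conj.comp e.toMonoidHom)
    (fun g x => by simp [← map_mul, ← map_inv]) (r := r) (by
      rwa [MonoidHom.range_comp, MonoidHom.range_eq_top.2 e.surjective, ← MonoidHom.range_eq_map])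
  exact ⟨Y, fun i => (h1 i).2, h2, fun X => h3 X le_top⟩

end Cl3

theorem card_closure_pair {a b : K} (ha : a * a = 1) (hb : b * b = 1) (hab : (a * b) ^ 3 = 1) (h : a * b ≠ 1) :
    Nat.card (closure {a, b}) = 6 := by
  have : Fact (Nat.Prime 3) := ⟨Nat.prime_three⟩
  obtain ⟨ψ, hψ⟩ := exists_perm_three_hom ha hb hab
  have ma : a ∈ closure {a, b} := subset_closure (by simp)
  have mb : b ∈ closure {a, b} := subset_closure (by simp)
  have h1 : b ≠ 1 := by
    rintro rfl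
    rw [mul_one] at h hab
    rw [pow_three, ha, mul_one] at hab
    exact h hab
  refine Nat.dvd_antisymm (by simpa [hψ, Fintype.card_perm, Nat.factorial] using card_range_dvd ψ)
    (Nat.Coprime.mul_dvd_of_dvd_of_dvd (m := 2) (n := 3) (by decide) ?_ ?_)
  · exact orderOf_eq_prime ((pow_two b).trans hb) h1 ▸ orderOf_dvd_natCard _ mb
  · exact orderOf_eq_prime hab h ▸ orderOf_dvd_natCard _ (mul_mem ma mb)

end Abstract

section Generic

variable {F V V' : Type*} [Field F] [AddCommGroup V] [Module F V] [AddCommGroup V'] [Module F V'] {Q : QuadraticForm F V}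
  {Q' : QuadraticForm F V'} {x y : OG Q}

/-- Conjugacy under `Ω` up to inversion. -/
abbrev Om (x y : OG Q) : Prop := Rel3 ((commutator (OG Q)).map MulAut.conj) x y

theorem om_conj {g : OG Q} (hg : g ∈ commutator (OG Q)) (x : OG Q) : Om x (g * x * g⁻¹) :=
  ⟨_, ⟨g, hg, rfl⟩, Or.inl rfl⟩

theorem om_iff : Om x y ↔ ∃ g ∈ commutator (OG Q), g * x * g⁻¹ = y ∨ g * x * g⁻¹ = y⁻¹ :=
  ⟨by rintro ⟨_, ⟨g, hg, rfl⟩, h⟩; exact ⟨g, hg, h⟩, fun ⟨g, hg, h⟩ => ⟨_, ⟨g, hg, rfl⟩, h⟩⟩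

theorem Om.map_hom (h : Om x y) (ι : OG Q →* OG Q') : Om (ι x) (ι y) := by
  obtain ⟨g, hg, h⟩ := om_iff.1 h
  refine om_iff.2 ⟨ι g, ?_, by rcases h with h | h <;> simp [← map_mul, ← map_inv, h]⟩
  exact (map_commutator _ _ ι).le.trans (commutator_mono le_top le_top) ⟨g, hg, rfl⟩

theorem exists_embed {V₁ : Type*} [AddCommGroup V₁] [Module F V₁] {Q₁ : QuadraticForm F V₁} (φ : (V × V₁) ≃ₗ[F] V')
    (hφ : ∀ v, Q' (φ v) = Q.prod Q₁ v) :
    ∃ ι : OG Q →* OG Q', ∀ u w, ι (eich Q u w) = eich Q' (φ (u, 0)) (φ (w, 0)) := by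
  have hq : ∀ u, Q' (φ (u, 0)) = Q u := fun u => by simp [hφ]
  have hp : ∀ u v, polar Q' (φ (u, 0)) (φ v) = polar Q u v.1 := fun u v => by
    simp only [polar, ← map_add, hφ]; simp [prod_apply]; ring
  refine ⟨(OG.congr φ hφ).toMonoidHom.comp ((OG.prodMap Q Q₁).comp (MonoidHom.inl _ _)), fun u w => ?_⟩
  by_cases h : Q u = 0 ∧ polar Q u w = 0
  · refine OG.ext' fun v => ?_
    obtain ⟨v, rfl⟩ := φ.surjective v
    rw [eich_app ((hq u).trans h.1) ((hp u _).trans h.2), hp, hp, hq, ← map_smul, ← map_smul, ← map_smul, ← map_add,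
      ← map_sub, ← map_sub]
    change φ ((eich Q u w).1 (φ.symm (φ v)).1, (φ.symm (φ v)).2) = _
    rw [φ.symm_apply_apply, eich_app h.1 h.2]
    congr 1
    ext <;> simp
  · rw [eich_of_not h, map_one, eich_of_not (by rwa [hq, hp])]

theorem heis [CharP F 3] {a b c d : V} (ha : Q a = 0) (hb : Q b = 0) (hc : Q c = 0) (hd : Q d = 0) (ab : polar Q a b = 0)
    (ac : polar Q a c = 0) (ad : polar Q a d = 0) (bd : polar Q b d = 0) (cd : polar Q c d = 0) (bc : polar Q b c = 1) :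
    (eich Q a b * eich Q c d) ^ 3 = 1 ∧ ∀ v, bet (eich Q a b * eich Q c d) v = -(polar Q a v * polar Q d v) := by
  have t : (3 : F) = 0 := CharP.cast_eq_zero F 3
  have hs : ∀ v, (eich Q a b * eich Q c d).1 v =
      v + (polar Q d v • c - polar Q c v • d + (polar Q b v + polar Q d v) • a - polar Q a v • b) := fun v => by
    rw [OG.mul_app, eich_app_sing ha hb ab, eich_app_sing hc hd cd]
    simp only [polar_add_right, polar_sub_right, polar_smul_right, bc, bd, ac, ad, smul_eq_mul]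
    module
  refine ⟨OG.ext' fun v => ?_, fun v => ?_⟩
  · rw [pow_three, OG.mul_app, OG.mul_app (eich Q a b * eich Q c d), hs, hs, hs, OG.one_app]
    simp only [polar_add_right, polar_sub_right, polar_smul_right, polar_self', ha, hb, hc, hd, ab, ac, ad, bd, cd, bc,
      polar_comm Q b a, polar_comm Q c a, polar_comm Q d a, polar_comm Q c b, polar_comm Q d b, polar_comm Q d c, smul_eq_mul]
    linear_combination (norm := module) t • (polar Q d v • c - polar Q c v • d + (polar Q b v + polar Q d v) • a -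
      polar Q a v • b + polar Q a v • d + polar Q d v • a)
  · rw [bet, hs, add_sub_cancel_left]
    simp only [map_sub', map_add', map_smul', polar_add_left, polar_sub_left, polar_smul_left, polar_smul_right, ha, hb, hc, hd,
      ab, ac, ad, bd, cd, bc, polar_comm Q c a, polar_comm Q d a, polar_comm Q c b, polar_comm Q d b, smul_eq_mul]
    ring

open Classical in
/-- The class in `PΩ` of an element of `Ω`. -/
noncomputable def pm3 (x : OG Q) : POm Q := if h : x ∈ commutator (OG Q) then pm h else 1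

theorem pm3_eq (hx : x ∈ commutator (OG Q)) : pm3 x = pm hx := dif_pos hx

theorem pm3_mul (hx : x ∈ commutator (OG Q)) (hy : y ∈ commutator (OG Q)) : pm3 (x * y) = pm3 x * pm3 y := by
  rw [pm3_eq hx, pm3_eq hy, pm3_eq (mul_mem hx hy), pm_mul]

theorem toAut_pm3 (g : OG Q) (hx : x ∈ commutator (OG Q)) :
    GamO.toAut Q (GamO.ofOG Q g) (pm3 x) = pm3 (g * x * g⁻¹) := by
  rw [pm3_eq hx, GamO.toAut_pm, ← pm3_eq, GamO.toAutOG_ofOG]

variable [Finite F] [FiniteDimensional F V] (hQ : (polarBilin Q).Nondegenerate)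
include hQ

theorem om_of_conj (h2 : (2 : F) ≠ 0) {n d k : OG Q} (hn : dickson hQ n = -1) (hd : dickson hQ d = 1) (hd' : spinor hQ d = -1)
    (h : k * x * k⁻¹ = y) : Om x y ∨ Om x (d * y * d⁻¹) ∨ Om x (n * y * n⁻¹) ∨ Om x (d * (n * y * n⁻¹) * d⁻¹) := by
  have key : ∀ k : OG Q, dickson hQ k = 1 → Om x (k * x * k⁻¹) ∨ Om x (d * (k * x * k⁻¹) * d⁻¹) := fun k hk => by
    have H := mem_commutator_OG_iff hQ (Or.inl (exists_ne_zero_one_of_two_ne_zero h2))
    rcases Int.units_eq_one_or (spinor hQ k) with hs | hs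
    · exact Or.inl (om_conj ((H k).2 ⟨hk, hs⟩) x)
    · exact Or.inr (by simpa [mul_assoc] using om_conj ((H (d * k)).2 (by simp [*])) x)
  subst h
  rcases Int.units_eq_one_or (dickson hQ k) with hk | hk
  · exact (key k hk).imp_right Or.inl
  · exact Or.inr (Or.inr (by simpa [mul_assoc] using key (n * k) (by simp [*])))

variable [CharP F 3] (h5 : 5 ≤ finrank F V)

theorem mem_commutator_of_three (hx : x ^ 3 = 1) : x ∈ commutator (OG Q) :=
  mem_commutator_of_odd hQ (fun h => one_ne_zero (α := F) (by linear_combination three_eq_zero' (F := F) - h)) (by decide) hx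

include h5

theorem rel3_pm3_iff (hx : x ^ 3 = 1) (hy : y ^ 3 = 1) : Rel3 (Cfsg.Inn (POm Q)) (pm3 x) (pm3 y) ↔ Om x y := by
  have mx := mem_commutator_of_three hQ hx
  have my := mem_commutator_of_three hQ hy
  rw [om_iff, pm3_eq mx, pm3_eq my]
  constructor
  · rintro ⟨_, ⟨g, rfl⟩, h⟩
    obtain ⟨g, hg, rfl⟩ := exists_pm g
    rw [MulAut.conj_apply, ← pm_conj, ← pm_inv] at h
    have h3 : (g * x * g⁻¹) ^ 3 = 1 := by rw [conj_pow, hx, mul_one, mul_inv_cancel]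
    exact ⟨g, hg, h.imp (fun h => eq_of_pm_eq 3 hQ h5 h.symm hy h3) fun h =>
      eq_of_pm_eq 3 hQ h5 h.symm (by rw [inv_pow, hy, inv_one]) h3⟩
  · rintro ⟨g, hg, h⟩
    exact ⟨_, ⟨pm hg, rfl⟩, h.imp (fun h => (pm_conj hg mx).symm.trans (pm_congr _ _ h)) fun h =>
      (pm_conj hg mx).symm.trans (pm_congr _ (inv_mem my) h)⟩

theorem cl3_of_om {ι : Type*} {r : ι → OG Q} (h3 : ∀ i, r i ^ 3 = 1) (h1 : ∀ i, r i ≠ 1) (inj : ∀ i j, Om (r i) (r j) → i = j)
    (surj : ∀ x, x ^ 3 = 1 → x ≠ 1 → ∃ i, Om x (r i)) : Cl3 (Cfsg.Inn (POm Q)) fun i => pm3 (r i) := by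
  refine ⟨fun i => ?_, fun i j h => inj i j ((rel3_pm3_iff hQ h5 (h3 i) (h3 j)).1 h), fun g hg => ?_⟩
  · have m := mem_commutator_of_three hQ (h3 i)
    rw [pm3_eq m]
    exact orderOf_eq_prime ((pm_pow m 3).symm.trans (pm_congr _ (one_mem _) (h3 i))) fun h =>
      h1 i (eq_of_pm_eq 3 hQ h5 (pm_one.trans h.symm) (one_pow _) (h3 i))
  · obtain ⟨x, hx, rfl, h⟩ := exists_pm_pow_char 3 hQ h5 (hg ▸ pow_orderOf_eq_one g : g ^ 3 = 1)
    obtain ⟨i, hi⟩ := surj x h (by rintro rfl; rw [pm_one, orderOf_one] at hg; omega)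
    exact ⟨i, pm3_eq hx ▸ (rel3_pm3_iff hQ h5 h (h3 i)).2 hi⟩

end Generic

section Three

variable {V : Type*} [AddCommGroup V] [Module (ZMod 3) V] {Q : QuadraticForm (ZMod 3) V} {x y : OG Q}

open Classical in
/-- An invariant of the quadratic form `bet x`. -/
noncomputable def jinv (x : OG Q) : Bool × Bool × Bool :=
  (decide (∃ v, bet x v = 1), decide (∃ v, bet x v = -1), decide (∃ v u, bet x v = 0 ∧ bet x (v + u) ≠ bet x u))

/-- The same invariant for a function on the plane. -/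
def jq (q : ZMod 3 × ZMod 3 → ZMod 3) : Bool × Bool × Bool :=
  (decide (∃ p, q p = 1), decide (∃ p, q p = -1), decide (∃ p p', q p = 0 ∧ q (p + p') ≠ q p'))

/-- The invariant of a diagonal form. -/
def jt (a b : ZMod 3) : Bool × Bool × Bool := jq fun p => p.1 ^ 2 * a + p.2 ^ 2 * b

theorem jinv_aux {A B : Type*} [Add A] [Add B] {φ : A → B} (hφ : Function.Surjective φ) (hadd : ∀ u v, φ (u + v) = φ u + φ v)
    {p : A → ZMod 3} {q : B → ZMod 3} (h : ∀ v, p v = q (φ v)) : ((∃ v, p v = 1) ↔ ∃ v, q v = 1) ∧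
      ((∃ v, p v = -1) ↔ ∃ v, q v = -1) ∧ ((∃ v u, p v = 0 ∧ p (v + u) ≠ p u) ↔ ∃ v u, q v = 0 ∧ q (v + u) ≠ q u) := by
  rw [hφ.exists, hφ.exists, hφ.exists₂]
  simp only [h, hadd, and_self]

theorem jinv_eq {a b : V} (hs : ∀ s t, ∃ v, polar Q a v = s ∧ polar Q b v = t) (q : ZMod 3 × ZMod 3 → ZMod 3)
    (h : ∀ v, bet x v = q (polar Q a v, polar Q b v)) : jinv x = jq q := by
  simp only [jinv, jq, Prod.mk.injEq, decide_eq_decide]
  exact jinv_aux (fun p => let ⟨v, h1, h2⟩ := hs p.1 p.2; ⟨v, Prod.ext h1 h2⟩) (fun u v => by simp [polar_add_right]) h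

theorem EFr.jinv {e w e' w' : V} (h : EFr Q e w e' w') : jinv (eich Q e w * eich Q e' w') = jt (Q w) (Q w') :=
  jinv_eq h.dual _ h.bet

theorem jinv_conj (g x : OG Q) : jinv (g * x * g⁻¹) = jinv x := by
  symm
  simp only [jinv, Prod.mk.injEq, decide_eq_decide]
  exact jinv_aux g.1.surjective (map_add g.1) fun v => (bet_conj g x v).symm

theorem jinv_inv (x : OG Q) : jinv x⁻¹ = jinv x := by
  symm
  simp only [jinv, Prod.mk.injEq, decide_eq_decide]
  exact jinv_aux x.1.surjective (map_add x.1) fun v => (bet_inv x v).symm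

theorem Om.jinv_eq (h : Om x y) : jinv x = jinv y := by
  obtain ⟨g, -, h | h⟩ := om_iff.1 h
  · rw [← h, jinv_conj]
  · rw [← jinv_inv y, ← h, jinv_conj]

theorem refl_app_three (v u : V) : (refl Q v).1 u = u - (Q v * polar Q v u) • v := by
  rw [refl_app, (by decide +kernel : ∀ a : ZMod 3, a⁻¹ = a)]

variable [FiniteDimensional (ZMod 3) V] (hQ : (polarBilin Q).Nondegenerate)
include hQ

theorem spinor_refl_three {v : V} (h : Q v = 1) : spinor hQ (refl Q v) = 1 :=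
  (spinor_refl_eq_one_iff hQ (h ▸ one_ne_zero)).2 (h ▸ IsSquare.one)

theorem spinor_refl_three' {v : V} (h : Q v = -1) : spinor hQ (refl Q v) = -1 :=
  (spinor_refl_eq_neg_one_iff hQ (by rw [h]; decide)).2 (by rw [h]; decide)

theorem exists_eich_or_three (h8 : finrank (ZMod 3) V ≤ 8) (h3 : x ^ 3 = 1) (h1 : x ≠ 1) :
    (∃ e w, LinearIndependent (ZMod 3) ![e, w] ∧ Q e = 0 ∧ polar Q e w = 0 ∧ x = eich Q e w) ∨
      ∃ e w e' w', EFr Q e w e' w' ∧ LinearIndependent (ZMod 3) ![e, w, e', w'] ∧ (Q w' = 0 ∨ Q w = 1) ∧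
        x = eich Q e w * eich Q e' w' := by
  obtain ⟨v, hv, hv'⟩ : ∃ v, (bet x v = 0 → ∀ u, bet x u = 0) ∧ ∀ u, bet x u = 1 → bet x v = 1 := by
    by_cases h : ∃ v, bet x v = 1
    · obtain ⟨v, h⟩ := h
      exact ⟨v, fun h' => absurd (h.symm.trans h') one_ne_zero, fun _ _ => h⟩
    · obtain ⟨v, h'⟩ := exists_bet_imp x
      exact ⟨v, h', fun u hu => absurd ⟨u, hu⟩ h⟩
  rcases exists_eich_or hQ h8 h3 h1 hv with ⟨e, w, a, b, c, -, d⟩ | ⟨e, w, e', w', a, b, c, rfl⟩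
  · exact Or.inl ⟨e, w, a, b, c, d⟩
  refine Or.inr ⟨e, w, e', w', a, b, ?_, rfl⟩
  rw [← c] at hv hv'
  refine (by decide : ∀ a b : ZMod 3, (a = 0 → b = 0) → (b = 1 → a = 1) → (a + b = 1 → a = 1) → b = 0 ∨ a = 1) _ _
    (fun h => ?_) (fun h => ?_) fun h => ?_
  · obtain ⟨u, h1, h2⟩ := a.dual 0 1
    simpa [a.bet, h1, h2] using hv h u
  · obtain ⟨u, h1, h2⟩ := a.dual 0 1
    exact hv' u (by simp [a.bet, h1, h2, h])
  · obtain ⟨u, h1, h2⟩ := a.dual 1 1
    exact hv' u (by simp [a.bet, h1, h2, h])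

end Three

end CL.Cls
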