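/-
The classes of subgroups of order three of `PΩ₈⁺(3)`.
-/
import Cfsg.Agent.Cls.OThree2

set_option autoImplicit false

open QuadraticMap Module Subgroup CL.Chev

namespace CL.Cls

theorem conj_eich_mul {F V : Type*} [Field F] [AddCommGroup V] [Module F V] {Q : QuadraticForm F V} {g : OG Q}
    {e w e' w' a b a' b' : V} (h : g.1 e = a ∧ g.1 w = b ∧ g.1 e' = a' ∧ g.1 w' = b') :
    g * (eich Q e w * eich Q e' w') * g⁻¹ = eich Q a b * eich Q a' b' := by
  rw [← conj_mul, eich_conj, eich_conj, h.1, h.2.1, h.2.2.1, h.2.2.2]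

theorem EFr.app {F V : Type*} [Field F] [AddCommGroup V] [Module F V] {Q : QuadraticForm F V} {e w e' w' x : V}
    (h : EFr Q e w e' w') (h1 : eich Q e w * eich Q e' w' = 1) (hx : polar Q e' x = 0) (hx' : polar Q w' x = 0) :
    x + polar Q w x • e - polar Q e x • w - (Q w * polar Q e x) • e = x := by
  rw [← eich_app h.qe h.ew, ← eich_app_of_polar hx hx', ← OG.mul_app, h1, eich_app_of_polar hx hx', OG.one_app]

theorem map_sup_closure_pair {K : Type*} [Group K] (N : Subgroup K) [N.Normal] (a b : K) :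
    (N ⊔ closure {a, b}).map (QuotientGroup.mk' N) = closure {QuotientGroup.mk' N a, QuotientGroup.mk' N b} := by
  rw [Subgroup.map_sup, (Subgroup.map_eq_bot_iff N).2 (QuotientGroup.ker_mk' _).ge, bot_sup_eq, MonoidHom.map_closure,
    Set.image_pair]

theorem jinv_one {V : Type*} [AddCommGroup V] [Module (ZMod 3) V] {Q : QuadraticForm (ZMod 3) V} :
    jinv (1 : OG Q) = (false, false, false) := by
  simp [jinv, bet]

theorem jinv_mul_comm {V : Type*} [AddCommGroup V] [Module (ZMod 3) V] {Q : QuadraticForm (ZMod 3) V} (x y : OG Q) :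
    jinv (x * y) = jinv (y * x) := by
  rw [← jinv_conj x (y * x), ← mul_assoc, mul_inv_cancel_right]

local notation "Q8" => qfPlus 4 (ZMod 3)
local notation "B8" => d4B (ZMod 3)

/-- Products of the three commuting root elements at the end nodes of the diagram. -/
noncomputable def W8 (a b c : ZMod 3) : OG Q8 := eich Q8 (B8 2) (b • B8 7 + c • B8 3) * eich Q8 (B8 0) (a • B8 5)

/-- Elements with two Jordan blocks of size three. -/
noncomputable def U8 (ε : ZMod 3) : OG Q8 := eich Q8 (B8 1) (B8 3 + B8 7) * eich Q8 (B8 0) (B8 2 + ε • B8 6)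

theorem efr_W8 (a b c : ZMod 3) : EFr Q8 (B8 2) (b • B8 7 + c • B8 3) (B8 0) (a • B8 5) :=
  ⟨by decide +kernel, by decide +kernel, by decide +kernel +revert, by decide +kernel, by decide +kernel +revert,
    by decide +kernel +revert, by decide +kernel +revert, by decide +kernel +revert,
    fun s t => ⟨s • B8 6 + t • B8 4, by clear a b c; decide +kernel +revert⟩⟩

theorem efr_U8 (ε : ZMod 3) : EFr Q8 (B8 1) (B8 3 + B8 7) (B8 0) (B8 2 + ε • B8 6) :=
  ⟨by decide +kernel, by decide +kernel, by decide +kernel, by decide +kernel, by decide +kernel +revert,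
    by decide +kernel, by decide +kernel +revert, by decide +kernel +revert,
    fun s t => ⟨s • B8 5 + t • B8 4, by clear ε; decide +kernel +revert⟩⟩

theorem jinv_W8 (a b c : ZMod 3) : jinv (W8 a b c) = jt (b * c) 0 :=
  (efr_W8 a b c).jinv.trans (congrArg₂ _ (by decide +kernel +revert) (by decide +kernel +revert))

theorem jinv_U8 (ε : ZMod 3) : jinv (U8 ε) = jt 1 ε :=
  (efr_U8 ε).jinv.trans (congrArg₂ _ (by decide +kernel) (by decide +kernel +revert))

theorem W8_pow (a b c : ZMod 3) : W8 a b c ^ 3 = 1 := (efr_W8 a b c).pow_three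

theorem U8_pow (ε : ZMod 3) : U8 ε ^ 3 = 1 := (efr_U8 ε).pow_three

theorem om_W8_neg (a b c : ZMod 3) : Om (W8 a b c) (W8 (-a) (-b) (-c)) := by
  have h := efr_W8 a b c
  convert Rel3.inv (W8 a b c) using 1
  rw [W8, W8, h.commute.eq, mul_inv_rev, eich_inv h.qe h.ew, eich_inv h.qe' h.e'w', neg_add, neg_smul, neg_smul, neg_smul]

theorem W8_ne_one {a b c : ZMod 3} (h : W8 a b c = 1) : a = 0 ∧ b = 0 ∧ c = 0 := by
  have e := efr_W8 a b c
  have h1 := e.app (x := B8 6) h (by decide +kernel) (by clear h e; decide +kernel +revert)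
  have h2 := congrArg (fun g : OG Q8 => g.1 (B8 1)) h
  simp only [W8, OG.mul_app, eich_app e.qe e.ew, eich_app e.qe' e.e'w', OG.one_app] at h2
  clear h e
  decide +kernel +revert

theorem conj_W8 (a b c : ZMod 3) : refl Q8 (B8 3 - B8 7) * W8 a b c * (refl Q8 (B8 3 - B8 7))⁻¹ = W8 a c b :=
  conj_eich_mul (by simp only [refl_app_three]; decide +kernel +revert)

theorem conj_W8' (a b c : ZMod 3) : refl Q8 (B8 3 + B8 7) * refl Q8 (B8 3 - B8 7) * W8 a b c *
    (refl Q8 (B8 3 + B8 7) * refl Q8 (B8 3 - B8 7))⁻¹ = W8 a (-b) (-c) :=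
  conj_eich_mul (by simp only [OG.mul_app, refl_app_three]; decide +kernel +revert)

theorem conj_U8 (ε : ZMod 3) : refl Q8 (B8 3 - B8 7) * U8 ε * (refl Q8 (B8 3 - B8 7))⁻¹ = U8 ε :=
  conj_eich_mul (by simp only [refl_app_three]; decide +kernel +revert)

/-- The parameters of the representatives. -/
def wT : Fin 11 → ZMod 3 × ZMod 3 × ZMod 3 := ![(1, 0, 0), (0, 1, 1), (1, 0, 1), (1, 1, 0), (0, 1, -1), (1, 0, -1), (1, -1, 0),
  (1, 1, 1), (1, 1, -1), (1, -1, 1), (1, -1, -1)]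

/-- The representatives of the thirteen classes. -/
noncomputable def r8 : Fin 11 ⊕ Fin 2 → OG Q8 :=
  Sum.elim (fun i => W8 (wT i).1 (wT i).2.1 (wT i).2.2) fun j => U8 (![1, -1] j)

theorem cov_W8 {x : OG Q8} {a b c : ZMod 3} (h : b * c ≠ 0 ∨ a * c ≠ 0 ∨ a * b ≠ 0) (hx : Om x (W8 a b c)) :
    ∃ i, Om x (r8 i) := by
  obtain ⟨i, hi | hi⟩ : ∃ i, wT i = (a, b, c) ∨ wT i = (-a, -b, -c) := by clear hx x; decide +kernel +revert
  · exact ⟨.inl i, by simpa [r8, hi] using hx⟩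
  · exact ⟨.inl i, by simpa [r8, hi] using hx.trans (om_W8_neg a b c)⟩

theorem dickson_n8 : dickson nondeg_qfPlus (refl Q8 (B8 3 - B8 7)) = -1 := dickson_refl _ (by decide +kernel)

theorem om_of_conj8 {v : Fin 4 ⊕ Fin 4 → ZMod 3} (hv : Q8 v = 1) {k x y : OG Q8} (h : k * x * k⁻¹ = y) :
    Om x y ∨ Om x (refl Q8 v * refl Q8 (B8 3 - B8 7) * y * (refl Q8 v * refl Q8 (B8 3 - B8 7))⁻¹) ∨
      Om x (refl Q8 (B8 3 - B8 7) * y * (refl Q8 (B8 3 - B8 7))⁻¹) ∨ Om x (refl Q8 v * refl Q8 (B8 3 - B8 7) *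
        (refl Q8 (B8 3 - B8 7) * y * (refl Q8 (B8 3 - B8 7))⁻¹) * (refl Q8 v * refl Q8 (B8 3 - B8 7))⁻¹) :=
  om_of_conj nondeg_qfPlus (by decide) dickson_n8 (by rw [map_mul, dickson_n8, dickson_refl _ (hv ▸ one_ne_zero)]; rfl)
    (by rw [map_mul, spinor_refl_three _ hv, spinor_refl_three' _ (by decide +kernel), one_mul]) h

theorem cov_conj_W8 {k x : OG Q8} {a b c : ZMod 3} (h : b * c ≠ 0 ∨ a * c ≠ 0 ∨ a * b ≠ 0) (hx : k * x * k⁻¹ = W8 a b c) :
    ∃ i, Om x (r8 i) := by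
  have := om_of_conj8 (v := B8 3 + B8 7) (by decide +kernel) hx
  rw [conj_W8, conj_W8', conj_W8'] at this
  rcases this with h' | h' | h' | h' <;> refine cov_W8 ?_ h' <;> clear h' hx x k <;> decide +kernel +revert

theorem surj_r8 (x : OG Q8) (h3 : x ^ 3 = 1) (h1 : x ≠ 1) : ∃ i, Om x (r8 i) := by
  rcases exists_eich_or_three nondeg_qfPlus (finrank_plus 4 _).le h3 h1 with
    ⟨e, w, l, he, hew, rfl⟩ | ⟨e, w, e', w', h, l, hq, rfl⟩
  · by_cases hw : Q8 w = 0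
    · obtain ⟨g, hg, h⟩ := (isLR_eich he hw hew).exists_conj nondeg_qfPlus (by rw [finrank_plus]; omega)
        (y := W8 1 0 0) (by simpa [W8, eich_zero_right] using isLR_eich (by decide +kernel) (by decide +kernel) (by decide +kernel))
        h1 fun h => one_ne_zero (W8_ne_one h).1
      exact ⟨.inl 0, om_iff.2 ⟨g, hg, Or.inl h⟩⟩
    · obtain ⟨c, hc⟩ : ∃ c, Q8 w = c := ⟨_, rfl⟩
      obtain ⟨k, hk⟩ := exists_conj_eich nondeg_qfPlus (a := B8 2) (b := (1 : ZMod 3) • B8 7 + c • B8 3) l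
        (Fintype.linearIndependent_iff.2 (by clear * -; decide +kernel +revert)) he (by decide +kernel) hew
        (efr_W8 0 1 c).ew (hc.trans (by clear * -; decide +kernel +revert))
      exact cov_conj_W8 (k := k) (a := 0) (b := 1) (c := c) (Or.inl (by rwa [one_mul, ← hc])) (by simpa [W8, eich_zero_right] using hk)
  by_cases hw : Q8 w' = 0
  · obtain ⟨c, hc⟩ : ∃ c, Q8 w = c := ⟨_, rfl⟩
    obtain ⟨k, hk⟩ := h.exists_conj nondeg_qfPlus (efr_W8 1 1 c) l
      (Fintype.linearIndependent_iff.2 (by clear * -; decide +kernel +revert)) (hc.trans (by clear * -; decide +kernel +revert))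
      (hw.trans (by decide +kernel))
    exact cov_conj_W8 (Or.inr (Or.inr (by decide))) hk
  obtain ⟨ε, hε⟩ : ∃ ε, Q8 w' = ε := ⟨_, rfl⟩
  obtain ⟨k, hk⟩ := h.exists_conj nondeg_qfPlus (efr_U8 ε) l
    (Fintype.linearIndependent_iff.2 (by clear * -; decide +kernel +revert)) ((hq.resolve_left hw).trans (by decide +kernel))
    (hε.trans (by clear * -; decide +kernel +revert))
  rw [hε] at hw
  have h2 := om_of_conj8 (v := B8 2 - ε • B8 6 + (1 + ε) • (B8 3 - B8 7)) (by clear * - hw; decide +kernel +revert) (y := U8 ε) hk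
  rw [conj_U8, show _ * U8 ε * _ = U8 ε from conj_eich_mul (by
    simp only [OG.mul_app, refl_app_three]; clear * -; decide +kernel +revert), or_self, or_self, or_self] at h2
  obtain ⟨j, rfl⟩ : ∃ j : Fin 2, ε = ![1, -1] j := by clear * - hw; decide +revert
  exact ⟨.inr j, h2⟩

theorem five_le_eight : 5 ≤ finrank (ZMod 3) (Fin 4 ⊕ Fin 4 → ZMod 3) := by rw [finrank_plus]; omega

theorem r8_pow (i : Fin 11 ⊕ Fin 2) : r8 i ^ 3 = 1 := by
  rcases i with i | i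
  exacts [W8_pow _ _ _, U8_pow _]

theorem not_om_W8_U8 {a b c : ZMod 3} {j : Fin 2} (h : Om (W8 a b c) (U8 (![1, -1] j))) : False := by
  have := h.jinv_eq
  rw [jinv_W8, jinv_U8] at this
  exact (by decide +kernel : ∀ (t : ZMod 3) (j : Fin 2), jt t 0 ≠ jt 1 (![1, -1] j)) _ _ this

theorem om_U8_of_jinv {x : OG Q8} (h3 : x ^ 3 = 1) (h : jinv x = (true, true, true)) : Om x (U8 (-1)) := by
  obtain ⟨i | i, hi⟩ := surj_r8 x h3 (by rintro rfl; simp [jinv_one] at h)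
  · exact absurd ((jinv_W8 _ _ _).symm.trans (hi.jinv_eq.symm.trans h)) (by clear hi; decide +kernel +revert)
  · obtain rfl : i = 1 := (by decide +kernel : ∀ j : Fin 2, jt 1 (![1, -1] j) = (true, true, true) → j = 1) _
      ((jinv_U8 _).symm.trans (hi.jinv_eq.symm.trans h))
    exact hi

theorem om_U8_heis {a b c d x y : Fin 8} (h : d4P a b = 0 ∧ d4P a c = 0 ∧ d4P a d = 0 ∧ d4P b d = 0 ∧ d4P c d = 0 ∧ d4P b c = 1 ∧
    d4P a x = 1 ∧ d4P d x = 0 ∧ d4P a y = 0 ∧ d4P d y = 1) : (eich Q8 (B8 a) (B8 b) * eich Q8 (B8 c) (B8 d)) ^ 3 = 1 ∧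
      jinv (eich Q8 (B8 a) (B8 b) * eich Q8 (B8 c) (B8 d)) = (true, true, true) := by
  obtain ⟨h1, h2, h3, h4, h5, h6, h7, h8, h9, h10⟩ := h
  obtain ⟨e1, e2⟩ := heis (qfPlus_single _) (qfPlus_single _) (qfPlus_single _) (qfPlus_single _) (polar_d4B_of h1)
    (polar_d4B_of h2) (polar_d4B_of h3) (polar_d4B_of h4) (polar_d4B_of h5) (isHyp_d4B (F := ZMod 3) h6).polar_eq
  refine ⟨e1, (jinv_eq (fun s t => ⟨s • B8 x + t • B8 y, ?_⟩) (fun p => -(p.1 * p.2)) e2).trans (by decide +kernel)⟩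
  simp [polar_add_right, polar_smul_right, polar_d4B, *]

namespace TriSys

variable {S : StSys rD4 (ZMod 3) (POm Q8)} {A B : S.GAut} (T : TriSys S A B)
include T

theorem x_simple (i : Fin 4) (t : ZMod 3) :
    S.x (rD4.simple i) t = pm3 (eich Q8 (B8 (![0, 1, 2, 2] i)) (t • B8 (![5, 6, 7, 3] i))) := by
  obtain ⟨hy, e⟩ := T.x_eq (rD4.simple i) t
  rw [e, ← pm3_eq, rD4_simple]
  fin_cases i <;> simp [d4X, EichTab.val, d4Tab]

theorem left_W8 (a b c : ZMod 3) : A.σ (pm3 (W8 a b c)) = pm3 (W8 b a c) := by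
  have m := eich_mem_commutator (Q := Q8) nondeg_qfPlus five_le_eight
  have h1 : pm3 (W8 a b c) = S.x (rD4.simple 2) b * S.x (rD4.simple 3) c * S.x (rD4.simple 0) a := by
    rw [T.x_simple, T.x_simple, T.x_simple, ← pm3_mul (m _ _) (m _ _), ← pm3_mul (mul_mem (m _ _) (m _ _)) (m _ _), W8,
      ← eich_mul (by decide +kernel) (by clear * -; decide +kernel +revert) (by clear * -; decide +kernel +revert)]
    rfl
  rw [h1, map_mul, map_mul, A.σ_pos, A.σ_pos, A.σ_pos, T.gens.φ_left, T.gens.φ_left, T.gens.φ_left, T.gens.π_left, T.x_simple,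
    T.x_simple, T.x_simple, mul_assoc, ← pm3_mul (m _ _) (m _ _), ← pm3_mul (m _ _) (mul_mem (m _ _) (m _ _)), W8,
    (efr_W8 b a c).commute.eq, add_comm,
    ← eich_mul (by decide +kernel) (by clear * -; decide +kernel +revert) (by clear * -; decide +kernel +revert)]
  rfl

theorem right_pm3 {x : OG Q8} (hx : x ^ 3 = 1) :
    B.σ (pm3 x) = pm3 (refl Q8 (B8 3 - B8 7) * x * (refl Q8 (B8 3 - B8 7))⁻¹) :=
  (DFunLike.congr_fun T.right_eq _).trans (toAut_pm3 _ (mem_commutator_of_three nondeg_qfPlus hx))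

theorem left_U8 : Rel3 (Cfsg.Inn _) (A.σ (pm3 (U8 (-1)))) (pm3 (U8 (-1))) := by
  have m := eich_mem_commutator (Q := Q8) nondeg_qfPlus five_le_eight
  obtain ⟨a1, a2⟩ := om_U8_heis (a := 0) (b := 5) (c := 1) (d := 6) (x := 4) (y := 2) (by decide)
  obtain ⟨b1, b2⟩ := om_U8_heis (a := 1) (b := 6) (c := 2) (d := 7) (x := 5) (y := 3) (by decide)
  rw [jinv_mul_comm] at b2
  have b3 := mul_pow_swap b1
  have h1 := ((rel3_pm3_iff nondeg_qfPlus five_le_eight a1 (U8_pow _)).2 (om_U8_of_jinv a1 a2)).map A.σ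
  refine h1.symm.trans ?_
  convert (rel3_pm3_iff nondeg_qfPlus five_le_eight b3 (U8_pow _)).2 (om_U8_of_jinv b3 b2) using 1
  have h := fun i => (T.x_simple i 1).symm
  simp only [one_smul] at h
  rw [pm3_mul (m _ _) (m _ _), pm3_mul (m _ _) (m _ _), map_mul]
  refine congrArg₂ _ ((congrArg _ (h 0)).trans (.trans ?_ (h 2).symm)) ((congrArg _ (h 1)).trans (.trans ?_ (h 1).symm)) <;>
    rw [A.σ_pos, T.gens.φ_left, T.gens.π_left] <;> rfl

theorem om_W8 {a b c a' b' c' : ZMod 3} (h : Om (W8 a b c) (W8 a' b' c')) :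
    b * c = b' * c' ∧ a * c = a' * c' ∧ a * b = a' * b' := by
  have H := fun a b c a' b' c' => rel3_pm3_iff nondeg_qfPlus five_le_eight (W8_pow a b c) (W8_pow a' b' c')
  have h1 : ∀ {a b c a' b' c' : ZMod 3}, Om (W8 a b c) (W8 a' b' c') → b * c = b' * c' := fun h =>
    (by decide +kernel : ∀ s t : ZMod 3, jt s 0 = jt t 0 → s = t) _ _
      ((jinv_W8 _ _ _).symm.trans (h.jinv_eq.trans (jinv_W8 _ _ _)))
  have h2 : ∀ {a b c a' b' c' : ZMod 3}, Om (W8 a b c) (W8 a' b' c') → Om (W8 b a c) (W8 b' a' c') :=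
    fun {a b c a' b' c'} h => by
    rw [← H, ← T.left_W8 a, ← T.left_W8 a']
    exact ((H ..).2 h).map A.σ
  refine ⟨h1 h, h1 (h2 h), h1 (h2 (a := a) (b := c) (a' := a') (b' := c') ?_)⟩
  rw [← H, ← conj_W8 a b, ← conj_W8 a' b', ← T.right_pm3 (W8_pow ..), ← T.right_pm3 (W8_pow ..)]
  exact ((H ..).2 h).map B.σ

theorem cl3_inn : Cl3 (Cfsg.Inn (POm Q8)) fun i => pm3 (r8 i) := by
  refine cl3_of_om nondeg_qfPlus five_le_eight r8_pow ?_ ?_ surj_r8
  · rintro (i | i) h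
    · exact absurd (W8_ne_one h) (by clear h; decide +revert)
    · exact absurd ((jinv_U8 _).symm.trans ((congrArg jinv h).trans jinv_one)) (by clear h; decide +kernel +revert)
  · rintro (i | i) (j | j) h
    · exact congrArg _ ((by decide +kernel : ∀ i j, (wT i).2.1 * (wT i).2.2 = (wT j).2.1 * (wT j).2.2 ∧
        (wT i).1 * (wT i).2.2 = (wT j).1 * (wT j).2.2 ∧ (wT i).1 * (wT i).2.1 = (wT j).1 * (wT j).2.1 → i = j) i j (T.om_W8 h))
    · exact (not_om_W8_U8 h).elim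
    · exact (not_om_W8_U8 h.symm).elim
    · exact congrArg _ ((by decide +kernel : ∀ i j : Fin 2, jt 1 (![1, -1] i) = jt 1 (![1, -1] j) → i = j) i j
        ((jinv_U8 _).symm.trans (h.jinv_eq.trans (jinv_U8 _))))

theorem fuse_aux {α : MulAut (POm Q8)} (h2 : α * α = 1) (hW : ∀ a b c, ∃ a' b' c', α (pm3 (W8 a b c)) = pm3 (W8 a' b' c') ∧
      b' * c' + a' * c' + a' * b' = b * c + a * c + a * b ∧ b' * c' * (a' * c') * (a' * b') = b * c * (a * c) * (a * b))
    (hU : Rel3 (Cfsg.Inn _) (α (pm3 (U8 (-1)))) (pm3 (U8 (-1)))) (i j : Fin 11 ⊕ Fin 2)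
    (h : Rel3 (Cfsg.Inn _) (α (pm3 (r8 i))) (pm3 (r8 j))) :
    Sum.map (![0, 1, 1, 1, 2, 2, 2, 3, 4, 4, 4] : Fin 11 → Fin 5) id i = Sum.map ![0, 1, 1, 1, 2, 2, 2, 3, 4, 4, 4] id j := by
  have H := fun {x y : OG Q8} => rel3_pm3_iff nondeg_qfPlus five_le_eight (x := x) (y := y)
  rcases i with i | i <;> rcases j with j | j
  · obtain ⟨a, b, c, e, h3, h4⟩ := hW (wT i).1 (wT i).2.1 (wT i).2.2
    obtain ⟨h5, h6, h7⟩ := T.om_W8 ((H (W8_pow ..) (W8_pow ..)).1 (e ▸ h :))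
    rw [h5, h6, h7] at h3 h4
    refine congrArg Sum.inl ?_
    clear * - h3 h4
    decide +kernel +revert
  · obtain ⟨a, b, c, e, -⟩ := hW (wT i).1 (wT i).2.1 (wT i).2.2
    exact (not_om_W8_U8 ((H (W8_pow ..) (U8_pow _)).1 (e ▸ h :))).elim
  · obtain ⟨a, b, c, e, -⟩ := hW (wT j).1 (wT j).2.1 (wT j).2.2
    have h3 := (h.map α).symm
    rw [← MulAut.mul_apply _ α α, h2, MulAut.one_apply] at h3
    exact (not_om_W8_U8 ((H (W8_pow ..) (U8_pow _)).1 (e ▸ h3 :))).elim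
  · fin_cases i <;> fin_cases j
    exacts [rfl, congrArg _ (T.cl3_inn.inj (.inr 0) (.inr 1) (h.trans hU.symm).of_map),
      congrArg _ (T.cl3_inn.inj (.inr 1) (.inr 0) (hU.symm.trans h)), rfl]

theorem cl3_tri : ∃ r : Fin 5 ⊕ Fin 2 → POm Q8, Cl3 (Cfsg.Inn _ ⊔ closure {A.σ, B.σ}) r := by
  have mA : A.σ ∈ Cfsg.Inn (POm Q8) ⊔ closure {A.σ, B.σ} := mem_sup_right (subset_closure (by simp))
  have mB : B.σ ∈ Cfsg.Inn (POm Q8) ⊔ closure {A.σ, B.σ} := mem_sup_right (subset_closure (by simp))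
  have hB : ∀ a b c, B.σ (pm3 (W8 a b c)) = pm3 (W8 a c b) := fun a b c => by rw [T.right_pm3 (W8_pow ..), conj_W8]
  refine ⟨_, T.cl3_inn.fuse _ (Sum.map ![0, 1, 1, 1, 2, 2, 2, 3, 4, 4, 4] id) (Sum.map ![0, 2, 5, 7, 9] id) (by decide) ?_ ?_⟩
  · rintro _ (rfl | rfl)
    · exact T.fuse_aux (T.gens.left_mul_self T.full) (fun a b c => ⟨b, a, c, T.left_W8 a b c, by ring, by ring⟩) T.left_U8
    · exact T.fuse_aux (T.gens.right_mul_self T.full) (fun a b c => ⟨a, c, b, hB a b c, by ring, by ring⟩)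
        (by rw [show _ = _ from T.right_pm3 (U8_pow _), conj_U8]; exact Rel3.refl _)
  rintro (i | i)
  swap
  · exact Rel3.refl _
  obtain ⟨p, hp, h⟩ : ∃ p, wT (![0, 2, 5, 7, 9] ((![0, 1, 1, 1, 2, 2, 2, 3, 4, 4, 4] : Fin 11 → Fin 5) i)) = p ∧ (p = wT i ∨
    p = ((wT i).2.1, (wT i).1, (wT i).2.2) ∨ p = ((wT i).1, (wT i).2.2, (wT i).2.1) ∨
      p = (-(wT i).2.1, -(wT i).1, -(wT i).2.2)) := ⟨_, rfl, by clear * -; decide +kernel +revert⟩
  simp only [r8, Sum.map_inl, Sum.elim_inl, hp]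
  rcases h with rfl | rfl | rfl | rfl
  · exact Rel3.refl _
  · exact ⟨_, mA, Or.inl (T.left_W8 ..)⟩
  · exact ⟨_, mB, Or.inl (hB ..)⟩
  · refine .trans ⟨_, mA, Or.inl (T.left_W8 ..)⟩ (Rel3.mono le_sup_left ?_)
    exact (rel3_pm3_iff nondeg_qfPlus five_le_eight (W8_pow ..) (W8_pow ..)).2 (om_W8_neg ..)

theorem card_tri : Nat.card ((Cfsg.Inn (POm Q8) ⊔ closure {A.σ, B.σ}).map (QuotientGroup.mk' (Cfsg.Inn (POm Q8)))) = 6 := by
  obtain ⟨h1, h2, h3⟩ := T.gens.out_rels T.full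
  rw [map_sup_closure_pair]
  refine card_closure_pair h1 h2 h3 fun h => ?_
  have := index_range_toAut_four (F := ZMod 3)
  rw [T.eq_top_of_mem ((mul_mem_cancel_right T.right_mem_range).1
    (inn_le_range_toAut ((QuotientGroup.eq_one_iff _).1 h))), index_top] at this
  omega

end TriSys

theorem exists_cl3_plus_four : ∃ r : Fin 13 → POm Q8, Cl3 (Cfsg.Inn _) r :=
  let ⟨_, _, _, T⟩ := exists_triSys (ZMod 3)
  ⟨_, T.cl3_inn.reindex finSumFinEquiv.symm⟩

theorem exists_cl3_tri {H : Subgroup (MulAut (POm Q8))} (hI : Cfsg.Inn _ ≤ H)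
    (h : Nat.card (H.map (QuotientGroup.mk' (Cfsg.Inn _))) = 6) : ∃ r : Fin 7 → POm Q8, Cl3 H r := by
  obtain ⟨_, _, _, T⟩ := exists_triSys (ZMod 3)
  obtain ⟨r, hr⟩ := T.cl3_tri
  obtain ⟨θ, rfl⟩ := exists_conj_aut out_plus_four_three.some le_sup_left hI T.card_tri h
  exact ⟨_, (hr.conj θ).reindex finSumFinEquiv.symm⟩

end CL.Cls
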