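/-
The classes of subgroups of order three of `Ω₇(3)`.
-/
import Cfsg.Agent.Cls.OThree3

set_option autoImplicit false

open QuadraticMap Module Subgroup

namespace CL.Cls

theorem EFr.inv {F V : Type*} [Field F] [AddCommGroup V] [Module F V] {Q : QuadraticForm F V} {e w e' w' : V}
    (h : EFr Q e w e' w') : (eich Q e w * eich Q e' w')⁻¹ = eich Q e (-w) * eich Q e' (-w') := by
  rw [h.commute.eq, mul_inv_rev, eich_inv h.qe h.ew, eich_inv h.qe' h.e'w']

local notation "Q7" => qfOdd 3 (ZMod 3)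
local notation "Q8" => qfPlus 4 (ZMod 3)
local notation "B8" => d4B (ZMod 3)

/-- The standard basis in dimension seven. -/
def B7 (i : Fin 7) : Unit ⊕ (Fin 3 ⊕ Fin 3) → ZMod 3 :=
  Pi.single (![.inr (.inl 0), .inr (.inl 1), .inr (.inl 2), .inr (.inr 0), .inr (.inr 1), .inr (.inr 2), .inl ()] i) 1

/-- Products of a short and a long root element. -/
noncomputable def W7 (a c : ZMod 3) : OG Q7 := eich Q7 (B7 2) (c • B7 6) * eich Q7 (B7 0) (a • B7 4)

/-- Elements with Jordan blocks of size three and one. -/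
noncomputable def U7 (ε c : ZMod 3) : OG Q7 := eich Q7 (B7 1) (c • B7 6) * eich Q7 (B7 0) (B7 2 + ε • B7 5)

theorem efr_W7 (a c : ZMod 3) : EFr Q7 (B7 2) (c • B7 6) (B7 0) (a • B7 4) :=
  ⟨by decide +kernel, by decide +kernel, by decide +kernel +revert, by decide +kernel, by decide +kernel +revert,
    by decide +kernel +revert, by decide +kernel +revert, by decide +kernel +revert,
    fun s t => ⟨s • B7 5 + t • B7 3, by clear a c; decide +kernel +revert⟩⟩

theorem efr_U7 (ε c : ZMod 3) : EFr Q7 (B7 1) (c • B7 6) (B7 0) (B7 2 + ε • B7 5) :=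
  ⟨by decide +kernel, by decide +kernel, by decide +kernel +revert, by decide +kernel, by decide +kernel +revert,
    by decide +kernel +revert, by decide +kernel +revert, by decide +kernel +revert,
    fun s t => ⟨s • B7 4 + t • B7 3, by clear ε c; decide +kernel +revert⟩⟩

theorem jinv_W7 (a c : ZMod 3) : jinv (W7 a c) = jt (c * c) 0 :=
  (efr_W7 a c).jinv.trans (congrArg₂ _ (by decide +kernel +revert) (by decide +kernel +revert))

theorem jinv_U7 (ε c : ZMod 3) : jinv (U7 ε c) = jt (c * c) ε :=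
  (efr_U7 ε c).jinv.trans (congrArg₂ _ (by decide +kernel +revert) (by decide +kernel +revert))

/-- The seven-dimensional space as the perpendicular of a vector of norm `-1` in the eight-dimensional space. -/
def emb78 : ((Unit ⊕ (Fin 3 ⊕ Fin 3) → ZMod 3) × ZMod 3) ≃ₗ[ZMod 3] (Fin 4 ⊕ Fin 4 → ZMod 3) where
  toFun p := Sum.elim ![p.1 (.inr (.inl 0)), p.1 (.inr (.inl 1)), p.1 (.inr (.inl 2)), p.1 (.inl ()) + p.2]
    ![p.1 (.inr (.inr 0)), p.1 (.inr (.inr 1)), p.1 (.inr (.inr 2)), p.1 (.inl ()) - p.2]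
  invFun w := (Sum.elim (fun _ => -(w (.inl 3) + w (.inr 3))) (Sum.elim (fun i => w (.inl i.castSucc)) fun i => w (.inr i.castSucc)),
    w (.inr 3) - w (.inl 3))
  map_add' p q := by
    ext (i | i) <;> fin_cases i <;> simp <;> ring
  map_smul' c p := by
    ext (i | i) <;> fin_cases i <;> simp <;> ring
  left_inv p := by
    have h : ∀ a b : ZMod 3, -(a + b + (a - b)) = a ∧ a - b - (a + b) = b := by decide
    refine Prod.ext (funext ?_) (h _ _).2
    rintro (i | i | i)
    exacts [(h _ _).1, by fin_cases i <;> rfl, by fin_cases i <;> rfl]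
  right_inv w := by
    have h : ∀ a b : ZMod 3, -(a + b) + (b - a) = a ∧ -(a + b) - (b - a) = b := by decide
    ext (i | i) <;> fin_cases i
    exacts [rfl, rfl, rfl, (h _ _).1, rfl, rfl, rfl, (h _ _).2]

theorem exists_embed78 : ∃ ι : OG Q7 →* OG Q8, ∀ a c, ι (W7 a c) = W8 a c c := by
  obtain ⟨ι, h⟩ := exists_embed (Q := Q7) (Q' := Q8) (Q₁ := -QuadraticMap.sq) emb78 fun v => by
    rw [qfPlus_apply, Fin.sum_univ_four, prod_apply, qfOdd_apply, Fin.sum_univ_three]
    simp [emb78]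
    ring
  exact ⟨ι, fun a c => by
    rw [W7, map_mul, h, h]
    exact congrArg₂ _ (congrArg₂ _ (by decide +kernel) (by clear * -; decide +kernel +revert))
      (congrArg₂ _ (by decide +kernel) (by clear * -; decide +kernel +revert))⟩

theorem om_W7 {a c a' c' : ZMod 3} (h : Om (W7 a c) (W7 a' c')) : c * c = c' * c' ∧ a * c = a' * c' := by
  obtain ⟨ι, hι⟩ := exists_embed78
  obtain ⟨_, _, _, T⟩ := exists_triSys (ZMod 3)
  have := h.map_hom ι
  rw [hι, hι] at this
  exact ⟨(T.om_W8 this).1, (T.om_W8 this).2.1⟩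

theorem nondeg7 : (polarBilin Q7).Nondegenerate := nondeg_qfOdd (by decide)

theorem finrank7 : finrank (ZMod 3) (Unit ⊕ (Fin 3 ⊕ Fin 3) → ZMod 3) = 7 := by simp

theorem EFr.map_eq_one {e w e' w' : Unit ⊕ (Fin 3 ⊕ Fin 3) → ZMod 3} (h : EFr Q7 e w e' w')
    (l : LinearIndependent (ZMod 3) ![e, w, e', w']) (hw : Q7 w' = 0) : Q7 w = 1 := by
  obtain ⟨k, h0, h1, h2⟩ := (isWittForm_of_nondeg nondeg7).exists_isometry_fin _ ![B7 0, B7 1, B7 2]
    (l.comp ![0, 2, 3] (by decide)) (Fintype.linearIndependent_iff.2 (by decide +kernel)) (fun i j => by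
      refine .trans ?_ ((by decide +kernel : ∀ i j, 0 = polar Q7 (![B7 0, B7 1, B7 2] i) (![B7 0, B7 1, B7 2] j)) i j)
      fin_cases i <;> fin_cases j <;> simp [polar_comm Q7 e' e, polar_comm Q7 w' e, polar_comm Q7 w' e', h.qe, h.qe', h.ee', h.ew',
        h.e'w', hw])
    fun i => by
      refine .trans ?_ ((by decide +kernel : ∀ i, 0 = Q7 (![B7 0, B7 1, B7 2] i)) i)
      fin_cases i <;> simp [h.qe, h.qe', hw]
  have a0 : k e = B7 0 := h2 0
  have a1 : k e' = B7 1 := h2 1
  have a2 : k w' = B7 2 := h2 2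
  have b : ∀ i, k w (.inr (.inr i)) = 0 := fun i => by
    refine (polar_qfOdd_single (.inl i) _).symm.trans ?_
    fin_cases i
    exacts [(a0 ▸ (h0 e w).trans h.ew : polar Q7 (B7 0) (k w) = 0),
      (a1 ▸ (h0 e' w).trans ((polar_comm ..).trans h.we') : polar Q7 (B7 1) (k w) = 0),
      (a2 ▸ (h0 w' w).trans ((polar_comm ..).trans h.ww') : polar Q7 (B7 2) (k w) = 0)]
  rw [← h1, qfOdd_apply]
  simp only [b, mul_zero, Finset.sum_const_zero, add_zero]
  refine (by decide : ∀ a : ZMod 3, a ≠ 0 → a ^ 2 = 1) _ fun hz => ?_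
  refine absurd (Fintype.linearIndependent_iff.1 l ![k w (.inr (.inl 0)), -1, k w (.inr (.inl 1)), k w (.inr (.inl 2))]
    (k.injective ?_) 1) (by decide : (-1 : ZMod 3) ≠ 0)
  simp only [Fin.sum_univ_four, map_add, map_smul, map_zero]
  ext (_ | i | i)
  · simp [a0, a1, a2, B7, hz]
  · fin_cases i <;> simp [a0, a1, a2, B7]
  · simp [a0, a1, a2, B7, b]

theorem om_of_conj7 {d k x y : OG Q7} (hd : dickson nondeg7 d = 1) (hd' : spinor nondeg7 d = -1) (h : k * x * k⁻¹ = y) :
    Om x y ∨ Om x (d * y * d⁻¹) := by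
  have := om_of_conj nondeg7 (by decide) (n := negOG Q7) (by rw [dickson_negOG _ (by decide), finrank7]; rfl) hd hd' h
  rw [← negOG_comm y, mul_inv_cancel_right] at this
  tauto

theorem refl_mul_refl7 {u v : Unit ⊕ (Fin 3 ⊕ Fin 3) → ZMod 3} (hu : Q7 u = 1) (hv : Q7 v = -1) :
    dickson nondeg7 (refl Q7 u * refl Q7 v) = 1 ∧ spinor nondeg7 (refl Q7 u * refl Q7 v) = -1 :=
  ⟨by rw [map_mul, dickson_refl _ (hu ▸ one_ne_zero), dickson_refl _ (by rw [hv]; decide)]; rfl,
    by rw [map_mul, spinor_refl_three _ hu, spinor_refl_three' _ hv, one_mul]⟩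

/-- The representatives of the seven classes. -/
noncomputable def r7 : Fin 4 ⊕ Fin 3 → OG Q7 :=
  Sum.elim (fun i => W7 (![1, 0, 1, -1] i) (![0, 1, 1, 1] i)) fun j => U7 (![-1, 1, -1] j) (![0, 1, 1] j)

theorem om_of_conj_W7 {k x : OG Q7} {a c : ZMod 3} (h : k * x * k⁻¹ = W7 a c) : Om x (W7 a c) ∨ Om x (W7 (-a) c) := by
  obtain ⟨h1, h2⟩ := refl_mul_refl7 (u := B7 1 + B7 4) (v := B7 1 - B7 4) (by decide +kernel) (by decide +kernel)
  have := om_of_conj7 h1 h2 h
  rwa [show _ * W7 a c * _ = W7 (-a) c from conj_eich_mul (by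
    simp only [OG.mul_app, refl_app_three]; clear * -; decide +kernel +revert)] at this

theorem om_of_conj_U7 {k x : OG Q7} {c : ZMod 3} (h : k * x * k⁻¹ = U7 (-1) c) : Om x (U7 (-1) c) := by
  obtain ⟨h1, h2⟩ := refl_mul_refl7 (u := B7 6) (v := B7 2 - B7 5) (by decide +kernel) (by decide +kernel)
  refine (om_of_conj7 h1 h2 h).elim id fun h3 => h3.trans (Rel3.symm ?_)
  rw [show _ * U7 (-1) c * _ = (U7 (-1) c)⁻¹ from (conj_eich_mul (by
    simp only [OG.mul_app, refl_app_three]; clear * -; decide +kernel +revert)).trans (efr_U7 _ _).inv.symm]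
  exact Rel3.inv _

theorem om_of_conj_U7' {k x : OG Q7} (h : k * x * k⁻¹ = U7 1 1) : Om x (U7 1 1) := by
  obtain ⟨h1, h2⟩ := refl_mul_refl7 (u := B7 0 - B7 1 - B7 3 + B7 4) (v := B7 0 - B7 1 + B7 3 - B7 4)
    (by decide +kernel) (by decide +kernel)
  have a : Q7 (B7 6 - B7 2 - B7 5) = -1 := by decide +kernel
  have b : Q7 (B7 2 - B7 5) = -1 := by decide +kernel
  have := om_of_conj7 (d := refl Q7 _ * refl Q7 _ * (refl Q7 (B7 6 - B7 2 - B7 5) * refl Q7 (B7 2 - B7 5)))
    (by rw [map_mul, h1, map_mul, dickson_refl _ (by rw [a]; decide), dickson_refl _ (by rw [b]; decide)]; rfl)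
    (by rw [map_mul, h2, map_mul, spinor_refl_three' _ a, spinor_refl_three' _ b]; rfl) h
  rwa [show _ * U7 1 1 * _ = U7 1 1 from (conj_eich_mul (by
    simp only [OG.mul_app, refl_app_three]; decide +kernel)).trans (efr_U7 1 1).commute.symm.eq, or_self] at this

theorem W7_ne_one {a c : ZMod 3} (h : W7 a c = 1) : a = 0 ∧ c = 0 := by
  have e := efr_W7 a c
  have h1 := e.app (x := B7 5) h (by decide +kernel) (by clear h e; decide +kernel +revert)
  have h2 := congrArg (fun g : OG Q7 => g.1 (B7 1)) h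
  simp only [W7, OG.mul_app, eich_app e.qe e.ew, eich_app e.qe' e.e'w', OG.one_app] at h2
  clear h e
  decide +kernel +revert

theorem surj_r7 (x : OG Q7) (h3 : x ^ 3 = 1) (h1 : x ≠ 1) : ∃ i, Om x (r7 i) := by
  have tri : ∀ a : ZMod 3, a = 0 ∨ a = 1 ∨ a = -1 := by decide
  rcases exists_eich_or_three nondeg7 (by rw [finrank7]; omega) h3 h1 with
    ⟨e, w, l, he, hew, rfl⟩ | ⟨e, w, e', w', h, l, hq, rfl⟩
  · rcases tri (Q7 w) with hw | hw | hw
    · obtain ⟨g, hg, h⟩ := (isLR_eich he hw hew).exists_conj nondeg7 (by rw [finrank7]; omega)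
        (y := W7 1 0) (by simpa [W7, eich_zero_right] using isLR_eich (by decide +kernel) (by decide +kernel) (by decide +kernel))
        h1 fun h => one_ne_zero (W7_ne_one h).1
      exact ⟨.inl 0, om_iff.2 ⟨g, hg, Or.inl h⟩⟩
    · obtain ⟨k, hk⟩ := exists_conj_eich nondeg7 (a := B7 2) (b := B7 6) l (Fintype.linearIndependent_iff.2 (by decide +kernel))
        he (by decide +kernel) hew (by decide +kernel) (hw.trans (by decide +kernel))
      have := om_of_conj_W7 (k := k) (x := eich Q7 e w) (a := 0) (c := 1) (by simpa [W7, eich_zero_right] using hk)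
      rw [neg_zero, or_self] at this
      exact ⟨.inl 1, this⟩
    · obtain ⟨k, hk⟩ := exists_conj_eich nondeg7 (a := B7 0) (b := B7 2 + (-1 : ZMod 3) • B7 5) l
        (Fintype.linearIndependent_iff.2 (by decide +kernel)) he (by decide +kernel) hew (by decide +kernel)
        (hw.trans (by decide +kernel))
      exact ⟨.inr 0, om_of_conj_U7 (k := k) (c := 0) (by rw [hk, U7, zero_smul, eich_zero_right, one_mul])⟩
  rcases tri (Q7 w') with hw | hw | hw
  · obtain ⟨k, hk⟩ := h.exists_conj nondeg7 (efr_W7 1 1) l (Fintype.linearIndependent_iff.2 (by decide +kernel))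
      ((h.map_eq_one l hw).trans (by decide +kernel)) (hw.trans (by decide +kernel))
    exact (om_of_conj_W7 hk).elim (⟨.inl 2, ·⟩) (⟨.inl 3, ·⟩)
  · obtain ⟨k, hk⟩ := h.exists_conj nondeg7 (efr_U7 1 1) l (Fintype.linearIndependent_iff.2 (by decide +kernel))
      ((hq.resolve_left (by rw [hw]; decide)).trans (by decide +kernel)) (hw.trans (by decide +kernel))
    exact ⟨.inr 1, om_of_conj_U7' hk⟩
  · obtain ⟨k, hk⟩ := h.exists_conj nondeg7 (efr_U7 (-1) 1) l (Fintype.linearIndependent_iff.2 (by decide +kernel))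
      ((hq.resolve_left (by rw [hw]; decide)).trans (by decide +kernel)) (hw.trans (by decide +kernel))
    exact ⟨.inr 2, om_of_conj_U7 hk⟩

theorem exists_cl3_odd_three : ∃ r : Fin 7 → POm Q7, Cl3 (Cfsg.Inn _) r := by
  refine ⟨_, (cl3_of_om nondeg7 (by rw [finrank7]; omega) ?_ ?_ ?_ surj_r7).reindex finSumFinEquiv.symm⟩
  · rintro (i | i)
    exacts [(efr_W7 ..).pow_three, (efr_U7 ..).pow_three]
  · rintro (i | i) h
    · exact absurd (W7_ne_one h) (by clear h; decide +revert)
    · exact absurd ((jinv_U7 ..).symm.trans ((congrArg jinv h).trans jinv_one)) (by clear h; decide +kernel +revert)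
  · rintro (i | i) (j | j) h
    · exact congrArg _ (by have := om_W7 h; clear h; decide +kernel +revert)
    · exact absurd ((jinv_W7 ..).symm.trans (h.jinv_eq.trans (jinv_U7 ..))) (by clear h; decide +kernel +revert)
    · exact absurd ((jinv_U7 ..).symm.trans (h.jinv_eq.trans (jinv_W7 ..))) (by clear h; decide +kernel +revert)
    · exact congrArg _ (by have := (jinv_U7 ..).symm.trans (h.jinv_eq.trans (jinv_U7 ..)); clear h; decide +kernel +revert)

end CL.Cls
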