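import Cfsg.Agent.Cls.TenRank
import Cfsg.Agent.Cls.TenMat
import Cfsg.Agent.Cls.OrthExt4

set_option autoImplicit false

/-!
Tensor decompositions of orthogonal spaces: Eichler transformations inside a subgroup, the unipotent radical of the
stabiliser of `V₁ ⊗ w`, and the bridge to matrix groups.
-/

namespace CL.Sp

open Module CL.SLn QuadraticMap
open CL.Uni (UG)
open CL.Cls hiding glEquiv

variable {F V₁ V₂ V : Type*} [Field F] [AddCommGroup V₁] [Module F V₁] [AddCommGroup V₂] [Module F V₂]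
  [AddCommGroup V] [Module F V] {Q : QuadraticForm F V} {X : Subgroup (V ≃ₗ[F] V)}

/-- The group `Ω` as a group of linear maps. -/
def OmL (Q : QuadraticForm F V) : Subgroup (V ≃ₗ[F] V) := (commutator (OG Q)).map (OG Q).subtype

theorem mem_OmL {g : OG Q} : g.1 ∈ OmL Q ↔ g ∈ commutator (OG Q) :=
  Subgroup.mem_map_iff_mem (OG Q).subtype_injective

theorem OmL_le : OmL Q ≤ OG Q := Subgroup.map_subtype_le _

theorem OG_le_UG : OG Q ≤ UG (polarBilin Q) := fun g hg => OG.polar_app ⟨g, hg⟩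

/-- The directions of the Eichler transformations with centre `r` in `X`. -/
def ES (Q : QuadraticForm F V) (X : Subgroup (V ≃ₗ[F] V)) (r : V) : Submodule F V where
  carrier := {y | polar Q r y = 0 ∧ ∀ t : F, (eich Q r (t • y)).1 ∈ X}
  zero_mem' := ⟨polar_zero_right _ _, fun t => by rw [smul_zero, eich_zero_right]; exact one_mem X⟩
  add_mem' := by
    rintro y z ⟨hy, hy'⟩ ⟨hz, hz'⟩
    refine ⟨by rw [polar_add_right, hy, hz, add_zero], fun t => ?_⟩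
    by_cases hr : Q r = 0
    · rw [smul_add, ← eich_mul hr (by simp [hy]) (by simp [hz])]
      exact mul_mem (hy' t) (hz' t)
    · rw [eich_of_not fun h => hr h.1]; exact one_mem X
  smul_mem' := by
    rintro c y ⟨hy, hy'⟩
    exact ⟨by simp [hy], fun t => by rw [smul_smul]; exact hy' _⟩

variable {r s x y : V}

theorem self_mem_ES (hr : Q r = 0) : r ∈ ES Q X r :=
  ⟨by simp [hr], fun t => by rw [eich_smul_self]; exact one_mem X⟩

theorem ES_zero (y : V) : y ∈ ES Q X 0 := ⟨polar_zero_left _ _, fun t => by rw [eich_zero_left]; exact one_mem X⟩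

theorem ES_app (hX : X ≤ OG Q) {k : V ≃ₗ[F] V} (hk : k ∈ X) (hy : y ∈ ES Q X r) : k y ∈ ES Q X (k r) :=
  ⟨(OG.polar_app ⟨k, hX hk⟩ r y).trans hy.1, fun t => by
    have := congrArg Subtype.val (eich_conj ⟨k, hX hk⟩ r (t • y))
    rw [map_smul] at this
    exact this ▸ mul_mem (mul_mem hk (hy.2 t)) (inv_mem hk)⟩

theorem ES_smul (hr : Q r = 0) (c : F) (hy : y ∈ ES Q X r) : y ∈ ES Q X (c • r) :=
  ⟨by simp [hy.1], fun t => by rw [eich_smul_left hr (by simp [hy.1]), smul_smul]; exact hy.2 _⟩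

theorem ES_swap (hr : Q r = 0) (hy : Q y = 0) (h : y ∈ ES Q X r) : r ∈ ES Q X y :=
  ⟨(polar_comm _ _ _).trans h.1, fun t => by
    rw [← eich_smul_left hy ((polar_comm _ _ _).trans h.1), eich_swap hr (by simp [map_smul', hy]) (by simp [h.1]),
      ← neg_smul]
    exact h.2 _⟩

theorem ES_sub (hX : X ≤ OG Q) {k : V ≃ₗ[F] V} (hk : k ∈ X) (hr : k r = r) (hy : y ∈ ES Q X r) :
    k y - y ∈ ES Q X r := sub_mem (hr ▸ ES_app hX hk hy) hy

theorem ES_step (hX : X ≤ OG Q) (hs : Q s = 0) (hx : x ∈ ES Q X s) (hy : y ∈ ES Q X r) (h1 : polar Q s r = 0)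
    (h2 : polar Q x r = 0) : polar Q x y • s - polar Q s y • x - (Q x * polar Q s y) • s ∈ ES Q X r := by
  have h := ES_sub hX (hx.2 1) (eich_app_of_polar h1 (by simp [h2])) hy
  rw [one_smul, eich_app hs hx.1] at h
  convert h using 1
  abel

theorem ES_step₁ (hX : X ≤ OG Q) (hs : Q s = 0) (hx : x ∈ ES Q X s) (hy : y ∈ ES Q X r) (h1 : polar Q s r = 0)
    (h2 : polar Q x r = 0) (h3 : polar Q s y = 0) (h4 : polar Q x y ≠ 0) : s ∈ ES Q X r := by
  simpa [h3, Submodule.smul_mem_iff _ h4] using ES_step hX hs hx hy h1 h2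

theorem ES_step₂ (hX : X ≤ OG Q) (hs : Q s = 0) (hx : x ∈ ES Q X s) (hy : y ∈ ES Q X r) (h1 : polar Q s r = 0)
    (h2 : polar Q x r = 0) (h3 : s ∈ ES Q X r) (h4 : polar Q s y ≠ 0) : x ∈ ES Q X r := by
  have := sub_mem (sub_mem (Submodule.smul_mem _ (polar Q x y) h3) (ES_step hX hs hx hy h1 h2))
    (Submodule.smul_mem _ (Q x * polar Q s y) h3)
  simpa [Submodule.smul_mem_iff _ h4, sub_sub] using this

theorem OmL_le_of_ES [Finite F] [FiniteDimensional F V] (hQ : (polarBilin Q).Nondegenerate) (h4 : 4 ≤ finrank F V)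
    (h : IsHyp Q r s) (hr : ∀ y, polar Q r y = 0 → y ∈ ES Q X r) (hs : ∀ y, polar Q s y = 0 → y ∈ ES Q X s) :
    OmL Q ≤ X :=
  Subgroup.map_le_iff_le_comap.2 (commutator_le_of_eichAdd hQ h4 h
    (fun y hy => ⟨hy, one_smul F y ▸ (hr y hy).2 1⟩) fun y hy => ⟨hy, one_smul F y ▸ (hs y hy).2 1⟩)

theorem RF.nondegenerate {ε : F} {B : LinearMap.BilinForm F V} (R : RF (RingHom.id F) ε B) : B.Nondegenerate :=
  ⟨R.nondeg, R.nondeg'⟩

/-- A non-orthogonal pair orthogonal to a small family. -/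
theorem RF.exists_pair {ε : F} {B : LinearMap.BilinForm F V} (R : RF (RingHom.id F) ε B) [FiniteDimensional F V]
    {k : ℕ} (a : Fin k → V) (h : 2 * k < finrank F V) :
    ∃ y y', (∀ i, B (a i) y = 0) ∧ (∀ i, B (a i) y' = 0) ∧ B y y' = 1 := by
  obtain ⟨U, hU, h1⟩ : ∃ U : Submodule F V, (∀ y ∈ U, ∀ i, B (a i) y = 0) ∧ finrank F V ≤ finrank F U + k :=
    ⟨_, fun y hy => congrFun (LinearMap.mem_ker.1 hy), finrank_le_ker_pi fun i => B (a i)⟩
  by_contra hc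
  let f : U →ₗ[F] Dual F V := B ∘ₗ U.subtype
  have h2 : LinearMap.range f ≤ U.dualAnnihilator := by
    rintro _ ⟨y, rfl⟩
    refine (Submodule.mem_dualAnnihilator _).2 fun z hz => by_contra fun h0 => hc
      ⟨y, (B y z)⁻¹ • z, hU y y.2, fun i => by simp [hU z hz i], by simp [show B y z ≠ 0 from h0]⟩
  have h3 := Submodule.finrank_mono h2
  have h4 := Subspace.finrank_add_finrank_dualAnnihilator_eq U
  rw [LinearMap.finrank_range_of_inj (LinearMap.ker_eq_bot.1 (eq_bot_iff.2 fun x hx =>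
    Subtype.ext (R.nondeg x (LinearMap.congr_fun (LinearMap.mem_ker.1 hx)))))] at h3
  omega

namespace TL

variable (T : TL F V₁ V₂ V)

/-- Tensor products of linear maps. -/
noncomputable def kr (S : V₁ →ₗ[F] V₁) (R : V₂ →ₗ[F] V₂) : V →ₗ[F] V :=
  T.E.toLinearMap ∘ₗ TensorProduct.map S R ∘ₗ T.E.symm.toLinearMap

theorem kr_tm (S : V₁ →ₗ[F] V₁) (R : V₂ →ₗ[F] V₂) (a : V₁) (y : V₂) : T.kr S R (T.tm a y) = T.tm (S a) (R y) := by
  simp [kr, tm_apply]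

theorem ext_bil {f g : V →ₗ[F] V →ₗ[F] F} (h : ∀ a y b z, f (T.tm a y) (T.tm b z) = g (T.tm a y) (T.tm b z))
    (x x' : V) : f x x' = g x x' :=
  T.ext_tm (f := f.flip x') (g := g.flip x') (fun a y => T.ext_tm (h a y) x') x

/-- The subgroup of all `t` with `1 ⊗ t ∈ X`. -/
noncomputable def rightOf (X : Subgroup (V ≃ₗ[F] V)) : Subgroup (V₂ ≃ₗ[F] V₂) :=
  X.comap (MonoidHom.mk' (T.kron 1) fun t t' => by rw [T.kron_mul, mul_one])

theorem kron_mem {a : V₁ ≃ₗ[F] V₁} {t : V₂ ≃ₗ[F] V₂} (ha : a ∈ T.swap.rightOf X) (ht : t ∈ T.rightOf X) :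
    T.kron a t ∈ X := by
  have := mul_mem (show T.swap.kron 1 a ∈ X from ha) (show T.kron 1 t ∈ X from ht)
  rwa [swap_kron, kron_mul, mul_one, one_mul] at this

end TL

namespace TF

variable {ε₁ ε₂ : F} {B₁ : LinearMap.BilinForm F V₁} {B₂ : LinearMap.BilinForm F V₂}
  (T : TF (RingHom.id F) ε₁ ε₂ 1 B₁ B₂ (polarBilin Q)) {w w' : V₂}

theorem polar_tm (a : V₁) (y : V₂) (a' : V₁) (y' : V₂) : polar Q (T.tm a y) (T.tm a' y') = B₁ a a' * B₂ y y' :=
  T.B_tm _ _ _ _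

theorem polar_ψ (b : V₁) (u : V₂) (x : V) : polar Q (T.tm b u) x = B₁ b (T.ψ' u x) := T.B_ψ _ _ _

theorem polar_φ (b : V₁) (u : V₂) (x : V) : polar Q (T.tm b u) x = B₂ u (T.φ' b x) := T.B_φ _ _ _

theorem eich_ZA (hw : B₂ w w = 0) (hL : ∀ a, Q (T.tm a w) = 0) (a b : V₁) (x : V) :
    (eich Q (T.tm a w) (T.tm b w)).1 x = x + T.tm (((B₁ b).smulRight a - (B₁ a).smulRight b) (T.ψ' w x)) w := by
  rw [eich_app (hL a) (by simp [polar_tm, hw])]
  simp [polar_ψ, hL, add_sub_assoc]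

variable {T}

theorem mem_ES_of_ZA {hw : B₂ w w = 0} (hL : ∀ a, Q (T.tm a w) = 0) {a b : V₁}
    (h : ∀ t : F, t • ((B₁ b).smulRight a - (B₁ a).smulRight b) ∈ T.ZA X hw) : T.tm b w ∈ ES Q X (T.tm a w) :=
  ⟨by simp [polar_tm, hw], fun t => by
    obtain ⟨k, hk, e⟩ := h t
    convert hk using 1
    ext x
    rw [← LinearMap.map_smul₂, eich_ZA T hw hL, e]
    simp [smul_sub, mul_smul, smul_comm t]⟩

theorem eich_rad {b : V₁} (hb : Q (T.tm b w) = 0) {y : V} (hy : T.ψ' w y = 0) (hw : B₂ w w = 0) :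
    T.Rad w (eich Q (T.tm b w) y).1 ∧
      ∀ x, T.ψ' w x = 0 → (eich Q (T.tm b w) y).1 x = x + T.tm ((polarBilin Q y).smulRight b x) w :=
  have h : ∀ x, T.ψ' w x = 0 → (eich Q (T.tm b w) y).1 x = x + T.tm ((polarBilin Q y).smulRight b x) w :=
    fun x hx => by rw [eich_app_of_perp hb (by simp [polar_ψ, hy]) (by simp [polar_ψ, hx])]; simp
  ⟨⟨fun a => eich_app_of_polar (by simp [polar_tm, hw]) (by rw [polar_comm, polar_ψ, hy, map_zero]),
    fun x hx => by rw [h x hx, add_sub_cancel_left]; exact T.tm_mem_L _ _⟩, h⟩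

variable [FiniteDimensional F V₁] [FiniteDimensional F V₂]

theorem exists_not_mem_KS (h3 : 3 ≤ finrank F V₁) (hw0 : w ≠ 0) (hw : B₂ w w = 0) (hL : ∀ a, Q (T.tm a w) = 0) :
    ∃ r y, (eich Q r y).1 ∉ T.KS := by
  have : Nontrivial V₁ := Module.nontrivial_of_finrank_pos (R := F) (by omega)
  obtain ⟨c, hc⟩ := exists_ne (0 : V₁)
  obtain ⟨f, hf⟩ := exists_dual_eq_one (F := F) hc
  obtain ⟨f', rfl⟩ := T.r₁.repr f
  obtain ⟨a, -, a0, ha⟩ := T.r₁.exists_perp ⊤ ![c, f'] (by simp; omega)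
  obtain ⟨w', hw'⟩ := T.r₂.exists_one hw0
  refine ⟨T.tm a w, T.tm f' w, fun h => ?_⟩
  obtain ⟨t, ht⟩ := exists_kron_one h hw0 fun b => by simp [eich_ZA T hw hL, T.ψ_tm, hw]
  have h1 := eich_ZA T hw hL a f' (T.tm c w')
  rw [ht, T.kron_tm, ← sub_eq_iff_eq_add'] at h1
  simp only [T.ψ_tm, hw', one_smul, LinearMap.sub_apply, LinearMap.smulRight_apply, hf,
    show B₁ a c = 0 from T.r₁.flip0 (ha 0), zero_smul, sub_zero, LinearEquiv.coe_one, id, ← map_sub] at h1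
  obtain ⟨d, rfl⟩ := T.exists_smul_of_tm_mem hw0 (h1 ▸ T.tm_mem_M c _)
  have := ha 1
  simp only [Matrix.cons_val_one, Matrix.cons_val_zero, map_smul, hf, smul_eq_mul, mul_one] at this
  simp [this] at a0

variable [FiniteDimensional F V] [Finite F]

theorem mem_OmL_of_sub (h5 : 5 ≤ finrank F V) (hL : ∀ a, Q (T.tm a w) = 0) {h : V ≃ₗ[F] V} (hh : h ∈ OG Q)
    (e : ∀ x, h x - x ∈ T.L w) : h ∈ OmL Q :=
  (mem_OmL (g := ⟨h, hh⟩)).2 (movIn_le_of_singular T.r.nondegenerate (T.L w) (by rintro _ ⟨a, rfl⟩; exact hL a)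
    (fun a _ b _ => eich_mem_commutator T.r.nondegenerate h5 a b) e)

/-- The unipotent radical lies in `Ω`. -/
theorem Rad.mem_OmL (h5 : 5 ≤ finrank F V) (hw0 : w ≠ 0) (hw : B₂ w w = 0) (hL : ∀ a, Q (T.tm a w) = 0)
    {h : V ≃ₗ[F] V} (R : T.Rad w h) (hh : h ∈ OG Q) : h ∈ OmL Q := by
  obtain ⟨w', hww⟩ := T.r₂.exists_one hw0
  obtain ⟨D, hD⟩ := R.exists_D hw0
  let b := Module.finBasis F V₁
  have h1 : ∀ i, (b.coord i ∘ₗ D).smulRight (b i) ∈ T.RD (OmL Q) w := fun i => by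
    obtain ⟨y, hy⟩ := T.r.repr (b.coord i ∘ₗ D)
    refine ⟨_, Sp.mem_OmL.2 (eich_mem_commutator T.r.nondegenerate h5 _ y), hy ▸ eich_rad (hL _) ?_ hw⟩
    refine T.r₁.nondeg' _ fun a => (T.B_ψ _ _ _).symm.trans (T.r.flip0 ?_)
    rw [hy, LinearMap.comp_apply, RD_self hw0 hw ⟨h, hh, R, hD⟩, map_zero]
  obtain ⟨k, hk, -, e⟩ := sum_mem (t := Finset.univ) fun i _ => h1 i
  obtain ⟨A, hA⟩ := exists_A (T := T) hww (OG_le_UG (mul_mem (inv_mem (OmL_le hk)) hh)) fun x hx => k.injective (by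
    rw [LinearEquiv.mul_apply, apply_inv_apply, hD x hx, e x hx]
    simp)
  simpa using mul_mem hk (mem_OmL_of_sub h5 hL (mul_mem (inv_mem (OmL_le hk)) hh) fun x => by
    rw [hA, add_sub_cancel_left]; exact T.tm_mem_L _ _)

end TF

theorem isMaximalIn_omega_tensor [Finite F] {ι : Type} [Fintype ι] [DecidableEq ι] {n₁ n₂ : ℕ}
    {Q : QuadraticForm F (ι → F)} (hQ : (polarBilin Q).Nondegenerate) (h5 : 5 ≤ Fintype.card ι)
    (e : ι ≃ Fin n₁ × Fin n₂) (P : GL ι F) {K : Subgroup ((ι → F) ≃ₗ[F] (ι → F))} (hK : K = TL.KS ⟨tenE e P⟩)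
    (hne : ∃ r y, (eich Q r y).1 ∉ K) (hmax : ∀ X, K ⊓ OmL Q ≤ X → X ≤ OmL Q → ¬ OmL Q ≤ X → X ≤ K) :
    Cfsg.Geo.IsMaximalIn (Cfsg.Geo.omegaGL ⇑Q)
      (Cfsg.Geo.tensorProductSubgroup n₁ n₂ e P ⊓ Cfsg.Geo.omegaGL ⇑Q) := by
  refine isMaximalIn_omegaGL Q _ (P := K.comap (OG Q).subtype) (Subgroup.ext fun g => ?_) ?_
    fun H h1 h2 g hg hg' => by_contra fun hn => hg' ?_
  · have : ogGL Q g = (glEquiv ι F).symm g.1 := (glEquiv ι F).injective (LinearEquiv.ext fun v => by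
      rw [glEquiv_apply, ogGL_mulVec, MulEquiv.apply_symm_apply])
    rw [Subgroup.mem_comap, this, mem_tensorProductSubgroup_symm_iff, hK]
    exact exists₂_congr fun a t => ⟨fun h => TL.equiv_ext _ fun x y => by rw [TL.kron_tm]; exact h x y,
      fun h x y => (LinearEquiv.congr_fun h _).trans (TL.kron_tm ⟨tenE e P⟩ a t x y)⟩
  · obtain ⟨r, y, h⟩ := hne
    exact ⟨_, eich_mem_commutator hQ (by simpa using h5) r y, h⟩
  · refine hmax (H.map (OG Q).subtype) ?_ (Subgroup.map_mono h2)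
      (fun h => hn ((Subgroup.map_le_map_iff_of_injective (OG Q).subtype_injective).1 h)) ⟨g, hg, rfl⟩
    rintro _ ⟨h, k, hk, rfl⟩
    exact ⟨k, h1 ⟨h, hk⟩, rfl⟩

end CL.Sp
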