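/-
Stabilisers in `Ω` of non-degenerate subspaces of dimension four (dimensions seven and eight).
-/
import Cfsg.Agent.Cls.OrthDecMax

set_option autoImplicit false
set_option linter.unusedSectionVars false

open scoped Matrix commutatorElement
open QuadraticMap Module

namespace CL.Cls

open CL.Known

variable {F V : Type*} [Field F] [AddCommGroup V] [Module F V] {Q : QuadraticForm F V}
  [Finite F] [FiniteDimensional F V] {U : Submodule F V} {H : Subgroup (OG Q)}

theorem commutator_le_of_reflCl_add (hQ : (polarBilin Q).Nondegenerate) (hU : NDon Q U) (h4 : 4 ≤ finrank F U)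
    (h3 : 3 ≤ finrank F (operp Q U)) (hM : stabOG Q U ⊓ commutator (OG Q) ≤ H) {x : V} (hx : refl Q x ∈ stabOG Q U)
    {a b : V} (ha : a ∈ U) (hb : b ∈ operp Q U) (ha0 : a ≠ 0) (hb0 : b ≠ 0) (hv : a + b ∈ reflCl H x)
    (h : Q a ≠ 0 ∨ (2 : F) ≠ 0) : commutator (OG Q) ≤ H := by
  have h5 : 5 ≤ finrank F V := by have := finrank_add_finrank_operp hQ U; omega
  have key : ∀ u ∈ U, u ≠ 0 → Q u = 0 → ∀ m ∈ movIn Q U ⊓ commutator (OG Q), m.1 (a + b) = a + b + u →
      commutator (OG Q) ≤ H := fun u hu hu0 hq m hm h => by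
    have h1 := app_mem_reflCl hM hx ⟨movIn_le_stabOG le_rfl hm.1, hm.2⟩ hv
    have h2 := OG.map_app m (a + b)
    rw [h] at h1 h2
    exact commutator_le_of_eichAdd_not_mem hQ h5 hU h4 (by omega) hM hu hu0 hq
      (smul_mem_eichAdd_of_reflCl hv h1 hq h2) fun h => hb0 (hU.eq_zero_of_mem_operp (by
        simpa using U.sub_mem ((U.smul_mem_iff (neg_ne_zero.2 (inv_ne_zero hv.1))).1 h) ha) hb)
  by_cases hq : Q a = 0
  · have h2 := h.resolve_left (not_not.2 hq)
    obtain ⟨f, hf, haf⟩ := hU.exists_hyp ha ha0 hq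
    obtain ⟨k, hk, h1⟩ := exists_mul_movIn_mem_commutator hQ h5 (Z := hypC Q U a f)
      (fun c _ => hypC_universal hU h4 haf ha hf c) (hypTorus Q a f (-1))
    refine key ((-2 : F) • a) (U.smul_mem _ ha) (smul_ne_zero (neg_ne_zero.2 h2) ha0) (by rw [map_smul', hq, mul_zero])
      _ ⟨mul_mem (hypTorus_mem_movIn ha hf) (movIn_mono hypC_le hk), h1⟩ ?_
    rw [OG.mul_app, movIn_app_of_mem_operp hQ hk (Submodule.add_mem _
      (mem_operp'.2 fun w hw => (mem_hypC.1 hw).2.1) (operp_anti hypC_le hb)),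
      hypTorus_app haf (neg_ne_zero.2 one_ne_zero), polar_add_right, polar_add_right, haf.polar_eq', haf.polar_left,
      mem_operp.1 hb a ha, mem_operp.1 hb f hf]
    module
  · obtain ⟨u, hu, hu0, hqu⟩ := exists_singular_in_of_three_le Q (U ⊓ perp Q a)
      (by have := finrank_le_finrank_inf_perp_succ (Q := Q) U a; omega)
    obtain ⟨y, hy, h1⟩ := exists_polar_eq_one_of_not_mem hQ (W := Submodule.span F {u}) (x := a) fun h => by
      obtain ⟨c, rfl⟩ := Submodule.mem_span_singleton.1 h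
      exact hq (by rw [map_smul', hqu, mul_zero])
    obtain ⟨w, hw, w', hw', rfl⟩ := hU.exists_add hQ y
    rw [operp_span_singleton, mem_perp, polar_add_right, mem_operp.1 hw' u hu.1, add_zero] at hy
    rw [polar_add_right, mem_operp.1 hw' a ha, add_zero] at h1
    refine key u hu.1 hu0 hqu _ ⟨eich_mem_movIn hu.1 hw, eich_mem_commutator hQ h5 _ _⟩ ?_
    rw [eich_app_of_perp hqu hy (by
      rw [polar_add_right, polar_comm, mem_perp.1 hu.2, mem_operp.1 hb u hu.1, add_zero]), polar_add_right,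
      polar_comm, h1, mem_operp.1 hb w hw, add_zero, one_smul]

theorem commutator_le_of_stab_four (hU : BlockOK Q U) (h4 : 4 ≤ finrank F U) (h3 : 3 ≤ finrank F (operp Q U))
    (h2 : (2 : F) = 0 → 4 ≤ finrank F (operp Q U)) (hni : ∀ g : OG Q, ¬ U.map (g.1 : V →ₗ[F] V) ≤ operp Q U)
    (hM : stabOG Q U ⊓ commutator (OG Q) ≤ H) {g : OG Q} (hg : g ∈ H) (hg' : g ∉ stabOG Q U) :
    commutator (OG Q) ≤ H := by
  have hQ := hU.nondeg
  have h5 : 5 ≤ finrank F V := by have := finrank_add_finrank_operp hQ U; omega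
  by_contra hc
  have hr : ∀ x, x ∈ U ∨ x ∈ operp Q U → refl Q x ∈ stabOG Q U := fun x hx =>
    refl_mem_stabOG (hx.imp_right fun h => mem_operp'.1 h)
  have hG : ∀ x, x ∈ U ∨ x ∈ operp Q U → ∀ v ∈ reflCl H x, v ∈ U ∨ v ∈ operp Q U := fun x hx v hv => by
    by_contra h
    obtain ⟨a, ha, b, hb, rfl⟩ := hU.nd.exists_add hQ v
    have ha0 : a ≠ 0 := by rintro rfl; exact h (Or.inr (by simpa using hb))
    have hb0 : b ≠ 0 := by rintro rfl; exact h (Or.inl (by simpa using ha))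
    by_cases h1 : Q a ≠ 0 ∨ (2 : F) ≠ 0
    · exact hc (commutator_le_of_reflCl_add hQ hU.nd h4 h3 hM (hr x hx) ha hb ha0 hb0 hv h1)
    push Not at h1
    refine hc (commutator_le_of_reflCl_add hQ (hU.nd.operp hQ) (h2 h1.2) (by rw [operp_operp hQ]; omega)
      (by rwa [stabOG_operp hQ]) (by rw [stabOG_operp hQ]; exact hr x hx) hb (le_operp_operp U ha) hb0 ha0
      (by rwa [add_comm]) (Or.inl fun h => hv.1 ?_))
    rw [map_add', h1.1, h, mem_operp.1 hb a ha, add_zero, add_zero]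
  have hR : ∀ h ∈ H, ∀ x ∈ U, Q x ≠ 0 → h.1 x ∈ U ∨ h.1 x ∈ operp Q U → h ∈ stabOG Q U := by
    intro h hh x hx hq hx'
    have key : ∀ y ∈ U, Q y = Q x → h.1 y ∈ U ∨ h.1 y ∈ operp Q U := fun y hy hqy => by
      refine hG _ hx' _ ⟨by rwa [OG.map_app, hqy], ?_⟩
      have := mul_mem (mul_mem hh (hM ⟨mul_mem (hr x (Or.inl hx)) (hr y (Or.inl hy)),
        refl_mul_refl_mem_commutator hQ hq (hqy ▸ hq) (by rw [hqy])⟩)) (inv_mem hh)
      rw [← refl_conj, ← refl_conj]
      simpa only [mul_assoc, inv_mul_cancel_left] using this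
    have key' : ∀ W : Submodule F V, NDon Q W → h.1 x ∈ W →
        (∀ y ∈ U, Q y = Q x → h.1 y ∈ W ∨ h.1 y ∈ operp Q W) → U.map (h.1 : V →ₗ[F] V) ≤ W := fun W hW hxW h1 =>
      Submodule.map_le_iff_le_comap.2 ((hU.le_of_split
        (S := U ⊓ W.comap (h.1 : V →ₗ[F] V)) (S' := U ⊓ (operp Q W).comap (h.1 : V →ₗ[F] V))
        inf_le_left inf_le_left
        (fun z hz => mem_operp.2 fun w hw => by rw [← OG.polar_app h]; exact mem_operp.1 hz.2 _ hw.2)
        (Submodule.disjoint_def.2 fun z hz hz' => h.1.map_eq_zero_iff.1 (hW.eq_zero_of_mem_operp hz.2 hz'.2))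
        ⟨hx, hxW⟩ hq fun z hz hqz => (h1 z hz hqz).imp (fun h => ⟨hz, h⟩) fun h => ⟨hz, h⟩).trans inf_le_right)
    rcases hx' with hx' | hx'
    · exact mem_stabOG_of_le fun u hu => key' U hU.nd hx' key ⟨u, hu, rfl⟩
    · exact absurd (key' _ (hU.nd.operp hQ) hx' fun y hy hqy => by
        rw [operp_operp hQ]; exact (key y hy hqy).symm) (hni h)
  have hS : ∀ h ∈ H, ∀ x ∈ U, x ≠ 0 → h.1 x = x → h ∈ stabOG Q U := fun h hh x hx hx0 hfix => by
    by_cases hq : Q x = 0
    swap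
    · exact hR h hh x hx hq (Or.inl (hfix.symm ▸ hx))
    obtain ⟨f, hf, hxf⟩ := hU.nd.exists_hyp hx hx0 hq
    obtain ⟨w, hw, hqw⟩ := hypC_universal hU.nd h4 hxf hx hf 1
    obtain ⟨h6, h7, -⟩ := mem_hypC.1 hw
    refine hR h hh w h6 (hqw ▸ one_ne_zero) (Or.inl (by_contra fun h8 => hc
      (commutator_le_of_eichAdd_not_mem hQ h5 hU.nd h4 (by omega) hM hx hx0 hq (app_mem_eichAdd hh hfix
        ⟨h7, hM ⟨eich_mem_stabOG_of_mem hx h6, eich_mem_commutator hQ h5 _ _⟩⟩) h8)))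
  obtain ⟨x, hx, hqx⟩ := hU.nd.exists_map_eq (by omega) 1
  have hqx' : Q x ≠ 0 := hqx ▸ one_ne_zero
  obtain ⟨y, hy, hqy, -, hyx⟩ := hU.exists_neighbour hx hqx'
  have h1 := mul_mem (mul_mem hg (hM ⟨mul_mem (hr x (Or.inl hx)) (hr y (Or.inl hy)),
    refl_mul_refl_mem_commutator hQ hqx' (hqy ▸ hqx') (by rw [hqy])⟩)) (inv_mem hg)
  rw [show g * (refl Q x * refl Q y) * g⁻¹ = refl Q (g.1 x) * refl Q (g.1 y) by
    rw [← refl_conj, ← refl_conj]; group] at h1
  obtain ⟨u, hu, hu0⟩ := exists_mem_ne_zero_of_finrank_pos (W := U ⊓ perp Q (g.1 x) ⊓ perp Q (g.1 y)) (by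
    have := finrank_le_finrank_inf_perp_succ (Q := Q) U (g.1 x)
    have := finrank_le_finrank_inf_perp_succ (Q := Q) (U ⊓ perp Q (g.1 x)) (g.1 y)
    omega)
  have h6 := hS _ h1 u hu.1.1 hu0 (by
    rw [OG.mul_app, refl_app_of_polar (mem_perp.1 hu.2), refl_app_of_polar (mem_perp.1 hu.1.2)])
  obtain ⟨z, hz, hxz⟩ := exists_polar_eq_one_of_not_mem hQ (W := Submodule.span F {y}) (x := x) fun h => by
    obtain ⟨c, rfl⟩ := Submodule.mem_span_singleton.1 h
    refine hyx ((Submodule.smul_mem_iff _ (s := c) ?_).1 (Submodule.mem_span_singleton_self _))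
    rintro rfl
    exact hqx' (by simp)
  rw [operp_span_singleton, mem_perp] at hz
  obtain ⟨a, ha, b, hb, hab⟩ := hU.nd.exists_add hQ (g.1 z)
  have h7 : (refl Q (g.1 x) * refl Q (g.1 y)).1 (a + b) - (a + b) = -g.1 x := by
    rw [hab, OG.mul_app, refl_app_of_polar (v := g.1 y) (by rwa [OG.polar_app]), refl_app, OG.polar_app,
      OG.map_app, hqx, hxz]
    simp
  have h8 := U.sub_mem (stabOG_app_mem h6 ha) ha
  have h9 := Submodule.sub_mem _ (stabOG_app_mem (stabOG_le_stabOG_operp U h6) hb) hb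
  have key : ∀ c, Q ((refl Q (g.1 x) * refl Q (g.1 y)).1 c - c) ≠ 0 →
      (refl Q (g.1 x) * refl Q (g.1 y)).1 c - c ∈ U ∨ (refl Q (g.1 x) * refl Q (g.1 y)).1 c - c ∈ operp Q U →
      False := fun c h10 h11 => by
    obtain ⟨s, t, h12⟩ := Submodule.mem_span_pair.1 (refl_mul_refl_mem_movIn_pair (Q := Q) (g.1 x) (g.1 y) c)
    rw [← h12, ← map_smul, ← map_smul, ← map_add] at h10 h11
    exact hg' (hR g hg _ (U.add_mem (U.smul_mem _ hx) (U.smul_mem _ hy)) (by rwa [OG.map_app] at h10) h11)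
  have h10 := congrArg Q h7
  rw [map_add, add_sub_add_comm, map_add', mem_operp.1 h9 _ h8, QuadraticMap.map_neg, OG.map_app, hqx] at h10
  by_cases h11 : Q ((refl Q (g.1 x) * refl Q (g.1 y)).1 a - a) = 0
  · exact key b (fun h => by rw [h, h11, add_zero, add_zero] at h10; exact zero_ne_one h10) (Or.inr h9)
  · exact key a h11 (Or.inl h8)

section Matrices

open Cfsg.Geo

variable {F : Type*} [Field F] [Fintype F] {ι : Type} [Fintype ι] [DecidableEq ι] {Q : QuadraticForm F (ι → F)}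

theorem isPlusTypeOn_top_of_operp (hQ : (polarBilin Q).Nondegenerate) {W : Submodule F (ι → F)} (hW : NDon Q W)
    (h1 : IsPlusTypeOn ⇑Q W) (h2 : IsPlusTypeOn ⇑Q (operp Q W)) : IsPlusTypeOn ⇑Q ⊤ := by
  obtain ⟨U, hU, hU0, hU1⟩ := h1
  obtain ⟨U', hU', hU0', hU1'⟩ := h2
  refine ⟨U ⊔ U', le_top, fun v hv => ?_, ?_⟩
  · obtain ⟨a, ha, b, hb, rfl⟩ := Submodule.mem_sup.1 hv
    rw [map_add', hU0 a ha, hU0' b hb, mem_operp.1 (hU' hb) a (hU ha), add_zero, add_zero]
  · have h3 := Submodule.finrank_sup_add_finrank_inf_eq U U'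
    rw [show U ⊓ U' = ⊥ from (Submodule.eq_bot_iff _).2 fun x hx => hW.eq_zero_of_mem_operp (hU hx.1) (hU' hx.2),
      finrank_bot] at h3
    have h4 := finrank_add_finrank_operp hQ W
    rw [finrank_top]
    omega

/-- The stabilisers of non-degenerate subspaces in dimension at least seven. -/
theorem isMaximalIn_omega_stab_nondeg' (hQ : (polarBilin Q).Nondegenerate) (h7 : 7 ≤ Fintype.card ι)
    (h8 : Fintype.card ι = 8 → Fintype.card F = 2 → ¬ IsPlusTypeOn ⇑Q ⊤)
    {W : Submodule F (ι → F)} (hW0 : W ≠ ⊥) (hW1 : W ≠ ⊤) (hW : IsNondegenerateOn (polar Q) W)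
    (hni : 2 * finrank F W = Fintype.card ι → ¬ AreIsometricFor ⇑Q W (operp Q W))
    (hex : ¬ (Fintype.card F ≤ 3 ∧ ∃ U : Submodule F (ι → F), finrank F U = 2 ∧
      IsNondegenerateOn (polar Q) U ∧ IsPlusTypeOn ⇑Q U ∧
        (U = W ∨ (AreOrthogonalFor (polar Q) U W ∧ finrank F U + finrank F W = Fintype.card ι)))) :
    IsMaximalIn (omegaGL ⇑Q) (subspaceStabilizer W ⊓ omegaGL ⇑Q) := by
  have hV : finrank F (ι → F) = Fintype.card ι := Module.finrank_fintype_fun_eq_card F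
  have hN := ndon_iff_isNondegenerateOn.2 hW
  have hd := finrank_add_finrank_operp hQ W
  refine isMaximalIn_omegaGL Q _ (comap_subspaceStabilizer Q W)
    (exists_commutator_not_mem_stabOG hQ (by omega) hW0 hW1) fun H hM hH g hg hg' => ?_
  have h1 : finrank F (operp Q W) ≤ finrank F W → ∀ k : OG Q,
      ¬ W.map (k.1 : (ι → F) →ₗ[F] (ι → F)) ≤ operp Q W := fun h k hk => by
    have h1 := Submodule.finrank_mono hk
    rw [OG.finrank_map] at h1
    exact hni (by omega) (areIsometricFor_of_map_eq k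
      (Submodule.eq_of_le_of_finrank_eq hk (by rw [OG.finrank_map]; omega)))
  have h2 : finrank F W ≤ finrank F (operp Q W) → ∀ k : OG Q,
      ¬ (operp Q W).map (k.1 : (ι → F) →ₗ[F] (ι → F)) ≤ operp Q (operp Q W) := fun h k hk => by
    rw [operp_operp hQ] at hk
    have h1 := Submodule.finrank_mono hk
    rw [OG.finrank_map] at h1
    exact hni (by omega) (areIsometricFor_symm (areIsometricFor_of_map_eq k
      (Submodule.eq_of_le_of_finrank_eq hk (by rw [OG.finrank_map]; omega))))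
  have h3 : ∀ U : Submodule F (ι → F), NDon Q U → finrank F U = 4 →
      (Fintype.card F = 2 → ¬ IsPlusTypeOn ⇑Q U) → BlockOK Q U := fun U hU h4 hp =>
    { nondeg := hQ
      nd := hU
      two_le := by omega
      ex2 := fun h => by omega
      ex3 := fun h => by omega
      ex4 := fun _ h X hX hX0 hX2 => hp (Nat.card_eq_fintype_card.symm.trans h) ⟨X, hX, hX0, by omega⟩ }
  have h4 : ∀ U : Submodule F (ι → F), NDon Q U → finrank F U = 3 → (2 : F) ≠ 0 := fun U hU h =>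
    hU.two_ne_zero_of_odd (by rw [h]; decide)
  have h5 : (2 : F) ≠ 0 → Fintype.card F ≠ 2 := fun h h' =>
    h (two_eq_zero_of_not_odd (by rw [h']; decide))
  by_cases h6 : 5 ≤ finrank F W ∧ finrank F (operp Q W) ≤ finrank F W
  · exact commutator_le_of_stab_nondeg hQ hN h6.1 (fun h' => hex ⟨by
      rw [← Nat.card_eq_fintype_card]; exact h'.2.1, operp Q W, h'.1,
      ndon_iff_isNondegenerateOn.1 (hN.operp hQ), (exists_singular_iff_of_finrank_two h'.1).2 h'.2.2,
      Or.inr ⟨areOrthogonalFor_iff.2 (le_operp_operp W), by omega⟩⟩) (h1 h6.2) hM hH hg hg'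
  by_cases h9 : finrank F W = 4 ∧ finrank F (operp Q W) ≤ 4 ∧ (Fintype.card F = 2 → ¬ IsPlusTypeOn ⇑Q W)
  · exact commutator_le_of_stab_four (h3 W hN h9.1 h9.2.2) h9.1.ge (by omega)
      (fun h => by_contra fun h' => h4 _ (hN.operp hQ) (by omega) h) (h1 (by omega)) hM hg hg'
  rw [← stabOG_operp hQ] at hM hg'
  by_cases h10 : 5 ≤ finrank F (operp Q W)
  · refine commutator_le_of_stab_nondeg hQ (hN.operp hQ) h10 (fun h' => ?_) (h2 (by omega)) hM hH hg hg'
    rw [operp_operp hQ] at h'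
    exact hex ⟨by rw [← Nat.card_eq_fintype_card]; exact h'.2.1, W, h'.1, hW,
      (exists_singular_iff_of_finrank_two h'.1).2 h'.2.2, Or.inl rfl⟩
  have h11 : finrank F (operp Q W) = 4 := by
    by_contra h
    exact h9 ⟨by omega, by omega, fun h' => absurd h' (h5 (h4 _ (hN.operp hQ) (by omega)))⟩
  refine commutator_le_of_stab_four (h3 _ (hN.operp hQ) h11 fun h hp => ?_) h11.ge (by rw [operp_operp hQ]; omega)
    (fun h => by rw [operp_operp hQ]; exact by_contra fun h' => h4 _ hN (by omega) h) (h2 (by omega)) hM hg hg'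
  by_cases h12 : finrank F W = 4
  · exact h9 ⟨h12, by omega, fun _ hp' => h8 (by omega) h (isPlusTypeOn_top_of_operp hQ hN hp' hp)⟩
  · exact h5 (h4 W hN (by omega)) h

end Matrices

end CL.Cls
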