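/-
`PSp_{2m}(q)` and `PΩ_{2m+1}(q)` are not isomorphic for `q` odd and `m ≥ 3`.
-/
import Cfsg.Agent.Cls.OAut2
import Cfsg.Agent.Cls.SpSimple

set_option autoImplicit false

open scoped Matrix commutatorElement
open QuadraticMap Module

namespace CL.Cls

/-- A `p`-central element of order `p` which generates no non-abelian class-two group with a conjugate. -/
def HasTransvectionLike (G : Type*) [Group G] (p : ℕ) : Prop :=
  ∃ x : G, x ≠ 1 ∧ x ^ p = 1 ∧ ¬ p ∣ (Subgroup.centralizer {x}).index ∧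
    ∀ g : G, Commute ⁅g * x * g⁻¹, x⁆ x → ⁅g * x * g⁻¹, x⁆ = 1

theorem HasTransvectionLike.congr {G H : Type*} [Group G] [Group H] (e : G ≃* H) {p : ℕ}
    (h : HasTransvectionLike G p) : HasTransvectionLike H p := by
  obtain ⟨x, h1, hp, hi, hc⟩ := h
  refine ⟨e x, by simpa using h1, by rw [← map_pow, hp, map_one], ?_, fun g hg => ?_⟩
  · have : Subgroup.centralizer {x} = (Subgroup.centralizer {e x}).comap e.toMonoidHom := by
      ext y
      simp only [Subgroup.mem_comap, Subgroup.mem_centralizer_singleton_iff, MulEquiv.coe_toMonoidHom, ← map_mul,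
        e.injective.eq_iff]
    rwa [this, Subgroup.index_comap_of_surjective _ e.surjective] at hi
  · obtain ⟨g, rfl⟩ := e.surjective g
    have h2 : ⁅e g * e x * (e g)⁻¹, e x⁆ = e ⁅g * x * g⁻¹, x⁆ := by simp [map_commutatorElement]
    rw [h2] at hg ⊢
    rw [hc g (by apply e.injective; simpa using hg.eq), map_one]

variable {F V : Type*} [Field F] [AddCommGroup V] [Module F V] [Finite F] [FiniteDimensional F V]

theorem not_hasTransvectionLike_POm (p : ℕ) [Fact p.Prime] [CharP F p] {Q : QuadraticForm F V}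
    (hQ : (polarBilin Q).Nondegenerate) (h7 : 7 ≤ finrank F V) : ¬ HasTransvectionLike (POm Q) p := by
  rintro ⟨x, h1, hp, hi, hc⟩
  have := finite_POm Q
  obtain ⟨R, hR, -, h⟩ := exists_pgroup_lr p hQ (by omega)
  obtain ⟨g, hg⟩ := exists_conj_commute_of_not_dvd_index hR hi
  obtain ⟨y, hy, hy', hyl⟩ := h _ (by rw [conj_pow, hp]; simp) hg
  obtain ⟨k, hk, rfl⟩ := exists_pm g
  obtain ⟨z, hz, rfl, hzl⟩ : ∃ z hz, pm (x := z) hz = x ∧ IsLR Q z := by
    refine ⟨k⁻¹ * y * k⁻¹⁻¹, mul_mem (mul_mem (inv_mem hk) hy) (inv_mem (inv_mem hk)), ?_, hyl.conj _⟩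
    rw [pm_conj (inv_mem hk) hy, hy', pm_inv hk]
    group
  have hz1 : z ≠ 1 := by rintro rfl; exact h1 rfl
  obtain ⟨e, v, he, hv, hev, rfl⟩ := id hzl
  have he0 : e ≠ 0 := by rintro rfl; exact hz1 (eich_zero_left v)
  obtain ⟨f, hef⟩ := exists_hyp hQ he0 he
  obtain ⟨w, hw, hq, hvw⟩ := hef.eich_eq_proj hev
  have hW := (ndon_top hQ).hypC hef trivial trivial
  have hd := finrank_hypC (W := ⊤) hef trivial trivial
  rw [finrank_top] at hd
  have hw0 : w ≠ 0 := by rintro rfl; exact hz1 (hvw.trans (eich_zero_right e))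
  obtain ⟨w', hw', hww'⟩ := hW.exists_hyp hw hw0 (hq.trans hv)
  have hd' := finrank_hypC hww' hw hw'
  obtain ⟨u, hu, hu0, hqu⟩ := exists_singular_in_of_three_le Q (hypC Q (hypC Q ⊤ e f) w w') (by omega)
  obtain ⟨huW, hwu, hw'u⟩ := mem_hypC.1 hu
  have huw' : polar Q u w' = 0 := by rw [polar_comm, hw'u]
  have hyl := isLR_eich hqu hww'.right huw'
  have hye : (eich Q u w').1 e = e :=
    eich_app_of_polar (by rw [polar_comm, (mem_hypC.1 huW).2.1]) (by rw [polar_comm, (mem_hypC.1 hw').2.1])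
  have hyw : (eich Q u w').1 w - w = u := by
    rw [eich_app_of_perp hqu huw' (by rw [polar_comm, hwu]), hww'.polar_eq']; simp
  have hcomm : ⁅eich Q u w', eich Q e v⁆ = eich Q e u := by
    rw [hvw, commutator_eich he (mem_hypC.1 hw).2.1 _ hye, hyw]
  have hne : eich Q e u ≠ 1 := fun h => hu0 (hef.eq_of_eich_eq hQ huW (Submodule.zero_mem _)
    (h.trans (eich_zero_right e).symm))
  obtain ⟨a, ha, hay⟩ := hzl.exists_conj hQ (by omega) hyl hz1 (by rintro h; rw [h] at hcomm; simp at hcomm; exact hne hcomm.symm)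
  have heu := eich_mem_commutator hQ (by omega) e u
  have h2 : ⁅pm ha * pm hz * (pm ha)⁻¹, pm hz⁆ = pm heu := by
    rw [← pm_conj ha hz, pm_congr _ (hyl.mem_commutator hQ (by omega)) hay,
      pm_congr heu (mul_mem (mul_mem (mul_mem (hyl.mem_commutator hQ (by omega)) hz)
        (inv_mem (hyl.mem_commutator hQ (by omega)))) (inv_mem hz)) hcomm.symm]
    rfl
  have h3 := hc (pm ha) (by
    rw [h2]
    change pm (mul_mem heu hz) = pm (mul_mem hz heu)
    exact pm_congr _ _ (eich_comm he (mem_hypC.1 huW).2.1 hev))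
  rw [h2, ← pm_one] at h3
  exact hne (eq_of_pm_eq p hQ (by omega) h3 (eich_pow_char p _ _) (one_pow p)).symm

open CL.Sp in
theorem hasTransvectionLike_PSp (p : ℕ) [Fact p.Prime] [CharP F p] (h2 : (2 : F) ≠ 0) {B : LinearMap.BilinForm F V}
    (hB : B.IsAlt) (hN : B.Nondegenerate) (h3 : 3 ≤ finrank F V) :
    HasTransvectionLike (Isom B ⧸ Subgroup.center (Isom B)) p := by
  have : Nontrivial V := Module.nontrivial_of_finrank_pos (R := F) (by omega)
  have : Finite V := Module.finite_of_finite F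
  obtain ⟨v, hv⟩ := exists_ne (0 : V)
  let t : V → Isom B := fun w => ⟨tv hB w 1, tv_mem_isom hB w 1⟩
  have hconj : ∀ (g : Isom B) w, g * t w * g⁻¹ = t (g.1 w) := fun g w => Subtype.ext (conj_tv hB g.2 w 1)
  have hmk : ∀ w w', (QuotientGroup.mk (t w) : Isom B ⧸ Subgroup.center (Isom B)) = QuotientGroup.mk (t w') →
      t w = t w' := by
    intro w w' h
    rw [QuotientGroup.eq, mem_center_isom_iff hB hN] at h
    rcases h with h | h
    · exact inv_mul_eq_one.1 (Subtype.ext h)
    · exfalso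
      obtain ⟨u, hu, hu0⟩ := exists_mem_ne_zero_of_finrank_pos
        (W := (⊤ ⊓ LinearMap.ker (B.flip w)) ⊓ LinearMap.ker (B.flip w')) (by
          have h1 := finrank_le_finrank_inf_ker_succ ⊤ (B.flip w)
          have h2 := finrank_le_finrank_inf_ker_succ (⊤ ⊓ LinearMap.ker (B.flip w)) (B.flip w')
          rw [finrank_top] at h1
          omega)
      have h1 : B u w = 0 := hu.1.2
      have h1' : B u w' = 0 := hu.2
      have h4 := congr($h u)
      change (tv hB w 1)⁻¹ (tv hB w' 1 u) = -u at h4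
      rw [tv_apply_of_ortho hB 1 h1', tv_inv, tv_apply_of_ortho hB _ h1, eq_neg_iff_add_eq_zero, ← two_smul F u,
        smul_eq_zero] at h4
      tauto
  have ht0 : t 0 = 1 := Subtype.ext (tv_zero_left hB 1)
  have htp : t v ^ p = 1 := by
    have : ∀ k : ℕ, tv hB v 1 ^ k = tv hB v k := fun k => by
      induction k with
      | zero => simp [tv_zero]
      | succ k ih => rw [pow_succ, ih, tv_mul]; push_cast; rfl
    exact Subtype.ext ((this p).trans (by rw [CharP.cast_eq_zero, tv_zero]; rfl))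
  refine ⟨QuotientGroup.mk (t v), fun h => ?_, by rw [← QuotientGroup.mk_pow, htp]; rfl, fun hd => ?_, fun g hg => ?_⟩
  · have h1 := hmk v 0 (by rw [h, ht0]; rfl)
    have := tv_eq_tv_imp hB hN one_ne_zero (congrArg Subtype.val h1)
    simp [hv] at this
  · have h1 : (MulAction.stabilizer (Isom B) v).map (QuotientGroup.mk' _) ≤
        Subgroup.centralizer {(QuotientGroup.mk (t v) : Isom B ⧸ Subgroup.center (Isom B))} := by
      rintro _ ⟨g, hg, rfl⟩
      rw [Subgroup.mem_centralizer_singleton_iff]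
      have h1 := hconj g v
      rw [show g.1 v = v from hg, mul_inv_eq_iff_eq_mul] at h1
      exact congrArg (QuotientGroup.mk' _) h1
    have h4 := hd.trans ((Subgroup.index_dvd_of_le h1).trans
      (Subgroup.index_map_dvd _ (QuotientGroup.mk'_surjective _)))
    have h5 : MulAction.orbit (Isom B) v = {0}ᶜ := by
      ext y
      constructor
      · rintro ⟨g, rfl⟩ h
        exact hv (g.1.map_eq_zero_iff.1 h)
      · intro hy
        obtain ⟨g, hg, h⟩ := exists_isom_apply_eq hB hN hv hy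
        exact ⟨⟨g, hg⟩, h⟩
    rw [MulAction.index_stabilizer, h5, Set.ncard_compl, Set.ncard_singleton] at h4
    cases nonempty_fintype F
    have h6 : p ∣ Nat.card V := by
      rw [Module.natCard_eq_pow_finrank (K := F), Nat.card_eq_fintype_card]
      obtain ⟨n, -, hn⟩ := FiniteField.card F p
      exact dvd_pow (hn ▸ dvd_pow_self p n.ne_zero) (by omega)
    have h7 : 1 ≤ Nat.card V := Nat.card_pos
    exact (Fact.out : p.Prime).one_lt.ne' (Nat.dvd_one.1 (by simpa [Nat.sub_sub_self h7] using (Nat.dvd_sub h6 h4)))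
  · obtain ⟨g, rfl⟩ := QuotientGroup.mk_surjective g
    have h1 : (QuotientGroup.mk g * QuotientGroup.mk (t v) * (QuotientGroup.mk g)⁻¹ :
        Isom B ⧸ Subgroup.center (Isom B)) = QuotientGroup.mk (t (g.1 v)) := by rw [← hconj]; rfl
    rw [h1] at hg ⊢
    set w := g.1 v
    have h4 : (⁅QuotientGroup.mk (t w), QuotientGroup.mk (t v)⁆ : Isom B ⧸ Subgroup.center (Isom B)) =
      QuotientGroup.mk ⁅t w, t v⁆ := (map_commutatorElement (QuotientGroup.mk' _) (t w) (t v)).symm
    rw [h4] at hg ⊢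
    have h5 := hmk ((⁅t w, t v⁆ : Isom B).1 v) v (by
      rw [← hconj]
      exact mul_inv_eq_iff_eq_mul.2 hg.eq)
    obtain ⟨c, hc⟩ := Submodule.mem_span_singleton.1 (tv_eq_tv_imp hB hN one_ne_zero (congrArg Subtype.val h5))
    have h6 : B v w = 0 := by
      have h7 : (⁅t w, t v⁆ : Isom B).1 v = tv hB w 1 (tv hB v 1 ((tv hB w 1)⁻¹ ((tv hB v 1)⁻¹ v))) := rfl
      have h8 := congrArg (B v) hc
      rw [h7, tv_inv, tv_inv, tv_apply_self] at h8
      simp only [tv_apply, map_add, map_smul, LinearMap.add_apply, LinearMap.smul_apply, alt_self hB,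
        alt_neg hB w v, smul_eq_mul] at h8
      have : B v w ^ 4 = 0 := by linear_combination -h8
      exact pow_eq_zero_iff (by norm_num) |>.1 this
    have h9 : t w * t v * (t w)⁻¹ = t v := by
      rw [hconj]
      congr 1
      exact tv_apply_of_ortho hB 1 h6
    rw [commutatorElement_def, h9, mul_inv_cancel]
    rfl

theorem isEmpty_PSp_equiv_POmega {F : Type*} [Field F] [Fintype F] (h2 : (2 : F) ≠ 0) (m : ℕ) (hm : 3 ≤ m) :
    IsEmpty (Cfsg.PSp m F ≃* Cfsg.POmega F ⇑(qfOdd m F)) := by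
  obtain ⟨p, hp⟩ := CharP.exists F
  have : Fact p.Prime := ⟨CharP.char_is_prime F p⟩
  refine ⟨fun e => not_hasTransvectionLike_POm p (nondeg_qfOdd (m := m) h2) ?_ ?_⟩
  · simp only [finrank_fintype_fun_eq_card, Fintype.card_sum, Fintype.card_fin, Fintype.card_unit]; omega
  · refine (hasTransvectionLike_PSp p h2 (Sp.stdForm_isAlt (Fin m) F) (Sp.stdForm_nondegenerate _ _) ?_).congr
      ((quotCenterCongr (Sp.spEquiv (Fin m) F)).symm.trans (e.trans (pomegaEquiv _)))
    rw [Sp.finrank_std]; omega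

end CL.Cls
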