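/-
Overgroups of the subfield subgroup `Ω_n(F₀)` in `Ω_n(F)`, part 1: the ring of root parameters and the stabiliser
of a rational singular point.
-/
import Cfsg.Agent.Cls.OrthMaxSub
import Cfsg.Agent.Cls.OrthSimple

set_option autoImplicit false
set_option linter.unusedSectionVars false

open QuadraticMap Module

namespace CL.Cls

variable {F₀ F W V : Type*} [Field F₀] [Field F] [Algebra F₀ F] [AddCommGroup W] [Module F₀ W]
  [AddCommGroup V] [Module F V]

/-- `(V, Q)` is obtained from `(W, Q₀)` by extension of scalars. -/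
structure OSub (Q : QuadraticForm F V) (Q₀ : QuadraticForm F₀ W) (ι : W →ₛₗ[algebraMap F₀ F] V) : Prop where
  nondeg : (polarBilin Q).Nondegenerate
  nondeg₀ : (polarBilin Q₀).Nondegenerate
  eq : ∀ x, Q (ι x) = algebraMap F₀ F (Q₀ x)
  span : Submodule.span F (Set.range ι) = ⊤

namespace OSub

variable {Q : QuadraticForm F V} {Q₀ : QuadraticForm F₀ W} {ι : W →ₛₗ[algebraMap F₀ F] V} (D : OSub Q Q₀ ι)
include D

theorem polar_eq (x y : W) : polar Q (ι x) (ι y) = algebraMap F₀ F (polar Q₀ x y) := by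
  simp only [polar, ← map_add ι, D.eq, map_sub]

theorem sing {u : W} (h : Q₀ u = 0) : Q (ι u) = 0 := by rw [D.eq, h, map_zero]

theorem orth {u w : W} (h : polar Q₀ u w = 0) : polar Q (ι u) (ι w) = 0 := by rw [D.polar_eq, h, map_zero]

theorem isHyp {e f : W} (h : IsHyp Q₀ e f) : IsHyp Q (ι e) (ι f) :=
  ⟨D.sing h.left, D.sing h.right, by rw [D.polar_eq, h.polar_eq, map_one]⟩

theorem eq_zero {x : V} (h : ∀ a, polar Q (ι a) x = 0) : x = 0 := by
  refine nondeg_iff.1 D.nondeg x fun y => ?_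
  have : Submodule.span F (Set.range ι) ≤ perp Q x := Submodule.span_le.2 (by
    rintro _ ⟨a, rfl⟩; exact mem_perp.2 (by rw [polar_comm]; exact h a))
  exact mem_perp.1 (this (D.span ▸ Submodule.mem_top))

theorem eich_ι (u v w : W) : (eich Q (ι u) (ι v)).1 (ι w) = ι ((eich Q₀ u v).1 w) := by
  by_cases h : Q₀ u = 0 ∧ polar Q₀ u v = 0
  · rw [eich_app h.1 h.2, eich_app (D.sing h.1) (D.orth h.2)]
    simp only [map_sub, map_add, map_smulₛₗ, map_mul, D.polar_eq, D.eq]
  · rw [eich_of_not h, eich_of_not (by simpa [D.eq, D.polar_eq] using h)]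
    rfl

variable [FiniteDimensional F₀ W]

/-- A vector whose pairings with `W` all lie in `l F₀` is an `l`-multiple of a vector of `W`. -/
theorem exists_eq_smul {x : V} {l : F} (h : ∀ a, ∃ t : F₀, polar Q (ι a) x = l * algebraMap F₀ F t) :
    ∃ w, x = l • ι w := by
  by_cases hl : l = 0
  · refine ⟨0, ?_⟩
    rw [D.eq_zero (x := x) fun a => by obtain ⟨t, ht⟩ := h a; rw [ht, hl, zero_mul]]; simp
  choose φ hφ using h
  have inj : ∀ s t : F₀, l * algebraMap F₀ F s = l * algebraMap F₀ F t → s = t := fun s t e =>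
    (algebraMap F₀ F).injective (mul_left_cancel₀ hl e)
  let φ' : Dual F₀ W :=
    { toFun := φ
      map_add' := fun a b => inj _ _ (by rw [← hφ, map_add, polar_add_left, hφ, hφ, map_add, mul_add])
      map_smul' := fun c a => inj _ _ (by
        rw [← hφ, map_smulₛₗ, polar_smul_left, hφ, smul_eq_mul, RingHom.id_apply, smul_eq_mul, map_mul]; ring) }
  obtain ⟨w, hw⟩ := (LinearMap.BilinForm.toDual (polarBilin Q₀) D.nondeg₀).surjective φ'
  refine ⟨w, sub_eq_zero.1 (D.eq_zero fun a => ?_)⟩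
  have : polar Q₀ w a = φ a := by
    rw [← polarBilin_apply_apply, ← LinearMap.BilinForm.toDual_def D.nondeg₀, hw]; rfl
  rw [polar_sub_right, polar_smul_right, D.polar_eq, hφ, polar_comm, this, smul_eq_mul, sub_self]

theorem exists_eq_smul_add {u y : W} (huy : IsHyp Q₀ u y) {x : V} (hx : polar Q (ι u) x = 0) {l : F}
    (h : ∀ a, polar Q₀ u a = 0 → ∃ t : F₀, polar Q (ι a) x = l * algebraMap F₀ F t) :
    ∃ w, polar Q₀ u w = 0 ∧ ∃ m : F, x = l • ι w + m • ι u := by
  obtain ⟨w, hw⟩ := D.exists_eq_smul (x := x - polar Q (ι y) x • ι u) (l := l) fun a => by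
    obtain ⟨t, ht⟩ := h (a - polar Q₀ u a • y) (by
      rw [polar_sub_right, polar_smul_right, huy.polar_eq, smul_eq_mul, mul_one, sub_self])
    refine ⟨t, ?_⟩
    rw [← ht, map_sub, map_smulₛₗ, polar_sub_left, polar_sub_right, polar_smul_left, polar_smul_right,
      D.polar_eq, polar_comm Q₀ a u, smul_eq_mul, smul_eq_mul, mul_comm]
  by_cases hl : l = 0
  · exact ⟨0, polar_zero_right _ _, polar Q (ι y) x, by rw [← sub_eq_iff_eq_add, hw, hl]; simp⟩
  refine ⟨w, ?_, polar Q (ι y) x, by rw [← hw, sub_add_cancel]⟩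
  have := congrArg (polar Q (ι u)) hw
  rw [polar_sub_right, polar_smul_right, polar_smul_right, hx, D.orth huy.polar_left, D.polar_eq] at this
  simpa [hl] using this.symm

omit D in
/-- The isometries of `W` which extend to elements of `H`. -/
def ext (ι : W →ₛₗ[algebraMap F₀ F] V) (H : Subgroup (OG Q)) : Subgroup (OG Q₀) where
  carrier := {g₀ | ∃ g ∈ H, ∀ w, g.1 (ι w) = ι (g₀.1 w)}
  one_mem' := ⟨1, H.one_mem, fun _ => rfl⟩
  mul_mem' := by
    rintro a b ⟨g, hg, e⟩ ⟨h, hh, e'⟩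
    exact ⟨g * h, H.mul_mem hg hh, fun w => by rw [OG.mul_app, OG.mul_app, e', e]⟩
  inv_mem' := by
    rintro a ⟨g, hg, e⟩
    exact ⟨g⁻¹, H.inv_mem hg, fun w => by
      conv_lhs => rw [← OG.app_inv_app a w, ← e, OG.inv_app_app]⟩

variable {H : Subgroup (OG Q)} (hE : ∀ u v, eich Q (ι u) (ι v) ∈ H)
include hE

theorem eich_mem_ext (u v : W) : eich Q₀ u v ∈ ext ι H := ⟨_, hE u v, D.eich_ι u v⟩

theorem ι_mem {u a : W} (hu : Q₀ u = 0) (ha : polar Q₀ u a = 0) : ι a ∈ eichAdd H (D.sing hu) :=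
  ⟨D.orth ha, hE u a⟩

omit hE in
/-- The root parameters. -/
def RP (H : Subgroup (OG Q)) : AddSubgroup F where
  carrier := {s | ∀ u (hu : Q₀ u = 0) a, polar Q₀ u a = 0 → s • ι a ∈ eichAdd H (D.sing hu)}
  add_mem' ha hb u hu a h := by rw [add_smul]; exact add_mem (ha u hu a h) (hb u hu a h)
  zero_mem' u hu a h := by rw [zero_smul]; exact zero_mem _
  neg_mem' ha u hu a h := by rw [neg_smul]; exact neg_mem (ha u hu a h)

theorem algebraMap_mem_RP (t : F₀) : algebraMap F₀ F t ∈ D.RP H := fun u hu a h => by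
  rw [← map_smulₛₗ]
  exact D.ι_mem hE hu (by rw [polar_smul_right, h, smul_zero])

variable [Finite F₀] (h7 : 7 ≤ finrank F₀ W)
include h7

theorem mem_RP_of {u y : W} (huy : IsHyp Q₀ u y) {a : W} (ha : a ∈ hypC Q₀ ⊤ u y) (ha0 : a ≠ 0) (hqa : Q₀ a = 0)
    {s : F} (hs : s • ι a ∈ eichAdd H (D.sing huy.left)) : s ∈ D.RP H := by
  have hT : NDon Q₀ ⊤ := ndon_top D.nondeg₀
  have hW := hT.hypC huy trivial trivial
  have hd := finrank_hypC huy (W := ⊤) trivial trivial
  rw [finrank_top] at hd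
  have h1 : ∀ b ∈ hypC Q₀ ⊤ u y, s • ι b ∈ eichAdd H (D.sing huy.left) := by
    obtain ⟨a', ha', haa⟩ := hW.exists_hyp ha ha0 hqa
    intro b hb
    refine singular_induction (P := fun b => s • ι b ∈ eichAdd H (D.sing huy.left)) haa ha ha' (fun x hx hqx => ?_)
      (fun x _ z _ h1 h2 => by rw [map_add, smul_add]; exact add_mem h1 h2) hb
    by_cases hx0 : x = 0
    · rw [hx0, map_zero, smul_zero]; exact zero_mem _
    obtain ⟨g₀, ⟨⟨g, hg, e⟩, hg₀⟩, rfl⟩ := exists_eich_trans_of_four_le hW (by omega)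
      (fun u _ v _ => D.eich_mem_ext hE u v) ha ha0 hx hx0 (hqa.trans hqx.symm)
    have := app_mem_eichAdd hg (by
      rw [e, movIn_app_of_mem_operp D.nondeg₀ hg₀ (mem_operp'.2 fun w hw => (mem_hypC.1 hw).2.1)]) hs
    rwa [map_smul, e] at this
  have h2 : ∀ b, polar Q₀ u b = 0 → s • ι b ∈ eichAdd H (D.sing huy.left) := fun b hb => by
    have := add_mem (h1 _ (huy.proj_mem (W := ⊤) trivial trivial (x := b) trivial))
      (smul_self_mem_eichAdd (s * algebraMap F₀ F (polar Q₀ y b)))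
    rwa [hb, zero_smul, sub_zero, map_sub, map_smulₛₗ, smul_sub, smul_smul, sub_add_cancel] at this
  intro u' hu' b hb
  by_cases hu0 : u' = 0
  · exact ⟨by rw [hu0, map_zero, polar_zero_left], by rw [hu0, map_zero, eich_zero_left]; exact H.one_mem⟩
  obtain ⟨g₀, ⟨⟨g, hg, e⟩, -⟩, rfl⟩ := exists_eich_trans_of_four_le hT (by rw [finrank_top]; omega)
    (fun u _ v _ => D.eich_mem_ext hE u v) (x := u) trivial huy.left_ne_zero trivial hu0 (huy.left.trans hu'.symm)
  have := app_mem_eichAdd' hg (h2 ((g₀⁻¹).1 b) (by rwa [← OG.polar_app_left])) (D.sing hu') (c := 1)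
    (by rw [e, one_smul])
  rwa [one_smul, map_smul, e, OG.app_inv_app] at this

theorem polar_mem_RP {u : W} (hu : Q₀ u = 0) (hu0 : u ≠ 0) {x : V} (hx : x ∈ eichAdd H (D.sing hu)) {a : W}
    (ha : polar Q₀ u a = 0) : polar Q (ι a) x ∈ D.RP H := by
  obtain ⟨y, huy⟩ := exists_hyp D.nondeg₀ hu0 hu
  have hW := (ndon_top D.nondeg₀).hypC huy trivial trivial
  have hd := finrank_hypC huy (W := ⊤) trivial trivial
  rw [finrank_top] at hd
  obtain ⟨e, he, f, hf, hef⟩ := hW.exists_isHyp (by omega)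
  have h1 : ∀ a ∈ hypC Q₀ ⊤ u y, polar Q (ι a) x ∈ D.RP H := fun a ha => by
    refine singular_induction (P := fun a => polar Q (ι a) x ∈ D.RP H) hef he hf (fun a ha hqa => ?_)
      (fun x _ z _ h1 h2 => by rw [map_add, polar_add_left]; exact add_mem h1 h2) ha
    by_cases ha0 : a = 0
    · rw [ha0, map_zero, polar_zero_left]; exact zero_mem _
    obtain ⟨a', ha', haa⟩ := hW.exists_hyp ha ha0 hqa
    have hW' := hW.hypC haa ha ha'
    have hd' := finrank_hypC haa ha ha'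
    obtain ⟨b, hb, hb0⟩ := exists_mem_ne_zero_of_finrank_pos (W := hypC Q₀ (hypC Q₀ ⊤ u y) a a') (by omega)
    obtain ⟨b', hb', hbb⟩ := hW'.exists_polar_eq hb hb0 1
    have hua := (mem_hypC.1 ha).2.1
    have fix : ∀ b ∈ hypC Q₀ (hypC Q₀ ⊤ u y) a a', (eich Q (ι a) (ι b)).1 (ι u) = ι u := fun b hb =>
      eich_app_of_polar (D.orth (by rwa [polar_comm]))
        (D.orth (by rw [polar_comm]; exact (mem_hypC.1 (mem_hypC.1 hb).1).2.1))
    have k1 := sub_mem (app_mem_eichAdd (hE a b') (fix b' hb') hx) hx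
    have k2 := sub_mem k1 (app_mem_eichAdd (hE a b) (fix b hb) k1)
    refine D.mem_RP_of hE h7 huy ha ha0 hqa ?_
    have hab := (mem_hypC.1 hb).2.1
    have hab' := (mem_hypC.1 hb').2.1
    convert k2 using 1
    rw [eich_app (D.sing hqa) (D.orth hab'), eich_app (D.sing hqa) (D.orth hab)]
    simp only [polar_sub_right, polar_add_right, polar_smul_right, D.orth haa.polar_left, D.orth hab',
      D.orth (show polar Q₀ b a = 0 by rwa [polar_comm]), D.polar_eq b b', hbb, map_one, smul_eq_mul]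
    module
  have := h1 _ (huy.proj_mem (W := ⊤) trivial trivial (x := a) trivial)
  rwa [ha, zero_smul, sub_zero, map_sub, map_smulₛₗ, polar_sub_left, polar_smul_left, hx.1, smul_zero,
    sub_zero] at this

theorem mul_mem_RP {s t : F} (hs : s ∈ D.RP H) (ht : t ∈ D.RP H) : s * t ∈ D.RP H := by
  obtain ⟨u, y, huy⟩ := exists_isHyp D.nondeg₀ (by omega)
  have hW := (ndon_top D.nondeg₀).hypC huy trivial trivial
  have hd := finrank_hypC huy (W := ⊤) trivial trivial
  rw [finrank_top] at hd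
  obtain ⟨c, hc, c', hc', hcc⟩ := hW.exists_isHyp (by omega)
  have hW' := hW.hypC hcc hc hc'
  have hd' := finrank_hypC hcc hc hc'
  obtain ⟨a, ha, ha0⟩ := exists_mem_ne_zero_of_finrank_pos (W := hypC Q₀ (hypC Q₀ ⊤ u y) c c') (by omega)
  obtain ⟨b, hb, hab⟩ := hW'.exists_polar_eq ha ha0 1
  have k1 := hs u huy.left a (mem_hypC.1 (mem_hypC.1 ha).1).2.1
  have k2 := ht c hcc.left b (mem_hypC.1 hb).2.1
  have k3 := sub_mem (app_mem_eichAdd k2.2 (eich_app_of_polar
    (D.orth (by rw [polar_comm]; exact (mem_hypC.1 hc).2.1))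
    (by rw [polar_smul_left, D.orth (by rw [polar_comm]; exact (mem_hypC.1 (mem_hypC.1 hb).1).2.1),
      smul_zero])) k1) k1
  refine D.mem_RP_of hE h7 huy hc hcc.left_ne_zero hcc.left ?_
  convert k3 using 1
  rw [eich_app_of_perp (D.sing hcc.left) k2.1 (by rw [polar_smul_right, D.orth (mem_hypC.1 ha).2.1, smul_zero]),
    polar_smul_left, polar_smul_right, D.polar_eq, polar_comm, hab, map_one]
  simp [mul_comm]

theorem RP_eq (hp : (finrank F₀ F).Prime) :
    (∀ s, s ∈ D.RP H) ∨ ∀ s ∈ D.RP H, ∃ t : F₀, algebraMap F₀ F t = s := by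
  let S : Subalgebra F₀ F :=
    { carrier := D.RP H
      mul_mem' := D.mul_mem_RP hE h7
      add_mem' := add_mem
      algebraMap_mem' := D.algebraMap_mem_RP hE }
  rcases (Subalgebra.isSimpleOrder_of_finrank_prime F₀ F hp).eq_bot_or_eq_top S with e | e
  · exact Or.inr fun s hs => Algebra.mem_bot.1 (e ▸ (hs : s ∈ S))
  · exact Or.inl fun s => (e ▸ Algebra.mem_top : s ∈ S)

omit hE in
theorem commutator_le_of_RP [Finite F] [FiniteDimensional F V] (h4 : 4 ≤ finrank F V) (h : ∀ s, s ∈ D.RP H) :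
    commutator (OG Q) ≤ H := by
  have key : ∀ {u y : W} (huy : IsHyp Q₀ u y) (x : V), polar Q (ι u) x = 0 → x ∈ eichAdd H (D.sing huy.left) := by
    intro u y huy x hx
    have : ∀ x ∈ Submodule.span F (Set.range ι), ∀ s : F,
        s • (x - polar Q (ι u) x • ι y) ∈ eichAdd H (D.sing huy.left) := fun x hx => by
      induction hx using Submodule.span_induction with
      | mem x hx =>
        obtain ⟨w, rfl⟩ := hx
        intro s
        rw [D.polar_eq, ← map_smulₛₗ, ← map_sub]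
        exact h s u huy.left _ (by rw [polar_sub_right, polar_smul_right, huy.polar_eq, smul_eq_mul, mul_one, sub_self])
      | zero => intro s; simp
      | add a b _ _ ha hb =>
        intro s
        convert add_mem (ha s) (hb s) using 1
        rw [polar_add_right]; module
      | smul c a _ ha =>
        intro s
        convert ha (s * c) using 1
        rw [polar_smul_right, smul_eq_mul]; module
    simpa [hx] using this x (D.span ▸ Submodule.mem_top) 1
  obtain ⟨u, y, huy⟩ := exists_isHyp D.nondeg₀ (by omega)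
  exact commutator_le_of_eichAdd D.nondeg h4 (D.isHyp huy) (key huy) (key huy.symm)

theorem exists_of_mem_eichAdd (hS : ∀ s ∈ D.RP H, ∃ t : F₀, algebraMap F₀ F t = s) {u : W} (hu : Q₀ u = 0)
    (hu0 : u ≠ 0) {x : V} (hx : x ∈ eichAdd H (D.sing hu)) :
    ∃ w, polar Q₀ u w = 0 ∧ ∃ m : F, x = ι w + m • ι u := by
  obtain ⟨y, huy⟩ := exists_hyp D.nondeg₀ hu0 hu
  obtain ⟨w, hw, m, e⟩ := D.exists_eq_smul_add huy hx.1 (l := 1) fun a ha => by
    obtain ⟨t, ht⟩ := hS _ (D.polar_mem_RP hE h7 hu hu0 hx ha)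
    exact ⟨t, by rw [ht, one_mul]⟩
  exact ⟨w, hw, m, by rw [e, one_smul]⟩

/-- An element of `H` mapping a rational singular point to a rational singular point is rational. -/
theorem rational_of_point [Finite F] [FiniteDimensional F V] (h5 : 5 ≤ finrank F V)
    (hH : H ≤ commutator (OG Q))
    (hM : ∀ g ∈ commutator (OG Q), ∀ l : F, l ≠ 0 → (∀ v, ∃ w, g.1 (ι v) = l • ι w) → g ∈ H)
    (hS : ∀ s ∈ D.RP H, ∃ t : F₀, algebraMap F₀ F t = s) {g : OG Q} (hg : g ∈ H) {u u' : W} (hu : Q₀ u = 0)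
    (hu0 : u ≠ 0) {c : F} (e : g.1 (ι u) = c • ι u') :
    (∃ t : F₀, algebraMap F₀ F t = c ^ 2) ∧ ∀ v, ∃ w, c • g.1 (ι v) = ι w := by
  obtain ⟨y, huy⟩ := exists_hyp D.nondeg₀ hu0 hu
  have hgy : c * polar Q (ι u') (g.1 (ι y)) = 1 := by
    rw [← smul_eq_mul, ← polar_smul_left, ← e, OG.polar_app, (D.isHyp huy).polar_eq]
  have hc : c ≠ 0 := left_ne_zero_of_mul_eq_one hgy
  have hu' : Q₀ u' = 0 := by
    have := OG.map_app g (ι u)
    rw [e, map_smul', D.sing hu, D.eq] at this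
    simpa [hc] using this
  have hu0' : u' ≠ 0 := by rintro rfl; simp at hgy
  obtain ⟨y', huy'⟩ := exists_hyp D.nondeg₀ hu0' hu'
  have hgy' : polar Q (ι u') (g.1 (ι y)) = c⁻¹ := eq_inv_of_mul_eq_one_right hgy
  obtain ⟨z, hz0, hz⟩ : ∃ z, polar Q (ι u') z = 0 ∧ (eich Q (ι u') z).1 (g.1 (ι y)) = c⁻¹ • ι y' := by
    have h1 : polar Q (ι u') (g.1 (ι y)) = polar Q (ι u') (c⁻¹ • ι y') := by
      rw [hgy', polar_smul_right, (D.isHyp huy').polar_eq, smul_eq_mul, mul_one]
    exact ⟨_, by rw [polar_smul_right, polar_sub_right, h1, sub_self, smul_zero],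
      eich_app_eq (D.sing hu') (by rw [hgy']; exact inv_ne_zero hc) h1
        (by rw [OG.map_app, map_smul', D.sing huy.right, D.sing huy'.right, mul_zero])⟩
  obtain ⟨k, hk⟩ : ∃ k, k = eich Q (ι u') z * g := ⟨_, rfl⟩
  have ky : k.1 (ι y) = c⁻¹ • ι y' := by rw [hk, OG.mul_app, hz]
  have ku : k.1 (ι u) = c • ι u' := by
    rw [hk, OG.mul_app, e, map_smul, eich_app_of_polar (D.isHyp huy').polar_left (by rwa [polar_comm])]
  have kv : ∀ v ∈ hypC Q₀ ⊤ u y, ∃ w, c • k.1 (ι v) = ι w := fun v hv => by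
    have h1 := app_mem_eichAdd' hg (D.ι_mem hE hu (mem_hypC.1 hv).2.1) (D.sing hu') e
    obtain ⟨w, -, m, h2⟩ := D.exists_of_mem_eichAdd hE h7 hS hu' hu0' h1
    have h3 : c • k.1 (ι v) = ι w + (m + polar Q z (ι w)) • ι u' := by
      rw [hk, OG.mul_app, ← map_smul, eich_app_of_perp (D.sing hu') hz0 h1.1, h2, polar_add_right,
        polar_smul_right, polar_comm Q z (ι u'), hz0]
      module
    have h4 := congrArg (polar Q (k.1 (ι y))) h3
    rw [polar_smul_right, OG.polar_app, D.orth (mem_hypC.1 hv).2.2, ky, polar_smul_left, polar_add_right,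
      polar_smul_right, (D.isHyp huy').polar_eq', D.polar_eq] at h4
    simp only [smul_eq_mul, mul_zero, mul_one, zero_eq_mul, inv_eq_zero, hc, false_or] at h4
    exact ⟨w - polar Q₀ y' w • u', by rw [h3, map_sub, map_smulₛₗ, eq_neg_of_add_eq_zero_right h4]; module⟩
  have hW := (ndon_top D.nondeg₀).hypC huy trivial trivial
  have hd := finrank_hypC huy (W := ⊤) trivial trivial
  rw [finrank_top] at hd
  obtain ⟨t, ht⟩ : ∃ t : F₀, algebraMap F₀ F t = c ^ 2 := by
    obtain ⟨a, ha, b, hb, hab⟩ := hW.exists_isHyp (by omega)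
    obtain ⟨w, hw⟩ := kv a ha
    obtain ⟨w', hw'⟩ := kv b hb
    refine ⟨polar Q₀ w w', ?_⟩
    rw [← D.polar_eq, ← hw, ← hw', polar_smul_left, polar_smul_right, OG.polar_app, (D.isHyp hab).polar_eq]
    simp [pow_two]
  have kall : ∀ v, ∃ w, c • k.1 (ι v) = ι w := fun v => by
    obtain ⟨w, hw⟩ := kv _ (huy.proj_mem (W := ⊤) trivial trivial (x := v) trivial)
    refine ⟨w + (polar Q₀ y v * t) • u' + polar Q₀ u v • y', ?_⟩
    simp only [map_sub, map_smulₛₗ ι, map_smul k.1, ku, ky, smul_sub, smul_smul] at hw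
    simp only [map_add, map_smulₛₗ ι, map_mul, ht, ← hw]
    match_scalars <;> field_simp <;> ring
  have hkH : k ∈ H := hM k (hk ▸ mul_mem (eich_mem_commutator D.nondeg h5 _ _) (hH hg)) c⁻¹ (inv_ne_zero hc)
    fun v => by
      obtain ⟨w, hw⟩ := kall v
      exact ⟨w, by rw [← hw, smul_smul, inv_mul_cancel₀ hc, one_smul]⟩
  obtain ⟨w₀, hw₀, m, hz'⟩ := D.exists_of_mem_eichAdd hE h7 hS hu' hu0'
    (x := z) ⟨hz0, (H.mul_mem_cancel_right hg).1 (hk ▸ hkH)⟩
  refine ⟨⟨t, ht⟩, fun v => ?_⟩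
  obtain ⟨w, hw⟩ := kall v
  refine ⟨((eich Q₀ u' w₀)⁻¹).1 w, (eich Q (ι u') (ι w₀)).1.injective ?_⟩
  rw [D.eich_ι, OG.app_inv_app, ← hw, hk, hz', eich_add_smul (D.sing hu') (D.orth hw₀), OG.mul_app, map_smul]

end OSub

end CL.Cls
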