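/-
Overgroups of the subfield subgroup `Ω_n(F₀)` in `Ω_n(F)`, `[F : F₀]` prime, part 2: maximality of the subfield
groups for `n ≥ 7`.
-/
import Cfsg.Agent.Cls.OrthSub
import Cfsg.Agent.Cls.SL2Root
import Cfsg.Agent.Cls.SpSub2

set_option autoImplicit false
set_option linter.unusedSectionVars false

open QuadraticMap Module

namespace CL.Cls

variable {F₀ F W V : Type*} [Field F₀] [Field F] [Algebra F₀ F] [AddCommGroup W] [Module F₀ W]
  [AddCommGroup V] [Module F V]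

theorem exists_not_mem_range_of_prime (hp : (finrank F₀ F).Prime) : ∃ k : F, ∀ t : F₀, algebraMap F₀ F t ≠ k := by
  by_contra hc
  push Not at hc
  have : (⊥ : Subalgebra F₀ F) = ⊤ := eq_top_iff.2 fun k _ => Algebra.mem_bot.2 (hc k)
  exact hp.one_lt.ne' (Subalgebra.bot_eq_top_iff_finrank_eq_one.1 this)

theorem subfield_eq_top_of_prime (hp : (finrank F₀ F).Prime) (L : Subfield F) (h : ∀ t, algebraMap F₀ F t ∈ L)
    {k : F} (hk : k ∈ L) (hk' : ∀ t : F₀, algebraMap F₀ F t ≠ k) (x : F) : x ∈ L := by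
  let S : Subalgebra F₀ F := { L.toSubring with algebraMap_mem' := h }
  rcases (Subalgebra.isSimpleOrder_of_finrank_prime F₀ F hp).eq_bot_or_eq_top S with e | e
  · have hkS : k ∈ S := hk
    obtain ⟨t, ht⟩ := Algebra.mem_bot.1 (e ▸ hkS)
    exact (hk' t ht).elim
  · exact (e ▸ Algebra.mem_top : x ∈ S)

theorem exists_sq_not_mem_range [Finite F] (hp : (finrank F₀ F).Prime) :
    ∃ k : F, k ≠ 0 ∧ ∀ t : F₀, algebraMap F₀ F t ≠ k ^ 2 := by
  by_contra hc
  push Not at hc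
  have hc' : ∀ k : F, ∃ t : F₀, algebraMap F₀ F t = k ^ 2 := fun k => by
    by_cases hk : k = 0
    · exact ⟨0, by simp [hk]⟩
    · exact hc k hk
  obtain ⟨k, hk⟩ := exists_not_mem_range_of_prime hp
  obtain ⟨s, t, hst⟩ := exists_sq_add_sq_eq (one_ne_zero (α := F)) one_ne_zero k
  obtain ⟨a, ha⟩ := hc' s
  obtain ⟨b, hb⟩ := hc' t
  exact hk (a + b) (by rw [map_add, ha, hb, ← hst, mul_one, mul_one])

namespace OSub

variable {Q : QuadraticForm F V} {Q₀ : QuadraticForm F₀ W} {ι : W →ₛₗ[algebraMap F₀ F] V} (D : OSub Q Q₀ ι)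
  [FiniteDimensional F₀ W] {H : Subgroup (OG Q)} (hE : ∀ u v, eich Q (ι u) (ι v) ∈ H) [Finite F₀]
  (h7 : 7 ≤ finrank F₀ W) [Finite F] (hp : (finrank F₀ F).Prime)
  (hA : ∀ g ∈ H, ∀ u u', Q₀ u = 0 → u ≠ 0 → ∀ c : F, g.1 (ι u) = c • ι u' →
    (∃ t : F₀, algebraMap F₀ F t = c ^ 2) ∧ ∀ v, ∃ w, c • g.1 (ι v) = ι w)
include D hE hp hA

/-- An element of `H` moving a rational singular point to an orthogonal point moves it inside a rational line. -/
theorem exists_line {r : OG Q} (hr : r ∈ H) {a : W} (ha : Q₀ a = 0) (ha0 : a ≠ 0) {m : V}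
    (hm : r.1 (ι a) = ι a + m) (hm' : r.1 m = m) (ham : polar Q (ι a) m = 0) :
    ∃ (l : F) (w : W), polar Q₀ a w = 0 ∧ ∃ ν : F, m = l • ι w + ν • ι a := by
  obtain ⟨y, hay⟩ := exists_hyp D.nondeg₀ ha0 ha
  suffices h : ∃ l : F, ∀ v, polar Q₀ a v = 0 → ∃ t : F₀, polar Q (ι v) m = l * algebraMap F₀ F t by
    obtain ⟨l, hl⟩ := h
    exact ⟨l, D.exists_eq_smul_add hay ham hl⟩
  by_contra hc
  push Not at hc
  obtain ⟨v₀, hv₀, h0⟩ := hc 0
  obtain ⟨c, hc0⟩ : ∃ c, c = polar Q (ι v₀) m := ⟨_, rfl⟩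
  have hc' : c ≠ 0 := by simpa [← hc0] using h0 0
  obtain ⟨v₁, hv₁, h1⟩ := hc c
  have haa := D.orth hay.polar_left
  have up : ∀ v, polar Q₀ a v = 0 → ∃ h ∈ H, (OG Q).subtype h (ι a) = ι a ∧
      (OG Q).subtype h (ι a + m) = ι a + m + polar Q (ι v) m • ι a := fun v hv =>
    ⟨_, hE a v, eich_app_of_polar haa (D.orth (by rwa [polar_comm])), by
      change (eich Q (ι a) (ι v)).1 _ = _
      rw [eich_app_of_perp (D.sing ha) (D.orth hv) (by rw [polar_add_right, haa, ham, add_zero]), polar_add_right,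
        D.orth (show polar Q₀ v a = 0 by rwa [polar_comm]), zero_add]⟩
  have lo : ∃ h ∈ H, (OG Q).subtype h (ι a) = ι a + c • (ι a + m) ∧ (OG Q).subtype h (ι a + m) = ι a + m := by
    have e1 : r.1 (ι a - m) = ι a := by rw [map_sub, hm, hm', add_sub_cancel_right]
    refine ⟨_, H.mul_mem (H.mul_mem hr (hE a (-v₀))) (H.inv_mem hr), ?_, ?_⟩
    · change (r * eich Q (ι a) (ι (-v₀)) * r⁻¹).1 _ = _
      have e2 : (r⁻¹).1 (ι a) = ι a - m := by conv_lhs => rw [← e1, OG.inv_app_app]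
      rw [OG.mul_app, OG.mul_app, e2,
        eich_app_of_perp (D.sing ha) (D.orth (by rw [polar_neg_right, hv₀, neg_zero]))
          (by rw [polar_sub_right, haa, ham, sub_zero]), map_add, e1, map_smul, hm, map_neg, polar_neg_left,
        polar_sub_right, D.orth (show polar Q₀ v₀ a = 0 by rwa [polar_comm]), ← hc0]
      simp
    · change (r * eich Q (ι a) (ι (-v₀)) * r⁻¹).1 _ = _
      rw [← hm, OG.mul_app, OG.mul_app, OG.inv_app_app, eich_app_of_polar haa
        (D.orth (by rw [polar_neg_left, polar_comm, hv₀, neg_zero]))]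
  obtain ⟨L, hL, -, hT⟩ := CL.SL2.plane_dickson (OG Q).subtype H (ι a) (ι a + m) hc' lo (hc0 ▸ up v₀ hv₀)
    (up v₁ hv₁) hc' (by simpa using h1 0) (by simpa using h1 1) (by simpa using h1 (-1))
  have hcc : c * c ∈ L := (hL _).1 (hc0 ▸ up v₀ hv₀)
  have hall := subfield_eq_top_of_prime hp L (fun t => by
    have := L.div_mem ((hL _).1 (up (t • v₀) (by rw [polar_smul_right, hv₀, smul_zero]))) hcc
    rwa [map_smulₛₗ, polar_smul_left, ← hc0, smul_eq_mul, show c * (algebraMap F₀ F t * c) / (c * c) =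
      algebraMap F₀ F t by field_simp] at this) (L.div_mem ((hL _).1 (up v₁ hv₁)) hcc)
    (fun t ht => h1 t (by rw [ht]; field_simp))
  obtain ⟨k, hk0, hk⟩ := exists_sq_not_mem_range hp
  obtain ⟨h, hh, e, -⟩ := hT k (hall k) hk0
  obtain ⟨t, ht⟩ := (hA h hh a a ha ha0 k e).1
  exact hk t ht

include h7

/-- The long root elements in `H` are rational. -/
theorem rational_of_root {y z : V} (hy : Q y = 0) (hz : Q z = 0) (hyz : polar Q y z = 0) (hr : eich Q y z ∈ H)
    (v : W) : ∃ w, (eich Q y z).1 (ι v) = ι w := by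
  suffices h : ∃ a, Q₀ a = 0 ∧ a ≠ 0 ∧ (eich Q y z).1 (ι a) = ι a by
    obtain ⟨a, ha, ha0, e⟩ := h
    simpa using (hA _ hr a a ha ha0 1 (by rw [e, one_smul])).2 v
  by_contra hc
  push Not at hc
  have hyy : polar Q y y = 0 := by rw [polar_self', hy, mul_zero]
  have hzz : polar Q z z = 0 := by rw [polar_self', hz, mul_zero]
  have hzy : polar Q z y = 0 := by rwa [polar_comm]
  have happ : ∀ x, (eich Q y z).1 x = x + (polar Q z x • y - polar Q y x • z) := fun x => by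
    rw [eich_app hy hyz, hz]; module
  have hfix : ∀ s t : F, (eich Q y z).1 (s • y - t • z) = s • y - t • z := fun s t =>
    eich_app_of_polar (by simp [polar_sub_right, polar_smul_right, hyy, hyz])
      (by simp [polar_sub_right, polar_smul_right, hzz, hzy])
  have hne : ∀ a, Q₀ a = 0 → a ≠ 0 → polar Q z (ι a) • y - polar Q y (ι a) • z ≠ 0 := fun a ha ha0 e =>
    hc a ha ha0 (by rw [happ, e, add_zero])
  have hirr : ∀ a, Q₀ a = 0 → a ≠ 0 → ∀ (l : F) w, polar Q z (ι a) • y - polar Q y (ι a) • z ≠ l • ι w :=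
    fun a ha ha0 l w e => by
      have h0 := hne a ha ha0
      rw [e] at h0
      have hl : l ≠ 0 := fun h => h0 (by rw [h, zero_smul])
      have h1 := hfix (polar Q z (ι a)) (polar Q y (ι a))
      rw [e, map_smul] at h1
      refine hc w ?_ (fun h => h0 (by rw [h, map_zero, smul_zero])) (smul_right_injective V hl h1)
      have h2 := congrArg Q e
      rw [map_sub', map_smul', map_smul', map_smul', hy, hz, polar_smul_left, polar_smul_right, hyz, D.eq] at h2
      simpa [hl] using h2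
  have hline : ∀ a, Q₀ a = 0 → a ≠ 0 → ∃ (l : F) (w : W), polar Q₀ a w = 0 ∧ ∃ ν : F,
      polar Q z (ι a) • y - polar Q y (ι a) • z = l • ι w + ν • ι a := fun a ha ha0 =>
    D.exists_line hE hp hA hr ha ha0 (happ _) (hfix _ _) (by
      rw [polar_sub_right, polar_smul_right, polar_smul_right, polar_comm Q (ι a), polar_comm Q (ι a)]
      simp [mul_comm])
  obtain ⟨a, -, ha0, ha⟩ := exists_singular_in_of_three_le Q₀ ⊤ (by rw [finrank_top]; omega)
  obtain ⟨l, w, haw, ν, e⟩ := hline a ha ha0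
  have hwa : w ∉ Submodule.span F₀ {a} := fun h => by
    obtain ⟨t, rfl⟩ := Submodule.mem_span_singleton.1 h
    exact hirr a ha ha0 (l * algebraMap F₀ F t + ν) a (by rw [e, map_smulₛₗ]; module)
  have haw' : a ∉ Submodule.span F₀ {w} := fun h => by
    obtain ⟨t, rfl⟩ := Submodule.mem_span_singleton.1 h
    exact hirr _ ha ha0 (l + ν * algebraMap F₀ F t) w (by rw [e, map_smulₛₗ]; module)
  obtain ⟨t₁, ht₁, ht₁'⟩ := exists_polar_eq_one_of_not_mem D.nondeg₀ haw'
  obtain ⟨t₂, ht₂, ht₂'⟩ := exists_polar_eq_one_of_not_mem D.nondeg₀ hwa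
  rw [operp_span_singleton, mem_perp] at ht₁ ht₂
  have d1 := finrank_le_finrank_inf_perp_succ (Q := Q₀) ⊤ a
  have d2 := finrank_le_finrank_inf_perp_succ (Q := Q₀) (⊤ ⊓ perp Q₀ a) w
  have d3 := finrank_le_finrank_inf_perp_succ (Q := Q₀) (⊤ ⊓ perp Q₀ a ⊓ perp Q₀ w) t₁
  have d4 := finrank_le_finrank_inf_perp_succ (Q := Q₀) (⊤ ⊓ perp Q₀ a ⊓ perp Q₀ w ⊓ perp Q₀ t₁) t₂
  rw [finrank_top] at d1
  obtain ⟨a', ⟨⟨⟨⟨-, p1⟩, p2⟩, p3⟩, p4⟩, ha0', ha'⟩ := exists_singular_in_of_three_le Q₀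
    (⊤ ⊓ perp Q₀ a ⊓ perp Q₀ w ⊓ perp Q₀ t₁ ⊓ perp Q₀ t₂) (by omega)
  replace p1 := mem_perp.1 p1
  replace p2 := mem_perp.1 p2
  replace p3 := mem_perp.1 p3
  replace p4 := mem_perp.1 p4
  have hnot : a' ∉ Submodule.span F₀ {a, w} := fun h => by
    obtain ⟨s, t, rfl⟩ := Submodule.mem_span_pair.1 h
    rw [polar_add_right, polar_smul_right, polar_smul_right, polar_comm Q₀ _ a, polar_comm Q₀ _ w] at p3 p4
    rw [ht₁, ht₁'] at p3
    rw [ht₂, ht₂'] at p4
    simp only [smul_eq_mul, mul_one, mul_zero, add_zero, zero_add] at p3 p4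
    exact ha0' (by rw [p3, p4]; simp)
  obtain ⟨t, ht, ht'⟩ := exists_polar_eq_one_of_not_mem D.nondeg₀ hnot
  have q1 : polar Q₀ a t = 0 := ht a (Submodule.subset_span (by simp))
  have q2 : polar Q₀ w t = 0 := ht w (Submodule.subset_span (by simp))
  obtain ⟨l', w', -, ν', e'⟩ := hline a' ha' ha0'
  have r1 := congrArg (fun x => polar Q x (ι a')) e
  have r2 := congrArg (fun x => polar Q x (ι t)) e
  have r3 := congrArg (fun x => polar Q x (ι t)) e'
  simp only [polar_sub_left, polar_add_left, polar_smul_left, D.polar_eq, p1, p2, q1, q2, ht', map_zero, map_one,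
    smul_eq_mul, mul_zero, add_zero, mul_one] at r1 r2 r3
  have r4 : polar Q z (ι a') * polar Q y (ι t) - polar Q y (ι a') * polar Q z (ι t) = 0 := by
    by_cases h : polar Q z (ι a) = 0
    · have h' : polar Q y (ι a) ≠ 0 := fun h' => hne a ha ha0 (by rw [h, h']; simp)
      apply mul_left_cancel₀ h'
      linear_combination (polar Q y (ι a')) * r2 - (polar Q y (ι t)) * r1
    · apply mul_left_cancel₀ h
      linear_combination (polar Q z (ι a')) * r2 - (polar Q z (ι t)) * r1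
  refine hirr a' ha' ha0' l' (w' - polar Q₀ w' t • a') ?_
  rw [e', map_sub, map_smulₛₗ, show ν' = -(l' * algebraMap F₀ F (polar Q₀ w' t)) by linear_combination r4 - r3]
  module

theorem rational_of_mem {g : OG Q} (hg : g ∈ H) : ∃ l : F, l ≠ 0 ∧ ∀ v, ∃ w, g.1 (ι v) = l • ι w := by
  obtain ⟨a, a', haa⟩ := exists_isHyp D.nondeg₀ (by omega)
  have hW := (ndon_top D.nondeg₀).hypC haa trivial trivial
  have hd := finrank_hypC haa (W := ⊤) trivial trivial
  rw [finrank_top] at hd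
  obtain ⟨b, hb, c, hc, hbc⟩ := hW.exists_isHyp (by omega)
  have key : ∀ b ∈ hypC Q₀ ⊤ a a', Q₀ b = 0 → ∀ v, ∃ w, polar Q (g.1 (ι b)) (ι v) • g.1 (ι a) -
      polar Q (g.1 (ι a)) (ι v) • g.1 (ι b) = ι w := fun b hb hqb v => by
    have h1 : Q (g.1 (ι a)) = 0 := by rw [OG.map_app, D.sing haa.left]
    have h2 : Q (g.1 (ι b)) = 0 := by rw [OG.map_app, D.sing hqb]
    have h3 : polar Q (g.1 (ι a)) (g.1 (ι b)) = 0 := by rw [OG.polar_app, D.orth (mem_hypC.1 hb).2.1]
    obtain ⟨w, hw⟩ := D.rational_of_root hE h7 hp hA h1 h2 h3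
      (eich_conj g _ _ ▸ H.mul_mem (H.mul_mem hg (hE a b)) (H.inv_mem hg)) v
    rw [eich_app h1 h3, h2] at hw
    exact ⟨w - v, by rw [map_sub, ← hw]; module⟩
  obtain ⟨v, hv⟩ : ∃ v, polar Q (g.1 (ι a)) (ι v) ≠ 0 := by
    by_contra h
    push Not at h
    have := D.eq_zero (x := g.1 (ι a)) fun v => by rw [polar_comm, h]
    exact (D.isHyp haa).left_ne_zero (by simpa using this)
  obtain ⟨w, hw⟩ := key c hc hbc.right v
  obtain ⟨w', hw'⟩ := key b hb hbc.left w
  rw [← hw] at hw'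
  simp only [polar_sub_right, polar_smul_right, OG.polar_app, (D.isHyp haa).polar_left, (D.isHyp hbc).polar_eq,
    D.orth (mem_hypC.1 hc).2.1, D.orth (show polar Q₀ b a = 0 by rw [polar_comm]; exact (mem_hypC.1 hb).2.1),
    smul_eq_mul, mul_zero, mul_one, sub_zero, zero_smul, zero_sub] at hw'
  have hk : (-polar Q (g.1 (ι a)) (ι v))⁻¹ ≠ 0 := inv_ne_zero (neg_ne_zero.2 hv)
  refine ⟨_, inv_ne_zero hk, fun x => ?_⟩
  obtain ⟨u, hu⟩ := (hA g hg a w' haa.left haa.left_ne_zero (-polar Q (g.1 (ι a)) (ι v))⁻¹ (by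
    rw [← hw', smul_smul, inv_mul_cancel₀ (neg_ne_zero.2 hv), one_smul])).2 x
  exact ⟨u, by rw [← hu, smul_smul, inv_mul_cancel₀ hk, one_smul]⟩

omit hE hA in
theorem exists_not_rational [FiniteDimensional F V] (h5 : 5 ≤ finrank F V) :
    ∃ g ∈ commutator (OG Q), ¬ ∃ l : F, l ≠ 0 ∧ ∀ v, ∃ w, g.1 (ι v) = l • ι w := by
  obtain ⟨u, y, huy⟩ := exists_isHyp D.nondeg₀ (by omega)
  have hW := (ndon_top D.nondeg₀).hypC huy trivial trivial
  have hd := finrank_hypC huy (W := ⊤) trivial trivial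
  rw [finrank_top] at hd
  obtain ⟨a, ha, a', ha', haa⟩ := hW.exists_isHyp (by omega)
  obtain ⟨s, hs⟩ := exists_not_mem_range_of_prime hp
  have h0 : polar Q (ι u) (s • ι a) = 0 := by rw [polar_smul_right, D.orth (mem_hypC.1 ha).2.1, smul_zero]
  refine ⟨eich Q (ι u) (s • ι a), eich_mem_commutator D.nondeg h5 _ _, fun ⟨l, _, h⟩ => ?_⟩
  obtain ⟨w, hw⟩ := h u
  obtain ⟨w', hw'⟩ := h a'
  rw [eich_app_of_polar (D.isHyp huy).polar_left (by rwa [polar_comm])] at hw
  rw [eich_app_of_perp (D.sing huy.left) h0 (D.orth (mem_hypC.1 ha').2.1)] at hw'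
  have e1 := congrArg (polar Q (ι y)) hw
  have e2 := congrArg (polar Q (ι y)) hw'
  simp only [polar_add_right, polar_smul_right, polar_smul_left, D.polar_eq, huy.polar_eq', haa.polar_eq,
    (mem_hypC.1 ha').2.2, map_one, map_zero, smul_eq_mul, mul_one, zero_add] at e1 e2
  have e3 : algebraMap F₀ F (polar Q₀ y w) ≠ 0 := right_ne_zero_of_mul_eq_one e1.symm
  exact hs (polar Q₀ y w' / polar Q₀ y w) (by
    rw [map_div₀, div_eq_iff e3, e2]
    linear_combination (algebraMap F₀ F (polar Q₀ y w')) * e1)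

omit hE hA in
theorem commutator_le_of_not_rational [FiniteDimensional F V] (h5 : 5 ≤ finrank F V)
    (hH : H ≤ commutator (OG Q))
    (hM : ∀ g ∈ commutator (OG Q), ∀ l : F, l ≠ 0 → (∀ v, ∃ w, g.1 (ι v) = l • ι w) → g ∈ H)
    {g : OG Q} (hg : g ∈ H) (hg' : ¬ ∃ l : F, l ≠ 0 ∧ ∀ v, ∃ w, g.1 (ι v) = l • ι w) : commutator (OG Q) ≤ H := by
  have hE : ∀ u v, eich Q (ι u) (ι v) ∈ H := fun u v => hM _ (eich_mem_commutator D.nondeg h5 _ _) 1 one_ne_zero
    fun w => ⟨_, by rw [D.eich_ι, one_smul]⟩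
  rcases D.RP_eq hE h7 hp with h | h
  · exact D.commutator_le_of_RP h7 (by omega) h
  · exact (hg' (D.rational_of_mem hE h7 hp (fun g hg u u' hu hu0 c e =>
      D.rational_of_point hE h7 h5 hH hM h hg hu hu0 e) hg)).elim

end OSub

section matrix

open Matrix Cfsg.Geo

variable {κ : Type} [Fintype κ] [DecidableEq κ]

theorem omegaGL_smul (Q : (κ → F) → F) {ζ : F} (hζ : ζ ≠ 0) : omegaGL (fun v => ζ * Q v) = omegaGL Q := by
  have h : Cfsg.isometryGroup F (fun v => ζ * Q v) = Cfsg.isometryGroup F Q := by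
    ext g
    simp only [mem_isometryGroup, mul_right_inj' hζ]
  have e : ∀ Q : (κ → F) → F, omegaGL Q = ⁅Cfsg.isometryGroup F Q, Cfsg.isometryGroup F Q⁆ := fun Q =>
    Subgroup.map_subtype_commutator _
  rw [e, e, h]

theorem isMaximalIn_omega_subfield' [Fintype F] {Q : QuadraticForm F (κ → F)} (hQ : (polarBilin Q).Nondegenerate)
    (h7 : 7 ≤ Fintype.card κ) (F₀ : Subfield F) {r : ℕ} (hr : r.Prime) (hcard : Fintype.card F = Nat.card F₀ ^ r)
    (P : GL κ F) (hP : IsQuadFormRationalStructure ⇑Q F₀ P) :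
    IsMaximalIn (omegaGL ⇑Q) (subfieldSubgroup F₀ P ⊓ omegaGL ⇑Q) := by
  have hp : (finrank F₀ F).Prime := by
    have h1 := CL.Asch.card_eq_pow_finrank_subfield F₀
    rw [Nat.card_eq_fintype_card, hcard] at h1
    rwa [← Nat.pow_right_injective (Finite.one_lt_card (α := F₀)) h1]
  let ι : (κ → F₀) →ₛₗ[algebraMap F₀ F] (κ → F) :=
    { toFun := fun v => (P : Matrix _ _ F) *ᵥ fun i => (v i : F)
      map_add' := fun u v => by rw [← mulVec_add]; rfl
      map_smul' := fun c v => by rw [← mulVec_smul]; rfl }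
  have hι : ∀ v, ι v = (P : Matrix _ _ F) *ᵥ fun i => (v i : F) := fun v => rfl
  have hmem : ∀ u, Q (ι u) ∈ F₀ := fun u => hP _ fun i => (u i).2
  have hmem' : ∀ u v, polar Q (ι u) (ι v) ∈ F₀ := fun u v => by
    rw [polar, ← map_add]
    exact F₀.sub_mem (F₀.sub_mem (hmem _) (hmem _)) (hmem _)
  let Q₀ : QuadraticForm F₀ (κ → F₀) :=
    { toFun := fun u => ⟨_, hmem u⟩
      toFun_smul := fun c u => Subtype.ext (by
        simp only [map_smulₛₗ ι, map_smul']; rw [pow_two]; rfl)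
      exists_companion' := ⟨LinearMap.mk₂ F₀ (fun u v => ⟨_, hmem' u v⟩)
        (fun u u' v => Subtype.ext (by simp only [map_add, polar_add_left]; rfl))
        (fun c u v => Subtype.ext (by simp only [map_smulₛₗ ι, polar_smul_left]; rfl))
        (fun u v v' => Subtype.ext (by simp only [map_add, polar_add_right]; rfl))
        (fun c u v => Subtype.ext (by simp only [map_smulₛₗ ι, polar_smul_right]; rfl)),
        fun u v => Subtype.ext (by simp only [map_add, map_add']; rfl)⟩ }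
  have he : ∀ u, Q (ι u) = algebraMap F₀ F (Q₀ u) := fun u => rfl
  have he' : ∀ u v, polar Q (ι u) (ι v) = algebraMap F₀ F (polar Q₀ u v) := fun u v => by
    simp only [polar, ← map_add ι, he, map_sub]
  have hspan : Submodule.span F (Set.range ι) = ⊤ := eq_top_iff.2 fun x _ => by
    rw [← CL.Asch.gl_mulVec_inv P x, pi_eq_sum_univ' (((P⁻¹ : GL κ F) : Matrix κ κ F) *ᵥ x), mulVec_sum]
    refine Submodule.sum_mem _ fun j _ => ?_
    rw [mulVec_smul]
    refine Submodule.smul_mem _ _ (Submodule.subset_span ⟨Pi.single j 1, ?_⟩)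
    rw [hι]; congr 1
    ext i; by_cases hij : i = j <;> simp [hij]
  have hN₀ : (polarBilin Q₀).Nondegenerate := nondeg_iff.2 fun x hx => by
    have h1 : ι x = 0 := nondeg_iff.1 hQ _ fun y => by
      have : Submodule.span F (Set.range ι) ≤ perp Q (ι x) := Submodule.span_le.2 (by
        rintro _ ⟨a, rfl⟩
        exact mem_perp.2 (by rw [he', hx, map_zero]))
      exact mem_perp.1 (this (hspan ▸ Submodule.mem_top))
    have h2 := CL.Asch.gl_inv_mulVec P fun i => (x i : F)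
    rw [← hι, h1, mulVec_zero] at h2
    ext i
    exact (congrFun h2 i).symm
  have D : OSub Q Q₀ ι := ⟨hQ, hN₀, he, hspan⟩
  have hmemP : ∀ g : OG Q, g ∈ (subfieldSubgroup F₀ P).comap (ogGL Q) ↔
      ∃ l : F, l ≠ 0 ∧ ∀ v, ∃ w, g.1 (ι v) = l • ι w := fun g => by
    have : ogGL Q g = (CL.Sp.glEquiv κ F).symm g.1 := Units.ext (CL.Sp.matrix_ext_mulVec fun v => by
      rw [ogGL_mulVec, CL.Sp.glEquiv_symm_mulVec])
    rw [Subgroup.mem_comap, this]
    exact CL.Sp.mem_subfieldSubgroup_symm_iff F₀ P g.1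
  have d1 : 7 ≤ finrank F₀ (κ → F₀) := by simpa using h7
  have d2 : 5 ≤ finrank F (κ → F) := by simp; omega
  refine isMaximalIn_omegaGL Q _ rfl ?_ fun H hM hH g hg hg' => ?_
  · obtain ⟨g, hg, h⟩ := D.exists_not_rational d1 hp d2
    exact ⟨g, hg, fun hh => h ((hmemP g).1 hh)⟩
  · exact D.commutator_le_of_not_rational d1 hp d2 hH
      (fun g hg l hl h => hM ⟨(hmemP g).2 ⟨l, hl, h⟩, hg⟩) hg fun h => hg' ((hmemP g).2 h)

/-- Maximality of the subfield subgroups in `Ω_n(q)`, `n ≥ 7`. -/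
theorem isMaximalIn_omega_subfield [Fintype F] {Q : (κ → F) → F} (hQ : IsNondegenerateQuadraticForm Q)
    (h7 : 7 ≤ Fintype.card κ) (F₀ : Subfield F) {r : ℕ} (hr : r.Prime) (hcard : Fintype.card F = Nat.card F₀ ^ r)
    (P : GL κ F) {ζ : F} (hζ : ζ ≠ 0) (hP : IsQuadFormRationalStructure (fun v => ζ * Q v) F₀ P) :
    IsMaximalIn (omegaGL Q) (subfieldSubgroup F₀ P ⊓ omegaGL Q) := by
  obtain ⟨Q, rfl, hQ'⟩ := exists_qf_of_isNondeg hQ
  rw [← omegaGL_smul _ hζ]
  exact isMaximalIn_omega_subfield' (Q := ζ • Q)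
    (nondeg_congrSim (LinearEquiv.refl F _) ζ hζ (fun _ => rfl) hQ') h7 F₀ hr hcard P hP

end matrix

end CL.Cls
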