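/-
Project C6 (r = 2), file 1: Pauli groups in an abstract algebra, the symplectic space `R / Z(R)` over `ZMod 2`,
and its consequences (sign characters are inner, prescribed commutation relations, the dimension).
-/
import Cfsg.Agent.Cls.SpRoot

set_option autoImplicit false

namespace CL.Pa

open Module

variable {F 𝔄 : Type*} [Field F] [Ring 𝔄] [Algebra F 𝔄]

/-- A Pauli group in the central `F`-algebra `𝔄`: it contains `-1`, its squares are signs, and it spans `𝔄`. -/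
structure Pauli (F : Type*) [Field F] {𝔄 : Type*} [Ring 𝔄] [Algebra F 𝔄] (R : Subgroup 𝔄ˣ) : Prop where
  two : (2 : F) ≠ 0
  nt : Nontrivial 𝔄
  neg : -1 ∈ R
  sq : ∀ x ∈ R, x * x = 1 ∨ x * x = -1
  span : Submodule.span F (Units.val '' (R : Set 𝔄ˣ)) = ⊤
  cen : ∀ a : 𝔄, (∀ b, a * b = b * a) → ∃ c : F, a = c • 1

/-- The centre of the unit group. -/
abbrev Zc (𝔄 : Type*) [Ring 𝔄] : Subgroup 𝔄ˣ := Subgroup.center 𝔄ˣ

theorem mem_Zc_of_smul {x : 𝔄ˣ} {c : F} (h : (x : 𝔄) = c • 1) : x ∈ Zc 𝔄 :=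
  Subgroup.mem_center_iff.2 fun g => Units.ext (by simp [h])

theorem neg_one_mem_Zc : (-1 : 𝔄ˣ) ∈ Zc 𝔄 := Subgroup.mem_center_iff.2 fun g => by simp

theorem neg_mem_Zc {x : 𝔄ˣ} : -x ∈ Zc 𝔄 ↔ x ∈ Zc 𝔄 := by
  rw [← neg_one_mul, Subgroup.mul_mem_cancel_left _ neg_one_mem_Zc]

theorem Zc_comm {x : 𝔄ˣ} (h : x ∈ Zc 𝔄) (g : 𝔄ˣ) : x * g = g * x := (Subgroup.mem_center_iff.1 h g).symm

theorem conj_mem_Zc {x g : 𝔄ˣ} : g * x * g⁻¹ ∈ Zc 𝔄 ↔ x ∈ Zc 𝔄 :=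
  ⟨fun h => by simpa [mul_assoc] using (inferInstance : (Zc 𝔄).Normal).conj_mem _ h g⁻¹,
    fun h => (inferInstance : (Zc 𝔄).Normal).conj_mem _ h g⟩

theorem inv_eq_of_sq {x : 𝔄ˣ} (h : x * x = 1) : x⁻¹ = x := inv_eq_of_mul_eq_one_right h

theorem inv_eq_neg_of_sq {x : 𝔄ˣ} (h : x * x = -1) : x⁻¹ = -x :=
  inv_eq_of_mul_eq_one_right (by rw [mul_neg, h, neg_neg])

theorem anti_symm {x y : 𝔄ˣ} (h : x * y = -(y * x)) : y * x = -(x * y) := by rw [h, neg_neg]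

/-- The commutation sign in `ZMod 2`. -/
noncomputable def bf (x y : 𝔄ˣ) : ZMod 2 := by classical exact if x * y = y * x then 0 else 1

theorem bf_eq_zero {x y : 𝔄ˣ} : bf x y = 0 ↔ x * y = y * x := by
  unfold bf; split_ifs with h <;> simp [h]

theorem bf_of_ne {x y : 𝔄ˣ} (h : x * y ≠ y * x) : bf x y = 1 := by unfold bf; rw [if_neg h]

theorem bf_comm (x y : 𝔄ˣ) : bf x y = bf y x := by
  unfold bf; by_cases h : x * y = y * x
  · rw [if_pos h, if_pos h.symm]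
  · rw [if_neg h, if_neg fun e => h e.symm]

namespace Pauli

variable {R : Subgroup 𝔄ˣ} (P : Pauli F R)
include P

theorem eq_zero_of_neg {a : 𝔄} (h : -a = a) : a = 0 := by
  have h1 : (2 : F) • a = 0 := by rw [two_smul]; nth_rw 1 [← h]; exact neg_add_cancel a
  exact (smul_eq_zero.1 h1).resolve_left P.two

theorem neg_ne (x : 𝔄ˣ) : -x ≠ x := fun h => by
  have := P.nt
  exact x.ne_zero (P.eq_zero_of_neg (congrArg Units.val h))

theorem neg_mem {x : 𝔄ˣ} (hx : x ∈ R) : -x ∈ R := by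
  rw [← neg_one_mul]; exact R.mul_mem P.neg hx

theorem comm {x y : 𝔄ˣ} (hx : x ∈ R) (hy : y ∈ R) : x * y = y * x ∨ x * y = -(y * x) := by
  have h0 : y * x = x⁻¹ * (x * y * (x * y)) * y⁻¹ := by group
  rcases P.sq x hx with h1 | h1 <;> rcases P.sq y hy with h2 | h2 <;>
    rcases P.sq _ (R.mul_mem hx hy) with h3 | h3 <;>
    rw [h0, h3] <;> simp [inv_eq_of_sq, inv_eq_neg_of_sq, h1, h2]

theorem anti_of_ne {x y : 𝔄ˣ} (hx : x ∈ R) (hy : y ∈ R) (h : x * y ≠ y * x) : x * y = -(y * x) :=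
  (P.comm hx hy).resolve_left h

theorem ne_of_anti {x y : 𝔄ˣ} (h : x * y = -(y * x)) : x * y ≠ y * x := fun e => P.neg_ne _ (h.symm.trans e)

theorem notMem_of_anti {x y : 𝔄ˣ} (h : x * y = -(y * x)) : x ∉ Zc 𝔄 := fun e => P.ne_of_anti h (Zc_comm e y)

theorem exists_smul {a : 𝔄} (h : ∀ x ∈ R, a * (x : 𝔄) = x * a) : ∃ c : F, a = c • 1 := by
  refine P.cen a fun b => ?_
  have hb : b ∈ Submodule.span F (Units.val '' (R : Set 𝔄ˣ)) := P.span ▸ Submodule.mem_top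
  induction hb using Submodule.span_induction with
  | mem x hx => obtain ⟨x, hx, rfl⟩ := hx; exact h x hx
  | zero => simp
  | add x y _ _ hx hy => rw [mul_add, add_mul, hx, hy]
  | smul c x _ hx => rw [mul_smul_comm, smul_mul_assoc, hx]

theorem mem_Zc_of_comm {g : 𝔄ˣ} (h : ∀ x ∈ R, g * x = x * g) : g ∈ Zc 𝔄 := by
  obtain ⟨c, hc⟩ := P.exists_smul (a := g) fun x hx => congrArg Units.val (h x hx)
  exact mem_Zc_of_smul hc

theorem exists_smul_of_mem {g : 𝔄ˣ} (h : g ∈ Zc 𝔄) : ∃ c : F, c ≠ 0 ∧ (g : 𝔄) = c • 1 := by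
  obtain ⟨c, hc⟩ := P.exists_smul (a := g) fun x _ => congrArg Units.val (Zc_comm h x)
  have := P.nt
  exact ⟨c, fun h0 => g.ne_zero (by rw [hc, h0, zero_smul]), hc⟩

theorem sign_of_mem {g : 𝔄ˣ} (h : g ∈ Zc 𝔄) (hg : g * g = 1) : g = 1 ∨ g = -1 := by
  obtain ⟨c, -, hc⟩ := P.exists_smul_of_mem h
  have := P.nt
  have h1 : (c * c - 1) • (1 : 𝔄) = 0 := by
    rw [sub_smul, one_smul, mul_smul, ← hc, ← mul_one (g : 𝔄), ← smul_mul_assoc, ← mul_one (c • (g : 𝔄))]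
    rw [← one_mul (g : 𝔄), ← smul_mul_assoc, ← hc, ← Units.val_mul, hg]; simp
  rcases mul_self_eq_one_iff.1 (sub_eq_zero.1 ((smul_eq_zero.1 h1).resolve_right one_ne_zero)) with h2 | h2
  · exact Or.inl (Units.ext (by simp [hc, h2]))
  · exact Or.inr (Units.ext (by simp [hc, h2]))

theorem exists_anti {x : 𝔄ˣ} (hx : x ∈ R) (h : x ∉ Zc 𝔄) : ∃ y ∈ R, x * y = -(y * x) := by
  by_contra hn
  push Not at hn
  exact h (P.mem_Zc_of_comm fun y hy => (P.comm hx hy).resolve_right (hn y hy))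

theorem exists_anti_two {x y : 𝔄ˣ} (hx : x ∈ R) (hy : y ∈ R) (h : x ∉ Zc 𝔄) (h' : y ∉ Zc 𝔄) :
    ∃ u ∈ R, x * u = -(u * x) ∧ y * u = -(u * y) := by
  obtain ⟨u, hu, e⟩ := P.exists_anti hx h
  obtain ⟨w, hw, e'⟩ := P.exists_anti hy h'
  rcases P.comm hy hu with h1 | h1
  · rcases P.comm hx hw with h2 | h2
    · refine ⟨u * w, R.mul_mem hu hw, ?_, ?_⟩
      · rw [← mul_assoc, e, neg_mul, mul_assoc, h2, mul_assoc]
      · rw [← mul_assoc, h1, mul_assoc, e', mul_neg, mul_assoc]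
    · exact ⟨w, hw, h2, e'⟩
  · exact ⟨u, hu, e, h1⟩

theorem bf_add {g x y : 𝔄ˣ} (hx : g * x = x * g ∨ g * x = -(x * g)) (hy : g * y = y * g ∨ g * y = -(y * g)) :
    bf g (x * y) = bf g x + bf g y := by
  rcases hx with h1 | h1 <;> rcases hy with h2 | h2
  · rw [bf_eq_zero.2 h1, bf_eq_zero.2 h2, add_zero, bf_eq_zero, ← mul_assoc, h1, mul_assoc, h2, mul_assoc]
  · rw [bf_eq_zero.2 h1, bf_of_ne (P.ne_of_anti h2), zero_add]
    exact bf_of_ne (P.ne_of_anti (by rw [← mul_assoc, h1, mul_assoc, h2, mul_neg, mul_assoc]))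
  · rw [bf_eq_zero.2 h2, bf_of_ne (P.ne_of_anti h1), add_zero]
    exact bf_of_ne (P.ne_of_anti (by rw [← mul_assoc, h1, neg_mul, mul_assoc, h2, mul_assoc]))
  · rw [bf_of_ne (P.ne_of_anti h1), bf_of_ne (P.ne_of_anti h2), show (1 + 1 : ZMod 2) = 0 from rfl, bf_eq_zero,
      ← mul_assoc, h1, neg_mul, mul_assoc, h2, mul_neg, neg_neg, mul_assoc]

theorem bf_mul_right {g x y : 𝔄ˣ} (hg : g ∈ R) (hx : x ∈ R) (hy : y ∈ R) : bf g (x * y) = bf g x + bf g y :=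
  P.bf_add (P.comm hg hx) (P.comm hg hy)

theorem bf_mul_left {g x y : 𝔄ˣ} (hg : g ∈ R) (hx : x ∈ R) (hy : y ∈ R) : bf (x * y) g = bf x g + bf y g := by
  rw [bf_comm, P.bf_mul_right hg hx hy, bf_comm g, bf_comm g]

/-- The symplectic space `R / Z(R)`, realised as a space of functions on `R`. -/
def A : Submodule (ZMod 2) (R → ZMod 2) where
  carrier := {f | ∃ x ∈ R, f = fun y : R => bf x (y : 𝔄ˣ)}
  add_mem' := by
    rintro _ _ ⟨x, hx, rfl⟩ ⟨y, hy, rfl⟩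
    exact ⟨x * y, R.mul_mem hx hy, funext fun g => (P.bf_mul_left g.2 hx hy).symm⟩
  zero_mem' := ⟨1, R.one_mem, funext fun g => (bf_eq_zero.2 (by simp)).symm⟩
  smul_mem' := by
    rintro c _ ⟨x, hx, rfl⟩
    rcases (by decide : ∀ c : ZMod 2, c = 0 ∨ c = 1) c with rfl | rfl
    · exact ⟨1, R.one_mem, funext fun g => by simpa using (bf_eq_zero.2 (by simp)).symm⟩
    · exact ⟨x, hx, one_smul _ _⟩

/-- The class of an element of `R`. -/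
noncomputable def φ (x : R) : P.A := ⟨fun y => bf (x : 𝔄ˣ) (y : 𝔄ˣ), x, x.2, rfl⟩

/-- A representative. -/
noncomputable def rep (v : P.A) : R := ⟨v.2.choose, v.2.choose_spec.1⟩

theorem φ_rep (v : P.A) : P.φ (P.rep v) = v := Subtype.ext v.2.choose_spec.2.symm

theorem φ_surj (v : P.A) : ∃ x, P.φ x = v := ⟨_, P.φ_rep v⟩

theorem φ_mul (x y : R) : P.φ (x * y) = P.φ x + P.φ y :=
  Subtype.ext (funext fun g => P.bf_mul_left g.2 x.2 y.2)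

theorem φ_eq_zero {x : R} : P.φ x = 0 ↔ (x : 𝔄ˣ) ∈ Zc 𝔄 :=
  ⟨fun h => P.mem_Zc_of_comm fun y hy => bf_eq_zero.1 (congrFun (congrArg Subtype.val h) ⟨y, hy⟩),
    fun h => Subtype.ext (funext fun y => bf_eq_zero.2 (Zc_comm h y))⟩

theorem φ_inv (x : R) : P.φ x⁻¹ = P.φ x := by
  have h : P.φ x⁻¹ + P.φ x = 0 := by rw [← P.φ_mul, inv_mul_cancel, P.φ_eq_zero]; exact one_mem _
  rw [eq_neg_of_add_eq_zero_left h, ← neg_one_smul (ZMod 2), show (-1 : ZMod 2) = 1 from rfl, one_smul]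

theorem φ_eq_iff {x y : R} : P.φ x = P.φ y ↔ (x : 𝔄ˣ)⁻¹ * y ∈ Zc 𝔄 := by
  rw [show (x : 𝔄ˣ)⁻¹ * y = ((x⁻¹ * y : R) : 𝔄ˣ) from rfl, ← P.φ_eq_zero, P.φ_mul, P.φ_inv, add_eq_zero_iff_eq_neg,
    ← neg_one_smul (ZMod 2), show (-1 : ZMod 2) = 1 from rfl, one_smul]

theorem app_rep (u v : P.A) : u.1 (P.rep v) = v.1 (P.rep u) := by
  have h : ∀ u v : P.A, u.1 (P.rep v) = bf (P.rep u : 𝔄ˣ) (P.rep v) := fun u v =>
    (congrFun (congrArg Subtype.val (P.φ_rep u)) (P.rep v)).symm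
  rw [h, h, bf_comm]

/-- The commutator form. -/
noncomputable def B : LinearMap.BilinForm (ZMod 2) P.A :=
  LinearMap.mk₂ (ZMod 2) (fun u v => u.1 (P.rep v)) (fun _ _ _ => rfl) (fun _ _ _ => rfl)
    (fun u v w => by rw [P.app_rep, P.app_rep u, P.app_rep u]; rfl)
    (fun c u v => by rw [P.app_rep, P.app_rep u]; rfl)

theorem B_φ (x y : R) : P.B (P.φ x) (P.φ y) = bf (x : 𝔄ˣ) y := by
  show bf (x : 𝔄ˣ) (P.rep (P.φ y)) = _
  rw [bf_comm, bf_comm (x : 𝔄ˣ)]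
  exact congrFun (congrArg Subtype.val (P.φ_rep (P.φ y))) x

theorem B_alt : P.B.IsAlt := fun v => by
  obtain ⟨x, rfl⟩ := P.φ_surj v
  rw [P.B_φ, bf_eq_zero]

theorem B_nondeg [Finite 𝔄] : P.B.Nondegenerate := by
  refine (LinearMap.IsRefl.nondegenerate_iff_separatingLeft P.B_alt.isRefl).2 fun v hv => ?_
  obtain ⟨x, rfl⟩ := P.φ_surj v
  exact P.φ_eq_zero.2 (P.mem_Zc_of_comm fun y hy => bf_eq_zero.1 (by rw [← P.B_φ x ⟨y, hy⟩, hv]))

/-- **(T)** A unit which conjugates `R` by signs lies in `R Z`. -/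
theorem exists_mem_of_signs [Finite 𝔄] {g : 𝔄ˣ} (h : ∀ x ∈ R, g * x = x * g ∨ g * x = -(x * g)) :
    ∃ r ∈ R, r⁻¹ * g ∈ Zc 𝔄 := by
  have hφ : ∀ x y : R, P.φ x = P.φ y → bf g x = bf g y := fun x y e => by
    have h1 := P.φ_eq_iff.1 e
    have h2 : (y : 𝔄ˣ) = x * ((x : 𝔄ˣ)⁻¹ * y) := by group
    rw [h2, P.bf_add (h x x.2) (Or.inl (Zc_comm h1 g).symm), bf_eq_zero.2 (Zc_comm h1 g).symm, add_zero]
  let f : Dual (ZMod 2) P.A :=
    { toFun := fun v => bf g (P.rep v)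
      map_add' := fun u v => by
        rw [← P.bf_add (h _ (P.rep u).2) (h _ (P.rep v).2)]
        exact hφ (P.rep (u + v)) (P.rep u * P.rep v) (by rw [P.φ_mul, P.φ_rep, P.φ_rep, P.φ_rep])
      map_smul' := fun c u => by
        rcases (by decide : ∀ c : ZMod 2, c = 0 ∨ c = 1) c with rfl | rfl
        · rw [zero_smul, RingHom.id_apply, zero_smul, hφ _ 1 (by rw [P.φ_rep, P.φ_eq_zero.2 (one_mem _)]),
            bf_eq_zero]
          simp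
        · simp }
  obtain ⟨v, hv⟩ := (P.B.toDual P.B_nondeg).surjective f
  obtain ⟨r, rfl⟩ := P.φ_surj v
  refine ⟨r, r.2, P.mem_Zc_of_comm fun x hx => ?_⟩
  have h1 : bf (r : 𝔄ˣ) x = bf g x := by
    rw [← P.B_φ r ⟨x, hx⟩, ← hφ _ ⟨x, hx⟩ (P.φ_rep _)]
    exact congrArg (fun f : Dual (ZMod 2) P.A => f (P.φ ⟨x, hx⟩)) hv
  rcases h x hx with h2 | h2
  · rw [bf_eq_zero.2 h2, bf_eq_zero] at h1
    rw [mul_assoc, h2, ← mul_assoc, ← mul_assoc, (show Commute (r : 𝔄ˣ) x from h1).inv_left.eq]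
  · have h3 : (r : 𝔄ˣ)⁻¹ * x = -(x * (r : 𝔄ˣ)⁻¹) := P.anti_of_ne (R.inv_mem r.2) hx fun e => by
      rw [bf_of_ne (P.ne_of_anti h2), bf_eq_zero.2 (by simpa using (show Commute _ x from e).inv_left.eq)] at h1
      exact zero_ne_one h1
    rw [mul_assoc, h2, mul_neg, ← mul_assoc, h3, neg_mul, neg_neg, mul_assoc]

/-- **Separation** by one element. -/
theorem sep_one [Finite 𝔄] {a y : 𝔄ˣ} (ha : a ∈ R) (hy : y ∈ R) (h0 : y ∉ Zc 𝔄) (h1 : a⁻¹ * y ∉ Zc 𝔄) :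
    ∃ u ∈ R, a * u = u * a ∧ y * u = -(u * y) := by
  obtain ⟨v, hv, hv'⟩ := CL.Sp.exists_orth_ne_zero P.B_alt P.B_nondeg
    (W := Submodule.span (ZMod 2) {P.φ ⟨a, ha⟩}) (x := P.φ ⟨y, hy⟩) (by
      rw [Submodule.mem_span_singleton]
      rintro ⟨c, hc⟩
      rcases (by decide : ∀ c : ZMod 2, c = 0 ∨ c = 1) c with rfl | rfl
      · rw [zero_smul] at hc; exact h0 (P.φ_eq_zero.1 hc.symm)
      · rw [one_smul] at hc; exact h1 (P.φ_eq_iff.1 hc))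
  obtain ⟨u, rfl⟩ := P.φ_surj v
  refine ⟨u, u.2, ?_, P.anti_of_ne hy u.2 fun e => hv' (by rw [P.B_φ, bf_eq_zero.2 e])⟩
  have := hv _ (Submodule.mem_span_singleton_self _)
  rwa [P.B_φ, bf_eq_zero] at this

/-- **Separation** by two elements. -/
theorem sep_two [Finite 𝔄] {a b y : 𝔄ˣ} (ha : a ∈ R) (hb : b ∈ R) (hy : y ∈ R) (h0 : y ∉ Zc 𝔄)
    (h1 : a⁻¹ * y ∉ Zc 𝔄) (h2 : b⁻¹ * y ∉ Zc 𝔄) (h3 : (a * b)⁻¹ * y ∉ Zc 𝔄) :
    ∃ u ∈ R, a * u = u * a ∧ b * u = u * b ∧ y * u = -(u * y) := by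
  obtain ⟨v, hv, hv'⟩ := CL.Sp.exists_orth_ne_zero P.B_alt P.B_nondeg
    (W := Submodule.span (ZMod 2) {P.φ ⟨a, ha⟩, P.φ ⟨b, hb⟩}) (x := P.φ ⟨y, hy⟩) (by
      rw [Submodule.mem_span_pair]
      rintro ⟨c, d, hc⟩
      rcases (by decide : ∀ c : ZMod 2, c = 0 ∨ c = 1) c with rfl | rfl <;>
        rcases (by decide : ∀ c : ZMod 2, c = 0 ∨ c = 1) d with rfl | rfl <;>
        simp only [zero_smul, one_smul, add_zero, zero_add] at hc
      · exact h0 (P.φ_eq_zero.1 hc.symm)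
      · exact h2 (P.φ_eq_iff.1 hc)
      · exact h1 (P.φ_eq_iff.1 hc)
      · rw [← P.φ_mul] at hc; exact h3 (P.φ_eq_iff.1 hc))
  obtain ⟨u, rfl⟩ := P.φ_surj v
  have e1 := hv (P.φ ⟨a, ha⟩) (Submodule.subset_span (by simp))
  have e2 := hv (P.φ ⟨b, hb⟩) (Submodule.subset_span (by simp))
  rw [P.B_φ, bf_eq_zero] at e1 e2
  exact ⟨u, u.2, e1, e2, P.anti_of_ne hy u.2 fun e => hv' (by rw [P.B_φ, bf_eq_zero.2 e])⟩

theorem span_rep : Submodule.span F (Set.range fun v : P.A => ((P.rep v : 𝔄ˣ) : 𝔄)) = ⊤ := by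
  rw [eq_top_iff, ← P.span, Submodule.span_le]
  rintro _ ⟨x, hx, rfl⟩
  obtain ⟨c, -, hc⟩ := P.exists_smul_of_mem (P.φ_eq_iff.1 (P.φ_rep (P.φ ⟨x, hx⟩)))
  have : (x : 𝔄) = c • ((P.rep (P.φ ⟨x, hx⟩) : 𝔄ˣ) : 𝔄) := by
    rw [← mul_one (((P.rep (P.φ ⟨x, hx⟩) : 𝔄ˣ) : 𝔄)), ← mul_smul_comm, ← hc, ← Units.val_mul, mul_inv_cancel_left]
  rw [this]
  exact Submodule.smul_mem _ _ (Submodule.subset_span ⟨_, rfl⟩)

theorem card_A [Finite 𝔄] : Nat.card P.A = 2 ^ finrank (ZMod 2) P.A := by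
  have := Fintype.ofFinite P.A
  rw [Nat.card_eq_fintype_card, Module.card_eq_pow_finrank (K := ZMod 2), ZMod.card]

theorem finrank_le [Finite 𝔄] : finrank F 𝔄 ≤ 2 ^ finrank (ZMod 2) P.A := by
  have := Fintype.ofFinite P.A
  rw [← P.card_A, Nat.card_eq_fintype_card, ← finrank_top, ← P.span_rep]
  exact finrank_range_le_card _

theorem pow_four {x : 𝔄ˣ} (hx : x ∈ R) : x ^ 4 = 1 := by
  rw [show x ^ 4 = x * x * (x * x) by simp only [pow_succ, pow_zero, one_mul, mul_assoc]]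
  rcases P.sq x hx with h | h <;> simp [h]

theorem card_ne_zero [Finite 𝔄] : (Nat.card R : F) ≠ 0 := by
  obtain ⟨n, hn⟩ := IsPGroup.iff_card.1 (show IsPGroup 2 R from fun x => ⟨2, Subtype.ext (P.pow_four x.2)⟩)
  rw [hn, Nat.cast_pow]
  exact pow_ne_zero _ (by exact_mod_cast P.two)

theorem linearIndependent_rep [Finite 𝔄] : LinearIndependent F fun v : P.A => ((P.rep v : 𝔄ˣ) : 𝔄) := by
  classical
  have := Fintype.ofFinite P.A
  have := Fintype.ofFinite R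
  have := P.nt
  let T : 𝔄 →ₗ[F] 𝔄 := ∑ x : R, (LinearMap.mulLeft F ((x : 𝔄ˣ) : 𝔄)).comp (LinearMap.mulRight F ((x : 𝔄ˣ)⁻¹ : 𝔄ˣ))
  have hT : ∀ r : 𝔄ˣ, T r = ∑ x : R, (((x : 𝔄ˣ) * r * (x : 𝔄ˣ)⁻¹ : 𝔄ˣ) : 𝔄) := fun r => by
    simp [T, LinearMap.sum_apply, mul_assoc]
  have h0 : ∀ r ∈ R, r ∉ Zc 𝔄 → T r = 0 := fun r hr h => by
    obtain ⟨y, hy, e⟩ := P.exists_anti hr h
    refine P.eq_zero_of_neg ?_
    rw [hT, ← Finset.sum_neg_distrib, ← Equiv.sum_comp (Equiv.mulRight (⟨y, hy⟩ : R))]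
    refine Finset.sum_congr rfl fun x _ => ?_
    rw [← Units.val_neg, Equiv.coe_mulRight, Subgroup.coe_mul, mul_assoc _ y, anti_symm e]
    simp [mul_assoc]
  rw [Fintype.linearIndependent_iff]
  intro c hc w
  have h1 := congrArg (fun a => T ((((P.rep w : 𝔄ˣ)⁻¹ : 𝔄ˣ) : 𝔄) * a)) hc
  simp only [Finset.mul_sum, mul_smul_comm, map_sum, map_smul, mul_zero, map_zero, ← Units.val_mul] at h1
  rw [Finset.sum_eq_single w, inv_mul_cancel, hT] at h1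
  · simp only [mul_one, mul_inv_cancel, Units.val_one, Finset.sum_const, Finset.card_univ, ← Nat.card_eq_fintype_card,
      ← Nat.cast_smul_eq_nsmul F, smul_smul, smul_eq_zero, one_ne_zero, or_false] at h1
    exact (mul_eq_zero.1 h1).resolve_right P.card_ne_zero
  · intro v _ hv
    rw [h0 _ (R.mul_mem (R.inv_mem (P.rep w).2) (P.rep v).2) fun h => hv ?_, smul_zero]
    rw [← P.φ_rep v, ← P.φ_rep w, eq_comm, P.φ_eq_iff]
    simpa only [P.φ_rep] using h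
  · simp

theorem finrank_eq [Finite 𝔄] : finrank F 𝔄 = 2 ^ finrank (ZMod 2) P.A := by
  have := Fintype.ofFinite P.A
  refine le_antisymm P.finrank_le ?_
  rw [← P.card_A, Nat.card_eq_fintype_card]
  exact P.linearIndependent_rep.fintype_card_le_finrank

/-- **(E)** A non-central element of `R` commuting with `k` given elements, when `2 ^ k < dim 𝔄`. -/
theorem exists_comm [Finite 𝔄] {k : ℕ} (hk : 2 ^ k < finrank F 𝔄) (a : Fin k → 𝔄ˣ) (ha : ∀ j, a j ∈ R) :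
    ∃ u ∈ R, u ∉ Zc 𝔄 ∧ ∀ j, u * a j = a j * u := by
  have h1 : k < finrank (ZMod 2) P.A := (pow_lt_pow_iff_right₀ one_lt_two).1 (hk.trans_le P.finrank_le)
  obtain ⟨v, -, hv0, hv⟩ := CL.Sp.exists_ne_zero_orth (B := P.B) ⊤ (fun j => P.φ ⟨a j, ha j⟩)
    (by simpa using h1)
  obtain ⟨u, rfl⟩ := P.φ_surj v
  exact ⟨u, u.2, fun h => hv0 (P.φ_eq_zero.2 h), fun j => bf_eq_zero.1 (by rw [← hv j, P.B_φ])⟩

end Pauli

end CL.Pa
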