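/-
Project C6 (r = 2), file 2: the normaliser of a Pauli group, the elements `σ_a = 1 + i a`, generation of the
normaliser, and gluing of units along an involution.
-/
import Cfsg.Agent.Cls.Pauli1

set_option autoImplicit false

namespace CL.Pa

open Module

variable {F 𝔄 : Type*} [Field F] [Ring 𝔄] [Algebra F 𝔄]

/-- The normaliser. -/
abbrev Nm (R : Subgroup 𝔄ˣ) : Subgroup 𝔄ˣ := Subgroup.normalizer (R : Set 𝔄ˣ)

theorem conj_mem {R : Subgroup 𝔄ˣ} {g x : 𝔄ˣ} (hg : g ∈ Nm R) (hx : x ∈ R) : g * x * g⁻¹ ∈ R :=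
  (Subgroup.mem_normalizer_iff.1 hg x).1 hx

theorem mem_Nm [Finite 𝔄] {R : Subgroup 𝔄ˣ} {g : 𝔄ˣ} (h : ∀ x ∈ R, g * x * g⁻¹ ∈ R) : g ∈ Nm R :=
  Subgroup.mem_normalizer_fintype h

theorem Zc_le_Nm (R : Subgroup 𝔄ˣ) : Zc 𝔄 ≤ Nm R := Subgroup.center_le_normalizer _

theorem conj_eq_of_comm {g x : 𝔄ˣ} (h : g * x = x * g) : g * x * g⁻¹ = x := by rw [h, mul_inv_cancel_right]

theorem conj_eq_of_anti {g x : 𝔄ˣ} (h : g * x = -(x * g)) : g * x * g⁻¹ = -x := by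
  rw [h, neg_mul, mul_inv_cancel_right]

theorem comm_of_conj {g x : 𝔄ˣ} (h : g * x * g⁻¹ = x) : g * x = x * g := mul_inv_eq_iff_eq_mul.1 h

theorem anti_of_conj {g x : 𝔄ˣ} (h : g * x * g⁻¹ = -x) : g * x = -(x * g) := by
  rw [← neg_mul]; exact mul_inv_eq_iff_eq_mul.1 h

theorem conj_sq {g x : 𝔄ˣ} (h : x * x = 1) : g * x * g⁻¹ * (g * x * g⁻¹) = 1 := by
  rw [show g * x * g⁻¹ * (g * x * g⁻¹) = g * (x * x) * g⁻¹ by group, h]; simp

/-- The unit with a given value (and `1` when there is none). -/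
noncomputable def un (a : 𝔄) : 𝔄ˣ := by classical exact if h : IsUnit a then h.unit else 1

theorem un_val {a b : 𝔄} (h : a * b = 1) (h' : b * a = 1) : (un a : 𝔄) = a := by
  have hu : IsUnit a := ⟨⟨a, b, h, h'⟩, rfl⟩
  unfold un; rw [dif_pos hu]; rfl

/-- The scalar unit. -/
noncomputable def scu (𝔄 : Type*) [Ring 𝔄] [Algebra F 𝔄] (c : F) : 𝔄ˣ := un (c • (1 : 𝔄))

theorem scu_val {c : F} (h : c ≠ 0) : (scu 𝔄 c : 𝔄) = c • 1 :=
  un_val (b := c⁻¹ • 1) (by simp [smul_smul, h]) (by simp [smul_smul, h])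

theorem scu_mem {c : F} (h : c ≠ 0) : scu 𝔄 c ∈ Zc 𝔄 := mem_Zc_of_smul (scu_val h)

/-- The unit `1 + i a`. -/
noncomputable def sig (i : F) (a : 𝔄ˣ) : 𝔄ˣ := un (1 + i • (a : 𝔄))

section sig

variable {i : F} (h2 : (2 : F) ≠ 0) (hi : i * i = -1)
include hi

theorem i_ne_zero : i ≠ 0 := fun h => by simp [h] at hi

theorem scu_i_sq : scu 𝔄 i * scu 𝔄 i = -1 :=
  Units.ext (by simp [scu_val (i_ne_zero hi), smul_smul, hi])

theorem sig_aux {a : 𝔄} (ha : a * a = 1) : (1 + i • a) * (1 - i • a) = (2 : F) • 1 := by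
  simp only [mul_sub, add_mul, mul_one, one_mul, smul_mul_assoc, mul_smul_comm, smul_add, smul_smul, hi, ha]
  module

include h2

theorem sig_val {a : 𝔄ˣ} (ha : a * a = 1) : (sig i a : 𝔄) = 1 + i • (a : 𝔄) := by
  have ha' : (a : 𝔄) * a = 1 := congrArg Units.val ha
  refine un_val (b := (2 : F)⁻¹ • (1 - i • (a : 𝔄))) ?_ ?_
  · rw [mul_smul_comm, sig_aux hi ha', smul_smul, inv_mul_cancel₀ h2, one_smul]
  · have := sig_aux hi (a := -(a : 𝔄)) (by simpa using ha')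
    rw [smul_neg, sub_neg_eq_add, ← sub_eq_add_neg] at this
    rw [smul_mul_assoc, this, smul_smul, inv_mul_cancel₀ h2, one_smul]

theorem conj_sig {a : 𝔄ˣ} (ha : a * a = 1) (g : 𝔄ˣ) : g * sig i a * g⁻¹ = sig i (g * a * g⁻¹) :=
  Units.ext (by simp [sig_val h2 hi ha, sig_val h2 hi (conj_sq ha), mul_add, add_mul])

theorem sig_comm {a x : 𝔄ˣ} (ha : a * a = 1) (h : a * x = x * a) : sig i a * x = x * sig i a := by
  rw [eq_comm, ← mul_inv_eq_iff_eq_mul, conj_sig h2 hi ha, conj_eq_of_comm h.symm]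

theorem sig_anti {a x : 𝔄ˣ} (ha : a * a = 1) (h : a * x = -(x * a)) :
    sig i a * x * (sig i a)⁻¹ = scu 𝔄 i * a * x := by
  have ha' : (a : 𝔄) * a = 1 := congrArg Units.val ha
  have h' : (a : 𝔄) * x = -(x * a) := congrArg Units.val h
  have h3 : (a : 𝔄) * x * a = -x := by rw [h', neg_mul, mul_assoc, ha', mul_one]
  rw [mul_inv_eq_iff_eq_mul]
  refine Units.ext ?_
  simp only [Units.val_mul, sig_val h2 hi ha, scu_val (i_ne_zero hi), mul_add, add_mul, one_mul, mul_one,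
    smul_mul_assoc, mul_smul_comm, smul_smul, hi, h3]
  module

theorem sig_sq {a : 𝔄ˣ} (ha : a * a = 1) : sig i a * sig i a = scu 𝔄 (2 * i) * a := by
  have ha' : (a : 𝔄) * a = 1 := congrArg Units.val ha
  refine Units.ext ?_
  simp only [Units.val_mul, sig_val h2 hi ha, scu_val (mul_ne_zero h2 (i_ne_zero hi)), mul_add, add_mul, one_mul,
    mul_one, smul_mul_assoc, mul_smul_comm, smul_add, smul_smul, hi, ha']
  module

theorem sig_mul_neg {a : 𝔄ˣ} (ha : a * a = 1) : sig i a * sig i (-a) = scu 𝔄 (2 : F) := by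
  refine Units.ext ?_
  rw [Units.val_mul, sig_val h2 hi ha, sig_val h2 hi (by simpa using ha), scu_val h2, Units.val_neg, smul_neg,
    ← sub_eq_add_neg, sig_aux hi (congrArg Units.val ha)]

end sig

/-- A Pauli group of linear type: it contains the scalar `i`. -/
structure LP (i : F) (R : Subgroup 𝔄ˣ) : Prop extends Pauli F R where
  ii : i * i = -1
  iR : scu 𝔄 i ∈ R

namespace Pauli

variable {R : Subgroup 𝔄ˣ} (P : Pauli F R)
include P

theorem sign_of_conj {g x : 𝔄ˣ} (hx : x ∈ R) (h : x⁻¹ * (g * x * g⁻¹) ∈ Zc 𝔄) :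
    g * x = x * g ∨ g * x = -(x * g) := by
  have h1 : g * x * g⁻¹ = x * (x⁻¹ * (g * x * g⁻¹)) := by group
  have h2 : g * x * g⁻¹ * (g * x * g⁻¹) = x * x := by
    rw [show g * x * g⁻¹ * (g * x * g⁻¹) = g * (x * x) * g⁻¹ by group]
    rcases P.sq x hx with e | e <;> simp [e]
  generalize x⁻¹ * (g * x * g⁻¹) = u at h h1
  rw [h1, mul_assoc, ← mul_assoc u, Zc_comm h x, mul_assoc x u u, ← mul_assoc x x, mul_eq_left] at h2
  rcases P.sign_of_mem h h2 with rfl | rfl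
  · exact Or.inl (comm_of_conj (by simpa using h1))
  · exact Or.inr (anti_of_conj (by simpa using h1))

theorem exists_act [Finite 𝔄] {g : 𝔄ˣ} (hg : g ∈ Nm R) : ∃ t ∈ CL.Sp.Isom P.B,
    ∀ x : R, t (P.φ x) = P.φ ⟨g * x * g⁻¹, conj_mem hg x.2⟩ := by
  have hφ : ∀ x y : R, P.φ x = P.φ y ↔ P.φ ⟨_, conj_mem hg x.2⟩ = P.φ ⟨_, conj_mem hg y.2⟩ := fun x y => by
    rw [P.φ_eq_iff, P.φ_eq_iff, ← conj_mem_Zc (g := g)]
    exact Iff.of_eq (by congr 1; group)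
  let L : P.A →ₗ[ZMod 2] P.A :=
    { toFun := fun v => P.φ ⟨_, conj_mem hg (P.rep v).2⟩
      map_add' := fun u v => by
        rw [← P.φ_mul, (hφ _ (P.rep u * P.rep v)).1 (by rw [P.φ_mul, P.φ_rep, P.φ_rep, P.φ_rep])]
        congr 1
        exact Subtype.ext (by simp only [Subgroup.coe_mul]; group)
      map_smul' := fun c u => by
        rcases (by decide : ∀ c : ZMod 2, c = 0 ∨ c = 1) c with rfl | rfl
        · rw [zero_smul, RingHom.id_apply, zero_smul, P.φ_eq_zero, conj_mem_Zc, ← P.φ_eq_zero, P.φ_rep]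
        · simp }
  have hL : ∀ x : R, L (P.φ x) = P.φ ⟨_, conj_mem hg x.2⟩ := fun x => (hφ _ _).1 (P.φ_rep _)
  refine ⟨LinearEquiv.ofInjectiveEndo L fun u v e => ?_, fun u v => ?_, hL⟩
  · rw [← P.φ_rep u, ← P.φ_rep v]
    exact (hφ _ _).2 e
  · obtain ⟨x, rfl⟩ := P.φ_surj u
    obtain ⟨y, rfl⟩ := P.φ_surj v
    show P.B (L _) (L _) = _
    rw [hL, hL, P.B_φ, P.B_φ]
    by_cases h : (x : 𝔄ˣ) * y = y * x
    · rw [bf_eq_zero.2 h, bf_eq_zero]
      exact ((show Commute (x : 𝔄ˣ) y from h).map (MulAut.conj g)).eq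
    · rw [bf_of_ne h, bf_of_ne fun e => h ((MulAut.conj g).injective (by rw [map_mul, map_mul]; exact e))]

/-- An element of the normaliser which acts trivially on `R / Z(R)` lies in `R Z`. -/
theorem exists_mem_of_act [Finite 𝔄] {g : 𝔄ˣ} (h : ∀ x ∈ R, x⁻¹ * (g * x * g⁻¹) ∈ Zc 𝔄) :
    ∃ r ∈ R, r⁻¹ * g ∈ Zc 𝔄 :=
  P.exists_mem_of_signs fun x hx => P.sign_of_conj hx (h x hx)

end Pauli

namespace LP

variable {i : F} {R : Subgroup 𝔄ˣ} (P : LP i R)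
include P

theorem ι_mem : scu 𝔄 i ∈ Zc 𝔄 := scu_mem (i_ne_zero P.ii)

theorem ι_mul_sq (x : 𝔄ˣ) : scu 𝔄 i * x * (scu 𝔄 i * x) = -(x * x) := by
  rw [mul_assoc, ← mul_assoc x, ← Zc_comm P.ι_mem x, mul_assoc, ← mul_assoc, scu_i_sq P.ii, neg_one_mul]

theorem exists_invol {x : 𝔄ˣ} (hx : x ∈ R) : ∃ u ∈ Zc 𝔄, u * x ∈ R ∧ u * x * (u * x) = 1 := by
  rcases P.sq x hx with h | h
  · exact ⟨1, one_mem _, by simpa using hx, by simpa using h⟩
  · exact ⟨_, P.ι_mem, R.mul_mem P.iR hx, by rw [P.ι_mul_sq, h, neg_neg]⟩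

theorem mem_of_pow_four {u : 𝔄ˣ} (hu : u ∈ Zc 𝔄) (h : u * u * (u * u) = 1) : u ∈ R := by
  rcases P.sign_of_mem (mul_mem hu hu) h with h1 | h1
  · rcases P.sign_of_mem hu h1 with rfl | rfl
    · exact one_mem _
    · exact P.neg
  · rw [← R.mul_mem_cancel_left P.iR]
    rcases P.sign_of_mem (mul_mem P.ι_mem hu) (by rw [P.ι_mul_sq, h1, neg_neg]) with h2 | h2 <;> rw [h2]
    · exact one_mem _
    · exact P.neg

theorem sig_mem_Nm [Finite 𝔄] {a : 𝔄ˣ} (ha : a ∈ R) (ha2 : a * a = 1) : sig i a ∈ Nm R :=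
  mem_Nm fun x hx => by
    rcases P.comm ha hx with h | h
    · rwa [conj_eq_of_comm (sig_comm P.two P.ii ha2 h)]
    · rw [sig_anti P.two P.ii ha2 h]
      exact R.mul_mem (R.mul_mem P.iR ha) hx

/-- **(P2)** The normaliser is generated by `R`, the scalars and the `σ_a`. -/
theorem Nm_le [Finite 𝔄] {K : Subgroup 𝔄ˣ} (hR : R ≤ K) (hZ : Zc 𝔄 ≤ K)
    (hs : ∀ a ∈ R, a * a = 1 → a ∉ Zc 𝔄 → sig i a ∈ K) : Nm R ≤ K := by
  let Kb : Subgroup (P.A ≃ₗ[ZMod 2] P.A) :=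
    { carrier := {t | ∃ k ∈ K, ∃ hk : k ∈ Nm R, ∀ x : R, t (P.φ x) = P.φ ⟨_, conj_mem hk x.2⟩}
      one_mem' := ⟨1, K.one_mem, one_mem _, fun x => by simp⟩
      mul_mem' := by
        rintro s t ⟨k, hk, hk', e⟩ ⟨l, hl, hl', e'⟩
        refine ⟨k * l, K.mul_mem hk hl, mul_mem hk' hl', fun x => ?_⟩
        rw [LinearEquiv.mul_apply, e', e]
        congr 1
        exact Subtype.ext (by simp only; group)
      inv_mem' := by
        rintro t ⟨k, hk, hk', e⟩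
        refine ⟨k⁻¹, K.inv_mem hk, inv_mem hk', fun x => t.injective ?_⟩
        rw [CL.Sp.apply_inv_apply, e]
        congr 1
        exact Subtype.ext (by simp only; group) }
  have h1 : CL.Sp.Isom P.B ≤ Kb := CL.Sp.isom_le_of_tv_mem P.B_alt P.B_nondeg fun v c => by
    rcases (by decide : ∀ c : ZMod 2, c = 0 ∨ c = 1) c with rfl | rfl
    · rw [CL.Sp.tv_zero]; exact one_mem _
    by_cases hv : v = 0
    · rw [hv, CL.Sp.tv_zero_left]; exact one_mem _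
    obtain ⟨y, rfl⟩ := P.φ_surj v
    obtain ⟨u, hu, ha, ha2⟩ := P.exists_invol y.2
    have hy : P.φ y = P.φ ⟨_, ha⟩ := P.φ_eq_iff.2 (by simpa [mul_assoc] using conj_mem_Zc (g := (y : 𝔄ˣ)⁻¹).2 hu)
    rw [hy] at hv ⊢
    generalize u * y = a at *
    refine ⟨sig i a, hs a ha ha2 fun h => hv (P.φ_eq_zero.2 h), P.sig_mem_Nm ha ha2, fun x => ?_⟩
    rw [CL.Sp.tv_apply, P.B_φ, one_mul]
    rcases P.comm ha x.2 with h | h
    · rw [bf_eq_zero.2 h.symm, zero_smul, add_zero]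
      congr 1
      exact Subtype.ext (conj_eq_of_comm (sig_comm P.two P.ii ha2 h)).symm
    · rw [bf_of_ne (P.ne_of_anti (anti_symm h)), one_smul, add_comm, ← P.φ_mul, eq_comm, P.φ_eq_iff]
      simp only [Subgroup.coe_mul, sig_anti P.two P.ii ha2 h]
      simpa [mul_assoc] using conj_mem_Zc (g := (a * (x : 𝔄ˣ))⁻¹).2 (inv_mem P.ι_mem)
  intro g hg
  obtain ⟨t, ht, e⟩ := P.exists_act hg
  obtain ⟨k, hk, hk', e'⟩ := h1 ht
  obtain ⟨r, hr, h⟩ := P.exists_mem_of_act (g := k⁻¹ * g) fun x hx => by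
    have := P.φ_eq_iff.1 ((e' ⟨x, hx⟩).symm.trans (e ⟨x, hx⟩))
    rw [← conj_mem_Zc (g := k⁻¹)] at this
    convert this using 1
    simp only
    group
  have : g = k * (r * (r⁻¹ * (k⁻¹ * g))) := by group
  exact this ▸ K.mul_mem hk (K.mul_mem (hR hr) (hZ h))

theorem sig_conj_anti {a b : 𝔄ˣ} (ha2 : a * a = 1) (hb2 : b * b = 1) (h : a * b = -(b * a)) :
    scu 𝔄 i * (a * b) * (scu 𝔄 i * (a * b)) = 1 ∧
      sig i (scu 𝔄 i * (a * b)) * a * (sig i (scu 𝔄 i * (a * b)))⁻¹ = b := by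
  have h0 : a * b * a = -b := by rw [h, neg_mul, mul_assoc, ha2, mul_one]
  have h1 : scu 𝔄 i * (a * b) * (scu 𝔄 i * (a * b)) = 1 := by
    rw [P.ι_mul_sq, ← mul_assoc, h0, neg_mul, neg_neg, hb2]
  refine ⟨h1, ?_⟩
  rw [sig_anti P.two P.ii h1, ← mul_assoc, scu_i_sq P.ii, mul_assoc, h0]
  · simp
  · rw [mul_assoc, h0, ← mul_assoc, ← Zc_comm P.ι_mem a, mul_assoc, ← mul_assoc a, ha2]; simp

/-- The normaliser is transitive on the non-central involutions. -/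
theorem exists_conj [Finite 𝔄] {a b : 𝔄ˣ} (ha : a ∈ R) (hb : b ∈ R) (ha2 : a * a = 1) (hb2 : b * b = 1)
    (ha0 : a ∉ Zc 𝔄) (hb0 : b ∉ Zc 𝔄) : ∃ m ∈ Nm R, m * a * m⁻¹ = b := by
  have key : ∀ a ∈ R, ∀ b ∈ R, a * a = 1 → b * b = 1 → a * b = -(b * a) → ∃ m ∈ Nm R, m * a * m⁻¹ = b :=
    fun a ha b hb ha2 hb2 h => ⟨_, P.sig_mem_Nm (R.mul_mem P.iR (R.mul_mem ha hb)) (P.sig_conj_anti ha2 hb2 h).1,
      (P.sig_conj_anti ha2 hb2 h).2⟩
  obtain ⟨u, hu, h1, h2⟩ := P.exists_anti_two ha hb ha0 hb0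
  obtain ⟨w, hw, hu', hu2⟩ := P.exists_invol hu
  have h3 : ∀ a : 𝔄ˣ, a * u = -(u * a) → a * (w * u) = -(w * u * a) := fun a h => by
    rw [← mul_assoc, ← Zc_comm hw, mul_assoc, h, mul_neg, mul_assoc]
  obtain ⟨m, hm, e⟩ := key a ha _ hu' ha2 hu2 (h3 a h1)
  obtain ⟨m', hm', e'⟩ := key _ hu' b hb hu2 hb2 (anti_symm (h3 b h2))
  exact ⟨m' * m, mul_mem hm' hm, by rw [← e', ← e]; group⟩

end LP

/-! ### Gluing along an involution -/

/-- `a` and `b` agree on the image of `e`. -/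
def Ev (e : 𝔄) (a b : 𝔄ˣ) : Prop := (a : 𝔄) * e = b * e

/-- The units commuting with `e`. -/
def Cm (e : 𝔄) : Subgroup 𝔄ˣ where
  carrier := {a | (a : 𝔄) * e = e * a}
  one_mem' := by simp
  mul_mem' {a b} ha hb := by
    simp only [Set.mem_ofPred_eq, Units.val_mul] at *
    rw [mul_assoc, hb, ← mul_assoc, ha, mul_assoc]
  inv_mem' {a} ha := (show Commute (a : 𝔄) e from ha).units_inv_left.eq

theorem mem_Cm {e : 𝔄} {a : 𝔄ˣ} : a ∈ Cm e ↔ (a : 𝔄) * e = e * a := Iff.rfl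

theorem mem_Cm_val {z a : 𝔄ˣ} : a ∈ Cm (z : 𝔄) ↔ a * z = z * a := by
  rw [mem_Cm, ← Units.val_mul, ← Units.val_mul, Units.val_inj]

theorem neg_mem_Cm {e : 𝔄} {a : 𝔄ˣ} (h : a ∈ Cm e) : -a ∈ Cm e := by
  rw [mem_Cm] at *; simp [h]

theorem mem_Cm_mul {e f : 𝔄} {a : 𝔄ˣ} (h : a ∈ Cm e) (h' : a ∈ Cm f) : a ∈ Cm (e * f) := by
  rw [mem_Cm] at *; rw [← mul_assoc, h, mul_assoc, h', mul_assoc]

namespace Ev

variable {e : 𝔄} {a b c d : 𝔄ˣ}

theorem refl (e : 𝔄) (a : 𝔄ˣ) : Ev e a a := rfl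

theorem symm (h : Ev e a b) : Ev e b a := Eq.symm h

theorem trans (h : Ev e a b) (h' : Ev e b c) : Ev e a c := Eq.trans h h'

theorem left (g : 𝔄ˣ) (h : Ev e a b) : Ev e (g * a) (g * b) := by
  unfold Ev at *; rw [Units.val_mul, Units.val_mul, mul_assoc, h, mul_assoc]

theorem right (h : Ev e a b) (hc : c ∈ Cm e) : Ev e (a * c) (b * c) := by
  unfold Ev at *; rw [Units.val_mul, Units.val_mul, mul_assoc, hc, ← mul_assoc, h, mul_assoc, mul_assoc, hc]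

theorem mul (h : Ev e a b) (h' : Ev e c d) (hd : d ∈ Cm e) : Ev e (a * c) (b * d) :=
  (h'.left a).trans (h.right hd)

theorem neg (h : Ev e a b) : Ev e (-a) (-b) := by simpa using h.left (-1)

theorem inv (h : Ev e a b) (hb : b ∈ Cm e) : Ev e a⁻¹ b⁻¹ := by
  simpa [mul_assoc] using ((h.left a⁻¹).right (inv_mem hb)).symm

theorem mul_right (h : Ev e a b) (f : 𝔄) : Ev (e * f) a b := by
  unfold Ev at *; rw [← mul_assoc, h, mul_assoc]

theorem conj (h : Ev e a b) (g : 𝔄ˣ) : Ev (g * e * (g⁻¹ : 𝔄ˣ)) (g * a * g⁻¹) (g * b * g⁻¹) := by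
  unfold Ev at *
  simp only [Units.val_mul, mul_assoc, Units.inv_mul_cancel_left]
  rw [← mul_assoc (a : 𝔄), h, mul_assoc]

theorem conj_eq (h : Ev e a b) (hb : b ∈ Cm e) (hc : c ∈ Cm e) : Ev e (a * c * a⁻¹) (b * c * b⁻¹) :=
  (h.right hc).mul (h.inv hb) (inv_mem hb)

theorem eq_zero (h2 : (2 : F) ≠ 0) (h : Ev e (-a) a) : e = 0 := by
  have h1 : (2 : F) • ((a : 𝔄) * e) = 0 := by
    rw [two_smul]; nth_rw 1 [← show _ = (a : 𝔄) * e from h]; simp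
  simpa using (smul_eq_zero.1 h1).resolve_left h2

end Ev

variable (F) in
/-- The projection onto the fixed space of the involution `z`. -/
def pr (z : 𝔄ˣ) : 𝔄 := (2 : F)⁻¹ • (1 + (z : 𝔄))

theorem conj_pr (g z : 𝔄ˣ) : g * pr F z * (g⁻¹ : 𝔄ˣ) = pr F (g * z * g⁻¹) := by
  simp [pr, mul_add, add_mul]

theorem mem_Cm_pr {z a : 𝔄ˣ} (h : a * z = z * a) : a ∈ Cm (pr F z) := by
  have h' : (a : 𝔄) * z = z * a := congrArg Units.val h
  simp [mem_Cm, pr, mul_add, add_mul, h']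

theorem mem_Cm_pr_neg {z a : 𝔄ˣ} (h : a * z = z * a) : a ∈ Cm (pr F (-z)) := mem_Cm_pr (by simp [h])

theorem pr_comm {z z' : 𝔄ˣ} (h : z * z' = z' * z) : pr F z * pr F z' = pr F z' * pr F z := by
  have h' : (z : 𝔄) * z' = z' * z := congrArg Units.val h
  simp only [pr, smul_mul_assoc, mul_smul_comm, mul_add, add_mul, h', mul_one, one_mul]
  module

theorem anti_pr {z X : 𝔄ˣ} (h : X * z = -(z * X)) : X * pr F z = pr F (-z) * X := by
  rw [← conj_eq_of_anti h, ← conj_pr, Units.inv_mul_cancel_right]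

theorem ev_pr {z : 𝔄ˣ} (hz : z * z = 1) : Ev (pr F z) z 1 := by
  have h : (z : 𝔄) * z = 1 := congrArg Units.val hz
  simp [Ev, pr, mul_add, h, add_comm]

theorem ev_pr_neg {z : 𝔄ˣ} (hz : z * z = 1) : Ev (pr F (-z)) z (-1) := by
  simpa using (ev_pr (F := F) (z := -z) (by simpa using hz)).neg

section glue

variable (h2 : (2 : F) ≠ 0)
include h2

theorem pr_add (z : 𝔄ˣ) : pr F z + pr F (-z) = 1 := by
  rw [pr, pr, ← smul_add, Units.val_neg, show 1 + (z : 𝔄) + (1 + -z) = (2 : F) • 1 by module, smul_smul,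
    inv_mul_cancel₀ h2, one_smul]

theorem Ev.ext {z a b : 𝔄ˣ} (h : Ev (pr F z) a b) (h' : Ev (pr F (-z)) a b) : a = b :=
  Units.ext (by rw [← mul_one (a : 𝔄), ← mul_one (b : 𝔄), ← pr_add h2 z, mul_add, mul_add, h, h'])

omit h2 in
theorem pr_mul_neg {z : 𝔄ˣ} (hz : z * z = 1) : pr F z * pr F (-z) = 0 := by
  have h : (z : 𝔄) * z = 1 := congrArg Units.val hz
  simp only [pr, smul_mul_assoc, mul_smul_comm, mul_add, add_mul, h, Units.val_neg, mul_neg, mul_one, one_mul]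
  module

omit h2 in
theorem pr_neg_mul {z : 𝔄ˣ} (hz : z * z = 1) : pr F (-z) * pr F z = 0 := by
  simpa using pr_mul_neg (F := F) (z := -z) (by simpa using hz)

theorem pr_mul_self {z : 𝔄ˣ} (hz : z * z = 1) : pr F z * pr F z = pr F z := by
  conv_rhs => rw [← mul_one (pr F z), ← pr_add h2 z, mul_add, pr_mul_neg hz, add_zero]

theorem eq_neg_one_of_pr {z : 𝔄ˣ} (h : pr F z = 0) : z = -1 :=
  Units.ext (eq_neg_of_add_eq_zero_right ((smul_eq_zero.1 h).resolve_left (inv_ne_zero h2)))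

theorem comm_of_mem_Cm_pr {z a : 𝔄ˣ} (h : a ∈ Cm (pr F z)) : a * z = z * a := by
  refine Units.ext ?_
  simpa [mem_Cm, pr, mul_add, add_mul, h2] using h

theorem exists_glue {z g h : 𝔄ˣ} (hz : z * z = 1) (hg : g * z = z * g) (hh : h * z = z * h) :
    ∃ k : 𝔄ˣ, k * z = z * k ∧ Ev (pr F z) k g ∧ Ev (pr F (-z)) k h := by
  have hz' : -z * -z = 1 := by simpa using hz
  have key : ∀ g h : 𝔄ˣ, g * z = z * g → h * z = z * h → ((g : 𝔄) * pr F z + h * pr F (-z)) *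
      ((g⁻¹ : 𝔄ˣ) * pr F z + (h⁻¹ : 𝔄ˣ) * pr F (-z)) = 1 := fun g h hg hh => by
    have h1 := mem_Cm.1 (inv_mem (mem_Cm_pr (F := F) hg))
    have h3 := mem_Cm.1 (inv_mem (mem_Cm_pr (F := F) hh))
    have h4 := mem_Cm.1 (inv_mem (mem_Cm_pr_neg (F := F) hg))
    have h5 := mem_Cm.1 (inv_mem (mem_Cm_pr_neg (F := F) hh))
    simp only [mul_add, add_mul, mul_assoc, ← mul_assoc (pr F z), ← mul_assoc (pr F (-z)), ← h1, ← h3, ← h4, ← h5]
    simp only [pr_mul_self h2 hz, pr_mul_self h2 hz', pr_mul_neg hz, pr_neg_mul hz, mul_zero, add_zero,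
      zero_add, Units.mul_inv_cancel_left, pr_add h2]
  let k : 𝔄ˣ := ⟨_, _, key g h hg hh, by
    simpa using key g⁻¹ h⁻¹ (show Commute g z from hg).inv_left.eq (show Commute h z from hh).inv_left.eq⟩
  have e1 : Ev (pr F z) k g := by
    simp only [Ev, k, add_mul, mul_assoc, pr_mul_self h2 hz, pr_neg_mul hz, mul_zero, add_zero]
  have e2 : Ev (pr F (-z)) k h := by
    simp only [Ev, k, add_mul, mul_assoc, pr_mul_self h2 hz', pr_mul_neg hz, mul_zero, zero_add]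
  refine ⟨k, Ev.ext h2 (z := z) ?_ ?_, e1, e2⟩
  · exact ((e1.right (mem_Cm_pr rfl)).trans (hg ▸ Ev.refl _ _)).trans (e1.left z).symm
  · exact ((e2.right (mem_Cm_pr_neg rfl)).trans (hh ▸ Ev.refl _ _)).trans (e2.left z).symm

theorem comm_of_ev {z k g h x : 𝔄ˣ} (h1 : Ev (pr F z) k g) (h3 : Ev (pr F (-z)) k h) (hx : x * z = z * x)
    (hg : g * x = x * g) (hh : h * x = x * h) : k * x = x * k :=
  Ev.ext h2 (z := z) (((h1.right (mem_Cm_pr hx)).trans (hg ▸ Ev.refl _ _)).trans (h1.left x).symm)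
    (((h3.right (mem_Cm_pr_neg hx)).trans (hh ▸ Ev.refl _ _)).trans (h3.left x).symm)

end glue

end CL.Pa
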