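/-
Project C6 (r = 2), file 3: a dihedral-group argument.  An overgroup `H` of `M = N(A)` in which the conjugates of
`A` other than `A` meet `M` trivially equals `M`, as soon as `M` induces a transvection on `A` by an involution.
-/
import Cfsg.Agent.Base

set_option autoImplicit false

namespace CL.Pa

variable {G : Type*} [Group G]

theorem conj_pow_left {s t : G} (hs : s * s = 1) (ht : t * t = 1) (k : ℕ) :
    (s * t) ^ k * s * ((s * t) ^ k)⁻¹ = (s * t) ^ (2 * k) * s := by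
  have h : s * (s * t)⁻¹ = s * t * s := by
    rw [mul_inv_rev, inv_eq_of_mul_eq_one_right hs, inv_eq_of_mul_eq_one_right ht, mul_assoc]
  have h1 : s * ((s * t) ^ k)⁻¹ = (s * t) ^ k * s := by
    rw [← inv_pow]
    exact (show SemiconjBy s (s * t)⁻¹ (s * t) from h).pow_right k
  rw [mul_assoc, h1, ← mul_assoc, ← pow_add, two_mul]

theorem conj_pow_right {s t : G} (hs : s * s = 1) (ht : t * t = 1) (k : ℕ) :
    (s * t) ^ k * t * ((s * t) ^ k)⁻¹ = (s * t) ^ (2 * k) * t := by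
  have h : t * (s * t)⁻¹ = s * t * t := by
    rw [mul_inv_rev, inv_eq_of_mul_eq_one_right hs, mul_inv_cancel_left, mul_assoc, ht, mul_one]
  have h1 : t * ((s * t) ^ k)⁻¹ = (s * t) ^ k * t := by
    rw [← inv_pow]
    exact (show SemiconjBy t (s * t)⁻¹ (s * t) from h).pow_right k
  rw [mul_assoc, h1, ← mul_assoc, ← pow_add, two_mul]

/-- Two involutions are conjugate in the dihedral group they generate, or there is a central involution. -/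
theorem dihedral [Finite G] {s t : G} (hs : s * s = 1) (ht : t * t = 1) :
    (∃ k : ℕ, (s * t) ^ k * t * ((s * t) ^ k)⁻¹ = s) ∨ ∃ (m : ℕ) (u : G), u = (s * t) ^ m ∧ u ≠ 1 ∧ u * u = 1 ∧
      u * s = s * u ∧ u * t = t * u ∧
      (((∃ k : ℕ, (s * t) ^ k * s * ((s * t) ^ k)⁻¹ = u * s) ∧ ∃ k : ℕ, (s * t) ^ k * t * ((s * t) ^ k)⁻¹ = u * t) ∨
        ((∃ k : ℕ, (s * t) ^ k * t * ((s * t) ^ k)⁻¹ = u * s) ∧
          ∃ k : ℕ, (s * t) ^ k * s * ((s * t) ^ k)⁻¹ = u * t)) := by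
  have hn := pow_orderOf_eq_one (s * t)
  have hodd : ∀ k : ℕ, (s * t) ^ (2 * (k + 1)) * t = (s * t) ^ (2 * k + 1) * s := fun k => by
    rw [show 2 * (k + 1) = 2 * k + 1 + 1 by ring, pow_succ, mul_assoc, mul_assoc, ht, mul_one]
  rcases Nat.even_or_odd' (orderOf (s * t)) with ⟨m, hm | hm⟩
  · have h0 : 0 < orderOf (s * t) := orderOf_pos _
    rw [hm] at hn
    have h2 : (s * t) ^ m * (s * t) ^ m = 1 := by rw [← pow_add, ← two_mul, hn]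
    refine Or.inr ⟨m, _, rfl, pow_ne_one_of_lt_orderOf (by omega) (by omega), h2, ?_, ?_, ?_⟩
    · rw [← mul_inv_eq_iff_eq_mul, conj_pow_left hs ht, hn, one_mul]
    · rw [← mul_inv_eq_iff_eq_mul, conj_pow_right hs ht, hn, one_mul]
    · rcases Nat.even_or_odd' m with ⟨k, rfl | rfl⟩
      · exact Or.inl ⟨⟨k, conj_pow_left hs ht k⟩, k, conj_pow_right hs ht k⟩
      · refine Or.inr ⟨⟨k + 1, by rw [conj_pow_right hs ht, hodd]⟩, k, ?_⟩
        rw [conj_pow_left hs ht, pow_succ, mul_assoc, mul_assoc, ht, mul_one]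
  · exact Or.inl ⟨m + 1, by rw [conj_pow_right hs ht, hodd, ← hm, hn, one_mul]⟩

theorem comm_of_sq {A : Subgroup G} (h : ∀ a ∈ A, a * a = 1) {a b : G} (ha : a ∈ A) (hb : b ∈ A) :
    a * b = b * a := by
  rw [← inv_eq_of_mul_eq_one_right (h _ (A.mul_mem ha hb)), mul_inv_rev, inv_eq_of_mul_eq_one_right (h a ha),
    inv_eq_of_mul_eq_one_right (h b hb)]

section TI

variable [Finite G] {A M H : Subgroup G} (hAM : A ≤ M) (hMH : M ≤ H) (hA2 : ∀ a ∈ A, a * a = 1)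
  (hN : ∀ m ∈ M, ∀ a ∈ A, m * a * m⁻¹ ∈ A) (hb : ∀ a ∈ A, a ≠ 1 → ∀ h ∈ H, h * a * h⁻¹ ∈ M → h ∈ M)
include hAM hMH hA2 hN hb

theorem ti_odd {a a' h : G} (ha : a ∈ A) (ha1 : a ≠ 1) (ha' : a' ∈ A) (ha1' : a' ≠ 1) (hh : h ∈ H) (hM : h ∉ M) :
    ∃ k : ℕ, (a * (h * a' * h⁻¹)) ^ k * (h * a' * h⁻¹) * ((a * (h * a' * h⁻¹)) ^ k)⁻¹ = a := by
  have hbH : h * a' * h⁻¹ ∈ H := H.mul_mem (H.mul_mem hh (hMH (hAM ha'))) (H.inv_mem hh)
  have hab := H.mul_mem (hMH (hAM ha)) hbH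
  refine (dihedral (hA2 a ha) (t := h * a' * h⁻¹) (by rw [conj_mul, hA2 a' ha']; simp)).resolve_right ?_
  rintro ⟨m, u, hu, hu1, -, h1, h2, h3⟩
  have huM : u ∈ M := hb a ha ha1 u (hu ▸ H.pow_mem hab m) (by rw [h1, mul_inv_cancel_right]; exact hAM ha)
  have h4 : u * a ∈ A := by
    rcases h3 with ⟨⟨k, e⟩, -⟩ | ⟨⟨k, e⟩, -⟩
    · exact e ▸ hN _ (hb a ha ha1 _ (H.pow_mem hab k) (e ▸ M.mul_mem huM (hAM ha))) a ha
    · have e' : (a * (h * a' * h⁻¹)) ^ k * h * a' * ((a * (h * a' * h⁻¹)) ^ k * h)⁻¹ = u * a := by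
        rw [← e]; group
      exact e' ▸ hN _ (hb a' ha' ha1' _ (H.mul_mem (H.pow_mem hab k) hh) (e' ▸ M.mul_mem huM (hAM ha))) a' ha'
  refine hM (hb a' ha' ha1' h hh (hb u ((A.mul_mem_cancel_right ha).1 h4) hu1 _ hbH ?_))
  rw [← h2, mul_inv_cancel_right]; exact huM

variable {s c : G} (hc1 : c ≠ 1) (hc : c ∈ A)
  (h1 : ∀ x ∈ A, s * x * s⁻¹ = x ∨ s * x * s⁻¹ = x * c) (h2 : ∃ x ∈ A, s * x * s⁻¹ = x * c)
  (h3 : ∃ a ∈ A, a ≠ 1 ∧ a ≠ c ∧ s * a * s⁻¹ = a)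
include hc1 hc h1 h2 h3

theorem ti_coset {y h : G} (hy : y ∈ A) (h4 : s * y * (s * y) = 1) (hh : h ∈ H) (h5 : h⁻¹ * (s * y) * h ∈ M) :
    h ∈ M := by
  by_contra hM
  have hsy : ∀ x ∈ A, s * y * x * (s * y)⁻¹ = s * x * s⁻¹ := fun x hx => by
    rw [mul_assoc s, comm_of_sq hA2 hy hx]; group
  obtain ⟨a', ha', ha1', e⟩ : ∃ a' ∈ A, a' ≠ 1 ∧ Commute (h⁻¹ * (s * y) * h) a' := by
    generalize ht : h⁻¹ * (s * y) * h = t at h5
    have ht2 : t * t = 1 := by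
      rw [← ht, show h⁻¹ * (s * y) * h * (h⁻¹ * (s * y) * h) = h⁻¹ * (s * y * (s * y)) * h by group, h4]; simp
    by_cases e : t * c * t⁻¹ = c
    · exact ⟨c, hc, hc1, mul_inv_eq_iff_eq_mul.1 e⟩
    · refine ⟨c * (t * c * t⁻¹), A.mul_mem hc (hN t h5 c hc), fun e' => e ?_, ?_⟩
      · rw [← inv_eq_of_mul_eq_one_right e', inv_eq_of_mul_eq_one_right (hA2 c hc)]
      · show t * _ = _ * t
        conv_rhs => rw [comm_of_sq hA2 hc (hN t h5 c hc)]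
        rw [inv_eq_of_mul_eq_one_right ht2]
        simp only [mul_assoc]
  have hbs : Commute (s * y) (h * a' * h⁻¹) := by simpa [mul_assoc] using e.map (MulAut.conj h)
  obtain ⟨a, ha, ha1, hac, hsa⟩ := h3
  have hsc : s * c * s⁻¹ = c := (h1 c hc).resolve_right fun e => hc1 (by simpa [hA2 c hc] using e)
  obtain ⟨k, ek⟩ := ti_odd hAM hMH hA2 hN hb hc hc1 ha' ha1' hh hM
  obtain ⟨l, el⟩ := ti_odd hAM hMH hA2 hN hb ha ha1 ha' ha1' hh hM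
  have hbH : h * a' * h⁻¹ ∈ H := H.mul_mem (H.mul_mem hh (hMH (hAM ha'))) (H.inv_mem hh)
  have c1 : Commute (s * y) c := mul_inv_eq_iff_eq_mul.1 ((hsy c hc).trans hsc)
  have c2 : Commute (s * y) a := mul_inv_eq_iff_eq_mul.1 ((hsy a ha).trans hsa)
  have c3 := ((c2.mul_right hbs).pow_right l).mul_right ((c1.mul_right hbs).pow_right k).inv_right
  have hg := H.mul_mem (H.pow_mem (H.mul_mem (hMH (hAM ha)) hbH) l)
    (H.inv_mem (H.pow_mem (H.mul_mem (hMH (hAM hc)) hbH) k))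
  have e1 : (a * (h * a' * h⁻¹)) ^ l * ((c * (h * a' * h⁻¹)) ^ k)⁻¹ * c *
      ((a * (h * a' * h⁻¹)) ^ l * ((c * (h * a' * h⁻¹)) ^ k)⁻¹)⁻¹ = a := by
    generalize (a * (h * a' * h⁻¹)) ^ l = g₁ at *
    generalize (c * (h * a' * h⁻¹)) ^ k = g₂ at *
    rw [← ek, ← el]; group
  generalize (a * (h * a' * h⁻¹)) ^ l * ((c * (h * a' * h⁻¹)) ^ k)⁻¹ = g at *
  have hgM := hb c hc hc1 g hg (e1 ▸ hAM ha)
  obtain ⟨x, hx, ex⟩ := h2
  have e2 : s * (g * x * g⁻¹) * s⁻¹ = g * x * g⁻¹ * a := by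
    rw [← hsy _ (hN g hgM x hx), ← e1, conj_mul, ← ex, ← hsy x hx, ← mul_assoc, ← mul_assoc, c3.eq]
    simp only [mul_assoc]
    rw [← mul_inv_rev, ← mul_inv_rev, c3.eq]
  rcases h1 _ (hN g hgM x hx) with e3 | e3 <;> rw [e2] at e3
  · exact ha1 (mul_eq_left.1 e3)
  · exact hac (mul_left_cancel e3)

/-- **TI lemma**. -/
theorem ti_le (hs : s ∈ M) (hs2 : s * s = 1) : H ≤ M := by
  intro h hh
  by_contra hM
  have hbH : h * c * h⁻¹ ∈ H := H.mul_mem (H.mul_mem hh (hMH (hAM hc))) (H.inv_mem hh)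
  have hsb := H.mul_mem (hMH hs) hbH
  have key : ∀ g ∈ H, g * (h * c * h⁻¹) * g⁻¹ ∈ M → g * (h * c * h⁻¹) * g⁻¹ ∈ A := fun g hg e => by
    rw [show g * (h * c * h⁻¹) * g⁻¹ = g * h * c * (g * h)⁻¹ by group] at e ⊢
    exact hN _ (hb c hc hc1 _ (H.mul_mem hg hh) e) c hc
  rcases dihedral hs2 (t := h * c * h⁻¹) (by rw [conj_mul, hA2 c hc]; simp) with
    ⟨k, e⟩ | ⟨m, u, hu, hu1, hu2, e1, e2, e3⟩
  · have hsA : s ∈ A := e ▸ key _ (H.pow_mem hsb k) (e.symm ▸ hs)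
    obtain ⟨x, hx, ex⟩ := h2
    rw [comm_of_sq hA2 hsA hx, mul_inv_cancel_right] at ex
    exact hc1 (left_eq_mul.1 ex)
  have huH : u ∈ H := hu ▸ H.pow_mem hsb m
  have h5 : h⁻¹ * u * h ∈ M := hb c hc hc1 _ (H.mul_mem (H.mul_mem (H.inv_mem hh) huH) hh) (by
    rw [show h⁻¹ * u * h * c * (h⁻¹ * u * h)⁻¹ = h⁻¹ * (u * (h * c * h⁻¹)) * u⁻¹ * h by group, e2]
    simpa [mul_assoc] using hAM hc)
  have huM : u ∈ M := ti_coset hAM hMH hA2 hN hb hc1 hc h1 h2 h3 (one_mem A) (by simpa using hs2) huH (by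
    rw [mul_one, mul_assoc, ← e1]; simpa using hs)
  rcases e3 with ⟨-, k, e⟩ | ⟨⟨k, e⟩, -⟩
  · have hg := H.pow_mem hsb k
    generalize (s * (h * c * h⁻¹)) ^ k = g at e hg
    have e4 : h⁻¹ * g * h * c * (h⁻¹ * g * h)⁻¹ = h⁻¹ * u * h * c := by
      rw [show h⁻¹ * g * h * c * (h⁻¹ * g * h)⁻¹ = h⁻¹ * (g * (h * c * h⁻¹) * g⁻¹) * h by group, e]; group
    have h6 := hN _ (hb c hc hc1 _ (H.mul_mem (H.mul_mem (H.inv_mem hh) hg) hh) (e4 ▸ M.mul_mem h5 (hAM hc))) c hc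
    rw [e4, A.mul_mem_cancel_right hc] at h6
    exact hM (hb _ h6 (fun e => hu1 (by simpa [mul_assoc, inv_mul_eq_one] using e)) h hh (by simpa [mul_assoc] using huM))
  · have h6 : u * s ∈ A := e ▸ key _ (H.pow_mem hsb k) (e.symm ▸ M.mul_mem huM hs)
    have e4 : s * (u * s) = u := by rw [e1, ← mul_assoc, hs2, one_mul]
    exact hM (ti_coset hAM hMH hA2 hN hb hc1 hc h1 h2 h3 h6 (by rw [e4, hu2]) hh (by rwa [e4]))

end TI

end CL.Pa
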