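/-
Project C6 (r = 2), file 4: the inductive step.  If `H ≥ N(R)` and the centraliser in `H` of every non-central
involution `z` of `R` normalises `C_R(z)` on the fixed space of `z`, then `H = N(R)` (for `dim 𝔄 > 16`).
-/
import Cfsg.Agent.Cls.Pauli2
import Cfsg.Agent.Cls.Pauli3

set_option autoImplicit false

namespace CL.Pa

open Module

variable {F 𝔄 : Type*} [Field F] [Ring 𝔄] [Algebra F 𝔄]

variable (F) in
/-- `g` normalises `C_R(z)` on the fixed space of `z`. -/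
def Loc (R : Subgroup 𝔄ˣ) (z g : 𝔄ˣ) : Prop :=
  ∀ c ∈ R, c * z = z * c → ∃ c' ∈ R, c' * z = z * c' ∧ Ev (pr F z) (g * c * g⁻¹) c'

variable (F) in
/-- The centraliser of `z` in `H` normalises `C_R(z)` on the fixed space of `z`. -/
def Hz (R H : Subgroup 𝔄ˣ) (z : 𝔄ˣ) : Prop := ∀ g ∈ H, g * z = z * g → Loc F R z g

theorem Ev.swap {z X a b : 𝔄ˣ} (hX : X * z = -(z * X)) (h : Ev (pr F z) a b) :
    Ev (pr F (-z)) (X * a * X⁻¹) (X * b * X⁻¹) := by
  have := h.conj X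
  rwa [conj_pr, conj_eq_of_anti hX] at this

theorem Ev.swap' {z X a b : 𝔄ˣ} (hX : X * z = -(z * X)) (h : Ev (pr F (-z)) a b) :
    Ev (pr F z) (X * a * X⁻¹) (X * b * X⁻¹) := by
  simpa using h.swap (X := X) (by simp [hX])

namespace Pauli

variable {R : Subgroup 𝔄ˣ} (P : Pauli F R)
include P

theorem conj_sign {x y : 𝔄ˣ} (hx : x ∈ R) (hy : y ∈ R) : x * y * x⁻¹ = y ∨ x * y * x⁻¹ = -y :=
  (P.comm hx hy).imp conj_eq_of_comm conj_eq_of_anti

theorem inv_sign {x : 𝔄ˣ} (hx : x ∈ R) : x⁻¹ = x ∨ x⁻¹ = -x := (P.sq x hx).imp inv_eq_of_sq inv_eq_neg_of_sq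

theorem mem_of_ev {z w c d : 𝔄ˣ} (hz : z ∈ R) (hz2 : z * z = 1) (hc : c ∈ R) (h1 : Ev (pr F z) w c)
    (h3 : Ev (pr F (-z)) w d) (h : d = c ∨ d = -c) : w ∈ R := by
  rcases h with rfl | rfl
  · rwa [Ev.ext P.two h1 h3]
  · rw [Ev.ext P.two (b := c * z) (h1.trans (by simpa using ((ev_pr hz2).left c).symm))
      (h3.trans (by simpa using ((ev_pr_neg hz2).left c).symm))]
    exact R.mul_mem hc hz

theorem mem_Nm_of [Finite 𝔄] {z X g : 𝔄ˣ} (hz : z ∈ R) (hX : X ∈ R) (hXz : X * z = -(z * X))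
    (h1 : g * X * g⁻¹ ∈ R) (h : ∀ c ∈ R, c * z = z * c → g * c * g⁻¹ ∈ R) : g ∈ Nm R :=
  mem_Nm fun x hx => by
    rcases P.comm hx hz with e | e
    · exact h x hx e
    · have := R.mul_mem (h (x * X) (R.mul_mem hx hX) (by
        rw [mul_assoc, hXz, mul_neg, ← mul_assoc, e, neg_mul, neg_neg, mul_assoc])) (R.inv_mem h1)
      simpa [mul_assoc] using this

theorem exists_delta [Finite 𝔄] {z X g : 𝔄ˣ} (hz : z ∈ R) (hz2 : z * z = 1) (hX : X ∈ R)
    (hXz : X * z = -(z * X)) (hg : g * z = z * g) (h : Loc F R z g) :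
    ∃ d ∈ Nm R, d * z = z * d ∧ d * X = X * d ∧ Ev (pr F z) d g := by
  obtain ⟨d, hd, e1, e2⟩ := exists_glue P.two hz2 hg (h := X * g * X⁻¹) (by
    have := ((show Commute g z from hg).map (MulAut.conj X)).eq
    simpa [MulAut.conj_apply, conj_eq_of_anti hXz] using this)
  have hdX : X * d * X⁻¹ = d := Ev.ext P.two (z := z) ((e2.swap' hXz).trans (by
    rw [show X * (X * g * X⁻¹) * X⁻¹ = X * X * g * (X * X)⁻¹ by group]
    rcases P.sq X hX with e | e <;> simpa [e] using e1.symm)) ((e1.swap hXz).trans e2.symm)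
  refine ⟨d, P.mem_Nm_of hz hX hXz (by rwa [conj_eq_of_comm (comm_of_conj hdX).symm]) fun c hc hcz => ?_, hd,
    (comm_of_conj hdX).symm, e1⟩
  obtain ⟨c', hc', -, e⟩ := h c hc hcz
  have e3 := (e1.conj_eq (mem_Cm_pr hg) (mem_Cm_pr hcz)).trans e
  have e4 := e3.swap hXz
  rw [show X * (d * c * d⁻¹) * X⁻¹ = X * d * X⁻¹ * (X * c * X⁻¹) * (X * d * X⁻¹)⁻¹ by group, hdX] at e4
  rcases P.conj_sign hX hc with e5 | e5 <;> rw [e5] at e4
  · exact P.mem_of_ev hz hz2 hc' e3 e4 (P.conj_sign hX hc')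
  · exact P.mem_of_ev hz hz2 hc' e3 (by simpa using e4.neg) (by
      simpa [neg_eq_iff_eq_neg] using (P.conj_sign hX hc').symm)

/-- Controlled gates normalise `R`. -/
theorem gate_mem [Finite 𝔄] {z h r : 𝔄ˣ} (hz : z ∈ R) (hz2 : z * z = 1) (hz0 : z ∉ Zc 𝔄) (hr : r ∈ R)
    (hrz : r * z = z * r) (h1 : Ev (pr F z) h 1) (h3 : Ev (pr F (-z)) h r) : h ∈ Nm R := by
  obtain ⟨X, hX, hXz⟩ := P.exists_anti hz hz0
  replace hXz := anti_symm hXz
  refine P.mem_Nm_of hz hX hXz ?_ fun c hc hcz => P.mem_of_ev hz hz2 hc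
    (by simpa using h1.conj_eq (one_mem _) (mem_Cm_pr hcz)) (h3.conj_eq (mem_Cm_pr_neg hrz) (mem_Cm_pr_neg hcz))
    (P.conj_sign hr hc)
  rw [← R.mul_mem_cancel_right (R.inv_mem hX), mul_assoc h, mul_assoc h]
  have hc : X * r⁻¹ * X⁻¹ ∈ R := R.mul_mem (R.mul_mem hX (R.inv_mem hr)) (R.inv_mem hX)
  have e : X * r⁻¹ * X⁻¹ = r ∨ X * r⁻¹ * X⁻¹ = -r := by
    rcases P.inv_sign hr with e | e <;> rcases P.conj_sign hX hr with e' | e' <;> simp [e, e']
  refine P.mem_of_ev hz hz2 hc (d := r) ?_ ?_ (by rcases e with e | e <;> simp [e])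
  · simpa using h1.mul ((h3.inv (mem_Cm_pr_neg hrz)).swap' hXz) (by
      rcases e with e | e <;> rw [e]
      exacts [mem_Cm_pr hrz, neg_mem_Cm (mem_Cm_pr hrz)])
  · simpa using h3.mul ((h1.inv (one_mem _)).swap hXz) (by simp)

theorem pr_mul_ne_zero {z z' X : 𝔄ˣ} (hz' : z' ∉ Zc 𝔄) (hXz : X * z = -(z * X)) (h : z' * X = X * z') :
    pr F (-z) * pr F z' ≠ 0 := fun e => by
  have e1 : pr F z * pr F z' = 0 := by
    have := congrArg (fun a => (X : 𝔄) * a) e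
    simp only [← mul_assoc, anti_pr (F := F) (z := -z) (X := X) (by simp [hXz]), neg_neg, mul_zero] at this
    rw [mul_assoc, mem_Cm_pr h.symm, ← mul_assoc] at this
    simpa using this
  refine hz' (eq_neg_one_of_pr P.two (z := z') ?_ ▸ neg_one_mem_Zc)
  rw [← one_mul (pr F z'), ← pr_add P.two z, add_mul, e, e1, add_zero]

theorem eq_one_of_ev {e : 𝔄} {u : 𝔄ˣ} (he : e ≠ 0) (hu : u ∈ Zc 𝔄) (h : Ev e u 1) : u = 1 := by
  obtain ⟨c, -, hc⟩ := P.exists_smul_of_mem hu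
  have h1 : (c - 1) • e = 0 := by simpa [Ev, hc, sub_smul, sub_eq_zero] using h
  exact Units.ext (by rw [hc, sub_eq_zero.1 ((smul_eq_zero.1 h1).resolve_right he)]; simp)

omit P in
/-- **Step A**. -/
theorem stepA {z z' X h : 𝔄ˣ} (hX : X ∈ R) (hXz : X * z = -(z * X)) (hzz : z' * z = z * z')
    (hX' : z' * X = X * z') (h1 : Ev (pr F z) h 1) (hL : Loc F R z' h) :
    ∃ r ∈ R, Ev (pr F (-z) * pr F z') h r := by
  obtain ⟨c, hc, -, e⟩ := hL X hX hX'.symm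
  have e1 : Ev (pr F z * pr F z') (h * X) c := by
    refine Ev.trans (by simpa using (((h1.inv (one_mem _)).left (h * X)).mul_right _).symm) ?_
    rw [← pr_comm hzz]
    exact e.mul_right _
  have e2 := (e1.conj X).left X⁻¹
  rw [← mul_assoc, anti_pr hXz, mul_assoc _ (X : 𝔄), mem_Cm_pr hX'.symm, ← mul_assoc, Units.mul_inv_cancel_right] at e2
  exact ⟨c * X⁻¹, R.mul_mem hc (R.inv_mem hX), by simpa [mul_assoc] using e2⟩

theorem stepB {e : 𝔄} (he : e ≠ 0) {k r a b : 𝔄ˣ} (hr : r ∈ R) (ha : a ∈ R) (hk : k ∈ Cm e) (ha' : a ∈ Cm e)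
    (h1 : Ev e k r) (h : Ev e (k * a * k⁻¹) (b * a)) (hb : b * b = -1) : False := by
  have e1 : Ev e (b * a * k) (r * a * r⁻¹ * k) :=
    ((by simpa using (h.right hk).symm : Ev e _ (k * a)).trans (h1.right ha')).trans
      (by simpa using (h1.left (r * a * r⁻¹)).symm)
  have e2 := (e1.right (inv_mem hk)).right (inv_mem ha')
  simp only [mul_inv_cancel_right] at e2
  refine he (Ev.eq_zero P.two (a := 1) ?_)
  rcases P.conj_sign hr ha with e | e <;> rw [e] at e2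
  · simpa [hb] using e2.mul e2 (by simp)
  · simpa [hb] using e2.mul e2 (by simpa using neg_mem_Cm (one_mem _))

end Pauli

namespace LP

variable {i : F} {R : Subgroup 𝔄ˣ} (P : LP i R)
include P

theorem exists_comm_invol [Finite 𝔄] {k : ℕ} (hk : 2 ^ k < finrank F 𝔄) (a : Fin k → 𝔄ˣ) (ha : ∀ j, a j ∈ R) :
    ∃ u ∈ R, u * u = 1 ∧ u ∉ Zc 𝔄 ∧ ∀ j, u * a j = a j * u := by
  obtain ⟨u, hu, h0, h⟩ := P.exists_comm hk a ha
  obtain ⟨w, hw, h1, h2⟩ := P.exists_invol hu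
  exact ⟨_, h1, h2, fun e => h0 ((Subgroup.mul_mem_cancel_left _ hw).1 e), fun j => by
    rw [mul_assoc, h, ← mul_assoc, Zc_comm hw, mul_assoc]⟩

variable [Finite 𝔄] (hd : 16 < finrank F 𝔄) {H : Subgroup 𝔄ˣ} (hM : Nm R ≤ H)
  (hH : ∀ z ∈ R, z * z = 1 → z ∉ Zc 𝔄 → Hz F R H z)
include hd hH

theorem stepB0 {z X k a b : 𝔄ˣ} (hz : z ∈ R) (hX : X ∈ R) (hXz : X * z = -(z * X)) (hk : k ∈ H)
    (hkz : k * z = z * k) (h1 : Ev (pr F z) k 1) (ha : a ∈ R) (hb : b ∈ R) (ha2 : a * a = 1) (hb2 : b * b = 1)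
    (haz : a * z = z * a) (hbz : b * z = z * b) (hab : b * a = -(a * b))
    (h3 : Ev (pr F (-z)) k (sig i b * (sig i a)⁻¹)) : False := by
  obtain ⟨w, hw, hw2, hw0, hc⟩ := P.exists_comm_invol (k := 4) hd ![z, X, a, b] (by
    intro j; fin_cases j <;> assumption)
  have c1 : w * z = z * w := hc 0
  have c2 : w * X = X * w := hc 1
  have c3 : w * a = a * w := hc 2
  have c4 : w * b = b * w := hc 3
  have hs : ∀ x : 𝔄ˣ, a * x = x * a → b * x = x * b → sig i b * (sig i a)⁻¹ * x = x * (sig i b * (sig i a)⁻¹) :=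
    fun x e e' => ((show Commute _ x from sig_comm P.two P.ii hb2 e').mul_left
      (show Commute _ x from sig_comm P.two P.ii ha2 e).inv_left).eq
  have hkw : k * w = w * k := comm_of_ev P.two h1 h3 c1 (by simp) (hs w c3.symm c4.symm)
  obtain ⟨r, hr, e⟩ := Pauli.stepA hX hXz c1 c2 h1 (hH w hw hw2 hw0 k hk hkw)
  refine P.stepB (P.pr_mul_ne_zero hw0 hXz c2) hr ha (mem_Cm_mul (mem_Cm_pr_neg hkz) (mem_Cm_pr hkw))
    (mem_Cm_mul (mem_Cm_pr_neg haz) (mem_Cm_pr c3.symm)) e (b := scu 𝔄 i * b) (Ev.mul_right ?_ _)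
    (by rw [P.ι_mul_sq, hb2])
  have e1 := h3.conj_eq (mem_Cm_pr_neg (hs z haz hbz)) (mem_Cm_pr_neg haz)
  rwa [show sig i b * (sig i a)⁻¹ * a * (sig i b * (sig i a)⁻¹)⁻¹ = sig i b * ((sig i a)⁻¹ * a * (sig i a)⁻¹⁻¹) *
    (sig i b)⁻¹ by group, conj_eq_of_comm (show Commute _ a from sig_comm P.two P.ii ha2 rfl).inv_left.eq,
    sig_anti P.two P.ii hb2 hab] at e1

theorem mem_of_gate {z X h r u : 𝔄ˣ} (hz : z ∈ R) (hz2 : z * z = 1) (hX : X ∈ R) (hXz : X * z = -(z * X))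
    (hh : h ∈ H) (h1 : Ev (pr F z) h 1) (hr : r ∈ R) (hrz : r * z = z * r) (hu : u ∈ Zc 𝔄)
    (h3 : Ev (pr F (-z)) h (r * u)) : h ∈ Nm R := by
  obtain ⟨w, hw, hw2, hw0, hc⟩ := P.exists_comm_invol (k := 3) (by omega) ![z, X, r] (by
    intro j; fin_cases j <;> assumption)
  have c1 : w * z = z * w := hc 0
  have c2 : w * X = X * w := hc 1
  have c3 : w * r = r * w := hc 2
  have hhw : h * w = w * h := comm_of_ev P.two h1 h3 c1 (by simp) (by
    rw [mul_assoc, Zc_comm hu, ← mul_assoc, ← c3, mul_assoc])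
  obtain ⟨r', hr', e⟩ := Pauli.stepA hX hXz c1 c2 h1 (hH w hw hw2 hw0 h hh hhw)
  have e1 : Ev (pr F (-z) * pr F w) (r⁻¹ * r') u := by simpa using (e.symm.trans (h3.mul_right _)).left r⁻¹
  have hu' := mem_Cm_mul (mem_Cm_pr_neg (F := F) (Zc_comm hu z)) (mem_Cm_pr (F := F) (Zc_comm hu w))
  have e2 := (e1.mul e1 hu').mul (e1.mul e1 hu') (mul_mem hu' hu')
  have e3 : r⁻¹ * r' * (r⁻¹ * r') * (r⁻¹ * r' * (r⁻¹ * r')) = 1 := by
    rcases P.sq _ (R.mul_mem (R.inv_mem hr) hr') with e | e <;> simp [e]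
  rw [e3] at e2
  have huR := P.mem_of_pow_four hu (P.eq_one_of_ev (P.pr_mul_ne_zero hw0 hXz c2)
    (mul_mem (mul_mem hu hu) (mul_mem hu hu)) e2.symm)
  exact P.gate_mem hz hz2 (P.notMem_of_anti (anti_symm hXz)) (R.mul_mem hr huR)
    (by rw [mul_assoc, Zc_comm hu, ← mul_assoc, hrz, mul_assoc]) h1 h3

include hM

/-- **Step C**. -/
theorem stepC {z h : 𝔄ˣ} (hz : z ∈ R) (hz2 : z * z = 1) (hz0 : z ∉ Zc 𝔄) (hh : h ∈ H) (hhz : h * z = z * h)
    (h1 : Ev (pr F z) h 1) : h ∈ Nm R := by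
  obtain ⟨X, hX, hXz⟩ := P.exists_anti hz hz0
  replace hXz := anti_symm hXz
  have hz2' : -z * -z = 1 := by simpa using hz2
  obtain ⟨d, hdM, hdz, hdX, e⟩ := P.exists_delta (P.neg_mem hz) hz2' hX (by simp [hXz]) (by simp [hhz])
    (hH _ (P.neg_mem hz) hz2' (by rwa [neg_mem_Zc]) h hh (by simp [hhz]))
  replace hdz : d * z = z * d := by simpa using hdz
  by_cases hall : ∀ a ∈ R, a * a = 1 → a * z = z * a → a * X = X * a → d * a = a * d ∨ d * a = -(a * d)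
  · have k1 : ∀ a ∈ R, a * z = z * a → a * X = X * a → d * a = a * d ∨ d * a = -(a * d) := fun a ha e1 e2 => by
      obtain ⟨w, hw, h3, h4⟩ := P.exists_invol ha
      have := hall _ h3 h4 (by rw [mul_assoc, e1, ← mul_assoc, Zc_comm hw, mul_assoc])
        (by rw [mul_assoc, e2, ← mul_assoc, Zc_comm hw, mul_assoc])
      rwa [← mul_assoc, ← Zc_comm hw d, mul_assoc, mul_assoc, ← mul_neg, mul_right_inj, mul_right_inj] at this
    have k2 : ∀ a y : 𝔄ˣ, d * y = y * d → d * (a * y) = a * y * d ∨ d * (a * y) = -(a * y * d) →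
        d * a = a * d ∨ d * a = -(a * d) := fun a y e1 e2 => by
      rwa [← mul_assoc, mul_assoc a, ← e1, ← mul_assoc, ← neg_mul, mul_left_inj, mul_left_inj] at e2
    have k3 : ∀ a ∈ R, a * z = z * a → d * a = a * d ∨ d * a = -(a * d) := fun a ha e1 => by
      rcases P.comm ha hX with e2 | e2
      · exact k1 a ha e1 e2
      · exact k2 a z hdz (k1 _ (R.mul_mem ha hz) (by rw [mul_assoc, ← mul_assoc z, ← e1, mul_assoc]) (by
          rw [mul_assoc, anti_symm hXz, mul_neg, ← mul_assoc, e2, neg_mul, neg_neg, mul_assoc]))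
    obtain ⟨r, hr, hu⟩ := P.exists_mem_of_signs (g := d) fun a ha => by
      rcases P.comm ha hz with e1 | e1
      · exact k3 a ha e1
      · exact k2 a X hdX (k3 _ (R.mul_mem ha hX) (by
          rw [mul_assoc, hXz, mul_neg, ← mul_assoc, e1, neg_mul, neg_neg, mul_assoc]))
    refine P.mem_of_gate hd hH hz hz2 hX hXz hh h1 hr ?_ hu (by simpa using e.symm)
    have := ((show Commute d z from hdz).mul_left (show Commute _ z from Zc_comm hu z).inv_left).eq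
    simpa [mul_assoc] using this
  exfalso
  push Not at hall
  obtain ⟨a, ha, ha2, haz, haX, n1, n2⟩ := hall
  have hb := conj_mem hdM ha
  have hb2 : d * a * d⁻¹ * (d * a * d⁻¹) = 1 := conj_sq ha2
  have hbz : d * a * d⁻¹ * z = z * (d * a * d⁻¹) :=
    (((show Commute d z from hdz).mul_left haz).mul_left (show Commute d z from hdz).inv_left).eq
  have hbX : d * a * d⁻¹ * X = X * (d * a * d⁻¹) :=
    (((show Commute d X from hdX).mul_left haX).mul_left (show Commute d X from hdX).inv_left).eq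
  have hsa := hM (P.sig_mem_Nm ha ha2)
  have csa : Commute (sig i a) z := sig_comm P.two P.ii ha2 haz
  have ch : Commute h z := hhz
  have hk : h * sig i a * h⁻¹ * (sig i a)⁻¹ ∈ H := H.mul_mem (H.mul_mem (H.mul_mem hh hsa) (H.inv_mem hh)) (H.inv_mem hsa)
  have ck := ((ch.mul_left csa).mul_left ch.inv_left).mul_left csa.inv_left
  have e1 : Ev (pr F z) (h * sig i a * h⁻¹ * (sig i a)⁻¹) 1 := by
    simpa using (h1.conj_eq (one_mem _) (mem_Cm_pr csa.eq)).right (mem_Cm_pr csa.inv_left.eq)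
  have e2 := (e.symm.conj_eq (mem_Cm_pr_neg hdz) (mem_Cm_pr_neg csa.eq)).right (mem_Cm_pr_neg csa.inv_left.eq)
  rw [conj_sig P.two P.ii ha2 d] at e2
  have n3 : a ∉ Zc 𝔄 := fun h => n1 (Zc_comm h d).symm
  have n4 : d * a * d⁻¹ ≠ a := fun h => n1 (comm_of_conj h)
  have n5 : d * a * d⁻¹ ≠ -a := fun h => n2 (anti_of_conj h)
  generalize h * sig i a * h⁻¹ * (sig i a)⁻¹ = k at hk ck e1 e2
  generalize d * a * d⁻¹ = b at hb hb2 hbz hbX e2 n4 n5
  rcases P.comm hb ha with hab | hab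
  swap
  · exact P.stepB0 hd hH hz hX hXz hk ck.eq e1 ha hb ha2 hb2 haz hbz hab e2
  have hanti : ∀ y : 𝔄ˣ, y * X = X * y → z * y ∉ Zc 𝔄 := fun y hy => P.notMem_of_anti (y := X) (by
    rw [mul_assoc, hy, ← mul_assoc, anti_symm hXz, neg_mul, mul_assoc])
  obtain ⟨c₀, hc₀, c1, c2, c3⟩ := P.sep_two hz hb ha n3 (by rw [inv_eq_of_sq hz2]; exact hanti a haX) (fun h => by
      rw [inv_eq_of_sq hb2] at h
      rcases P.sign_of_mem h (by rw [mul_assoc, ← mul_assoc a, ← hab, mul_assoc, ha2, mul_one, hb2]) with e | e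
      · exact n4 (by rw [eq_inv_of_mul_eq_one_left e, inv_eq_of_sq ha2])
      · exact n5 (by rw [← mul_one b, ← ha2, ← mul_assoc, e, neg_one_mul]))
    (by rw [mul_inv_rev, inv_eq_of_sq hz2, inv_eq_of_sq hb2, hbz, mul_assoc]
        exact hanti _ (by rw [mul_assoc, haX, ← mul_assoc, hbX, mul_assoc]))
  obtain ⟨w, hw, hc, hc2⟩ := P.exists_invol hc₀
  replace c1 : w * c₀ * z = z * (w * c₀) := by rw [mul_assoc, ← c1, ← mul_assoc, Zc_comm hw, mul_assoc]
  replace c2 : w * c₀ * b = b * (w * c₀) := by rw [mul_assoc, ← c2, ← mul_assoc, Zc_comm hw, mul_assoc]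
  replace c3 : w * c₀ * a = -(a * (w * c₀)) := by
    rw [mul_assoc, anti_symm c3, mul_neg, ← mul_assoc, Zc_comm hw a, mul_assoc]
  generalize w * c₀ = c at hc hc2 c1 c2 c3
  have hsc := P.sig_mem_Nm hc hc2
  have csc : Commute (sig i c) z := sig_comm P.two P.ii hc2 c1
  have csb : Commute (sig i b) z := sig_comm P.two P.ii hb2 hbz
  refine P.stepB0 hd hH hz hX hXz (k := k⁻¹ * (sig i c * k * (sig i c)⁻¹))
    (H.mul_mem (H.inv_mem hk) (H.mul_mem (H.mul_mem (hM hsc) hk) (H.inv_mem (hM hsc))))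
    (ck.inv_left.mul_left ((csc.mul_left ck).mul_left csc.inv_left)).eq ?_ (conj_mem hsc ha) ha (conj_sq ha2) ha2
    ((csc.mul_left haz).mul_left csc.inv_left).eq haz ?_ ?_
  · simpa using (e1.inv (one_mem _)).mul ((e1.left (sig i c)).right (mem_Cm_pr csc.inv_left.eq)) (by simp)
  · rw [sig_anti P.two P.ii hc2 c3, ← mul_assoc, ← mul_assoc, ← Zc_comm P.ι_mem a, mul_assoc _ a c, anti_symm c3]
    simp [mul_assoc]
  · have e3 := (e2.inv (mem_Cm_pr_neg (csb.mul_left csa.inv_left).eq)).mul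
      ((e2.left (sig i c)).right (mem_Cm_pr_neg csc.inv_left.eq))
      (mem_Cm_pr_neg ((csc.mul_left (csb.mul_left csa.inv_left)).mul_left csc.inv_left).eq)
    have e4 : sig i c * sig i b = sig i b * sig i c :=
      sig_comm P.two P.ii hc2 (sig_comm P.two P.ii hb2 c2.symm).symm
    rw [← conj_sig P.two P.ii ha2]
    convert e3 using 1
    rw [← mul_assoc (sig i c), e4]
    group

/-- The centraliser in `H` of a non-central involution of `R` normalises `R`. -/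
theorem cent {z h : 𝔄ˣ} (hz : z ∈ R) (hz2 : z * z = 1) (hz0 : z ∉ Zc 𝔄) (hh : h ∈ H) (hhz : h * z = z * h) :
    h ∈ Nm R := by
  obtain ⟨X, hX, hXz⟩ := P.exists_anti hz hz0
  obtain ⟨d, hdM, hdz, -, e⟩ := P.exists_delta hz hz2 hX (anti_symm hXz) hhz (hH z hz hz2 hz0 h hh hhz)
  rw [← (Nm R).mul_mem_cancel_left (inv_mem hdM)]
  exact P.stepC hd hM hH hz hz2 hz0 (H.mul_mem (H.inv_mem (hM hdM)) hh)
    ((show Commute d z from hdz).inv_left.mul_left hhz).eq (by simpa using e.symm.left d⁻¹)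

end LP

end CL.Pa
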