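/-
Project C6 (r = 2), file 5: end of the inductive step in the abstract algebra (`LP.le_Nm`).
-/
import Cfsg.Agent.Cls.Pauli4

set_option autoImplicit false

namespace CL.Pa

open Module

variable {F 𝔄 : Type*} [Field F] [Ring 𝔄] [Algebra F 𝔄]

theorem mk_mem_map {M : Subgroup 𝔄ˣ} (hM : Zc 𝔄 ≤ M) {x : 𝔄ˣ} :
    QuotientGroup.mk' (Zc 𝔄) x ∈ M.map (QuotientGroup.mk' (Zc 𝔄)) ↔ x ∈ M := by
  rw [← Subgroup.mem_comap, Subgroup.comap_map_eq_self (by rwa [QuotientGroup.ker_mk'])]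

theorem mk_eq_one {x : 𝔄ˣ} : QuotientGroup.mk' (Zc 𝔄) x = 1 ↔ x ∈ Zc 𝔄 := QuotientGroup.eq_one_iff x

theorem mk_neg (x : 𝔄ˣ) : QuotientGroup.mk' (Zc 𝔄) (-x) = QuotientGroup.mk' (Zc 𝔄) x := by
  rw [← neg_one_mul, map_mul, mk_eq_one.2 neg_one_mem_Zc, one_mul]

namespace Pauli

variable {R : Subgroup 𝔄ˣ} (P : Pauli F R)
include P

theorem mk_comm {x y : 𝔄ˣ} (hx : x ∈ R) (hy : y ∈ R) :
    QuotientGroup.mk' (Zc 𝔄) (x * y) = QuotientGroup.mk' (Zc 𝔄) (y * x) := by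
  rcases P.comm hx hy with e | e <;> rw [e]
  exact mk_neg _

/-- An involution of the normaliser outside `R Z` centralises a non-central element of `R`. -/
theorem exists_fixed [Finite 𝔄] (hd : 4 < finrank F 𝔄) {t b : 𝔄ˣ} (ht : t ∈ Nm R) (ht2 : t * t = 1) (hb : b ∈ R)
    (h0 : b⁻¹ * (t * b * t⁻¹) ∉ Zc 𝔄) : ∃ u ∈ R, u ∉ Zc 𝔄 ∧ t * u = u * t := by
  have hj : ∀ b : 𝔄ˣ, t * (b⁻¹ * (t * b * t⁻¹)) * t⁻¹ = (b⁻¹ * (t * b * t⁻¹))⁻¹ := fun b => by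
    rw [show t * (b⁻¹ * (t * b * t⁻¹)) * t⁻¹ = t * b⁻¹ * t⁻¹ * (t * t * b * (t * t)⁻¹) by group, ht2]; group
  have hjR : ∀ b ∈ R, b⁻¹ * (t * b * t⁻¹) ∈ R := fun b hb => R.mul_mem (R.inv_mem hb) (conj_mem ht hb)
  rcases P.sq _ (hjR b hb) with e | e
  · exact ⟨_, hjR b hb, h0, comm_of_conj (by rw [hj, inv_eq_of_sq e])⟩
  have h1 := anti_of_conj ((hj b).trans (inv_eq_neg_of_sq e))
  have h2 : b⁻¹ * (t * b * t⁻¹) * b = -(b * (b⁻¹ * (t * b * t⁻¹))) := P.anti_of_ne (hjR b hb) hb fun h => by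
    have h3 : b * (b⁻¹ * (t * b * t⁻¹)) * (b * (b⁻¹ * (t * b * t⁻¹))) = b * b := by
      rw [mul_inv_cancel_left, conj_mul]
      rcases P.sq b hb with e | e <;> simp [e]
    generalize b⁻¹ * (t * b * t⁻¹) = j at *
    rw [mul_assoc, ← mul_assoc j, h, mul_assoc, e, ← mul_assoc, mul_neg, mul_one] at h3
    exact P.neg_ne _ h3
  obtain ⟨c, hc, hc0, h3⟩ := P.exists_comm (k := 2) hd ![b, t * b * t⁻¹] (by
    intro j; fin_cases j; exacts [hb, conj_mem ht hb])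
  have c1 : Commute c b := h3 0
  have c2 : Commute (t * c * t⁻¹) b := by
    have := (show Commute c (t * b * t⁻¹) from h3 1).map (MulAut.conj t)
    rwa [MulAut.conj_apply, MulAut.conj_apply, show t * (t * b * t⁻¹) * t⁻¹ = t * t * b * (t * t)⁻¹ by group, ht2,
      one_mul, inv_one, mul_one] at this
  obtain ⟨u, hu, hu0, c3, h4⟩ : ∃ u ∈ R, u ∉ Zc 𝔄 ∧ u * b = b * u ∧ (t * u = u * t ∨ t * u = -(u * t)) := by
    by_cases h : c⁻¹ * (t * c * t⁻¹) ∈ Zc 𝔄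
    · exact ⟨c, hc, hc0, c1, P.sign_of_conj hc h⟩
    · exact ⟨_, hjR c hc, h, (c1.inv_left.mul_left c2).eq, (P.inv_sign (hjR c hc)).imp
        (fun e => comm_of_conj ((hj c).trans e)) fun e => anti_of_conj ((hj c).trans e)⟩
  rcases h4 with h4 | h4
  · exact ⟨u, hu, hu0, h4⟩
  · have h5 := hjR b hb
    generalize b⁻¹ * (t * b * t⁻¹) = j at *
    exact ⟨j * u, R.mul_mem h5 hu, P.notMem_of_anti (y := b) (by
      rw [mul_assoc, c3, ← mul_assoc, h2, neg_mul, mul_assoc]), by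
      rw [← mul_assoc, h1, neg_mul, mul_assoc, h4, mul_neg, neg_neg, mul_assoc]⟩

end Pauli

namespace LP

variable {i : F} {R : Subgroup 𝔄ˣ} (P : LP i R)
variable [Finite 𝔄] {H : Subgroup 𝔄ˣ} (hM : Nm R ≤ H)
  (hC : ∀ z ∈ R, z * z = 1 → z ∉ Zc 𝔄 → ∀ h ∈ H, h * z = z * h → h ∈ Nm R)
include P hM hC

theorem mem_of_conj {a h : 𝔄ˣ} (ha : a ∈ R) (ha2 : a * a = 1) (ha0 : a ∉ Zc 𝔄) (hh : h ∈ H)
    (e : h * a * h⁻¹ ∈ R) : h ∈ Nm R := by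
  obtain ⟨m, hm, e'⟩ := P.exists_conj ha e ha2 (conj_sq ha2) ha0 (by rwa [conj_mem_Zc])
  rw [← (Nm R).mul_mem_cancel_left (inv_mem hm)]
  exact hC a ha ha2 ha0 _ (H.mul_mem (H.inv_mem (hM hm)) hh) (comm_of_conj (by
    rw [show m⁻¹ * h * a * (m⁻¹ * h)⁻¹ = m⁻¹ * (h * a * h⁻¹) * m by group, ← e']; group))

omit hM in
/-- **L2**. -/
theorem exists_mem_of_sig (hd : 4 < finrank F 𝔄) {t : 𝔄ˣ} (ht : t ∈ Nm R) (ht2 : t * t = 1) (hs : sig i t ∈ H) :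
    ∃ r ∈ R, r⁻¹ * t ∈ Zc 𝔄 := by
  by_contra hn
  obtain ⟨b, hb, h0⟩ : ∃ b ∈ R, b⁻¹ * (t * b * t⁻¹) ∉ Zc 𝔄 := by
    by_contra h
    push Not at h
    exact hn (P.exists_mem_of_act h)
  obtain ⟨u, hu, hu0, e⟩ := P.exists_fixed hd ht ht2 hb h0
  obtain ⟨w, hw, h1, h2⟩ := P.exists_invol hu
  have hsM := hC _ h1 h2 (fun e => hu0 ((Subgroup.mul_mem_cancel_left _ hw).1 e)) _ hs
    (sig_comm P.two P.ii ht2 (by rw [← mul_assoc, ← Zc_comm hw, mul_assoc, e, mul_assoc]))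
  have hjR := R.mul_mem (R.inv_mem hb) (conj_mem ht hb)
  have hj : t * (b⁻¹ * (t * b * t⁻¹)) * t⁻¹ = (b⁻¹ * (t * b * t⁻¹))⁻¹ := by
    rw [show t * (b⁻¹ * (t * b * t⁻¹)) * t⁻¹ = t * b⁻¹ * t⁻¹ * (t * t * b * (t * t)⁻¹) by group, ht2]; group
  have h3 := R.mul_mem (R.inv_mem hb) (conj_mem hsM hb)
  rw [show b⁻¹ * (sig i t * b * (sig i t)⁻¹) = b⁻¹ * sig i t * b⁻¹⁻¹ * (sig i t)⁻¹ by group,
    conj_sig P.two P.ii ht2, show b⁻¹ * t * b⁻¹⁻¹ = b⁻¹ * (t * b * t⁻¹) * t by group] at h3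
  generalize b⁻¹ * (t * b * t⁻¹) = j at *
  rcases P.sq j hjR with e | e
  · have c1 : t * j = j * t := comm_of_conj (by rw [hj, inv_eq_of_sq e])
    have h4 : j * t * (j * t) = 1 := by rw [mul_assoc, ← mul_assoc t, c1, mul_assoc, ht2, mul_one, e]
    have c2 : Commute (sig i (j * t)) (sig i t) :=
      sig_comm P.two P.ii h4 (sig_comm P.two P.ii ht2 (by rw [← mul_assoc, c1])).symm
    have h5 : sig i (j * t) * (sig i t)⁻¹ * (sig i (j * t) * (sig i t)⁻¹) = j := by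
      rw [mul_assoc, ← mul_assoc _ (sig i (j * t)), ← c2.inv_right.eq, mul_assoc, ← mul_assoc, ← mul_inv_rev,
        sig_sq P.two P.ii h4, sig_sq P.two P.ii ht2, mul_inv_rev, ← mul_assoc, mul_assoc _ _ t⁻¹,
        mul_inv_cancel_right, Zc_comm (scu_mem (mul_ne_zero P.two (i_ne_zero P.ii))), mul_inv_cancel_right]
    rcases P.sq _ h3 with e' | e' <;> rw [h5] at e' <;> rw [e'] at h0
    exacts [h0 (one_mem _), h0 neg_one_mem_Zc]
  · have h4 := conj_mem hsM hjR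
    rw [sig_anti P.two P.ii ht2 (anti_of_conj (hj.trans (inv_eq_neg_of_sq e))), R.mul_mem_cancel_right hjR,
      R.mul_mem_cancel_left P.iR] at h4
    exact hn ⟨t, h4, by simp⟩

theorem mem_of_conj_Nm (hd : 4 < finrank F 𝔄) {a h : 𝔄ˣ} (ha : a ∈ R) (ha0 : a ∉ Zc 𝔄) (hh : h ∈ H)
    (e : h * a * h⁻¹ ∈ Nm R) : h ∈ Nm R := by
  obtain ⟨w, hw, h1, h2⟩ := P.exists_invol ha
  have h3 : h * (w * a) * h⁻¹ ∈ Nm R := by
    rw [← mul_assoc, ← Zc_comm hw, mul_assoc w, mul_assoc w]; exact mul_mem (Zc_le_Nm R hw) e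
  obtain ⟨r, hr, hu⟩ := P.exists_mem_of_sig hC hd h3 (conj_sq h2) (by
    rw [← conj_sig P.two P.ii h2]
    exact H.mul_mem (H.mul_mem hh (hM (P.sig_mem_Nm h1 h2))) (H.inv_mem hh))
  refine P.mem_of_conj hM hC h1 h2 (fun e => ha0 ((Subgroup.mul_mem_cancel_left _ hw).1 e)) hh ?_
  have h4 := conj_sq (g := h) h2
  generalize h * (w * a) * h⁻¹ = t at *
  rw [← R.mul_mem_cancel_left (R.inv_mem hr)]
  have h5 : r⁻¹ * t * (r⁻¹ * t) = r⁻¹ * r⁻¹ := by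
    rw [mul_assoc, ← Zc_comm hu t, mul_assoc, h4, mul_one]
  refine P.mem_of_pow_four hu ?_
  rcases P.sq _ (R.inv_mem hr) with e | e <;> simp [h5, e]

/-- If the centralisers in `H ≥ N(R)` of the non-central involutions of `R` normalise `R`, then `H = N(R)`. -/
theorem le_Nm_of_cent (hd : 4 < finrank F 𝔄) : H ≤ Nm R := by
  obtain ⟨c, hc, hc2, hc0, -⟩ := P.exists_comm_invol (k := 0) (by omega) ![] (by simp)
  obtain ⟨y, hy, hcy⟩ := P.exists_anti hc hc0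
  obtain ⟨a, ha, ha0, h3⟩ := P.exists_comm (k := 2) hd ![c, y] (by intro j; fin_cases j <;> assumption)
  have c1 : a * c = c * a := h3 0
  have c2 : a * y = y * a := h3 1
  have hZ : Zc 𝔄 ≤ H := (Zc_le_Nm R).trans hM
  have hs : ∀ x ∈ R, QuotientGroup.mk' (Zc 𝔄) (sig i c * y * x * (sig i c * y)⁻¹) =
      QuotientGroup.mk' (Zc 𝔄) (sig i c * x * (sig i c)⁻¹) := fun x hx => by
    rw [show sig i c * y * x * (sig i c * y)⁻¹ = sig i c * (y * x * y⁻¹) * (sig i c)⁻¹ by group]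
    rcases P.conj_sign hy hx with e | e <;> rw [e]
    rw [mul_neg, neg_mul, mk_neg]
  have hs' : ∀ x ∈ R, c * x = -(x * c) → QuotientGroup.mk' (Zc 𝔄) (sig i c * y * x * (sig i c * y)⁻¹) =
      QuotientGroup.mk' (Zc 𝔄) (x * c) := fun x hx e => by
    rw [hs x hx, sig_anti P.two P.ii hc2 e, mul_assoc, map_mul, mk_eq_one.2 P.ι_mem, one_mul, P.mk_comm hc hx]
  have := ti_le (A := R.map (QuotientGroup.mk' (Zc 𝔄))) (Subgroup.map_mono Subgroup.le_normalizer)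
    (Subgroup.map_mono hM) (s := QuotientGroup.mk' (Zc 𝔄) (sig i c * y)) (c := QuotientGroup.mk' (Zc 𝔄) c)
    ?_ ?_ ?_ (fun e => hc0 (mk_eq_one.1 e)) ⟨c, hc, rfl⟩ ?_
    ⟨_, ⟨y, hy, rfl⟩, by simpa only [map_mul, map_inv] using hs' y hy hcy⟩
    ⟨_, ⟨a, ha, rfl⟩, fun e => ha0 (mk_eq_one.1 e), fun e => ?_, ?_⟩
    ⟨_, mul_mem (P.sig_mem_Nm hc hc2) (Subgroup.le_normalizer hy), rfl⟩ ?_
  · exact fun h hh => (mk_mem_map (Zc_le_Nm R)).1 (this ⟨h, hh, rfl⟩)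
  · rintro _ ⟨x, hx, rfl⟩
    rw [← map_mul, mk_eq_one]
    rcases P.sq x hx with e | e <;> rw [e]
    exacts [one_mem _, neg_one_mem_Zc]
  · rintro _ ⟨m, hm, rfl⟩ _ ⟨x, hx, rfl⟩
    exact ⟨_, conj_mem hm hx, by simp only [map_mul, map_inv]⟩
  · rintro _ ⟨x, hx, rfl⟩ h0 _ ⟨h, hh, rfl⟩ e
    rw [← map_inv, ← map_mul, ← map_mul, mk_mem_map (Zc_le_Nm R)] at e
    exact ⟨h, P.mem_of_conj_Nm hM hC hd hx (fun e => h0 (mk_eq_one.2 e)) hh e, rfl⟩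
  · rintro _ ⟨x, hx, rfl⟩
    rw [← map_inv, ← map_mul, ← map_mul, ← map_mul]
    rcases P.comm hc hx with e | e
    · exact Or.inl (by rw [hs x hx, conj_eq_of_comm (sig_comm P.two P.ii hc2 e)])
    · exact Or.inr (hs' x hx e)
  · refine P.notMem_of_anti (x := a⁻¹ * c) (y := y) ?_ (QuotientGroup.eq.1 e)
    rw [mul_assoc, hcy, mul_neg, ← mul_assoc, (show Commute a y from c2).inv_left.eq, mul_assoc]
  · rw [← map_inv, ← map_mul, ← map_mul, hs a ha, conj_eq_of_comm (sig_comm P.two P.ii hc2 c1.symm)]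
  · rw [← map_mul, mk_eq_one, show sig i c * y * (sig i c * y) = sig i c * (y * sig i c * y⁻¹) * (y * y) by group,
      conj_sig P.two P.ii hc2, conj_eq_of_anti (anti_symm hcy), sig_mul_neg P.two P.ii hc2]
    refine mul_mem (scu_mem P.two) ?_
    rcases P.sq y hy with e | e <;> rw [e]
    exacts [one_mem _, neg_one_mem_Zc]

omit hC in
/-- **The inductive step.** -/
theorem le_Nm (hd : 16 < finrank F 𝔄) (hH : ∀ z ∈ R, z * z = 1 → z ∉ Zc 𝔄 → Hz F R H z) : H ≤ Nm R :=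
  P.le_Nm_of_cent hM (fun _ hz hz2 hz0 _ hh e => P.cent hd hM hH hz hz2 hz0 hh e) (by omega)

end LP

end CL.Pa
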