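/-
Project C6 (r = 2), file 6: passing from the second derived group to the whole overgroup, the adjoint map of a
real Pauli group, and five anticommuting involutions in dimension 16.
-/
import Cfsg.Agent.Cls.Pauli5

set_option autoImplicit false

namespace CL.Pa

open Module

variable {F 𝔄 : Type*} [Field F] [Ring 𝔄] [Algebra F 𝔄]

theorem conj_mem_commutator {G : Type*} [Group G] {A : Subgroup G} {h : G} (hA : ∀ a ∈ A, h * a * h⁻¹ ∈ A) :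
    ∀ d ∈ ⁅A, A⁆, h * d * h⁻¹ ∈ ⁅A, A⁆ :=
  show ⁅A, A⁆ ≤ (⁅A, A⁆).comap (MulAut.conj h).toMonoidHom from Subgroup.commutator_le.2 fun a ha b hb => by
    rw [Subgroup.mem_comap, map_commutatorElement]
    exact Subgroup.commutator_mem_commutator (hA a ha) (hA b hb)

namespace LP

variable {i : F} {R : Subgroup 𝔄ˣ} (P : LP i R)
include P

theorem exists_anti_invol {x : 𝔄ˣ} (hx : x ∈ R) (h : x ∉ Zc 𝔄) : ∃ y ∈ R, y * y = 1 ∧ x * y = -(y * x) := by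
  obtain ⟨y, hy, e⟩ := P.exists_anti hx h
  obtain ⟨w, hw, h1, h2⟩ := P.exists_invol hy
  exact ⟨_, h1, h2, by rw [← mul_assoc, ← Zc_comm hw, mul_assoc, e, mul_neg, mul_assoc]⟩

theorem mem_of_mul_mem {r b : 𝔄ˣ} (hr : r ∈ R) (hb : b * b = 1 ∨ b * b = -1) (hu : r⁻¹ * b ∈ Zc 𝔄) : b ∈ R := by
  rw [← R.mul_mem_cancel_left (R.inv_mem hr)]
  have h5 : r⁻¹ * b * (r⁻¹ * b) = r⁻¹ * r⁻¹ * (b * b) := by
    rw [mul_assoc, ← Zc_comm hu b]; simp only [mul_assoc]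
  refine P.mem_of_pow_four hu ?_
  rcases P.sq _ (R.inv_mem hr) with e | e <;> rcases hb with e' | e' <;> simp [h5, e, e']

variable [Finite 𝔄] {H : Subgroup 𝔄ˣ} (hM : Nm R ≤ H)
include hM

theorem sig_mul_mem {c d : 𝔄ˣ} (hc : c ∈ R) (hd : d ∈ R) (hc2 : c * c = 1) (hd2 : d * d = 1) (hc0 : c ∉ Zc 𝔄)
    (hd0 : d ∉ Zc 𝔄) : sig i d * (sig i c)⁻¹ ∈ ⁅H, H⁆ := by
  obtain ⟨m, hm, e⟩ := P.exists_conj hc hd hc2 hd2 hc0 hd0
  rw [← e, ← conj_sig P.two P.ii hc2]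
  exact Subgroup.commutator_mem_commutator (hM hm) (hM (P.sig_mem_Nm hc hc2))

theorem sig_mul_mem₂ (hd : 4 < finrank F 𝔄) {c c' : 𝔄ˣ} (hc : c ∈ R) (hc' : c' ∈ R) (hc2 : c * c = 1)
    (hc2' : c' * c' = 1) (h : c * c' = -(c' * c)) : sig i c' * (sig i c)⁻¹ ∈ ⁅⁅H, H⁆, ⁅H, H⁆⁆ := by
  obtain ⟨d, hdR, hd2, hd0, e⟩ := P.exists_comm_invol (k := 2) hd ![c, c'] (by intro j; fin_cases j <;> assumption)
  have c1 : Commute d c := e 0
  have c2 : Commute d c' := e 1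
  obtain ⟨ha2, e1⟩ := P.sig_conj_anti hc2 hc2' h
  have ha := R.mul_mem P.iR (R.mul_mem hc hc')
  have c3 : Commute (scu 𝔄 i * (c * c')) d := (show Commute _ d from Zc_comm P.ι_mem d).mul_left (c1.mul_right c2).symm
  have ha0 : scu 𝔄 i * (c * c') ∉ Zc 𝔄 := fun e2 => P.neg_ne c (by
    rw [conj_eq_of_comm (sig_comm P.two P.ii ha2 (Zc_comm e2 c))] at e1
    rw [← e1, hc2] at h
    simpa using (congrArg (fun x => -x * c) h.symm).symm)
  generalize scu 𝔄 i * (c * c') = a at *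
  have := Subgroup.commutator_mem_commutator (P.sig_mul_mem hM hdR ha hd2 ha2 hd0 ha0)
    (P.sig_mul_mem hM hdR hc hd2 hc2 hd0 (P.notMem_of_anti h))
  have c4 : Commute (sig i d) (sig i c) := sig_comm P.two P.ii hd2 (sig_comm P.two P.ii hc2 c1.symm).symm
  have c5 : Commute (sig i a) (sig i d) := sig_comm P.two P.ii ha2 (sig_comm P.two P.ii hd2 c3.symm).symm
  convert this using 1
  rw [← e1, ← conj_sig P.two P.ii hc2, commutatorElement_def, mul_inv_rev, mul_inv_rev, inv_inv]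
  simp only [mul_assoc, inv_mul_cancel_left]
  rw [← mul_assoc (sig i d)⁻¹, c4.inv_left.eq, ← mul_assoc _ (sig i d), c5.inv_left.eq]
  simp only [mul_assoc, inv_mul_cancel_left]

theorem ι_mul_mem {c : 𝔄ˣ} (hc : c ∈ R) (hc2 : c * c = 1) (hc0 : c ∉ Zc 𝔄) : scu 𝔄 i * c ∈ ⁅H, H⁆ := by
  obtain ⟨a, ha, e⟩ := P.exists_anti hc hc0
  have := Subgroup.commutator_mem_commutator (hM (P.sig_mem_Nm hc hc2)) (hM (Subgroup.le_normalizer ha))
  rwa [commutatorElement_def, sig_anti P.two P.ii hc2 e, mul_inv_cancel_right] at this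

theorem ι_mul_mem₂ {c : 𝔄ˣ} (hc : c ∈ R) (hc2 : c * c = 1) (hc0 : c ∉ Zc 𝔄) :
    scu 𝔄 i * c ∈ ⁅⁅H, H⁆, ⁅H, H⁆⁆ := by
  obtain ⟨a, ha, ha2, e⟩ := P.exists_anti_invol hc hc0
  have ha0 := P.notMem_of_anti (anti_symm e)
  have := Subgroup.commutator_mem_commutator (P.sig_mul_mem hM ha hc ha2 hc2 ha0 hc0) (P.ι_mul_mem hM ha ha2 ha0)
  convert this using 1
  rw [commutatorElement_def, ← mul_assoc, ← Zc_comm P.ι_mem, mul_inv_rev, mul_inv_rev, inv_inv,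
    show scu 𝔄 i * (sig i c * (sig i a)⁻¹) * a * (sig i a * (sig i c)⁻¹) = scu 𝔄 i * (sig i c * ((sig i a)⁻¹ * a *
      (sig i a)⁻¹⁻¹) * (sig i c)⁻¹) by group,
    conj_eq_of_comm (show Commute _ a from sig_comm P.two P.ii ha2 rfl).inv_left.eq, sig_anti P.two P.ii hc2 e,
    Zc_comm P.ι_mem (_ * _ * _), mul_assoc _ (scu 𝔄 i), ← mul_assoc (scu 𝔄 i) a⁻¹, Zc_comm P.ι_mem a⁻¹]
  group

/-- If the second derived group of `H ≥ N(R)` normalises `R`, so does `H`. -/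
theorem le_Nm_of_comm (hd : 4 < finrank F 𝔄) (hH : ⁅⁅H, H⁆, ⁅H, H⁆⁆ ≤ Nm R) : H ≤ Nm R := by
  have hD : ∀ h ∈ H, ∀ d ∈ ⁅⁅H, H⁆, ⁅H, H⁆⁆, h * d * h⁻¹ ∈ Nm R := fun h hh d hd =>
    hH (conj_mem_commutator (conj_mem_commutator fun a ha => H.mul_mem (H.mul_mem hh ha) (H.inv_mem hh)) d hd)
  have hZ : ∀ w ∈ Zc 𝔄, ∀ h x : 𝔄ˣ, h * (w * x) * h⁻¹ = w * (h * x * h⁻¹) := fun w hw h x => by
    rw [← mul_assoc, ← Zc_comm hw, mul_assoc w, mul_assoc w]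
  have h1 : ∀ h ∈ H, ∀ r ∈ R, h * r * h⁻¹ ∈ Nm R := fun h hh r hr => by
    by_cases h0 : r ∈ Zc 𝔄
    · exact Zc_le_Nm R (conj_mem_Zc.2 h0)
    obtain ⟨w, hw, e1, e2⟩ := P.exists_invol hr
    have := hD h hh _ (P.ι_mul_mem₂ hM e1 e2 fun e => h0 ((Subgroup.mul_mem_cancel_left _ hw).1 e))
    rwa [hZ _ P.ι_mem, hZ _ hw, (Nm R).mul_mem_cancel_left (Zc_le_Nm R P.ι_mem),
      (Nm R).mul_mem_cancel_left (Zc_le_Nm R hw)] at this
  intro h hh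
  by_cases hc : ∃ c ∈ R, c ∉ Zc 𝔄 ∧ h⁻¹ * c * h⁻¹⁻¹ ∈ R
  · have k0 : ∀ c ∈ R, ∀ w ∈ Zc 𝔄, w * c ∈ R → (h⁻¹ * (w * c) * h⁻¹⁻¹ ∈ R ↔ h⁻¹ * c * h⁻¹⁻¹ ∈ R) :=
      fun c hc w hw e => by rw [hZ _ hw, R.mul_mem_cancel_left ((R.mul_mem_cancel_right hc).1 e)]
    have k1 : ∀ c ∈ R, h⁻¹ * c * h⁻¹⁻¹ ∈ R → ∀ c' ∈ R, c * c' = -(c' * c) → h⁻¹ * c' * h⁻¹⁻¹ ∈ R := by
      intro c hc e c' hc' e'
      obtain ⟨w, hw, e1, e2⟩ := P.exists_invol hc
      obtain ⟨w', hw', e1', e2'⟩ := P.exists_invol hc'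
      rw [← k0 c hc w hw e1] at e
      rw [← k0 c' hc' w' hw' e1']
      replace e' : w' * c' * (w * c) = -(w * c * (w' * c')) := by
        rw [mul_assoc, ← mul_assoc c', ← Zc_comm hw, mul_assoc w, anti_symm e', mul_assoc w, ← mul_assoc c,
          ← Zc_comm hw' c, ← mul_assoc w', ← Zc_comm hw w']
        simp only [mul_assoc, mul_neg]
      generalize w * c = a at *
      generalize w' * c' = b at *
      have h3 := conj_mem (hD _ (H.inv_mem hh) _ (P.sig_mul_mem₂ hM hd e1 e1' e2 e2' (anti_symm e'))) e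
      rw [show h⁻¹ * (sig i b * (sig i a)⁻¹) * h⁻¹⁻¹ * (h⁻¹ * a * h⁻¹⁻¹) * (h⁻¹ * (sig i b * (sig i a)⁻¹) * h⁻¹⁻¹)⁻¹ =
        h⁻¹ * (sig i b * ((sig i a)⁻¹ * a * (sig i a)⁻¹⁻¹) * (sig i b)⁻¹) * h⁻¹⁻¹ by group,
        conj_eq_of_comm (show Commute _ a from sig_comm P.two P.ii e2 rfl).inv_left.eq, sig_anti P.two P.ii e2' e',
        mul_assoc (scu 𝔄 i), hZ _ P.ι_mem, R.mul_mem_cancel_left P.iR, ← conj_mul, R.mul_mem_cancel_right e] at h3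
      exact h3
    obtain ⟨c, hc, hc0, e⟩ := hc
    rw [← inv_mem_iff]
    refine mem_Nm fun r hr => ?_
    by_cases h0 : r ∈ Zc 𝔄
    · rwa [conj_eq_of_comm (Zc_comm h0 _).symm]
    obtain ⟨u, hu, e1, e2⟩ := P.exists_anti_two hc hr hc0 h0
    exact k1 u hu (k1 c hc e u hu e1) r hr (anti_symm e2)
  · push Not at hc
    refine mem_Nm fun r hr => ?_
    obtain ⟨r', hr', hu⟩ := P.exists_mem_of_act (g := h * r * h⁻¹) fun x hx => by
      by_contra h0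
      refine hc _ (R.mul_mem (R.inv_mem hx) (conj_mem (h1 h hh r hr) hx)) h0 ?_
      have := R.mul_mem (conj_mem (h1 _ (H.inv_mem hh) _ (R.inv_mem hx)) hr) (R.inv_mem hr)
      convert this using 1
      group
    refine P.mem_of_mul_mem hr' ?_ hu
    rw [conj_mul]
    rcases P.sq r hr with e | e <;> simp [e]

end LP

namespace Pauli

variable {R : Subgroup 𝔄ˣ} (P : Pauli F R)
include P

theorem induction {p : 𝔄 → Prop} (h : ∀ x ∈ R, p (x : 𝔄)) (h0 : p 0) (hadd : ∀ a b, p a → p b → p (a + b))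
    (hs : ∀ (c : F) (a : 𝔄), p a → p (c • a)) (a : 𝔄) : p a := by
  have ha : a ∈ Submodule.span F (Units.val '' (R : Set 𝔄ˣ)) := P.span ▸ Submodule.mem_top
  induction ha using Submodule.span_induction with
  | mem x hx => obtain ⟨x, hx, rfl⟩ := hx; exact h x hx
  | zero => exact h0
  | add x y _ _ hx hy => exact hadd x y hx hy
  | smul c x _ hx => exact hs c x hx

/-- The adjoint map of a Pauli group whose only scalars are the signs. -/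
theorem exists_st [Finite 𝔄] (hZ : ∀ k ∈ R, k ∈ Zc 𝔄 → k = 1 ∨ k = -1) : ∃ st : 𝔄 →ₗ[F] 𝔄,
    (∀ r ∈ R, st (r : 𝔄) = (r⁻¹ : 𝔄ˣ)) ∧ ∀ a b, st (a * b) = st b * st a := by
  let b := Basis.mk P.linearIndependent_rep P.span_rep.ge
  let st : 𝔄 →ₗ[F] 𝔄 := b.constr F fun v => (((P.rep v : 𝔄ˣ)⁻¹ : 𝔄ˣ) : 𝔄)
  have h1 : ∀ r ∈ R, st (r : 𝔄) = (r⁻¹ : 𝔄ˣ) := fun r hr => by
    have h2 : st ((P.rep (P.φ ⟨r, hr⟩) : 𝔄ˣ) : 𝔄) = (((P.rep (P.φ ⟨r, hr⟩) : 𝔄ˣ)⁻¹ : 𝔄ˣ) : 𝔄) := by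
      simpa only [b, Basis.coe_mk] using b.constr_basis F (fun v => (((P.rep v : 𝔄ˣ)⁻¹ : 𝔄ˣ) : 𝔄)) (P.φ ⟨r, hr⟩)
    have h3 := hZ _ (R.mul_mem (R.inv_mem (P.rep (P.φ ⟨r, hr⟩)).2) hr) (P.φ_eq_iff.1 (P.φ_rep (P.φ ⟨r, hr⟩)))
    generalize (P.rep (P.φ ⟨r, hr⟩) : 𝔄ˣ) = x at h2 h3
    rcases h3 with e | e
    · rwa [← inv_mul_eq_one.1 e]
    · obtain rfl : r = -x := by rw [← mul_inv_cancel_left x r, e, mul_neg, mul_one]
      simp [h2]
  refine ⟨st, h1, fun a b => ?_⟩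
  induction a using P.induction with
  | h0 => simp
  | hadd a a' h h' => simp [add_mul, mul_add, h, h']
  | hs c a h => simp [h]
  | h x hx =>
    induction b using P.induction with
    | h0 => simp
    | hadd a a' h h' => simp [add_mul, mul_add, h, h']
    | hs c a h => simp [h]
    | h y hy => rw [← Units.val_mul, h1 _ (R.mul_mem hx hy), h1 x hx, h1 y hy, mul_inv_rev, Units.val_mul]

theorem exists_adj {K : Subgroup 𝔄ˣ} (hK : K ≤ R) (hn : -1 ∈ K) (hZ : ∀ k ∈ K, k ∈ Zc 𝔄 → k = 1 ∨ k = -1)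
    {x d : 𝔄ˣ} (hx : x ∈ R) (hd : ∀ k ∈ K, k * d = d * k) (hxd : x * d = -(d * x)) :
    ∃ K' : Subgroup 𝔄ˣ, K' ≤ R ∧ K ≤ K' ∧ x ∈ K' ∧ (∀ k ∈ K', k ∈ Zc 𝔄 → k = 1 ∨ k = -1) ∧
      ∀ y, (∀ k ∈ K, k * y = y * k) → x * y = y * x → ∀ k ∈ K', k * y = y * k := by
  have hneg : ∀ k, -k ∈ K ↔ k ∈ K := fun k => by rw [← neg_one_mul, K.mul_mem_cancel_left hn]
  have hR : ∀ y, y * x ∈ K → y ∈ R := fun y h => (R.mul_mem_cancel_right hx).1 (hK h)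
  let K' : Subgroup 𝔄ˣ :=
    { carrier := {y | y ∈ K ∨ y * x ∈ K}
      one_mem' := Or.inl K.one_mem
      mul_mem' := by
        rintro a b (ha | ha) (hb | hb)
        · exact Or.inl (K.mul_mem ha hb)
        · exact Or.inr (by rw [mul_assoc]; exact K.mul_mem ha hb)
        · have := K.mul_mem ha hb
          rcases P.comm hx (hK hb) with e | e <;> rw [mul_assoc, e] at this
          · exact Or.inr (by rwa [mul_assoc])
          · exact Or.inr (by rwa [mul_neg, hneg, ← mul_assoc] at this)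
        · have := K.mul_mem ha hb
          left
          rcases P.comm hx (hR b hb) with e | e <;> rcases P.sq x hx with e' | e' <;>
            rw [mul_assoc, ← mul_assoc x, e] at this <;> simpa [mul_assoc, e', hneg] using this
      inv_mem' := by
        rintro a (ha | ha)
        · exact Or.inl (K.inv_mem ha)
        · rcases P.inv_sign (hR a ha) with e | e <;> exact Or.inr (by simpa [e, hneg] using ha) }
  refine ⟨K', ?_, fun k hk => Or.inl hk, Or.inr ?_, ?_, ?_⟩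
  · rintro a (ha | ha)
    exacts [hK ha, hR a ha]
  · rcases P.sq x hx with e | e <;> rw [e]
    exacts [K.one_mem, hn]
  · rintro k (hk | hk) h0
    · exact hZ k hk h0
    · exact absurd (hd _ hk) (P.ne_of_anti (by rw [mul_assoc, hxd, mul_neg, ← mul_assoc, Zc_comm h0, mul_assoc]))
  · rintro y h1 h2 k (hk | hk)
    · exact h1 k hk
    · have := h1 _ hk
      rwa [mul_assoc, h2, ← mul_assoc, ← mul_assoc, mul_left_inj] at this

end Pauli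

end CL.Pa
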