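/-
Project C6 (r = 2), file 7: in dimension 16 a Pauli group of linear type has a six-element frame `i, γ₁, …, γ₅`
of the self-adjoint elements for a suitable adjoint map.
-/
import Cfsg.Agent.Cls.Pauli6

set_option autoImplicit false

namespace CL.Pa

open Module

variable {F 𝔄 : Type*} [Field F] [Ring 𝔄] [Algebra F 𝔄]

theorem sw {a b : 𝔄ˣ} (h : b * a = -(a * b)) (x : 𝔄ˣ) : b * (a * x) = -(a * (b * x)) := by
  rw [← mul_assoc, h, neg_mul, mul_assoc]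

theorem cw {a b : 𝔄ˣ} (h : b * a = a * b) (x : 𝔄ˣ) : b * (a * x) = a * (b * x) := by
  rw [← mul_assoc, h, mul_assoc]

theorem sq' {a : 𝔄ˣ} (h : a * a = 1) (x : 𝔄ˣ) : a * (a * x) = x := by rw [← mul_assoc, h, one_mul]

theorem sq'' {a : 𝔄ˣ} (h : a * a = -1) (x : 𝔄ˣ) : a * (a * x) = -x := by rw [← mul_assoc, h, neg_one_mul]

theorem mk_eq_iff {x y : 𝔄ˣ} : QuotientGroup.mk' (Zc 𝔄) x = QuotientGroup.mk' (Zc 𝔄) y ↔ x⁻¹ * y ∈ Zc 𝔄 :=
  QuotientGroup.eq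

/-- The frame of the self-adjoint elements. -/
structure Six (i : F) (R : Subgroup 𝔄ˣ) (e : Fin 6 → 𝔄ˣ) (st : 𝔄 →ₗ[F] 𝔄) : Prop where
  mem : ∀ j, e j ∈ R
  zero : e 0 = scu 𝔄 i
  nc : e 1 ∉ Zc 𝔄
  anti : ∀ j k, j ≠ k → e j * (e k)⁻¹ = -(e k * (e j)⁻¹)
  anti' : ∀ j k, j ≠ k → (e j)⁻¹ * e k = -((e k)⁻¹ * e j)
  cls : ∀ r ∈ R, ∃ j k, (e j * (e k)⁻¹)⁻¹ * r ∈ Zc 𝔄
  mul : ∀ a b, st (a * b) = st b * st a
  one : st 1 = 1
  fix : ∀ j, st (e j) = e j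
  self : ∀ a, st a = a → ∃ x : Fin 6 → F, a = ∑ j, x j • (e j : 𝔄)

namespace LP

variable {i : F} {R : Subgroup 𝔄ˣ} (P : LP i R) [Finite 𝔄]
include P

theorem exists_five (hd : 4 < finrank F 𝔄) : ∃ γ : Fin 5 → 𝔄ˣ, (∀ j, γ j ∈ R) ∧ (∀ j, γ j * γ j = 1) ∧
    (∀ j k, j ≠ k → γ j * γ k = -(γ k * γ j)) ∧ γ 4 = γ 0 * γ 1 * γ 2 * γ 3 := by
  obtain ⟨a, ha, a2, ha0, -⟩ := P.exists_comm_invol (k := 0) (by omega) ![] (by simp)
  obtain ⟨b, hb, b2, hab⟩ := P.exists_anti_invol ha ha0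
  obtain ⟨x, hx, x2, hx0, e⟩ := P.exists_comm_invol (k := 2) hd ![a, b] (by intro j; fin_cases j <;> assumption)
  have hxa : x * a = a * x := e 0
  have hxb : x * b = b * x := e 1
  have hba := anti_symm hab
  obtain ⟨y₀, hy₀, c1, c2, c3⟩ := P.sep_two ha hb hx hx0
    (P.notMem_of_anti (y := b) (by simp [inv_eq_of_sq a2, mul_assoc, hxb, sw hba]))
    (P.notMem_of_anti (y := a) (by simp [inv_eq_of_sq b2, mul_assoc, hxa, sw hba]))
    (P.notMem_of_anti (y := a) (by simp [inv_eq_of_sq b2, inv_eq_of_sq a2, mul_assoc, hxa, sw hba, sq' a2]))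
  obtain ⟨w, hw, hy, y2⟩ := P.exists_invol hy₀
  replace c1 : w * y₀ * a = a * (w * y₀) := by rw [mul_assoc, ← c1, ← mul_assoc, Zc_comm hw, mul_assoc]
  replace c2 : w * y₀ * b = b * (w * y₀) := by rw [mul_assoc, ← c2, ← mul_assoc, Zc_comm hw, mul_assoc]
  replace c3 : w * y₀ * x = -(x * (w * y₀)) := by
    rw [mul_assoc, anti_symm c3, mul_neg, ← mul_assoc, Zc_comm hw x, mul_assoc]
  generalize w * y₀ = y at hy y2 c1 c2 c3
  have hι := fun g => (Zc_comm P.ι_mem g).symm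
  have i2 := scu_i_sq (𝔄 := 𝔄) P.ii
  have hc := R.mul_mem P.iR (R.mul_mem ha (R.mul_mem hb hx))
  have hd := R.mul_mem P.iR (R.mul_mem ha (R.mul_mem hb hy))
  refine ⟨![a, b, scu 𝔄 i * (a * (b * x)), scu 𝔄 i * (a * (b * y)),
    a * b * (scu 𝔄 i * (a * (b * x))) * (scu 𝔄 i * (a * (b * y)))], ?_, ?_, ?_, rfl⟩
  · intro j
    fin_cases j
    exacts [ha, hb, hc, hd, R.mul_mem (R.mul_mem (R.mul_mem ha hb) hc) hd]
  all_goals
    generalize scu 𝔄 i = t at hι i2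
  · intro j
    fin_cases j <;> simp [mul_assoc, a2, b2, x2, y2, i2, sq' a2, sq' b2, sq'' i2, cw (hι a), cw (hι b),
      cw (hι x), cw (hι y), sw hba, cw hxa, cw hxb, cw c1, cw c2, sw c3]
  · intro j k h
    fin_cases j <;> fin_cases k <;> simp [mul_assoc, y2, sq' a2, sq' b2, sq' x2, sq'' i2,
      cw (hι a), cw (hι b), cw (hι x), cw (hι y), sw hba, cw hxa, cw hxb, cw c1, cw c2, sw c3, hba, hxa, hxb, c1, c2,
      c3] at h ⊢

theorem mem_Zc_of_five (hd : finrank F 𝔄 = 16) {γ : Fin 5 → 𝔄ˣ} (hγ : ∀ j, γ j ∈ R)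
    (ha : ∀ j k, j ≠ k → γ j * γ k = -(γ k * γ j)) {u : 𝔄ˣ} (hu : u ∈ R) (h : ∀ j, u * γ j = γ j * u) :
    u ∈ Zc 𝔄 := by
  let L : P.A →ₗ[ZMod 2] (Fin 4 → ZMod 2) := LinearMap.pi fun j => P.B.flip (P.φ ⟨γ j.castSucc, hγ _⟩)
  have hL : ∀ (x : R) j, L (P.φ x) j = bf (x : 𝔄ˣ) (γ j.castSucc) := fun x j => P.B_φ _ _
  have h1 : finrank (ZMod 2) P.A = 4 :=
    Nat.pow_right_injective le_rfl (show 2 ^ _ = 2 ^ 4 by rw [← P.finrank_eq, hd])
  have h2 : Function.Surjective L := by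
    rw [← LinearMap.range_eq_top, eq_top_iff, ← (Pi.basisFun (ZMod 2) (Fin 4)).span_eq, Submodule.span_le]
    rintro _ ⟨j, rfl⟩
    refine ⟨P.φ ⟨γ j.castSucc * γ 4, R.mul_mem (hγ _) (hγ _)⟩, funext fun k => ?_⟩
    rw [hL, P.bf_mul_left (hγ _) (hγ _) (hγ _), bf_of_ne (P.ne_of_anti (ha 4 _ (Fin.castSucc_lt_last k).ne')),
      Pi.basisFun_apply]
    by_cases e : k = j
    · rw [e, bf_eq_zero.2 rfl]; simp
    · rw [bf_of_ne (P.ne_of_anti (ha _ _ fun e' => e (Fin.castSucc_injective _ e').symm)), Pi.single_eq_of_ne e]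
      rfl
  refine P.φ_eq_zero (x := ⟨u, hu⟩).1 ((LinearMap.injective_iff_surjective_of_finrank_eq_finrank
    (by simp [h1])).2 h2 ?_)
  rw [map_zero]
  exact funext fun j => (hL _ j).trans (bf_eq_zero.2 (h _))

theorem exists_six (hd : finrank F 𝔄 = 16) : ∃ e st, Six i R e st := by
  obtain ⟨γ, hγ, h2, ha, h4⟩ := P.exists_five (by omega)
  let e : Fin 6 → 𝔄ˣ := Fin.cons (scu 𝔄 i) γ
  have he : ∀ j, e j ∈ R := fun j => by
    refine Fin.cases P.iR (fun j => hγ j) j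
  have hi : (scu 𝔄 i)⁻¹ = -scu 𝔄 i := inv_eq_neg_of_sq (scu_i_sq P.ii)
  have hcls : ∀ r ∈ R, ∃ j k, (e j * (e k)⁻¹)⁻¹ * r ∈ Zc 𝔄 := fun r hr => by
    have h5 : ∀ j l, bf (e j) (γ l) = if j = l.succ ∨ j = 0 then 0 else 1 := fun j l => by
      refine Fin.cases ?_ (fun j => ?_) j
      · simpa [e] using bf_eq_zero.2 (Zc_comm P.ι_mem _)
      · by_cases h : j = l
        · simpa [h, e] using bf_eq_zero.2 rfl
        · simpa [h, e] using bf_of_ne (P.ne_of_anti (ha _ _ h))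
    obtain ⟨j, k, h⟩ := (by decide : ∀ f : Fin 5 → ZMod 2, f 4 = f 0 + f 1 + f 2 + f 3 → ∃ j k : Fin 6, ∀ l,
      (if j = l.succ ∨ j = 0 then 0 else 1) + (if k = l.succ ∨ k = 0 then 0 else 1) + f l = 0)
      (fun l => bf r (γ l)) (by
        simp only [h4]
        rw [P.bf_mul_right hr (mul_mem (mul_mem (hγ 0) (hγ 1)) (hγ 2)) (hγ 3),
          P.bf_mul_right hr (mul_mem (hγ 0) (hγ 1)) (hγ 2), P.bf_mul_right hr (hγ 0) (hγ 1)])
    have h6 := R.mul_mem (he j) (R.inv_mem (he k))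
    refine ⟨j, k, P.mem_Zc_of_five hd hγ ha (R.mul_mem (R.inv_mem h6) hr) fun l => bf_eq_zero.1 ?_⟩
    have h7 : ∀ x ∈ R, bf x⁻¹ (γ l) = bf x (γ l) := fun x hx =>
      congrFun (congrArg Subtype.val (P.φ_inv ⟨x, hx⟩)) ⟨γ l, hγ l⟩
    rw [P.bf_mul_left (hγ l) (R.inv_mem h6) hr, h7 _ h6, P.bf_mul_left (hγ l) (he j) (R.inv_mem (he k)),
      h7 _ (he k), h5, h5, h]
  have hδ : ∀ j k : Fin 5, j ≠ k → j ≠ 4 → γ j * (γ k * γ 4) = γ k * γ 4 * γ j := fun j k h h' => by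
    rw [sw (ha j k h), ha j 4 h', mul_neg, neg_neg, mul_assoc]
  have hδ' : ∀ j : Fin 5, j ≠ 4 → γ j * (γ j * γ 4) = -(γ j * γ 4 * γ j) := fun j h => by
    rw [mul_assoc, ← mul_neg, ← ha j 4 h]
  have hK : ∀ k ∈ Subgroup.zpowers (-1 : 𝔄ˣ), k = 1 ∨ k = -1 := by
    rintro _ ⟨n, rfl⟩
    rcases Int.even_or_odd n with h | h
    exacts [Or.inl h.neg_one_zpow, Or.inr h.neg_one_zpow]
  have hK' : ∀ y, ∀ k ∈ Subgroup.zpowers (-1 : 𝔄ˣ), k * y = y * k := fun y k hk => by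
    rcases hK k hk with rfl | rfl <;> simp
  obtain ⟨K₁, r1, l1, m1, z1, c1⟩ := P.exists_adj (Subgroup.zpowers_le.2 P.neg) (Subgroup.mem_zpowers _)
    (fun k hk _ => hK k hk) (hγ 0) (hK' _) (hδ' 0 (by decide))
  have n1 := l1 (Subgroup.mem_zpowers _)
  obtain ⟨K₂, r2, l2, m2, z2, c2⟩ := P.exists_adj r1 n1 z1 (hγ 1) (c1 _ (hK' _) (hδ 0 1 (by decide) (by decide)))
    (hδ' 1 (by decide))
  obtain ⟨K₃, r3, l3, m3, z3, c3⟩ := P.exists_adj r2 (l2 n1) z2 (hγ 2)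
    (c2 _ (c1 _ (hK' _) (hδ 0 2 (by decide) (by decide))) (hδ 1 2 (by decide) (by decide))) (hδ' 2 (by decide))
  obtain ⟨K, r4, l4, m4, z4, -⟩ := P.exists_adj r3 (l3 (l2 n1)) z3 (hγ 3) (c3 _ (c2 _ (c1 _ (hK' _)
    (hδ 0 3 (by decide) (by decide))) (hδ 1 3 (by decide) (by decide))) (hδ 2 3 (by decide) (by decide)))
    (hδ' 3 (by decide))
  have hγK : ∀ j, γ j ∈ K := fun j => by
    fin_cases j
    exacts [l4 (l3 (l2 m1)), l4 (l3 m2), l4 m3, m4,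
      h4 ▸ K.mul_mem (K.mul_mem (K.mul_mem (l4 (l3 (l2 m1))) (l4 (l3 m2))) (l4 m3)) m4]
  have hsm : ∀ {x w : 𝔄ˣ}, x⁻¹ * w ∈ Zc 𝔄 → ∃ c : F, (w : 𝔄) = c • (x : 𝔄) := fun {x w} h => by
    obtain ⟨c, -, hc⟩ := P.exists_smul_of_mem h
    exact ⟨c, by rw [← mul_one (x : 𝔄), ← mul_smul_comm, ← hc, ← Units.val_mul, mul_inv_cancel_left]⟩
  have heK : ∀ j, ∃ y ∈ K, y⁻¹ * e j ∈ Zc 𝔄 := fun j =>
    Fin.cases ⟨1, K.one_mem, by simpa [e] using P.ι_mem⟩ (fun j => ⟨γ j, hγK j, by simp [e]⟩) j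
  have P₀ : Pauli F K := ⟨P.two, P.nt, l4 (l3 (l2 n1)), fun x hx => P.sq x (r4 hx), by
    rw [eq_top_iff, ← P.span, Submodule.span_le]
    rintro _ ⟨r, hr, rfl⟩
    obtain ⟨j, k, h⟩ := hcls r hr
    obtain ⟨y, hy, h1⟩ := heK j
    obtain ⟨y', hy', h3⟩ := heK k
    obtain ⟨c, hc⟩ := hsm (x := y * y'⁻¹) (w := r) (by
      rw [← mk_eq_iff] at h h1 h3 ⊢
      rw [← h, map_mul, map_mul, map_inv, map_inv, h1, h3])
    rw [SetLike.mem_coe, hc]
    exact Submodule.smul_mem _ _ (Submodule.subset_span ⟨_, K.mul_mem hy (K.inv_mem hy'), rfl⟩), P.cen⟩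
  obtain ⟨st, hst, hmul⟩ := P₀.exists_st z4
  have h1 : st 1 = 1 := by simpa using hst 1 K.one_mem
  refine ⟨e, st, he, rfl, P.notMem_of_anti (ha 0 1 (by decide)), fun j k h => ?_, fun j k h => ?_, hcls, hmul, h1,
    fun j => ?_, fun a h => ?_⟩
  · revert h
    refine Fin.cases ?_ (fun j => ?_) j <;> refine Fin.cases ?_ (fun k => ?_) k <;> intro h
    · exact absurd rfl h
    · simp [e, hi, inv_eq_of_sq (h2 k), Zc_comm P.ι_mem]
    · simp [e, hi, inv_eq_of_sq (h2 j), Zc_comm P.ι_mem]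
    · simpa [e, inv_eq_of_sq (h2 _)] using ha j k fun e => h (by rw [e])
  · revert h
    refine Fin.cases ?_ (fun j => ?_) j <;> refine Fin.cases ?_ (fun k => ?_) k <;> intro h
    · exact absurd rfl h
    · simp [e, hi, inv_eq_of_sq (h2 k), Zc_comm P.ι_mem]
    · simp [e, hi, inv_eq_of_sq (h2 j), Zc_comm P.ι_mem]
    · simpa [e, inv_eq_of_sq (h2 _)] using ha j k fun e => h (by rw [e])
  · refine Fin.cases ?_ (fun j => ?_) j
    · simp [e, scu_val (i_ne_zero P.ii), h1]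
    · simpa [e, inv_eq_of_sq (h2 j)] using hst _ (hγK j)
  · let S := Submodule.span F (Set.range fun j => (e j : 𝔄))
    have hS : ∀ {x : 𝔄ˣ} (j), (e j)⁻¹ * x ∈ Zc 𝔄 → (x : 𝔄) ∈ S := fun j h => by
      obtain ⟨c, hc⟩ := hsm h
      exact hc ▸ S.smul_mem c (Submodule.subset_span ⟨j, rfl⟩)
    have h3 : ∀ a, a + st a ∈ S := fun a => by
      induction a using P₀.induction with
      | h0 => simp
      | hadd a b h h' => rw [map_add, add_add_add_comm]; exact S.add_mem h h'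
      | hs c a h => rw [map_smul, ← smul_add]; exact S.smul_mem c h
      | h r hr =>
        rw [hst r hr]
        rcases P₀.sq r hr with e1 | e1
        swap
        · simp [inv_eq_neg_of_sq e1]
        rw [inv_eq_of_sq e1]
        refine S.add_mem ?_ ?_ <;> {
          obtain ⟨j, k, h⟩ := hcls r (r4 hr)
          revert h
          refine Fin.cases ?_ (fun j => ?_) j <;> refine Fin.cases ?_ (fun k => ?_) k <;> intro h
          · exact hS 0 (mul_mem (inv_mem P.ι_mem) (by simpa using h))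
          · refine hS k.succ ?_
            rw [← mk_eq_iff] at h ⊢
            rw [← h, map_mul, show e 0 = scu 𝔄 i from rfl, mk_eq_one.2 P.ι_mem, one_mul]
            exact congrArg _ (inv_eq_of_sq (h2 k)).symm
          · refine hS j.succ ?_
            simpa [e, mul_assoc] using mul_mem (inv_mem P.ι_mem) h
          · by_cases hjk : j = k
            · exact hS 0 (mul_mem (inv_mem P.ι_mem) (by simpa [hjk] using h))
            have h5 := K.mul_mem (hγK j) (K.inv_mem (hγK k))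
            have h6 : γ j * (γ k)⁻¹ * (γ j * (γ k)⁻¹) = -1 := by
              rw [inv_eq_of_sq (h2 k), mul_assoc, sw (ha k j (Ne.symm hjk)), h2, mul_neg, sq' (h2 j)]
            exfalso
            refine P.neg_ne 1 ?_
            rcases z4 _ (K.mul_mem (K.inv_mem h5) hr) h with e2 | e2
            · rw [← h6, inv_mul_eq_one.1 e2, e1]
            · rw [← h6, ← e1, ← mul_inv_cancel_left (γ j * (γ k)⁻¹) r, e2]; simp }
    obtain ⟨x, hx⟩ := (Submodule.mem_span_range_iff_exists_fun F).1 (S.smul_mem (2 : F)⁻¹ (h3 a))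
    exact ⟨x, by rw [hx, h, ← two_smul F, smul_smul, inv_mul_cancel₀ P.two, one_smul]⟩

end LP

end CL.Pa
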