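/-
Project C6 (r = 2), file 8: the action `s ↦ g s g*` on the six-dimensional space of self-adjoint elements.
-/
import Cfsg.Agent.Cls.Pauli7
import Cfsg.Agent.Cls.OrthFrameBasic

set_option autoImplicit false

namespace CL.Pa

open Module CL.Cls CL.Cls.Fr QuadraticMap

variable {F 𝔄 : Type*} [Field F] [Ring 𝔄] [Algebra F 𝔄]

variable (F) in
/-- The linear combinations of a frame. -/
def em (f : Fin 6 → 𝔄ˣ) : (Fin 6 → F) →ₗ[F] 𝔄 := Fintype.linearCombination F fun j => (f j : 𝔄)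

theorem em_apply (f : Fin 6 → 𝔄ˣ) (x : Fin 6 → F) : em F f x = ∑ j, x j • (f j : 𝔄) := rfl

theorem em_fe (f : Fin 6 → 𝔄ˣ) (j : Fin 6) : em F f (fe j) = f j := by
  rw [em_apply, Finset.sum_eq_single j (fun k _ h => by rw [fe_ne h, zero_smul]) (by simp), fe_self, one_smul]

theorem exists_lin {W : Type*} [AddCommGroup W] [Module F W] {f : W →ₗ[F] 𝔄} (hf : Function.Injective f)
    (a b : 𝔄) (h : ∀ x, ∃ y, a * f x * b = f y) : ∃ L : W →ₗ[F] W, ∀ x, f (L x) = a * f x * b := by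
  refine ⟨f.leftInverse ∘ₗ (LinearMap.mulRight F b) ∘ₗ (LinearMap.mulLeft F a) ∘ₗ f, fun x => ?_⟩
  obtain ⟨y, e⟩ := h x
  simp only [LinearMap.comp_apply, LinearMap.mulLeft_apply, LinearMap.mulRight_apply, e]
  rw [LinearMap.leftInverse_apply_of_inj (LinearMap.ker_eq_bot.2 hf)]

section frame

variable {f : Fin 6 → 𝔄ˣ} (h : ∀ j k, j ≠ k → f j * (f k)⁻¹ = -(f k * (f j)⁻¹))
include h

theorem em_polar (x y : Fin 6 → F) :
    em F f x * em F f⁻¹ y + em F f y * em F f⁻¹ x = polar (sQ (Fin 6) F) x y • 1 := by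
  simp only [em_apply, Finset.sum_mul_sum, smul_mul_smul_comm, Pi.inv_apply, ← Units.val_mul]
  rw [Finset.sum_comm (f := fun j k => (y j * x k) • _), ← Finset.sum_add_distrib, sQ_polar, Finset.mul_sum,
    Finset.sum_smul]
  refine Finset.sum_congr rfl fun j _ => ?_
  rw [← Finset.sum_add_distrib, Finset.sum_eq_single j (fun k _ hk => ?_) (by simp)]
  · simp only [mul_inv_cancel, Units.val_one]; module
  · rw [h k j hk, Units.val_neg]; module

theorem em_mul_self (h2 : (2 : F) ≠ 0) (x : Fin 6 → F) : em F f x * em F f⁻¹ x = sQ (Fin 6) F x • 1 := by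
  have := em_polar h x x
  rw [polar_self, ← two_smul F, nsmul_eq_mul, Nat.cast_ofNat, mul_smul] at this
  exact smul_right_injective _ h2 this

theorem em_refl (h2 : (2 : F) ≠ 0) (h' : ∀ j k, j ≠ k → (f j)⁻¹ * f k = -((f k)⁻¹ * f j)) {s : Fin 6 → F}
    (hs : sQ (Fin 6) F s ≠ 0) (x : Fin 6 → F) :
    em F f s * em F f⁻¹ x * em F f s = -sQ (Fin 6) F s • em F f ((refl (sQ (Fin 6) F) s).1 x) := by
  have h1 := em_mul_self (f := f⁻¹) (by simpa using h') h2 s
  rw [inv_inv] at h1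
  rw [eq_sub_of_add_eq (em_polar h s x), sub_mul, mul_assoc, h1, refl_app, map_sub, map_smul, smul_sub, smul_smul,
    neg_mul, mul_inv_cancel_left₀ hs]
  simp only [smul_mul_assoc, mul_smul_comm, one_mul, mul_one]
  module

theorem Pauli.em_inj [Finite 𝔄] {R : Subgroup 𝔄ˣ} (P : Pauli F R) (hf : ∀ j, f j ∈ R) :
    Function.Injective (em F f) := by
  have h1 : Function.Injective fun j => P.φ ⟨f j, hf j⟩ := fun j k e => by
    by_contra hjk
    obtain ⟨l, hl, hl'⟩ := (by decide : ∀ j k : Fin 6, ∃ l, l ≠ j ∧ l ≠ k) j k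
    have hw := P.φ_eq_iff.1 e
    have e1 := h k j (Ne.symm hjk)
    have e2 := h k l hl'.symm
    rw [← mul_inv_cancel_left (f j) (f k)] at e1 e2
    generalize (f j)⁻¹ * f k = w at hw e1 e2
    rw [← Zc_comm hw, mul_inv_rev] at e1 e2
    rw [mul_inv_cancel_right, mul_inv_cancel_left] at e1
    rw [mul_assoc, ← mul_assoc (f l), h l j hl, neg_mul, neg_neg, ← Zc_comm (inv_mem hw), mul_left_inj] at e2
    exact P.neg_ne _ (e1.symm.trans e2)
  have h2 : ∀ j, ∃ c : Fˣ, (f j : 𝔄) = c • ((P.rep (P.φ ⟨f j, hf j⟩) : 𝔄ˣ) : 𝔄) := fun j => by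
    obtain ⟨c, h0, hc⟩ := P.exists_smul_of_mem (P.φ_eq_iff.1 (P.φ_rep (P.φ ⟨f j, hf j⟩)))
    refine ⟨Units.mk0 c h0, ?_⟩
    rw [Units.smul_mk0, ← mul_one (((P.rep (P.φ ⟨f j, hf j⟩) : 𝔄ˣ) : 𝔄)), ← mul_smul_comm, ← hc, ← Units.val_mul,
      mul_inv_cancel_left]
  choose c hc using h2
  refine linearIndependent_iff_injective_fintypeLinearCombination.1 ?_
  convert (P.linearIndependent_rep.comp _ h1).units_smul c using 1
  exact funext hc

end frame

namespace Six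

variable {i : F} {R : Subgroup 𝔄ˣ} {e : Fin 6 → 𝔄ˣ} {st : 𝔄 →ₗ[F] 𝔄} (P : LP i R) (S : Six i R e st)
include S

theorem anti_inv : ∀ j k, j ≠ k → e⁻¹ j * (e⁻¹ k)⁻¹ = -(e⁻¹ k * (e⁻¹ j)⁻¹) := by simpa using S.anti'

theorem anti_inv' : ∀ j k, j ≠ k → (e⁻¹ j)⁻¹ * e⁻¹ k = -((e⁻¹ k)⁻¹ * e⁻¹ j) := by simpa using S.anti

theorem st_mul_inv (g : 𝔄ˣ) : st g * st (g⁻¹ : 𝔄ˣ) = 1 := by rw [← S.mul, Units.inv_mul, S.one]

theorem st_inv_mul (g : 𝔄ˣ) : st (g⁻¹ : 𝔄ˣ) * st g = 1 := by rw [← S.mul, Units.mul_inv, S.one]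

theorem st_em (x : Fin 6 → F) : st (em F e x) = em F e x := by simp [em_apply, S.fix]

include P

theorem fix' (j : Fin 6) : st ((e j)⁻¹ : 𝔄ˣ) = ((e j)⁻¹ : 𝔄ˣ) := by
  rcases P.inv_sign (S.mem j) with h | h <;> simp [h, S.fix]

theorem st_em' (x : Fin 6 → F) : st (em F e⁻¹ x) = em F e⁻¹ x := by simp [em_apply, S.fix' P]

theorem induction {p : 𝔄 → Prop} (h : ∀ j k, p ((e j : 𝔄) * ((e k)⁻¹ : 𝔄ˣ))) (h0 : p 0)
    (hadd : ∀ a b, p a → p b → p (a + b)) (hs : ∀ (c : F) (a : 𝔄), p a → p (c • a)) (a : 𝔄) : p a := by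
  refine P.induction (fun r hr => ?_) h0 hadd hs a
  obtain ⟨j, k, hw⟩ := S.cls r hr
  obtain ⟨c, -, hc⟩ := P.exists_smul_of_mem hw
  rw [← mul_inv_cancel_left (e j * (e k)⁻¹) r, Units.val_mul, hc, mul_smul_comm, mul_one]
  exact hs _ _ (h j k)

theorem invol (a : 𝔄) : st (st a) = a := by
  induction a using S.induction P with
  | h j k => rw [S.mul, S.mul, S.fix, S.fix, S.fix' P, S.fix' P]
  | h0 => simp
  | hadd a b h h' => simp [h, h']
  | hs c a h => simp [h]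

theorem self' {a : 𝔄} (h : st a = a) : ∃ x, a = em F e⁻¹ x := by
  obtain ⟨x, rfl⟩ := S.self a h
  have : ∀ j, ∃ c : F, (e j : 𝔄) = c • (((e j)⁻¹ : 𝔄ˣ) : 𝔄) := fun j => by
    rcases P.inv_sign (S.mem j) with h | h
    exacts [⟨1, by simp [h]⟩, ⟨-1, by simp [h]⟩]
  choose c hc using this
  refine ⟨fun j => x j * c j, ?_⟩
  rw [em_apply]
  exact Finset.sum_congr rfl fun j _ => by rw [hc j, smul_smul]; rfl

theorem em_inj [Finite 𝔄] : Function.Injective (em F e) := P.em_inj S.anti S.mem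

theorem em_inj' [Finite 𝔄] : Function.Injective (em F e⁻¹) := P.em_inj S.anti_inv fun j => R.inv_mem (S.mem j)

variable (e st) in
omit P S in
/-- The multiplier of `g` on the self-adjoint elements. -/
noncomputable def cc (g : 𝔄ˣ) : F := sQ (Fin 6) F ((em F e).leftInverse (g * e 0 * st g))

theorem exists_em (g : 𝔄ˣ) (x : Fin 6 → F) : ∃ y, g * em F e x * st g = em F e y :=
  S.self _ (by rw [S.mul, S.mul, S.invol P, S.st_em, mul_assoc])

theorem cc_spec [Finite 𝔄] {g : 𝔄ˣ} {x y : Fin 6 → F} (h : g * em F e x * st g = em F e y) :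
    sQ (Fin 6) F y = cc e st g * sQ (Fin 6) F x ∧
      cc e st g • (st (g⁻¹ : 𝔄ˣ) * em F e⁻¹ x * (g⁻¹ : 𝔄ˣ)) = em F e⁻¹ y := by
  have := P.nt
  obtain ⟨L, hL⟩ := exists_lin (S.em_inj P) _ _ (S.exists_em P g)
  obtain ⟨L', hL'⟩ := exists_lin (S.em_inj' P) (st (g⁻¹ : 𝔄ˣ)) (g⁻¹ : 𝔄ˣ) fun x =>
    S.self' P (by rw [S.mul, S.mul, S.invol P, S.st_em' P, mul_assoc])
  obtain rfl : L x = y := S.em_inj P ((hL x).trans h)
  have h1 : ∀ x, em F e (L x) * em F e⁻¹ (L' x) = sQ (Fin 6) F x • 1 := fun x => by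
    rw [hL, hL', mul_assoc, ← mul_assoc (st g), ← mul_assoc (st g), S.st_mul_inv, one_mul, mul_assoc,
      ← mul_assoc (em F e x), em_mul_self S.anti P.two]
    simp
  have h2 : ∀ x, sQ (Fin 6) F (L x) • L' x = sQ (Fin 6) F x • L x := fun x => S.em_inj' P (by
    have h3 := em_mul_self (S.anti_inv) P.two (L x)
    rw [inv_inv] at h3
    have := congrArg (fun a => em F e⁻¹ (L x) * a) (h1 x)
    simpa only [← mul_assoc, h3, smul_mul_assoc, one_mul, mul_smul_comm, mul_one, map_smul] using this)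
  have hLi : Function.Injective L' := fun x y e => S.em_inj' P (by
    have := (hL' x).symm.trans ((congrArg _ e).trans (hL' y))
    have h4 := congrArg (fun a => st g * (a * g)) this
    simpa only [← mul_assoc, S.st_mul_inv, one_mul, Units.inv_mul_cancel_right] using h4)
  have h5 : cc e st g = sQ (Fin 6) F (L (fe 0)) := by
    rw [cc, ← em_fe (F := F) e 0, ← hL, LinearMap.leftInverse_apply_of_inj (LinearMap.ker_eq_bot.2 (S.em_inj P))]
  have h6 : ∀ j, cc e st g • L' (fe j) = L (fe j) := fun j => by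
    have a0 := h2 (fe 0)
    have a1 := h2 (fe j)
    rw [sQ_fe, one_smul] at a0 a1
    by_cases hj : j = 0
    · rw [h5, hj, a0]
    have a2 := h2 (fe 0 + fe j)
    generalize sQ (Fin 6) F (L (fe 0 + fe j)) = t at a2
    rw [sQ_fe_add (Ne.symm hj), map_add L (fe 0), ← a0, ← a1, ← map_smul, ← map_smul, ← map_smul, ← map_add,
      ← map_smul] at a2
    have a4 := congrFun (hLi a2) 0
    have a5 := congrFun (hLi a2) j
    simp only [Pi.smul_apply, Pi.add_apply, fe_self, fe_ne hj, fe_ne (Ne.symm hj), smul_eq_mul, mul_one, mul_zero,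
      add_zero, zero_add] at a4 a5
    rw [h5, mul_left_cancel₀ P.two (a4.symm.trans a5), a1]
  have h7 : ∀ x, cc e st g • L' x = L x := fun x => by
    have : cc e st g • L' = L := (Pi.basisFun F (Fin 6)).ext fun j => by
      rw [Pi.basisFun_apply]; exact h6 j
    exact LinearMap.congr_fun this x
  refine ⟨?_, by rw [← hL', ← map_smul, h7]⟩
  have h8 := em_mul_self S.anti P.two (L x)
  rw [← h7 x, map_smul (em F e⁻¹), mul_smul_comm, h7, h1, smul_smul] at h8
  exact (smul_left_injective F one_ne_zero h8).symm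

end Six

end CL.Pa
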