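/-
Project C6 (r = 2), file 9: the base of the induction (`dim 𝔄 = 16`), through `SL₄, SU₄ → Ω₆` and the maximality of
the frame stabiliser in `Ω₆(p)`.
-/
import Cfsg.Agent.Cls.Pauli8
import Cfsg.Agent.Cls.Frame6c

set_option autoImplicit false

namespace CL.Pa

open Module CL.Cls CL.Cls.Fr QuadraticMap

variable {F 𝔄 : Type*} [Field F] [Ring 𝔄] [Algebra F 𝔄]

/-- The inclusion of the rational vectors. -/
def cst {K : Subfield F} (x : Fin 6 → K) : Fin 6 → F := fun j => x j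

theorem sQ_cst {K : Subfield F} (x : Fin 6 → K) : sQ (Fin 6) F (cst x) = (sQ (Fin 6) K x : K) := by
  simp [sQ_app, cst]

theorem cst_refl {K : Subfield F} (s x : Fin 6 → K) :
    cst ((refl (sQ (Fin 6) K) s).1 x) = (refl (sQ (Fin 6) F) (cst s)).1 (cst x) := by
  funext j
  simp [refl_app, sQ_cst, sQ_polar, cst, show ((2 : K) : F) = 2 from rfl]

theorem cst_smul_fe {K : Subfield F} (c : K) (j : Fin 6) : cst (c • fe j : Fin 6 → K) = (c : F) • fe j := by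
  funext k
  by_cases h : k = j <;> simp [cst, fe_app, h]

/-- The ambient group: everything over the prime field, or the unitary group of an adjoint map. -/
def Amb (R : Subgroup 𝔄ˣ) (K : Subfield F) (U : Subgroup 𝔄ˣ) : Prop :=
  (U = ⊤ ∧ K = ⊤) ∨ ∃ (σ : F →+* F) (dg : 𝔄 →ₛₗ[σ] 𝔄), (∀ a b, dg (a * b) = dg b * dg a) ∧
    (∀ r ∈ R, dg (r : 𝔄) = (r⁻¹ : 𝔄ˣ)) ∧ (∀ a, a ∈ K ↔ σ a = a) ∧ ∀ g : 𝔄ˣ, g ∈ U ↔ dg g * g = 1

theorem dg_em {R : Subgroup 𝔄ˣ} {σ : F →+* F} {dg : 𝔄 →ₛₗ[σ] 𝔄} (h : ∀ r ∈ R, dg (r : 𝔄) = (r⁻¹ : 𝔄ˣ)) {f : Fin 6 → 𝔄ˣ}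
    (hf : ∀ j, f j ∈ R) (x : Fin 6 → F) : dg (em F f x) = em F f⁻¹ fun j => σ (x j) := by
  simp [em_apply, map_smulₛₗ, h _ (hf _)]

namespace Six

variable {i : F} {R : Subgroup 𝔄ˣ} {e : Fin 6 → 𝔄ˣ} {st : 𝔄 →ₗ[F] 𝔄} (P : LP i R) (S : Six i R e st)
include S

/-- The pairs `(g, ω)` with `g s g* = ω s`. -/
def Gam (K : Subfield F) (U : Subgroup 𝔄ˣ) : Subgroup (𝔄ˣ × OG (sQ (Fin 6) K)) where
  carrier := {p | p.1 ∈ U ∧ ∀ x, p.1 * em F e (cst x) * st p.1 = em F e (cst (p.2.1 x))}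
  one_mem' := ⟨U.one_mem, fun x => by simp [S.one]⟩
  mul_mem' := by
    rintro ⟨g, a⟩ ⟨h, b⟩ ⟨h1, h2⟩ ⟨h3, h4⟩
    refine ⟨U.mul_mem h1 h3, fun x => ?_⟩
    simp only [Prod.fst_mul, Prod.snd_mul, Units.val_mul, S.mul, OG.mul_app] at *
    rw [← h2, ← h4]; simp only [mul_assoc]
  inv_mem' := by
    rintro ⟨g, a⟩ ⟨h1, h2⟩
    refine ⟨U.inv_mem h1, fun x => ?_⟩
    have := h2 (a⁻¹.1 x)
    simp only [Prod.fst_inv, Prod.snd_inv, OG.app_inv_app] at *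
    rw [← this]
    simp only [mul_assoc, S.st_mul_inv, mul_one, Units.inv_mul_cancel_left]

variable {K : Subfield F} {U : Subgroup 𝔄ˣ}

theorem conj_of_mem (h0 : (2 : F) ≠ 0) {p : 𝔄ˣ × OG (sQ (Fin 6) K)} (hp : p ∈ S.Gam K U) {j k j' k' : Fin 6} {a b : K}
    (ha : a ^ 2 = 1) (hb : b ^ 2 = 1) (h1 : p.2.1 (fe j) = a • fe j') (h2 : p.2.1 (fe k) = b • fe k') :
    p.1 * (e j * (e k)⁻¹) * p.1⁻¹ = e j' * (e k')⁻¹ ∨ (a ≠ b ∧ p.1 * (e j * (e k)⁻¹) * p.1⁻¹ = -(e j' * (e k')⁻¹)) := by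
  let g' : 𝔄ˣ := ⟨st p.1, st (p.1⁻¹ : 𝔄ˣ), S.st_mul_inv _, S.st_inv_mul _⟩
  have key : ∀ {j j' : Fin 6} {a : K}, a ^ 2 = 1 → p.2.1 (fe j) = a • fe j' →
      (a = 1 ∧ p.1 * e j * g' = e j') ∨ (a = -1 ∧ p.1 * e j * g' = -e j') := fun {j j' a} ha h => by
    have := hp.2 (fe j)
    rw [h, cst_smul_fe, ← one_smul K (fe j), cst_smul_fe, map_smul, map_smul, em_fe, em_fe] at this
    rcases sq_eq_one_iff.1 ha with rfl | rfl
    · exact Or.inl ⟨rfl, Units.ext (by simpa using this)⟩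
    · exact Or.inr ⟨rfl, Units.ext (by simpa using this)⟩
  have h3 : (1 : K) ≠ -1 := fun h => h0 (by
    have : (1 : F) = -1 := by simpa using congrArg Subtype.val h
    linear_combination this)
  rw [show p.1 * (e j * (e k)⁻¹) * p.1⁻¹ = p.1 * e j * g' * (p.1 * e k * g')⁻¹ by group]
  rcases key ha h1 with ⟨rfl, e1⟩ | ⟨rfl, e1⟩ <;> rcases key hb h2 with ⟨rfl, e2⟩ | ⟨rfl, e2⟩ <;> rw [e1, e2]
  · exact Or.inl rfl
  · exact Or.inr ⟨h3, by simp⟩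
  · exact Or.inr ⟨h3.symm, by simp⟩
  · exact Or.inl (by simp)

include P

theorem mem_Nm_of_Mon [Finite 𝔄] {p : 𝔄ˣ × OG (sQ (Fin 6) K)} (hp : p ∈ S.Gam K U) (h : p.2 ∈ Mon (Fin 6) K) :
    p.1 ∈ Nm R := by
  obtain ⟨π, η, h1, h2⟩ := h
  refine mem_Nm fun r hr => ?_
  obtain ⟨j, k, hw⟩ := S.cls r hr
  have h3 := fun j k => R.mul_mem (S.mem j) (R.inv_mem (S.mem k))
  rw [← mul_inv_cancel_left (e j * (e k)⁻¹) r, ← conj_mul, conj_eq_of_comm (Zc_comm hw _).symm]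
  refine R.mul_mem ?_ (R.mul_mem (R.inv_mem (h3 j k)) hr)
  rcases S.conj_of_mem P.two hp (h1 j) (h1 k) (app_fe h2 j) (app_fe h2 k) with e | ⟨-, e⟩ <;> rw [e]
  exacts [h3 _ _, P.neg_mem (h3 _ _)]

theorem mem_Zc_of_one {g : 𝔄ˣ} (hp : (g, 1) ∈ S.Gam K U) : g ∈ Zc 𝔄 :=
  P.mem_Zc_of_comm fun r hr => by
    obtain ⟨j, k, hw⟩ := S.cls r hr
    have := (S.conj_of_mem P.two hp (one_pow 2) (one_pow 2) (j := j) (k := k) (one_smul _ _).symm
      (one_smul _ _).symm).resolve_right fun h => h.1 rfl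
    rw [← mul_inv_cancel_left (e j * (e k)⁻¹) r, ← mul_assoc, comm_of_conj this, mul_assoc, ← Zc_comm hw,
      ← mul_assoc]

/-- The multiplier as a homomorphism. -/
noncomputable def ccHom [Finite 𝔄] : 𝔄ˣ →* F where
  toFun := cc e st
  map_one' := by simpa [sQ_fe] using (S.cc_spec P (g := 1) (x := fe 0) (y := fe 0) (by simp [S.one])).1.symm
  map_mul' g h := by
    obtain ⟨y, hy⟩ := S.exists_em P h (fe 0)
    obtain ⟨z, hz⟩ := S.exists_em P g y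
    have := (S.cc_spec P (g := g * h) (x := fe 0) (y := z) (by
      rw [← hz, ← hy, Units.val_mul, S.mul]; simp only [mul_assoc])).1
    rw [(S.cc_spec P hz).1, (S.cc_spec P hy).1, sQ_fe, mul_one, mul_one] at this
    exact this.symm

theorem cc_commutator [Finite 𝔄] {H : Subgroup 𝔄ˣ} {g : 𝔄ˣ} (hg : g ∈ ⁅H, H⁆) : cc e st g = 1 :=
  congrArg Units.val (Abelianization.commutator_subset_ker (S.ccHom P).toHomUnits
    (Subgroup.commutator_mono le_top le_top hg))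

variable (hU : Amb R K U)
include hU

theorem exists_mem_Gam [Finite 𝔄] {g : 𝔄ˣ} (hg : g ∈ U) (hc : cc e st g = 1) : ∃ ω, (g, ω) ∈ S.Gam K U := by
  obtain ⟨L, hL⟩ := exists_lin (S.em_inj P) _ _ (S.exists_em P g)
  have h1 : ∀ (x : Fin 6 → K) j, L (cst x) j ∈ K := fun x j => by
    rcases hU with ⟨-, rfl⟩ | ⟨σ, dg, h1, h2, h3, h4⟩
    · trivial
    have h5 : ∀ a, dg (st a) = st (dg a) := fun a => by
      induction a using S.induction P with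
      | h j k =>
        rw [S.mul, S.fix, S.fix' P, h1, h1, h2 _ (S.mem j), h2 _ (R.inv_mem (S.mem k)), inv_inv, S.mul, S.fix,
          S.fix' P]
      | h0 => simp
      | hadd a b h h' => simp [h, h']
      | hs c a h => simp [map_smulₛₗ, h]
    have h6 : dg g = (g⁻¹ : 𝔄ˣ) := by rw [← mul_one (dg g), ← g.mul_inv, ← mul_assoc, (h4 g).1 hg, one_mul]
    have h7 := (S.cc_spec P (hL (cst x)).symm).2
    have h8 := congrArg dg (hL (cst x))
    rw [h1, h1, h5, h6, dg_em h2 S.mem, dg_em h2 S.mem, ← mul_assoc,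
      show (fun j => σ (cst x j)) = cst x from funext fun j => (h3 _).1 (x j).2, ← one_smul F (_ * _ * _), ← hc,
      h7] at h8
    exact (h3 _).2 (congrFun (S.em_inj' P h8) j)
  let L' : (Fin 6 → K) →ₗ[K] (Fin 6 → K) :=
    { toFun := fun x j => ⟨_, h1 x j⟩
      map_add' := fun x y => funext fun j => Subtype.ext (congrFun (map_add L (cst x) (cst y)) j)
      map_smul' := fun c x => funext fun j => Subtype.ext (congrFun (map_smul L (c : F) (cst x)) j) }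
  have h2 : ∀ x, sQ (Fin 6) K (L' x) = sQ (Fin 6) K x := fun x => Subtype.ext (by
    rw [← sQ_cst, ← sQ_cst, ← one_mul (sQ (Fin 6) F (cst x)), ← hc]
    exact (S.cc_spec P (hL (cst x)).symm).1)
  have h3 : Function.Injective L' := fun x y h => by
    have h4 : L (cst x) = L (cst y) := congrArg cst h
    have := (hL _).symm.trans ((congrArg _ h4).trans (hL _))
    have h5 := congrArg (fun a => ((g⁻¹ : 𝔄ˣ) : 𝔄) * a * st (g⁻¹ : 𝔄ˣ)) this
    simp only [mul_assoc, S.st_mul_inv, mul_one, Units.inv_mul_cancel_left] at h5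
    exact funext fun j => Subtype.ext (congrFun (S.em_inj P h5) j)
  exact ⟨⟨LinearEquiv.ofInjectiveEndo L' h3, h2⟩, hg, fun x => (hL _).symm⟩

theorem exists_lift {s t : Fin 6 → K} (hs : sQ (Fin 6) K s ≠ 0) (h : sQ (Fin 6) K t = sQ (Fin 6) K s) :
    ∃ g, (g, refl (sQ (Fin 6) K) s * refl (sQ (Fin 6) K) t) ∈ S.Gam K U := by
  have hs' : sQ (Fin 6) F (cst s) ≠ 0 := by rw [sQ_cst]; exact_mod_cast hs
  have ht : sQ (Fin 6) F (cst t) = sQ (Fin 6) F (cst s) := by rw [sQ_cst, sQ_cst, h]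
  have e1 := em_mul_self S.anti P.two (cst s)
  have e2 := em_mul_self S.anti P.two (cst t)
  have e3 := em_mul_self S.anti_inv P.two (cst s)
  have e4 := em_mul_self S.anti_inv P.two (cst t)
  rw [inv_inv] at e3 e4
  rw [ht] at e2 e4
  have e5 := em_refl S.anti P.two S.anti' hs'
  have e6 := em_refl S.anti_inv P.two S.anti_inv' (ht ▸ hs')
  rw [inv_inv, ht] at e6
  have hc : sQ (Fin 6) F (cst s) ∈ K := sQ_cst s ▸ SetLike.coe_mem _
  generalize sQ (Fin 6) F (cst s) = c at *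
  have key : ∀ a b a' b' : 𝔄, b * b' = c • 1 → a * a' = c • 1 → c⁻¹ • (a * b) * c⁻¹ • (b' * a') = 1 :=
    fun a b a' b' h1 h2 => by
      rw [smul_mul_smul_comm, mul_assoc, ← mul_assoc b, h1, smul_mul_assoc, one_mul, mul_smul_comm, h2, smul_smul,
        smul_smul, show c⁻¹ * c⁻¹ * c * c = 1 by field_simp, one_smul]
  refine ⟨⟨_, _, key _ _ _ _ e4 e1, key _ _ _ _ e3 e2⟩, ?_, fun x => ?_⟩
  · rcases hU with ⟨rfl, -⟩ | ⟨σ, dg, h1, h2, h3, h4⟩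
    · trivial
    have h5 : ∀ x : Fin 6 → K, (fun j => σ (cst x j)) = cst x := fun x => funext fun j => (h3 _).1 (x j).2
    rw [h4]
    simp only [map_smulₛₗ, h1, dg_em h2 S.mem, dg_em h2 (f := e⁻¹) fun j => R.inv_mem (S.mem j), h5,
      inv_inv, (h3 _).1 (K.inv_mem hc)]
    exact key _ _ _ _ e3 e2
  · simp only [map_smul, S.mul, S.st_em, S.st_em' P, OG.mul_app, cst_refl, smul_mul_assoc, mul_smul_comm]
    rw [mul_assoc (em F e (cst s)), mul_assoc (em F e (cst s)), ← mul_assoc _ (em F e⁻¹ (cst t)), e6, ← mul_assoc,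
      mul_smul_comm, smul_mul_assoc, e5, smul_smul, smul_smul, smul_smul, show c⁻¹ * c⁻¹ * -c * -c = 1 by field_simp,
      one_smul]

theorem commutator_le_snd [Finite 𝔄] :
    commutator (OG (sQ (Fin 6) K)) ≤ (S.Gam K U).map (MonoidHom.snd _ _) := by
  have h2 : (2 : K) ≠ 0 := fun h => P.two (congrArg Subtype.val h)
  let T : Set (OG (sQ (Fin 6) K)) :=
    {w | ∃ s t, sQ (Fin 6) K s ≠ 0 ∧ sQ (Fin 6) K t = sQ (Fin 6) K s ∧ w = refl _ s * refl _ t}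
  refine (commutator_le_of_generators (closure_refl_eq_top (nondeg_sQ h2) (Or.inr (by simp)))
    (Subgroup.normalClosure T) ?_).trans ((Subgroup.closure_le _).2 fun w hw => ?_)
  · rintro _ ⟨u, hu, rfl⟩ _ ⟨v, -, rfl⟩
    exact Subgroup.subset_normalClosure ⟨u, _, hu, OG.map_app _ _, commutator_refl u v⟩
  · obtain ⟨_, ⟨s, t, hs, h, rfl⟩, hc⟩ := Group.mem_conjugatesOfSet_iff.1 hw
    obtain ⟨c, rfl⟩ := isConj_iff.1 hc
    obtain ⟨g, hg⟩ := S.exists_lift P hU (s := c.1 s) (t := c.1 t) (by rwa [OG.map_app])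
      (by rw [OG.map_app, OG.map_app, h])
    exact ⟨_, hg, by rw [← conj_mul, refl_conj, refl_conj]; rfl⟩

end Six

/-- **Base of the induction.** -/
theorem LP.base [Finite 𝔄] {i : F} {R : Subgroup 𝔄ˣ} (P : LP i R) (hd : finrank F 𝔄 = 16) {K : Subfield F}
    (hp : ∀ a : K, ∃ n : ℕ, a = n) {U : Subgroup 𝔄ˣ} (hU : Amb R K U) {H : Subgroup 𝔄ˣ} (hM : Nm R ≤ H)
    (hH : ⁅H, H⁆ ≤ U) : H ≤ Nm R ∨ ∀ T : Subgroup 𝔄ˣ, T ≤ U → T ≤ ⁅T, T⁆ → T ≤ H := by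
  obtain ⟨e, st, S⟩ := P.exists_six hd
  have := P.nt
  have : Finite F := Finite.of_injective _ (algebraMap F 𝔄).injective
  have h2 : (2 : K) ≠ 0 := fun h => P.two (congrArg Subtype.val h)
  have hG : ∀ T : Subgroup 𝔄ˣ, ⁅T, T⁆ ≤ U → ⁅⁅T, T⁆, ⁅T, T⁆⁆ ≤ (⁅S.Gam K U, S.Gam K U⁆).map (MonoidHom.fst _ _) :=
    fun T hT => by
      have : ⁅T, T⁆ ≤ (S.Gam K U).map (MonoidHom.fst _ _) := fun g hg => by
        obtain ⟨ω, h⟩ := S.exists_mem_Gam P hU (hT hg) (S.cc_commutator P hg)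
        exact ⟨_, h, rfl⟩
      rw [Subgroup.map_commutator]
      exact Subgroup.commutator_mono this this
  have hO : (⁅S.Gam K U, S.Gam K U⁆).map (MonoidHom.snd _ _) = commutator _ := by
    rw [Subgroup.map_commutator]
    refine le_antisymm (Subgroup.commutator_mono le_top le_top) ?_
    rw [← commutator_commutator_OG (nondeg_sQ h2) (by simp)]
    exact Subgroup.commutator_mono (S.commutator_le_snd P hU) (S.commutator_le_snd P hU)
  have hle : ⁅S.Gam K U, S.Gam K U⁆ ≤ S.Gam K U := Subgroup.commutator_le_self _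
  by_cases hc : commutator _ ≤ (⁅S.Gam K U, S.Gam K U⁆ ⊓ H.comap (MonoidHom.fst _ _)).map (MonoidHom.snd _ _)
  · refine Or.inr fun T hT hT' g hg => ?_
    obtain ⟨p, hp, rfl⟩ := hG T ((Subgroup.commutator_le_self T).trans hT)
      (Subgroup.commutator_mono hT' hT' (hT' hg))
    obtain ⟨p', ⟨h3, h4⟩, h5⟩ := hc (hO ▸ ⟨p, hp, rfl⟩ : p.2 ∈ commutator _)
    have h6 := mul_mem (inv_mem (hle h3)) (hle hp)
    rw [show p'⁻¹ * p = (p'.1⁻¹ * p.1, 1) from Prod.ext rfl (inv_mul_eq_one.2 h5)] at h6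
    exact (H.mul_mem_cancel_left (H.inv_mem h4)).1 (hM (Zc_le_Nm R (S.mem_Zc_of_one P h6)))
  · have h3 := le_Mon_six h2 hp (by simp) (fun ω h => ?_) ((Subgroup.map_mono inf_le_left).trans hO.le) hc
    · refine Or.inl (P.le_Nm_of_comm hM (by omega) fun g hg => ?_)
      obtain ⟨p, hp, rfl⟩ := hG H hH hg
      exact S.mem_Nm_of_Mon P (hle hp) (h3 ⟨p, ⟨hp, Subgroup.commutator_le_self H
        (Subgroup.commutator_le_self _ hg)⟩, rfl⟩)
    · obtain ⟨p, hp, rfl⟩ := hO.ge h.2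
      exact ⟨p, ⟨hp, hM (S.mem_Nm_of_Mon P (hle hp) h.1)⟩, rfl⟩

end CL.Pa
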