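/-
Project C6 (r = 2), file 10: restriction of a Pauli group in `End V` to the fixed space of a non-central involution.
-/
import Cfsg.Agent.Cls.Pauli9

set_option autoImplicit false

namespace CL.Pa

open Module

variable {F V : Type*} [Field F] [AddCommGroup V] [Module F V]

theorem end_cen (a : End F V) (h : ∀ b, a * b = b * a) : ∃ c : F, a = c • 1 := by
  have : a ∈ (⊥ : Subalgebra F (End F V)) :=
    Algebra.IsCentral.center_eq_bot F (End F V) ▸ Subalgebra.mem_center_iff.2 fun b => (h b).symm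
  obtain ⟨c, hc⟩ := Algebra.mem_bot.1 this
  exact ⟨c, by rw [← hc, Algebra.algebraMap_eq_smul_one]⟩

theorem mul_app (g h : (End F V)ˣ) (x : V) : (g * h).1 x = g.1 (h.1 x) := rfl

theorem app_inv_app (g : (End F V)ˣ) (x : V) : g.1 (g⁻¹.1 x) = x := by rw [← mul_app, mul_inv_cancel]; rfl

theorem inv_app_app (g : (End F V)ˣ) (x : V) : g⁻¹.1 (g.1 x) = x := by rw [← mul_app, inv_mul_cancel]; rfl

/-- The fixed space. -/
def fx (z : (End F V)ˣ) : Submodule F V := LinearMap.ker (z.1 - 1)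

theorem mem_fx {z : (End F V)ˣ} {x : V} : x ∈ fx z ↔ z.1 x = x := by simp [fx, sub_eq_zero]

theorem mem_fx_neg {z : (End F V)ˣ} {x : V} : x ∈ fx (-z) ↔ z.1 x = -x := by simp [mem_fx, neg_eq_iff_eq_neg]

theorem pr_mem {z : (End F V)ˣ} (hz : z * z = 1) (x : V) : pr F z x ∈ fx z :=
  mem_fx.2 (LinearMap.congr_fun (ev_pr (F := F) hz) x)

theorem app_mem_fx {z g : (End F V)ˣ} (h : g * z = z * g) {x : V} (hx : x ∈ fx z) : g.1 x ∈ fx z := by
  rw [mem_fx, ← mul_app, ← h, mul_app, mem_fx.1 hx]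

theorem app_mem_fx_neg {z g : (End F V)ˣ} (h : g * z = -(z * g)) {x : V} (hx : x ∈ fx z) : g.1 x ∈ fx (-z) := by
  rw [mem_fx, ← mul_app, neg_mul, ← h, mul_app, mem_fx.1 hx]

theorem pr_of_mem_neg {z : (End F V)ˣ} {x : V} (hx : x ∈ fx (-z)) : pr F z x = 0 := by
  simp [pr, mem_fx_neg.1 hx]

theorem pr_neg_of_mem {z : (End F V)ˣ} {x : V} (hx : x ∈ fx z) : pr F (-z) x = 0 :=
  pr_of_mem_neg (by rwa [neg_neg])

section two

variable (h2 : (2 : F) ≠ 0)
include h2

theorem pr_add_app (z : (End F V)ˣ) (x : V) : pr F z x + pr F (-z) x = x :=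
  LinearMap.congr_fun (pr_add h2 z) x

theorem pr_of_mem {z : (End F V)ˣ} {x : V} (hx : x ∈ fx z) : pr F z x = x := by
  conv_rhs => rw [← pr_add_app h2 z x, pr_neg_of_mem hx, add_zero]

theorem ev_iff {z a b : (End F V)ˣ} (hz : z * z = 1) : Ev (pr F z) a b ↔ ∀ x ∈ fx z, a.1 x = b.1 x :=
  ⟨fun h x hx => by rw [← pr_of_mem h2 hx]; exact LinearMap.congr_fun h x,
    fun h => LinearMap.ext fun x => h _ (pr_mem hz x)⟩

theorem isCompl_fx {z : (End F V)ˣ} (hz : z * z = 1) : IsCompl (fx z) (fx (-z)) :=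
  ⟨Submodule.disjoint_def.2 fun x h h' => by rw [← pr_of_mem h2 h, pr_of_mem_neg h'],
    codisjoint_iff.2 (eq_top_iff.2 fun x _ => pr_add_app h2 z x ▸
      Submodule.add_mem_sup (pr_mem hz x) (pr_mem (by simpa using hz) x))⟩

theorem finrank_fx [FiniteDimensional F V] {z X : (End F V)ˣ} (hz : z * z = 1) (h : X * z = -(z * X)) :
    2 * finrank F (fx z) = finrank F V := by
  have key : ∀ z : (End F V)ˣ, X * z = -(z * X) → finrank F (fx z) ≤ finrank F (fx (-z)) := fun z h =>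
    LinearMap.finrank_le_finrank_of_injective (f := X.1.restrict fun x hx => app_mem_fx_neg h hx)
      fun x y e => Subtype.ext (by simpa [inv_app_app] using congrArg (fun w : fx (-z) => X⁻¹.1 w) e)
  have h3 := key (-z) (by simp [h])
  rw [neg_neg] at h3
  rw [← Submodule.finrank_add_eq_of_isCompl (isCompl_fx h2 hz), ← le_antisymm (key z h) h3, two_mul]

theorem det_of_fx [FiniteDimensional F V] {z : (End F V)ˣ} (hz : z * z = 1) {g : End F V} {c : F}
    (h : ∀ x ∈ fx z, g x = x) (h' : ∀ x ∈ fx (-z), g x = c • x) : LinearMap.det g = c ^ finrank F (fx (-z)) := by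
  let e := Submodule.prodEquivOfIsCompl _ _ (isCompl_fx h2 hz)
  have : g = e.toLinearMap ∘ₗ LinearMap.prodMap LinearMap.id (c • LinearMap.id) ∘ₗ e.symm.toLinearMap :=
    LinearMap.ext fun x => by
      obtain ⟨⟨a, b⟩, rfl⟩ := e.surjective x
      simp [e, h _ a.2, h' _ b.2]
  rw [this, LinearMap.det_conj, LinearMap.det_prodMap, LinearMap.det_smul]
  simp

end two

/-- `k` is the restriction of `g`. -/
def Rs {W : Submodule F V} (g : (End F V)ˣ) (k : (End F W)ˣ) : Prop := ∀ w : W, (k.1 w : V) = g.1 w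

namespace Rs

variable {W : Submodule F V} {g g' : (End F V)ˣ} {k k' : (End F W)ˣ}

theorem one : Rs (W := W) 1 1 := fun _ => rfl

theorem mul (h : Rs g k) (h' : Rs g' k') : Rs (g * g') (k * k') := fun w => by
  rw [mul_app, h, h', mul_app]

theorem inv (h : Rs g k) : Rs g⁻¹ k⁻¹ := fun w => by
  rw [← inv_app_app g (k⁻¹.1 w), ← h, app_inv_app]

theorem neg (h : Rs g k) : Rs (-g) (-k) := fun w => by simp [h w]

theorem unique (h : Rs g k) (h' : Rs g k') : k = k' :=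
  Units.ext (LinearMap.ext fun w => Subtype.ext ((h w).trans (h' w).symm))

theorem scu {c : F} (hc : c ≠ 0) : Rs (W := W) (scu _ c) (scu _ c) := fun w => by simp [scu_val hc]

end Rs

theorem Rs.ev_iff (h2 : (2 : F) ≠ 0) {z g g' : (End F V)ˣ} (hz : z * z = 1) {k : (End F (fx z))ˣ} (h : Rs g k) :
    Ev (pr F z) g g' ↔ Rs g' k :=
  (CL.Pa.ev_iff h2 hz).trans ⟨fun e w => (h w).trans (e _ w.2), fun e x hx => (h ⟨x, hx⟩).symm.trans (e ⟨x, hx⟩)⟩

theorem exists_rs {z g : (End F V)ˣ} (h : g * z = z * g) : ∃ k : (End F (fx z))ˣ, Rs g k :=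
  ⟨⟨g.1.restrict fun _ => app_mem_fx h, g⁻¹.1.restrict fun _ => app_mem_fx (show Commute g z from h).inv_left.eq,
    LinearMap.ext fun w => Subtype.ext (app_inv_app g w), LinearMap.ext fun w => Subtype.ext (inv_app_app g w)⟩,
    fun _ => rfl⟩

theorem exists_ext (h2 : (2 : F) ≠ 0) {z : (End F V)ˣ} (hz : z * z = 1) (k : (End F (fx z))ˣ) :
    ∃ g, g * z = z * g ∧ Rs g k ∧ Ev (pr F (-z)) g 1 := by
  have hz' : -z * -z = 1 := by simpa using hz
  let X : End F (fx z) → End F V := fun k =>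
    (fx z).subtype ∘ₗ k ∘ₗ (pr F z).codRestrict _ (pr_mem hz) + pr F (-z)
  have h1 : ∀ k (w : fx z), X k w = k w := fun k w => by
    have : (pr F z).codRestrict _ (pr_mem hz) w = w := Subtype.ext (pr_of_mem h2 w.2)
    simp [X, this, pr_neg_of_mem w.2]
  have h3 : ∀ k, ∀ x ∈ fx (-z), X k x = x := fun k x hx => by
    have : (pr F z).codRestrict _ (pr_mem hz) x = 0 := Subtype.ext (pr_of_mem_neg hx)
    simp [X, this, pr_of_mem h2 hx]
  have h4 : ∀ k k' : (End F (fx z))ˣ, k * k' = 1 → X k * X k' = 1 := fun k k' e => LinearMap.ext fun x => by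
    rw [← pr_add_app h2 z x, End.mul_apply, map_add, map_add, h3 _ _ (pr_mem hz' x), h3 _ _ (pr_mem hz' x),
      h1 _ ⟨_, pr_mem hz x⟩, h1, ← mul_app, e]
    rfl
  let g : (End F V)ˣ := ⟨X k, X (k⁻¹ : (End F (fx z))ˣ), h4 _ _ (mul_inv_cancel k), h4 _ _ (inv_mul_cancel k)⟩
  refine ⟨g, Ev.ext h2 (z := z) ((ev_iff h2 hz).2 fun x hx => ?_) ((ev_iff h2 hz').2 fun x hx => ?_),
    fun w => (h1 _ w).symm, (ev_iff h2 hz').2 (h3 _)⟩
  · rw [mul_app, mul_app, mem_fx.1 hx, show g.1 x = _ from h1 _ ⟨x, hx⟩, mem_fx.1 (Subtype.prop _)]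
  · rw [mul_app, mul_app, mem_fx_neg.1 hx, map_neg, show g.1 x = _ from h3 _ x hx, mem_fx_neg.1 hx]

/-- The restriction of the centraliser of `z` in `H` to the fixed space of `z`. -/
def resG (z : (End F V)ˣ) (H : Subgroup (End F V)ˣ) : Subgroup (End F (fx z))ˣ where
  carrier := {k | ∃ g ∈ H, g * z = z * g ∧ Rs g k}
  one_mem' := ⟨1, H.one_mem, by simp, Rs.one⟩
  mul_mem' := fun ⟨g, h1, h2, h3⟩ ⟨g', h1', h2', h3'⟩ =>
    ⟨g * g', H.mul_mem h1 h1', ((show Commute g z from h2).mul_left h2').eq, h3.mul h3'⟩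
  inv_mem' := fun ⟨g, h1, h2, h3⟩ => ⟨g⁻¹, H.inv_mem h1, (show Commute g z from h2).inv_left.eq, h3.inv⟩

/-- The restriction of the elements of `H` which are trivial on the `-1`-eigenspace of `z`. -/
def kerG (z : (End F V)ˣ) (H : Subgroup (End F V)ˣ) : Subgroup (End F (fx z))ˣ where
  carrier := {k | ∃ g ∈ H, g * z = z * g ∧ Rs g k ∧ Ev (pr F (-z)) g 1}
  one_mem' := ⟨1, H.one_mem, by simp, Rs.one, Ev.refl _ _⟩
  mul_mem' := fun ⟨g, h1, h2, h3, h4⟩ ⟨g', h1', h2', h3', h4'⟩ =>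
    ⟨g * g', H.mul_mem h1 h1', ((show Commute g z from h2).mul_left h2').eq, h3.mul h3', by
      simpa using h4.mul h4' (one_mem _)⟩
  inv_mem' := fun ⟨g, h1, h2, h3, h4⟩ => ⟨g⁻¹, H.inv_mem h1, (show Commute g z from h2).inv_left.eq, h3.inv, by
    simpa using h4.inv (one_mem _)⟩

theorem conj_mem_kerG {z : (End F V)ˣ} {H : Subgroup (End F V)ˣ} :
    ∀ k ∈ resG z H, ∀ n ∈ kerG z H, k * n * k⁻¹ ∈ kerG z H := by
  rintro k ⟨g, h1, h2, h3⟩ n ⟨g', h1', h2', h3', h4⟩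
  have c : Commute g z := h2
  exact ⟨g * g' * g⁻¹, H.mul_mem (H.mul_mem h1 h1') (H.inv_mem h1), ((c.mul_left h2').mul_left c.inv_left).eq,
    (h3.mul h3').mul h3.inv, by simpa using (h4.left g).right (mem_Cm_pr_neg c.inv_left.eq)⟩

namespace Pauli

variable {R : Subgroup (End F V)ˣ} (P : Pauli F R) {z : (End F V)ˣ} (hz : z ∈ R) (hz2 : z * z = 1)
  (hz0 : z ∉ Zc (End F V))
include P hz hz2 hz0

theorem res : Pauli F (resG z R) where
  two := P.two
  nt := by
    have : Nontrivial (fx z) := Submodule.nontrivial_iff_ne_bot.2 fun h => hz0 (eq_neg_one_of_pr P.two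
      (LinearMap.ext fun x => (Submodule.eq_bot_iff _).1 h _ (pr_mem hz2 x)) ▸ neg_one_mem_Zc)
    infer_instance
  neg := ⟨-1, P.neg, by simp, Rs.one.neg⟩
  sq := by
    rintro k ⟨g, h1, -, h3⟩
    rcases P.sq g h1 with e | e
    exacts [Or.inl ((h3.mul h3).unique (e ▸ Rs.one)), Or.inr ((h3.mul h3).unique (e ▸ Rs.one.neg))]
  span := by
    let ρ : End F V → End F (fx z) := fun b => (pr F z).codRestrict _ (pr_mem hz2) ∘ₗ b ∘ₗ (fx z).subtype
    have h1 : ∀ b, ρ b ∈ Submodule.span F (Units.val '' (resG z R : Set (End F (fx z))ˣ)) := fun b => by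
      induction b using P.induction with
      | h0 => simp only [ρ, LinearMap.zero_comp, LinearMap.comp_zero, zero_mem]
      | hadd a b h h' => simpa only [ρ, LinearMap.add_comp, LinearMap.comp_add] using add_mem h h'
      | hs c a h => simpa only [ρ, LinearMap.smul_comp, LinearMap.comp_smul] using Submodule.smul_mem _ c h
      | h r hr =>
        rcases P.comm hr hz with e | e
        · obtain ⟨k, hk⟩ := exists_rs e
          exact Submodule.subset_span ⟨k, ⟨r, hr, e, hk⟩, LinearMap.ext fun w => Subtype.ext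
            ((hk w).trans (pr_of_mem P.two (app_mem_fx e w.2)).symm)⟩
        · rw [show ρ r = 0 from LinearMap.ext fun w => Subtype.ext (pr_of_mem_neg (app_mem_fx_neg e w.2))]
          exact zero_mem _
    refine eq_top_iff.2 fun a _ => ?_
    convert h1 ((fx z).subtype ∘ₗ a ∘ₗ (pr F z).codRestrict _ (pr_mem hz2))
    refine LinearMap.ext fun w => Subtype.ext ?_
    have : (pr F z).codRestrict _ (pr_mem hz2) w = w := Subtype.ext (pr_of_mem P.two w.2)
    simp [ρ, this, pr_of_mem P.two (a w).2]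
  cen := end_cen

theorem finrank_res [FiniteDimensional F V] : 2 * finrank F (fx z) = finrank F V := by
  obtain ⟨X, -, h⟩ := P.exists_anti hz hz0
  exact finrank_fx P.two hz2 (anti_symm h)

omit hz hz0 in
theorem hz_of_res {H : Subgroup (End F V)ˣ} (h : resG z H ≤ Nm (resG z R)) : Hz F R H z := fun g hg e c hc e' => by
  obtain ⟨k, hk⟩ := exists_rs e
  obtain ⟨l, hl⟩ := exists_rs e'
  obtain ⟨c', h1, h3, h4⟩ := conj_mem (h ⟨g, hg, e, hk⟩) ⟨c, hc, e', hl⟩
  exact ⟨c', h1, h3, (((hk.mul hl).mul hk.inv).ev_iff P.two hz2).2 h4⟩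

variable [Finite (End F V)] {H : Subgroup (End F V)ˣ} (hM : Nm R ≤ H)
include hM

theorem Nm_res_le : Nm (resG z R) ≤ resG z H := fun k hk => by
  obtain ⟨g, h1, h3, -⟩ := exists_ext P.two hz2 k
  obtain ⟨X, hX, h⟩ := P.exists_anti hz hz0
  obtain ⟨d, hd, h4, -, h5⟩ := P.exists_delta hz hz2 hX (anti_symm h) h1 fun c hc e => by
    obtain ⟨l, hl⟩ := exists_rs e
    obtain ⟨c', h1, h4, h5⟩ := conj_mem hk ⟨c, hc, e, hl⟩
    exact ⟨c', h1, h4, (((h3.mul hl).mul h3.inv).ev_iff P.two hz2).2 h5⟩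
  exact ⟨d, hM hd, h4, (h3.ev_iff P.two hz2).1 h5.symm⟩

theorem res_le_kerG : resG z R ≤ kerG z H := by
  rintro k ⟨r, hr, e, h⟩
  obtain ⟨g, h1, h3, h4⟩ := exists_ext P.two hz2 k
  exact ⟨g, hM (P.gate_mem (P.neg_mem hz) (by simpa using hz2) (by rwa [neg_mem_Zc]) hr (by simp [e]) h4
    (by simpa using (h3.ev_iff P.two hz2).2 h)), h1, h3, h4⟩

end Pauli

theorem LP.res {i : F} {R : Subgroup (End F V)ˣ} (P : LP i R) {z : (End F V)ˣ} (hz : z ∈ R) (hz2 : z * z = 1)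
    (hz0 : z ∉ Zc (End F V)) : LP i (resG z R) :=
  ⟨P.toPauli.res hz hz2 hz0, P.ii, _, P.iR, Zc_comm P.ι_mem z, Rs.scu (i_ne_zero P.ii)⟩

end CL.Pa
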