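/-
Project C6 (r = 2), file 11: the induction in the linear case.  An overgroup of `N_{GL(V)}(R)` over the prime field
normalises `R` or contains all transvections.
-/
import Cfsg.Agent.Cls.Pauli10
import Cfsg.Agent.Cls.SLnTv

set_option autoImplicit false

namespace CL.Pa

open Module CL.SLn

section abstract

variable {F 𝔄 : Type*} [Field F] [Ring 𝔄] [Algebra F 𝔄]

theorem Hz.conj {R H : Subgroup 𝔄ˣ} (hM : Nm R ≤ H) {z m : 𝔄ˣ} (hm : m ∈ Nm R) (h : Hz F R H z) :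
    Hz F R H (m * z * m⁻¹) := fun g hg e c hc e' => by
  have key : ∀ x : 𝔄ˣ, x * (m * z * m⁻¹) = m * z * m⁻¹ * x → m⁻¹ * x * m⁻¹⁻¹ * z = z * (m⁻¹ * x * m⁻¹⁻¹) :=
    fun x e => by simpa [mul_assoc] using ((show Commute x _ from e).map (MulAut.conj m⁻¹)).eq
  obtain ⟨c', h1, h2, h3⟩ := h _ (H.mul_mem (H.mul_mem (H.inv_mem (hM hm)) hg) (H.inv_mem (H.inv_mem (hM hm))))
    (key g e) _ (conj_mem (inv_mem hm) hc) (key c e')
  refine ⟨_, conj_mem hm h1, ((show Commute c' z from h2).map (MulAut.conj m)).eq, ?_⟩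
  have := h3.conj m
  rw [conj_pr] at this
  simpa [mul_assoc] using this

theorem pr_neg_mul_pr {z z' : 𝔄ˣ} (hz : z * z = 1) : pr F (-z) * pr F (z * z') = pr F (-z) * pr F (-z') := by
  have h : (z : 𝔄) * z = 1 := congrArg Units.val hz
  simp only [pr, smul_mul_assoc, mul_smul_comm, mul_add, add_mul, Units.val_neg, Units.val_mul, neg_mul, mul_neg,
    ← mul_assoc, h, mul_one, one_mul]
  module

namespace LP

variable {i : F} {R : Subgroup 𝔄ˣ} (P : LP i R) [Finite 𝔄]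
include P

theorem le_Nm_or (hd : 16 < finrank F 𝔄) {H : Subgroup 𝔄ˣ} (hM : Nm R ≤ H) :
    H ≤ Nm R ∨ ∀ z ∈ R, z * z = 1 → z ∉ Zc 𝔄 → ¬ Hz F R H z := by
  refine or_iff_not_imp_right.2 fun h => P.le_Nm hM hd fun z' hz' hz2' hz0' => ?_
  push Not at h
  obtain ⟨z, hz, hz2, hz0, h⟩ := h
  obtain ⟨m, hm, rfl⟩ := P.exists_conj hz hz' hz2 hz2' hz0 hz0'
  exact h.conj hM hm

theorem exists_pair (hd : 4 < finrank F 𝔄) : ∃ z ∈ R, ∃ z' ∈ R, ∃ Y ∈ R, z * z = 1 ∧ z' * z' = 1 ∧ z ∉ Zc 𝔄 ∧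
    z' * z = z * z' ∧ z * Y = Y * z ∧ z' * Y = -(Y * z') := by
  obtain ⟨z, hz, hz2, hz0, -⟩ := P.exists_comm_invol (k := 0) (by omega) ![] (by simp)
  obtain ⟨X, hX, e⟩ := P.exists_anti hz hz0
  obtain ⟨w, hw, hw2, hw0, h⟩ := P.exists_comm_invol (k := 2) hd ![z, X] (by intro j; fin_cases j <;> assumption)
  obtain ⟨Y, hY, h1, h2⟩ := P.sep_one hz hw hw0 (P.notMem_of_anti (y := X) (by
    rw [inv_eq_of_sq hz2, mul_assoc, show w * X = X * w from h 1, ← mul_assoc, e, neg_mul, mul_assoc]))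
  exact ⟨z, hz, w, hw, Y, hY, hz2, hw2, hz0, h 0, h1, h2⟩

end LP

end abstract

variable {F V : Type*} [Field F] [AddCommGroup V] [Module F V]

theorem smul_def' (g : (End F V)ˣ) (x : V) : g • x = g.1 x := rfl

theorem tv_top {v : V} {φ : Dual F V} (h : φ v = 0) : Tv (⊤ : Subgroup (End F V)ˣ) v φ :=
  ⟨h, ⟨1 + φ.smulRight v, 1 - φ.smulRight v, LinearMap.ext fun x => by simp [h], LinearMap.ext fun x => by simp [h]⟩,
    trivial, fun x => by simp⟩

theorem tv_conj {K N : Subgroup (End F V)ˣ} (hN : ∀ k ∈ K, ∀ n ∈ N, k * n * k⁻¹ ∈ N) {u v : V} {φ ψ : Dual F V}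
    (h1 : Tv K u ψ) (h2 : Tv N v φ) : Tv N (v + ψ v • u) (φ - φ u • ψ) := by
  obtain ⟨a0, a, ha, hax⟩ := h1
  obtain ⟨b0, b, hb, hbx⟩ := h2
  refine ⟨by simp [a0, b0, mul_comm], a * b * a⁻¹, hN a ha b hb, fun x => ?_⟩
  rw [mul_smul, mul_smul, inv_smul_of_tv a0 hax, hbx, hax]
  simp only [map_add, map_sub, map_smul, a0, smul_eq_mul, LinearMap.sub_apply, LinearMap.smul_apply]
  module

theorem centers_of_normal (h2 : (2 : F) ≠ 0) {K N : Subgroup (End F V)ˣ} (hN : ∀ k ∈ K, ∀ n ∈ N, k * n * k⁻¹ ∈ N)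
    (hK : centers F V K = ⊤) {a : (End F V)ˣ} (ha : a ∈ N) (ha' : -a ∈ N) (ha2 : a * a = 1)
    (ha0 : a ∉ Zc (End F V)) : centers F V N = ⊤ := by
  have hK' : ∀ v (φ : Dual F V), φ v = 0 → Tv K v φ := fun v => mem_centers.1 (hK ▸ Submodule.mem_top)
  have key : ∀ a ∈ N, a * a = 1 → a ∉ Zc (End F V) → fx a ≤ centers F V N := fun a ha ha2 ha0 v hv => by
    have h1 : ∀ φ : Dual F V, (∀ w ∈ fx a, φ w = 0) → Tv N v φ := fun φ hφ => by
      obtain ⟨h0, t, ht, e⟩ := hK' v ((-2 : F)⁻¹ • φ) (by simp [hφ v hv])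
      have h3 : ∀ x, φ (a.1 x) = -φ x := fun x => by
        have := hφ (x + a.1 x) (by rw [mem_fx, map_add, ← mul_app, ha2, add_comm]; rfl)
        rw [map_add] at this
        exact eq_neg_of_add_eq_zero_right this
      refine ⟨hφ v hv, a * (t * a⁻¹ * t⁻¹), N.mul_mem ha (hN t ht _ (N.inv_mem ha)), fun x => ?_⟩
      rw [mul_smul, mul_smul, mul_smul, inv_smul_of_tv h0 e, e, inv_eq_of_sq ha2]
      simp only [smul_def', map_add, map_sub, map_smul, mem_fx.1 hv, ← mul_app, ha2, LinearMap.smul_apply, h3,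
        hφ v hv, smul_eq_mul]
      match_scalars <;> field_simp
      ring
    obtain ⟨u, hu⟩ : ∃ u, u ∉ fx a := by
      by_contra h
      push Not at h
      exact ha0 ((Units.ext (LinearMap.ext fun x => mem_fx.1 (h x)) : a = 1) ▸ one_mem _)
    obtain ⟨φ, h3, h4⟩ := exists_dual_of_notMem hu
    refine mem_centers.2 fun ψ hψ => ?_
    have h5 := tv_conj hN (hK' u (ψ - ψ u • φ) (by simp [h3])) (h1 φ h4)
    rw [h3, one_smul, show (ψ - ψ u • φ) v = 0 by simp [hψ, h4 v hv], zero_smul, add_zero] at h5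
    simpa using ((h1 φ h4).sub_right h5).add_right (h1 (ψ u • φ) fun w hw => by simp [h4 w hw])
  rw [eq_top_iff, ← (isCompl_fx h2 ha2).sup_eq_top]
  exact sup_le (key a ha ha2 ha0) (key _ ha' (by simpa using ha2) (by rwa [neg_mem_Zc]))

theorem tv_of_kerG (h2 : (2 : F) ≠ 0) {z : (End F V)ˣ} (hz : z * z = 1) {H : Subgroup (End F V)ˣ}
    (h : centers F (fx z) (kerG z H) = ⊤) {v : V} (hv : v ∈ fx z) {φ : Dual F V} (h0 : φ v = 0) :
    Tv H v (φ ∘ₗ pr F z) := by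
  obtain ⟨-, k, ⟨g, hg, -, h3, h4⟩, e⟩ := mem_centers.1 (h ▸ Submodule.mem_top : (⟨v, hv⟩ : fx z) ∈ _)
    (φ ∘ₗ (fx z).subtype) h0
  refine ⟨by simp [pr_of_mem h2 hv, h0], g, hg, fun x => ?_⟩
  have h5 := (ev_iff h2 (by simpa using hz)).1 h4 _ (pr_mem (z := -z) (by simpa using hz) x)
  have h6 := (h3 ⟨_, pr_mem hz x⟩).symm.trans (congrArg Subtype.val (e ⟨_, pr_mem hz x⟩))
  conv_lhs => rw [← pr_add_app h2 z x, smul_def', map_add, h5, h6]
  conv_rhs => rw [← pr_add_app h2 z x]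
  simp [pr_of_mem h2 (pr_mem hz x), pr_of_mem_neg (pr_mem (z := -z) (by simpa using hz) x), add_right_comm]

/-- The group generated by the transvections. -/
def TT (F V : Type*) [Field F] [AddCommGroup V] [Module F V] : Subgroup (End F V)ˣ :=
  Subgroup.closure {g | ∃ (v : V) (φ : Dual F V), φ v = 0 ∧ ∀ x, g • x = x + φ x • v}

theorem tv_TT {v : V} {φ : Dual F V} (h : φ v = 0) : Tv (TT F V) v φ :=
  let ⟨_, g, _, e⟩ := tv_top h; ⟨h, g, Subgroup.subset_closure ⟨v, φ, h, e⟩, e⟩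

theorem TT_le {H : Subgroup (End F V)ˣ} (h : centers F V H = ⊤) : TT F V ≤ H :=
  (Subgroup.closure_le _).2 fun g ⟨v, φ, h0, e⟩ => by
    obtain ⟨-, g', hg', e'⟩ := mem_centers.1 (h ▸ Submodule.mem_top : v ∈ _) φ h0
    exact (Units.ext (LinearMap.ext fun x => (e' x).trans (e x).symm) : g' = g) ▸ hg'

theorem centers_of_TT_le {H : Subgroup (End F V)ˣ} (h : TT F V ≤ H) : centers F V H = ⊤ :=
  eq_top_iff.2 fun _ _ => mem_centers.2 fun _ h0 => (tv_TT h0).mono h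

theorem TT_le_commutator [FiniteDimensional F V] (hn : 3 ≤ finrank F V) : TT F V ≤ ⁅TT F V, TT F V⁆ := by
  refine TT_le (eq_top_iff.2 fun v _ => mem_centers.2 fun ψ hψ => ?_)
  obtain ⟨w, hw, hw'⟩ : ∃ w ∈ LinearMap.ker ψ, w ∉ F ∙ v := by
    by_contra h
    push Not at h
    have h1 := (Submodule.finrank_mono h).trans (finrank_span_le_card ({v} : Set V))
    have h2 := ψ.finrank_range_add_finrank_ker
    have h3 := (LinearMap.range ψ).finrank_le
    simp only [Set.toFinset_singleton, Finset.card_singleton, finrank_self] at h1 h3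
    omega
  obtain ⟨φ, h1, h2⟩ := exists_dual_of_notMem hw'
  obtain ⟨a0, a, ha, hax⟩ := tv_TT (h2 v (Submodule.mem_span_singleton_self v))
  obtain ⟨b0, b, hb, hbx⟩ := tv_TT (LinearMap.mem_ker.1 hw)
  refine ⟨hψ, _, Subgroup.commutator_mem_commutator ha hb, fun x => ?_⟩
  rw [commutatorElement_def, mul_smul, mul_smul, mul_smul, inv_smul_of_tv b0 hbx, inv_smul_of_tv a0 hax, hbx, hax]
  simp only [map_add, map_sub, map_smul, a0, b0, hψ, h1, smul_eq_mul]
  module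

universe u

/-- **The linear case.** -/
theorem lin {F : Type*} [Field F] [Finite F] (hp : ∀ a : F, ∃ n : ℕ, a = n) {i : F} (m : ℕ) :
    ∀ {V : Type u} [AddCommGroup V] [Module F V] [FiniteDimensional F V], finrank F V = 2 ^ (m + 2) →
      ∀ {R H : Subgroup (End F V)ˣ}, LP i R → Nm R ≤ H → H ≤ Nm R ∨ centers F V H = ⊤ := by
  induction m with
  | zero =>
    intro V _ _ _ hn R H P hM
    have : Finite (End F V) := Module.finite_of_finite F
    refine (P.base (K := ⊤) (U := ⊤) (by rw [finrank_linearMap, hn]; rfl) (fun a => ?_) (Or.inl ⟨rfl, rfl⟩) hM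
      le_top).imp_right fun h => centers_of_TT_le (h _ le_top (TT_le_commutator (by rw [hn]; decide)))
    obtain ⟨n, hn⟩ := hp a
    exact ⟨n, Subtype.ext (by simpa using hn)⟩
  | succ m ih =>
    intro V _ _ _ hn R H P hM
    have : Finite (End F V) := Module.finite_of_finite F
    have h8 : 8 ≤ finrank F V := by rw [hn]; exact Nat.pow_le_pow_right two_pos (by omega : 3 ≤ m + 1 + 2)
    have hd : 16 < finrank F (End F V) := by rw [finrank_linearMap]; nlinarith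
    refine (P.le_Nm_or hd hM).imp_right fun h => ?_
    have h1 : ∀ z ∈ R, z * z = 1 → z ∉ Zc (End F V) → ∀ v ∈ fx z, ∀ φ : Dual F V, φ v = 0 →
        Tv H v (φ ∘ₗ pr F z) := fun z hz hz2 hz0 v hv φ h0 => by
      have h3 := P.finrank_res hz hz2 hz0
      have h4 : finrank F (fx z) = 2 ^ (m + 2) := by rw [hn, pow_succ] at h3; omega
      have P' := P.res hz hz2 hz0
      have : Finite (End F (fx z)) := Module.finite_of_finite F
      obtain ⟨a, ha, ha2, ha0, -⟩ := P'.exists_comm_invol (k := 0) (by rw [finrank_linearMap]; nlinarith) ![]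
        (by simp)
      have h5 := P.res_le_kerG hz hz2 hz0 hM
      exact tv_of_kerG P.two hz2 (centers_of_normal P.two conj_mem_kerG ((ih h4 P' (P.Nm_res_le hz hz2 hz0 hM)).resolve_left
        fun e => h z hz hz2 hz0 (P.hz_of_res hz2 e)) (h5 ha) (h5 (P'.neg_mem ha)) ha2 ha0) hv h0
    have h2 : ∀ z ∈ R, ∀ z' ∈ R, ∀ Y : (End F V)ˣ, z * z = 1 → z' * z' = 1 → z ∉ Zc (End F V) → z' * z = z * z' →
        z * Y = Y * z → z' * Y = -(Y * z') → ∀ x, pr F z (pr F z' x) ∈ centers F V H := by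
      intro z hz z' hz' Y hz2 hz2' hz0 e e1 e2 x
      have hv := pr_mem hz2 (pr F z' x)
      have hv' : pr F z (pr F z' x) ∈ fx z' := by
        rw [← End.mul_apply, ← pr_comm e]; exact pr_mem hz2' _
      generalize pr F z (pr F z' x) = v at hv hv'
      refine mem_centers.2 fun φ h0 => ?_
      have h3 : (φ ∘ₗ pr F (-z)) v = 0 := by simp [pr_neg_of_mem hv]
      have := (h1 z hz hz2 hz0 v hv φ h0).add_right ((h1 z' hz' hz2' (P.notMem_of_anti e2) v hv' _ h3).add_right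
        (h1 _ (R.mul_mem hz hz') (by rw [mul_assoc, cw e, hz2', mul_one, hz2]) (P.notMem_of_anti (y := Y) (by
          rw [mul_assoc, e2, mul_neg, cw e1])) v (by rw [mem_fx, mul_app, mem_fx.1 hv', mem_fx.1 hv]) _ h3))
      convert this using 1
      ext y
      simp only [LinearMap.add_apply, LinearMap.comp_apply, ← map_add, ← End.mul_apply, pr_neg_mul_pr hz2]
      simp only [End.mul_apply, ← map_add, pr_add_app P.two]
    obtain ⟨z, hz, z', hz', Y, -, a1, a2, a3, a4, a5, a6⟩ := P.exists_pair (by omega)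
    refine eq_top_iff.2 fun x _ => ?_
    rw [← pr_add_app P.two z' x, ← pr_add_app P.two z (pr F z' x), ← pr_add_app P.two z (pr F (-z') x)]
    have n := P.neg_mem hz
    have n' := P.neg_mem hz'
    refine add_mem (add_mem (h2 z hz z' hz' Y a1 a2 a3 a4 a5 a6 x) (h2 _ n z' hz' Y ?_ a2 ?_ ?_ ?_ a6 x))
      (add_mem (h2 z hz _ n' Y a1 ?_ a3 ?_ a5 ?_ x) (h2 _ n _ n' Y ?_ ?_ ?_ ?_ ?_ ?_ x)) <;>
      simp [neg_mem_Zc, a1, a2, a3, a4, a5, a6]

end CL.Pa
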