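/-
Project C6 (r = 2), file 12: the induction in the unitary case.
-/
import Cfsg.Agent.Cls.Pauli11
import Cfsg.Agent.Cls.UniMax2

set_option autoImplicit false

namespace CL.Pa

open Module CL.Uni

theorem LP.hom_invol {F 𝔄 A : Type*} [Field F] [Ring 𝔄] [Algebra F 𝔄] [Finite 𝔄] [CommGroup A] {i : F}
    {R : Subgroup 𝔄ˣ} (P : LP i R) (hd : 4 < finrank F 𝔄) (D : 𝔄ˣ →* A) {a : 𝔄ˣ} (ha : a ∈ R) (ha2 : a * a = 1)
    (ha0 : a ∉ Zc 𝔄) : D a = 1 := by
  obtain ⟨z, hz, z', hz', Y, -, a1, a2, a3, a4, a5, a6⟩ := P.exists_pair hd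
  have key : ∀ b ∈ R, b * b = 1 → b ∉ Zc 𝔄 → D b = D a := fun b hb hb2 hb0 => by
    obtain ⟨m, -, rfl⟩ := P.exists_conj ha hb ha2 hb2 ha0 hb0
    simp
  have := key _ (R.mul_mem hz hz') (by rw [mul_assoc, cw a4, a2, mul_one, a1]) (P.notMem_of_anti (y := Y) (by
    rw [mul_assoc, a6, mul_neg, cw a5]))
  rwa [map_mul, key z hz a1 a3, key z' hz' a2 (P.notMem_of_anti a6), mul_eq_left] at this

universe u v

variable {F : Type u} [Field F] {q : ℕ} {σ : F →+* F} {V : Type v} [AddCommGroup V] [Module F V]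

/-- Units of `End V` as linear automorphisms. -/
abbrev toE : (End F V)ˣ ≃* (V ≃ₗ[F] V) := LinearMap.GeneralLinearGroup.generalLinearEquiv F V

theorem toE_app (g : (End F V)ˣ) (x : V) : toE g x = g.1 x := rfl

/-- The isometries. -/
def Un (B : V →ₛₗ[σ] V →ₗ[F] F) : Subgroup (End F V)ˣ := (UG B).comap toE.toMonoidHom

theorem mem_Un {B : V →ₛₗ[σ] V →ₗ[F] F} {g : (End F V)ˣ} : g ∈ Un B ↔ ∀ u v, B (g.1 u) (g.1 v) = B u v := Iff.rfl

/-- The special isometries. -/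
noncomputable def SUn (B : V →ₛₗ[σ] V →ₗ[F] F) : Subgroup (End F V)ˣ := (SUG B).comap toE.toMonoidHom

/-- The similarities. -/
def Sim (B : V →ₛₗ[σ] V →ₗ[F] F) : Subgroup (End F V)ˣ where
  carrier := {g | ∃ c : Fˣ, ∀ u v, B (g.1 u) (g.1 v) = c * B u v}
  one_mem' := ⟨1, fun u v => by simp⟩
  mul_mem' := fun ⟨c, h⟩ ⟨d, h'⟩ => ⟨c * d, fun u v => by rw [mul_app, mul_app, h, h', Units.val_mul, mul_assoc]⟩
  inv_mem' := fun {g} ⟨c, h⟩ => ⟨c⁻¹, fun u v => by
    rw [← app_inv_app g u, ← app_inv_app g v, h, app_inv_app, app_inv_app, Units.inv_mul_cancel_left]⟩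

variable {B : V →ₛₗ[σ] V →ₗ[F] F}

theorem commutator_le_Un {H : Subgroup (End F V)ˣ} (h : H ≤ Sim B) : ⁅H, H⁆ ≤ Un B :=
  Subgroup.commutator_le.2 fun a ha b hb u v => by
    obtain ⟨c, h1⟩ := h ha
    obtain ⟨d, h2⟩ := h hb
    show B (a.1 (b.1 (a⁻¹.1 (b⁻¹.1 u)))) (a.1 (b.1 (a⁻¹.1 (b⁻¹.1 v)))) = _
    rw [h1, h2, ← mul_assoc, mul_comm (c : F), mul_assoc, ← h1, app_inv_app, app_inv_app, ← h2, app_inv_app,
      app_inv_app]

theorem SUn_le_commutator [FiniteDimensional F V] (h : IsHerm B q) (hn : 4 ≤ finrank F V) :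
    SUn B ≤ ⁅SUn B, SUn B⁆ := by
  have h1 : SUn B = (⊤ : Subgroup (SUG B)).map (toE.symm.toMonoidHom.comp (SUG B).subtype) := by
    rw [← Subgroup.map_map, ← MonoidHom.range_eq_map, Subgroup.range_subtype, SUn, Subgroup.comap_equiv_eq_map_symm']
  rw [h1, ← Subgroup.map_commutator, ← commutator_def, h.commutator_SUG (by omega) (by omega)]

theorem orth_fx (h2 : (2 : F) ≠ 0) {z : (End F V)ˣ} (hz : z ∈ Un B) {x y : V} (hx : x ∈ fx z) (hy : y ∈ fx (-z)) :
    B x y = 0 := by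
  have := mem_Un.1 hz x y
  rw [mem_fx.1 hx, mem_fx_neg.1 hy, map_neg] at this
  exact (mul_eq_zero.1 (show 2 * B x y = 0 by linear_combination -this)).resolve_left h2

theorem disjoint_fx (h : IsHerm B q) (h2 : (2 : F) ≠ 0) {z : (End F V)ˣ} (hz : z ∈ Un B) (hz2 : z * z = 1) :
    Disjoint (fx z) (perp B (fx z)) :=
  h.disjoint_perp_iff.2 fun u hu e => h.nondeg u fun y => by
    rw [← pr_add_app h2 z y, map_add, e _ (pr_mem hz2 y), orth_fx h2 hz hu (pr_mem (by simpa using hz2) y), add_zero]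

theorem amb [Finite (End F V)] (h : IsHerm B q) {R : Subgroup (End F V)ˣ} (P : Pauli F R) (hR : R ≤ Un B) :
    Amb R (IsBar.fixedField σ) (Un B) := by
  have h1 : ∀ a : End F V, ∃ a' : End F V, ∀ u v, B (a u) v = B u (a' v) := fun a => by
    induction a using P.induction with
    | h r hr => exact ⟨r⁻¹.1, fun u v => by rw [← mem_Un.1 (hR hr) u, app_inv_app]⟩
    | h0 => exact ⟨0, by simp⟩
    | hadd a b e e' =>
      obtain ⟨a', e⟩ := e
      obtain ⟨b', e'⟩ := e'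
      exact ⟨a' + b', by simp [e, e']⟩
    | hs c a e =>
      obtain ⟨a', e⟩ := e
      exact ⟨σ c • a', by simp [map_smulₛₗ, e]⟩
  choose d hd using h1
  have h2 : ∀ a a' : End F V, (∀ u v, B (a u) v = B u (a' v)) → d a = a' := fun a a' e =>
    LinearMap.ext fun v => h.ext_right fun u => (hd a u v).symm.trans (e u v)
  refine Or.inr ⟨σ, ⟨⟨d, fun a b => h2 _ _ (by simp [hd])⟩, fun c a => h2 _ _ (by simp [map_smulₛₗ, hd])⟩,
    fun a b => h2 _ _ (by simp [hd]), fun r hr => h2 _ _ fun u v => by rw [← mem_Un.1 (hR hr) u, app_inv_app],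
    fun _ => Iff.rfl, fun g => ⟨fun e => LinearMap.ext fun v => h.ext_right fun u => (hd g u _).symm.trans (e u v),
      fun e u v => (hd g u _).trans (congrArg _ (LinearMap.congr_fun e v))⟩⟩

theorem SUn_le_of_normal [FiniteDimensional F V] (h : IsHerm B q) (hn : 4 ≤ finrank F V)
    {K N : Subgroup (End F V)ˣ} (hN : ∀ k ∈ K, ∀ n ∈ N, k * n * k⁻¹ ∈ N) (hK : SUn B ≤ K) {a : (End F V)ˣ}
    (ha : a ∈ N) (ha' : a ∈ SUn B) (ha0 : a ∉ Zc (End F V)) : SUn B ≤ N := by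
  let f := toE.symm.toMonoidHom.comp (SUG B).subtype
  have h1 : ∀ g : SUG B, f g ∈ SUn B := fun g => by simp [f, SUn]
  rcases h.normal_le_center_or_eq_top (by omega) (by omega) (N.comap f) ⟨fun n hn g => by
    rw [Subgroup.mem_comap, map_mul, map_mul, map_inv]
    exact hN _ (hK (h1 g)) _ hn⟩ with e | e
  · obtain ⟨c, hc⟩ := (h.mem_center_SUG (by omega) ⟨toE a, ha'⟩).1 (e (by simpa [f] using ha))
    exact absurd (mem_Zc_of_smul (c := c) (LinearMap.ext hc)) ha0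
  · intro g hg
    simpa [f] using (e.ge (Subgroup.mem_top ⟨toE g, hg⟩) : _ ∈ N.comap f)

theorem mem_of_block (h2 : (2 : F) ≠ 0) {z : (End F V)ˣ} (hz : z * z = 1) {H : Subgroup (End F V)ˣ}
    (hH : SUn (B.domRestrict₁₂ (fx z) (fx z)) ≤ kerG z H) {g : V ≃ₗ[F] V} {k : fx z ≃ₗ[F] fx z}
    (hk : k ∈ SUG (B.domRestrict₁₂ (fx z) (fx z))) (e : ∀ w : fx z, g w = k w) (e' : ∀ y ∈ fx (-z), g y = y) :
    g ∈ H.comap toE.symm.toMonoidHom := by
  obtain ⟨g', hg, -, h3, h4⟩ := hH (show toE.symm k ∈ SUn _ by simpa [SUn] using hk)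
  have hz' : -z * -z = 1 := by simpa using hz
  obtain rfl : g' = toE.symm g := Ev.ext h2 (z := z)
    ((ev_iff h2 hz).2 fun x hx => (h3 ⟨x, hx⟩).symm.trans (e ⟨x, hx⟩).symm)
    ((ev_iff h2 hz').2 fun x hx => ((ev_iff h2 hz').1 h4 x hx).trans (e' x hx).symm)
  exact hg

section block

variable [FiniteDimensional F V] (h : IsHerm B q) (h2 : (2 : F) ≠ 0) {z : (End F V)ˣ} (hz : z ∈ Un B)
  (hz2 : z * z = 1) {H : Subgroup (End F V)ˣ} (hH : SUn (B.domRestrict₁₂ (fx z) (fx z)) ≤ kerG z H)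
include h h2 hz hz2 hH

theorem uCen_of_block {v : V} (hv : v ∈ fx z) (h0 : B v v = 0) :
    v ∈ UCen B (H.comap toE.symm.toMonoidHom ⊓ UG B) :=
  h.mem_uCen_of h0 fun c g hc hg hg' => by
    obtain ⟨k, hk, e⟩ := (h.restrict (disjoint_fx h h2 hz hz2)).exists_tv (v := ⟨v, hv⟩) h0 hc
    exact ⟨mem_of_block h2 hz2 hH hk (fun w => by rw [hg, e]; rfl) fun y hy => hg.fix (orth_fx h2 hz hv hy),
      SUG_le_UG hg'⟩

theorem eichIn_of_block {r w : V} (hr : r ∈ fx z) (hw : w ∈ fx z) (h0 : B r r = 0) (h1 : B r w = 0) :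
    EichIn B (H.comap toE.symm.toMonoidHom ⊓ UG B) r w := fun c g hc hg => by
  obtain ⟨k, hk, e⟩ := (h.restrict (disjoint_fx h h2 hz hz2)).exists_eich (r := ⟨r, hr⟩) (w := ⟨w, hw⟩) h0 h1 hc
  exact ⟨mem_of_block h2 hz2 hH hk (fun w => by rw [hg, e]; rfl)
    fun y hy => hg.fix (orth_fx h2 hz hr hy) (orth_fx h2 hz hw hy), SUG_le_UG (h.eich_mem_SUG h0 h1 hc hg)⟩

end block

theorem SUn_invol [Finite (End F V)] {i : F} {R : Subgroup (End F V)ˣ} (P : LP i R) (hd : 4 < finrank F (End F V))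
    (hR : R ≤ Un B) {a : (End F V)ˣ} (ha : a ∈ R) (ha2 : a * a = 1) (ha0 : a ∉ Zc (End F V)) : a ∈ SUn B :=
  ⟨hR ha, P.hom_invol hd (LinearEquiv.det.comp toE.toMonoidHom) ha ha2 ha0⟩

/-- **The unitary case.** -/
theorem uni (hp : ∀ a : IsBar.fixedField σ, ∃ n : ℕ, a = n) {i : F} (m : ℕ) :
    ∀ {V : Type v} [AddCommGroup V] [Module F V] [FiniteDimensional F V] {B : V →ₛₗ[σ] V →ₗ[F] F}, IsHerm B q →
      finrank F V = 2 ^ (m + 2) → ∀ {R H : Subgroup (End F V)ˣ}, LP i R → R ≤ Un B → Nm R ≤ H → H ≤ Sim B →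
      H ≤ Nm R ∨ SUn B ≤ H := by
  induction m with
  | zero =>
    intro V _ _ _ B h hn R H P hR hM hH
    have := h.bar.finite
    have : Finite (End F V) := Module.finite_of_finite F
    exact (P.base (by rw [finrank_linearMap, hn]; rfl) hp (amb h P.toPauli hR) hM (commutator_le_Un hH)).imp_right
      fun e => e _ (Subgroup.comap_mono SUG_le_UG) (SUn_le_commutator h (by rw [hn]; rfl))
  | succ m ih =>
    intro V _ _ _ B h hn R H P hR hM hH
    have := h.bar.finite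
    have : Finite (End F V) := Module.finite_of_finite F
    have h8 : 8 ≤ finrank F V := by rw [hn]; exact Nat.pow_le_pow_right two_pos (by omega : 3 ≤ m + 1 + 2)
    have hd : 16 < finrank F (End F V) := by rw [finrank_linearMap]; nlinarith
    refine (P.le_Nm_or hd hM).imp_right fun hz => ?_
    have h1 : ∀ z ∈ R, z * z = 1 → z ∉ Zc (End F V) → SUn (B.domRestrict₁₂ (fx z) (fx z)) ≤ kerG z H :=
      fun z hzR hz2 hz0 => by
        have h3 := P.finrank_res hzR hz2 hz0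
        have h4 : finrank F (fx z) = 2 ^ (m + 2) := by rw [hn, pow_succ] at h3; omega
        have P' := P.res hzR hz2 hz0
        have : Finite (End F (fx z)) := Module.finite_of_finite F
        have hd' : 4 < finrank F (End F (fx z)) := by rw [finrank_linearMap]; nlinarith
        obtain ⟨a, ha, ha2, ha0, -⟩ := P'.exists_comm_invol (k := 0) (by omega) ![] (by simp)
        have h' := h.restrict (disjoint_fx h P.two (hR hzR) hz2)
        have hR' : resG z R ≤ Un (B.domRestrict₁₂ (fx z) (fx z)) := by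
          rintro k ⟨g, hg, -, e⟩
          exact mem_Un.2 fun u v => by simpa only [LinearMap.domRestrict₁₂_apply, e _] using mem_Un.1 (hR hg) u v
        refine SUn_le_of_normal h' (by omega) conj_mem_kerG ((ih h' h4 P' hR' (P.Nm_res_le hzR hz2 hz0 hM) ?_).resolve_left
          fun e => hz z hzR hz2 hz0 (P.hz_of_res hz2 e)) (P.res_le_kerG hzR hz2 hz0 hM ha)
          (SUn_invol P' hd' hR' ha ha2 ha0) ha0
        rintro k ⟨g, hg, -, e⟩
        obtain ⟨c, hc⟩ := hH hg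
        exact ⟨c, fun u v => by simpa only [LinearMap.domRestrict₁₂_apply, e _] using hc u v⟩
    obtain ⟨z, hzR, z', hz', Y, hY, a1, a2, a3, a4, a5, a6⟩ := P.exists_pair (by omega)
    have b1 := R.mul_mem hzR hz'
    have b2 : z * z' * (z * z') = 1 := by rw [mul_assoc, cw a4, a2, mul_one, a1]
    have b3 := h1 z hzR a1 a3
    have b4 := h1 z' hz' a2 (P.notMem_of_anti a6)
    have b5 := h1 _ b1 b2 (P.notMem_of_anti (y := Y) (by rw [mul_assoc, a6, mul_neg, cw a5]))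
    obtain ⟨r, hr, hr', hr0, hrr⟩ : ∃ r ∈ fx z, r ∈ fx z' ∧ r ≠ 0 ∧ B r r = 0 := by
      obtain ⟨k, hk⟩ := exists_rs a4
      obtain ⟨l, hl⟩ := exists_rs a5.symm
      have h' := h.restrict (disjoint_fx h P.two (hR hzR) a1)
      have k2 : k * k = 1 := (hk.mul hk).unique (a2 ▸ Rs.one)
      have h3 := finrank_fx P.two k2 ((hl.mul hk).unique (anti_symm a6 ▸ (hk.mul hl).neg))
      have h4 := P.finrank_res hzR a1 a3
      obtain ⟨x, hx, h0, e⟩ := h'.exists_isotropic_mem (disjoint_fx h' P.two (mem_Un.2 fun u v => by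
        simpa only [LinearMap.domRestrict₁₂_apply, hk _] using mem_Un.1 (hR hz') u v) k2) (by omega)
      exact ⟨x, x.2, mem_fx.2 ((hk x).symm.trans (congrArg Subtype.val (mem_fx.1 hx))),
        fun e => h0 (Subtype.ext e), e⟩
    obtain ⟨s, hs, hss, hrs⟩ := h.exists_hyperbolic_mem (disjoint_fx h P.two (hR hzR) a1) hr hr0 hrr
    have c1 := uCen_of_block h P.two (hR hzR) a1 b3 hr hrr
    have a1' : -z * -z = 1 := by simpa using a1
    have key := h.SUG_le_of_eich (by omega) inf_le_right c1 (fun w hw => ?_)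
      (uCen_of_block h P.two (hR hzR) a1 b3 hs hss) (by rw [hrs]; exact one_ne_zero)
    · intro g hg
      simpa using (key hg).1
    have d1 : B r (pr F (-z) w) = 0 := orth_fx P.two (hR hzR) hr (pr_mem a1' w)
    have d2 : B r (pr F z w) = 0 := by rwa [← pr_add_app P.two z w, map_add, d1, add_zero] at hw
    have d3 : B r (pr F (-z') (pr F (-z) w)) = 0 := orth_fx P.two (hR hz') hr' (pr_mem (by simpa using a2) _)
    have d4 : B r (pr F z' (pr F (-z) w)) = 0 := by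
      rwa [← pr_add_app P.two z' (pr F (-z) w), map_add, d3, add_zero] at d1
    rw [← pr_add_app P.two z w, ← pr_add_app P.two z' (pr F (-z) w)]
    refine h.eichIn_add c1 d2 (by rw [map_add, d3, d4, add_zero])
      (eichIn_of_block h P.two (hR hzR) a1 b3 hr (pr_mem a1 w) hrr d2) (h.eichIn_add c1 d4 d3
        (eichIn_of_block h P.two (hR hz') a2 b4 hr' (pr_mem a2 _) hrr d4)
        (eichIn_of_block h P.two (hR b1) b2 b5 (by rw [mem_fx, mul_app, mem_fx.1 hr', mem_fx.1 hr]) ?_ hrr d3))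
    rw [← End.mul_apply, pr_comm (z := -z') (z' := -z) (by simp [a4]), ← pr_neg_mul_pr a1,
      pr_comm (z := -z) (z' := z * z') (by simp [mul_assoc, a4])]
    exact pr_mem b2 _

end CL.Pa
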