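/-
Project C6 (r = 2), file 13: the base of the induction for overgroups of the determinant one part of the normaliser,
and the linear and unitary theorems for such overgroups.
-/
import Cfsg.Agent.Cls.Pauli12

set_option autoImplicit false

namespace CL.Pa

open Module CL.Cls CL.Cls.Fr CL.Uni CL.SLn

section abstract

variable {F 𝔄 : Type*} [Field F] [Ring 𝔄] [Algebra F 𝔄]

/-- `K` contains the `i c` and the quotients of the `σ_c`. -/
def Qp (i : F) (R K : Subgroup 𝔄ˣ) : Prop :=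
  ∀ c ∈ R, c * c = 1 → c ∉ Zc 𝔄 → scu 𝔄 i * c ∈ K ∧ ∀ d ∈ R, d * d = 1 → d ∉ Zc 𝔄 → sig i d * (sig i c)⁻¹ ∈ K

theorem commutator_sup_Zc (H : Subgroup 𝔄ˣ) : ⁅H ⊔ Zc 𝔄, H ⊔ Zc 𝔄⁆ ≤ ⁅H, H⁆ :=
  Subgroup.commutator_le.2 fun a ha b hb => by
    obtain ⟨a, ha', u, hu, rfl⟩ := Subgroup.mem_sup_of_normal_right.1 ha
    obtain ⟨b, hb', w, hw, rfl⟩ := Subgroup.mem_sup_of_normal_right.1 hb
    convert Subgroup.commutator_mem_commutator ha' hb' using 1
    rw [commutatorElement_def, commutatorElement_def, show a * u * (b * w) * (a * u)⁻¹ * (b * w)⁻¹ =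
      a * (u * (b * w) * u⁻¹) * a⁻¹ * w⁻¹ * b⁻¹ by group, conj_eq_of_comm (Zc_comm hu _),
      show a * (b * w) * a⁻¹ * w⁻¹ = a * b * (w * a⁻¹ * w⁻¹) by group, conj_eq_of_comm (Zc_comm hw _)]

namespace LP

variable {i : F} {R : Subgroup 𝔄ˣ} (P : LP i R) [Finite 𝔄]
include P

theorem qp_comm (hd : 4 < finrank F 𝔄) {K : Subgroup 𝔄ˣ} (hK : Qp i R K) : Qp i R ⁅K, K⁆ := by
  have k1 : ∀ c ∈ R, ∀ c' ∈ R, c * c = 1 → c' * c' = 1 → c * c' = -(c' * c) → sig i c' * (sig i c)⁻¹ ∈ ⁅K, K⁆ := by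
    intro c hc c' hc' hc2 hc2' h
    obtain ⟨d, hdR, hd2, hd0, e⟩ := P.exists_comm_invol (k := 2) hd ![c, c'] (by intro j; fin_cases j <;> assumption)
    have c1 : Commute d c := e 0
    have c2 : Commute d c' := e 1
    obtain ⟨ha2, e1⟩ := P.sig_conj_anti hc2 hc2' h
    have ha := R.mul_mem P.iR (R.mul_mem hc hc')
    have c3 : Commute (scu 𝔄 i * (c * c')) d :=
      (show Commute _ d from Zc_comm P.ι_mem d).mul_left (c1.mul_right c2).symm
    have ha0 : scu 𝔄 i * (c * c') ∉ Zc 𝔄 := fun e2 => P.neg_ne c (by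
      rw [conj_eq_of_comm (sig_comm P.two P.ii ha2 (Zc_comm e2 c))] at e1
      rw [← e1, hc2] at h
      simpa using (congrArg (fun x => -x * c) h.symm).symm)
    generalize scu 𝔄 i * (c * c') = a at *
    have := Subgroup.commutator_mem_commutator ((hK d hdR hd2 hd0).2 a ha ha2 ha0)
      ((hK d hdR hd2 hd0).2 c hc hc2 (P.notMem_of_anti h))
    have c4 : Commute (sig i d) (sig i c) := sig_comm P.two P.ii hd2 (sig_comm P.two P.ii hc2 c1.symm).symm
    have c5 : Commute (sig i a) (sig i d) := sig_comm P.two P.ii ha2 (sig_comm P.two P.ii hd2 c3.symm).symm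
    convert this using 1
    rw [← e1, ← conj_sig P.two P.ii hc2, commutatorElement_def, mul_inv_rev, mul_inv_rev, inv_inv]
    simp only [mul_assoc, inv_mul_cancel_left]
    rw [← mul_assoc (sig i d)⁻¹, c4.inv_left.eq, ← mul_assoc _ (sig i d), c5.inv_left.eq]
    simp only [mul_assoc, inv_mul_cancel_left]
  intro c hc hc2 hc0
  refine ⟨?_, fun d hd hd2 hd0 => ?_⟩
  · obtain ⟨a, ha, ha2, e⟩ := P.exists_anti_invol hc hc0
    have ha0 := P.notMem_of_anti (anti_symm e)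
    have := Subgroup.commutator_mem_commutator ((hK a ha ha2 ha0).2 c hc hc2 hc0) (hK a ha ha2 ha0).1
    convert this using 1
    rw [commutatorElement_def, ← mul_assoc, ← Zc_comm P.ι_mem, mul_inv_rev, mul_inv_rev, inv_inv,
      show scu 𝔄 i * (sig i c * (sig i a)⁻¹) * a * (sig i a * (sig i c)⁻¹) = scu 𝔄 i * (sig i c * ((sig i a)⁻¹ * a *
        (sig i a)⁻¹⁻¹) * (sig i c)⁻¹) by group,
      conj_eq_of_comm (show Commute _ a from sig_comm P.two P.ii ha2 rfl).inv_left.eq, sig_anti P.two P.ii hc2 e,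
      Zc_comm P.ι_mem (_ * _ * _), mul_assoc _ (scu 𝔄 i), ← mul_assoc (scu 𝔄 i) a⁻¹, Zc_comm P.ι_mem a⁻¹]
    group
  · obtain ⟨u, hu, h1, h2⟩ := P.exists_anti_two hc hd hc0 hd0
    obtain ⟨w, hw, hu', hu2⟩ := P.exists_invol hu
    have h3 : ∀ a : 𝔄ˣ, a * u = -(u * a) → a * (w * u) = -(w * u * a) := fun a h => by
      rw [← mul_assoc, ← Zc_comm hw, mul_assoc, h, mul_neg, mul_assoc]
    simpa [mul_assoc] using mul_mem (k1 _ hu' d hd hu2 hd2 (anti_symm (h3 d h2))) (k1 c hc _ hu' hc2 hu2 (h3 c h1))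

theorem le_Nm_of_qp {H D : Subgroup 𝔄ˣ} (hQ : Qp i R D) (hD : ∀ h ∈ H, ∀ d ∈ D, h * d * h⁻¹ ∈ Nm R) : H ≤ Nm R := by
  have hZ : ∀ w ∈ Zc 𝔄, ∀ h x : 𝔄ˣ, h * (w * x) * h⁻¹ = w * (h * x * h⁻¹) := fun w hw h x => by
    rw [← mul_assoc, ← Zc_comm hw, mul_assoc w, mul_assoc w]
  have h1 : ∀ h ∈ H, ∀ r ∈ R, h * r * h⁻¹ ∈ Nm R := fun h hh r hr => by
    by_cases h0 : r ∈ Zc 𝔄
    · exact Zc_le_Nm R (conj_mem_Zc.2 h0)
    obtain ⟨w, hw, e1, e2⟩ := P.exists_invol hr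
    have := hD h hh _ (hQ _ e1 e2 fun e => h0 ((Subgroup.mul_mem_cancel_left _ hw).1 e)).1
    rwa [hZ _ P.ι_mem, hZ _ hw, (Nm R).mul_mem_cancel_left (Zc_le_Nm R P.ι_mem),
      (Nm R).mul_mem_cancel_left (Zc_le_Nm R hw)] at this
  intro h hh
  by_cases hc : ∃ c ∈ R, c ∉ Zc 𝔄 ∧ h⁻¹ * c * h⁻¹⁻¹ ∈ R
  · have k0 : ∀ c ∈ R, ∀ w ∈ Zc 𝔄, w * c ∈ R → (h⁻¹ * (w * c) * h⁻¹⁻¹ ∈ R ↔ h⁻¹ * c * h⁻¹⁻¹ ∈ R) :=
      fun c hc w hw e => by rw [hZ _ hw, R.mul_mem_cancel_left ((R.mul_mem_cancel_right hc).1 e)]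
    have k1 : ∀ c ∈ R, h⁻¹ * c * h⁻¹⁻¹ ∈ R → ∀ c' ∈ R, c * c' = -(c' * c) → h⁻¹ * c' * h⁻¹⁻¹ ∈ R := by
      intro c hc e c' hc' e'
      obtain ⟨w, hw, e1, e2⟩ := P.exists_invol hc
      obtain ⟨w', hw', e1', e2'⟩ := P.exists_invol hc'
      rw [← k0 c hc w hw e1] at e
      rw [← k0 c' hc' w' hw' e1']
      replace e' : w' * c' * (w * c) = -(w * c * (w' * c')) := by
        rw [mul_assoc, ← mul_assoc c', ← Zc_comm hw, mul_assoc w, anti_symm e', mul_assoc w, ← mul_assoc c,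
          ← Zc_comm hw' c, ← mul_assoc w', ← Zc_comm hw w']
        simp only [mul_assoc, mul_neg]
      generalize w * c = a at *
      generalize w' * c' = b at *
      have h3 := conj_mem (hD _ (H.inv_mem hh) _ ((hQ a e1 e2 (P.notMem_of_anti (anti_symm e'))).2 b e1' e2'
        (P.notMem_of_anti e'))) e
      rw [show h⁻¹ * (sig i b * (sig i a)⁻¹) * h⁻¹⁻¹ * (h⁻¹ * a * h⁻¹⁻¹) * (h⁻¹ * (sig i b * (sig i a)⁻¹) * h⁻¹⁻¹)⁻¹ =
        h⁻¹ * (sig i b * ((sig i a)⁻¹ * a * (sig i a)⁻¹⁻¹) * (sig i b)⁻¹) * h⁻¹⁻¹ by group,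
        conj_eq_of_comm (show Commute _ a from sig_comm P.two P.ii e2 rfl).inv_left.eq, sig_anti P.two P.ii e2' e',
        mul_assoc (scu 𝔄 i), hZ _ P.ι_mem, R.mul_mem_cancel_left P.iR, ← conj_mul, R.mul_mem_cancel_right e] at h3
      exact h3
    obtain ⟨c, hc, hc0, e⟩ := hc
    rw [← inv_mem_iff]
    refine mem_Nm fun r hr => ?_
    by_cases h0 : r ∈ Zc 𝔄
    · rwa [conj_eq_of_comm (Zc_comm h0 _).symm]
    obtain ⟨u, hu, e1, e2⟩ := P.exists_anti_two hc hr hc0 h0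
    exact k1 u hu (k1 c hc e u hu e1) r hr (anti_symm e2)
  · push Not at hc
    refine mem_Nm fun r hr => ?_
    obtain ⟨r', hr', hu⟩ := P.exists_mem_of_act (g := h * r * h⁻¹) fun x hx => by
      by_contra h0
      refine hc _ (R.mul_mem (R.inv_mem hx) (conj_mem (h1 h hh r hr) hx)) h0 ?_
      have := R.mul_mem (conj_mem (h1 _ (H.inv_mem hh) _ (R.inv_mem hx)) hr) (R.inv_mem hr)
      convert this using 1
      group
    refine P.mem_of_mul_mem hr' ?_ hu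
    rw [conj_mul]
    rcases P.sq r hr with e | e <;> simp [e]

/-- **Base of the induction**, for overgroups of the derived part of the normaliser. -/
theorem base' (hd : finrank F 𝔄 = 16) {K : Subfield F} (hp : ∀ a : K, ∃ n : ℕ, a = n) {U : Subgroup 𝔄ˣ}
    (hU : Amb R K U) {H : Subgroup 𝔄ˣ} (hZ : Zc 𝔄 ≤ H) (hQ : Qp i R H) (hM : Nm R ⊓ ⁅U, U⁆ ≤ H) (hH : ⁅H, H⁆ ≤ U) :
    H ≤ Nm R ∨ ∀ T : Subgroup 𝔄ˣ, T ≤ U → T ≤ ⁅T, T⁆ → T ≤ H := by
  obtain ⟨e, st, S⟩ := P.exists_six hd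
  have := P.nt
  have : Finite F := Finite.of_injective _ (algebraMap F 𝔄).injective
  have h2 : (2 : K) ≠ 0 := fun h => P.two (congrArg Subtype.val h)
  have hG : ∀ T : Subgroup 𝔄ˣ, ⁅T, T⁆ ≤ U → ⁅⁅T, T⁆, ⁅T, T⁆⁆ ≤ (⁅S.Gam K U, S.Gam K U⁆).map (MonoidHom.fst _ _) :=
    fun T hT => by
      have : ⁅T, T⁆ ≤ (S.Gam K U).map (MonoidHom.fst _ _) := fun g hg => by
        obtain ⟨ω, h⟩ := S.exists_mem_Gam P hU (hT hg) (S.cc_commutator P hg)
        exact ⟨_, h, rfl⟩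
      rw [Subgroup.map_commutator]
      exact Subgroup.commutator_mono this this
  have hO : (⁅S.Gam K U, S.Gam K U⁆).map (MonoidHom.snd _ _) = commutator _ := by
    rw [Subgroup.map_commutator]
    refine le_antisymm (Subgroup.commutator_mono le_top le_top) ?_
    rw [← commutator_commutator_OG (nondeg_sQ h2) (by simp)]
    exact Subgroup.commutator_mono (S.commutator_le_snd P hU) (S.commutator_le_snd P hU)
  have hle : ⁅S.Gam K U, S.Gam K U⁆ ≤ S.Gam K U := Subgroup.commutator_le_self _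
  by_cases hc : commutator _ ≤ (⁅S.Gam K U, S.Gam K U⁆ ⊓ H.comap (MonoidHom.fst _ _)).map (MonoidHom.snd _ _)
  · refine Or.inr fun T hT hT' g hg => ?_
    obtain ⟨p, hp, rfl⟩ := hG T ((Subgroup.commutator_le_self T).trans hT)
      (Subgroup.commutator_mono hT' hT' (hT' hg))
    obtain ⟨p', ⟨h3, h4⟩, h5⟩ := hc (hO ▸ ⟨p, hp, rfl⟩ : p.2 ∈ commutator _)
    have h6 := mul_mem (inv_mem (hle h3)) (hle hp)
    rw [show p'⁻¹ * p = (p'.1⁻¹ * p.1, 1) from Prod.ext rfl (inv_mul_eq_one.2 h5)] at h6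
    exact (H.mul_mem_cancel_left (H.inv_mem h4)).1 (hZ (S.mem_Zc_of_one P h6))
  · have h3 := le_Mon_six h2 hp (by simp) (fun ω h => ?_) ((Subgroup.map_mono inf_le_left).trans hO.le) hc
    · refine Or.inl (P.le_Nm_of_qp (P.qp_comm (by omega) (P.qp_comm (by omega) hQ)) fun h hh d hd => ?_)
      have hg := conj_mem_commutator (conj_mem_commutator fun a ha => H.mul_mem (H.mul_mem hh ha) (H.inv_mem hh)) d hd
      generalize h * d * h⁻¹ = g at hg
      obtain ⟨p, hp, rfl⟩ := hG H hH hg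
      exact S.mem_Nm_of_Mon P (hle hp) (h3 ⟨p, ⟨hp, Subgroup.commutator_le_self H
        (Subgroup.commutator_le_self _ hg)⟩, rfl⟩)
    · obtain ⟨p, hp, rfl⟩ := hO.ge h.2
      have h4 : (S.Gam K U).map (MonoidHom.fst _ _) ≤ U := by rintro _ ⟨p, hp, rfl⟩; exact hp.1
      have h5 := Subgroup.mem_map_of_mem (MonoidHom.fst _ _) hp
      rw [Subgroup.map_commutator] at h5
      exact ⟨p, ⟨hp, hM ⟨S.mem_Nm_of_Mon P (hle hp) h.1, Subgroup.commutator_mono h4 h4 h5⟩⟩, rfl⟩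

end LP

end abstract

universe u v

variable {F : Type u} [Field F] {V : Type v} [AddCommGroup V] [Module F V]

/-- The determinant. -/
noncomputable def dt : (End F V)ˣ →* Fˣ := LinearEquiv.det.comp toE.toMonoidHom

theorem dt_val (g : (End F V)ˣ) : (dt g : F) = LinearMap.det g.1 := LinearEquiv.coe_det _

/-- The element `(1 + i c) / (1 + i)`. -/
noncomputable def sc (i : F) (c : (End F V)ˣ) : (End F V)ˣ := scu (End F V) (1 + i)⁻¹ * sig i c

namespace LP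

variable {i : F} {R : Subgroup (End F V)ˣ} (P : LP i R)
include P

theorem one_add_ne : 1 + i ≠ 0 := fun h => P.two (by linear_combination P.ii + (1 - i) * h)

theorem sc_app {c : (End F V)ˣ} (hc : c * c = 1) (x : V) : (sc i c).1 x = (1 + i)⁻¹ • (x + i • c.1 x) := by
  simp [sc, scu_val (inv_ne_zero P.one_add_ne), sig_val P.two P.ii hc]

theorem sig_eq (c : (End F V)ˣ) : sig i c = sc i c * (scu (End F V) (1 + i)⁻¹)⁻¹ := by
  rw [sc, Zc_comm (scu_mem (inv_ne_zero P.one_add_ne)), mul_inv_cancel_right]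

theorem sig_div (c d : (End F V)ˣ) : sig i d * (sig i c)⁻¹ = sc i d * (sc i c)⁻¹ := by
  simp [P.sig_eq, mul_assoc]

variable [FiniteDimensional F V]

theorem exists_pow [Finite (End F V)] (hn : 4 ≤ finrank F V) : ∃ m, finrank F V = 2 ^ (m + 2) := by
  have h := P.finrank_eq
  rw [finrank_linearMap] at h
  obtain ⟨j, -, hj⟩ := (Nat.dvd_prime_pow Nat.prime_two).1 (Dvd.intro _ h)
  refine ⟨j - 2, hj.trans (congrArg _ (Nat.sub_add_cancel ?_).symm)⟩
  by_contra h2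
  have := Nat.pow_le_pow_right two_pos (show j ≤ 1 by omega)
  omega

theorem dt_sc {k : ℕ} (hn : finrank F V = 2 * k) {c : (End F V)ˣ} (hc : c ∈ R) (hc2 : c * c = 1)
    (hc0 : c ∉ Zc (End F V)) : (dt (sc i c) : F) = (-i) ^ k := by
  have h := P.finrank_res (P.neg_mem hc) (by simpa using hc2) (by rwa [neg_mem_Zc])
  have h1 := P.one_add_ne
  rw [dt_val, det_of_fx P.two hc2 (c := -i) (fun x hx => ?_) fun x hx => ?_, show finrank F (fx (-c)) = k by omega]
  · rw [P.sc_app hc2, mem_fx.1 hx]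
    match_scalars
    field_simp
  · rw [P.sc_app hc2, mem_fx_neg.1 hx]
    match_scalars
    field_simp
    linear_combination P.ii

variable [Finite (End F V)]

theorem dt_of_mem {m : ℕ} (hn : finrank F V = 2 ^ (m + 2)) {r : (End F V)ˣ} (hr : r ∈ R) : dt r = 1 := by
  have h4 : 4 ≤ finrank F V := by rw [hn]; exact Nat.pow_le_pow_right two_pos (by omega : 2 ≤ m + 2)
  have h1 : ∀ r ∈ R, r ∈ Zc (End F V) → dt r = 1 := fun r hr h0 => by
    obtain ⟨c, -, hc⟩ := P.exists_smul_of_mem h0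
    have h2 := congrArg Units.val (P.pow_four hr)
    have := P.nt
    rw [Units.val_pow_eq_pow_val, hc, smul_pow, one_pow, Units.val_one, ← sub_eq_zero, ← one_smul F (1 : End F V),
      smul_smul, mul_one, ← sub_smul, smul_eq_zero, sub_eq_zero] at h2
    refine Units.ext ?_
    rw [dt_val, hc, LinearMap.det_smul, map_one, mul_one, hn, pow_add, mul_comm, pow_mul,
      show c ^ 2 ^ 2 = 1 from h2.resolve_right one_ne_zero, one_pow, Units.val_one]
  by_cases h0 : r ∈ Zc (End F V)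
  · exact h1 r hr h0
  obtain ⟨w, hw, e1, e2⟩ := P.exists_invol hr
  have := P.hom_invol (by rw [finrank_linearMap]; nlinarith) dt e1 e2
    fun e => h0 ((Subgroup.mul_mem_cancel_left _ hw).1 e)
  rwa [map_mul, h1 w ((R.mul_mem_cancel_right hr).1 e1) hw, one_mul] at this

variable {S H : Subgroup (End F V)ˣ} (hR : ∀ r ∈ R, dt r = 1 → r ∈ S)
  (hs : ∀ c ∈ R, c * c = 1 → ∀ d ∈ R, d * d = 1 → dt (sc i d * (sc i c)⁻¹) = 1 → sc i d * (sc i c)⁻¹ ∈ S)
  (hH : Nm R ⊓ S ≤ H)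
include hR hs hH

theorem qp_of {m : ℕ} (hn : finrank F V = 2 ^ (m + 2)) : Qp i R H := fun c hc hc2 hc0 => by
  have h1 := R.mul_mem P.iR hc
  refine ⟨hH ⟨Subgroup.le_normalizer h1, hR _ h1 (P.dt_of_mem hn h1)⟩, fun d hd hd2 hd0 =>
    hH ⟨(Nm R).mul_mem (P.sig_mem_Nm hd hd2) ((Nm R).inv_mem (P.sig_mem_Nm hc hc2)), P.sig_div c d ▸ hs c hc hc2 d hd hd2 ?_⟩⟩
  have hn' : finrank F V = 2 * 2 ^ (m + 1) := by rw [hn, pow_succ, mul_comm]
  rw [map_mul, map_inv, mul_inv_eq_one, ← Units.val_inj, P.dt_sc hn' hd hd2 hd0, P.dt_sc hn' hc hc2 hc0]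

theorem Nm_le_sup {m : ℕ} (hn : finrank F V = 2 ^ (m + 1 + 2)) : Nm R ≤ H ⊔ Zc (End F V) := by
  refine P.Nm_le (fun r hr => Subgroup.mem_sup_left (hH ⟨Subgroup.le_normalizer hr, hR r hr (P.dt_of_mem hn hr)⟩))
    le_sup_right fun a ha ha2 ha0 => ?_
  have h0 := scu_mem (𝔄 := End F V) (inv_ne_zero P.one_add_ne)
  have h1 : sc i (1 : (End F V)ˣ) = 1 := Units.ext (LinearMap.ext fun x => by
    have := P.one_add_ne
    rw [P.sc_app (mul_one 1)]
    simp only [Units.val_one, End.one_apply]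
    match_scalars
    field_simp)
  have h2 := hs 1 R.one_mem (mul_one 1) a ha ha2
  rw [h1, inv_one, mul_one] at h2
  rw [P.sig_eq]
  refine Subgroup.mul_mem_sup (hH ⟨mul_mem (Zc_le_Nm R h0) (P.sig_mem_Nm ha ha2), h2 (Units.ext ?_)⟩) (inv_mem h0)
  rw [P.dt_sc (k := 2 * 2 * 2 ^ m) (by rw [hn]; ring) ha ha2 ha0, pow_mul, pow_mul, neg_sq, sq i, P.ii]
  simp

end LP

/-- **The linear case** for overgroups of `N(R) ∩ SL(V)`. -/
theorem lin_top [Finite F] (hp : ∀ a : F, ∃ n : ℕ, a = n) [FiniteDimensional F V] (hn : 4 ≤ finrank F V) {i : F}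
    {R H : Subgroup (End F V)ˣ} (P : LP i R) (hH : Nm R ⊓ dt.ker ≤ H) : H ≤ Nm R ∨ centers F V H = ⊤ := by
  have : Finite (End F V) := Module.finite_of_finite F
  have h1 := TT_le_commutator (F := F) (V := V) (by omega)
  have h2 : ⁅(⊤ : Subgroup (End F V)ˣ), ⊤⁆ ≤ dt.ker :=
    Subgroup.commutator_le.2 fun a _ b _ => by simp [commutatorElement_def]
  have h3 : ∀ r : (End F V)ˣ, dt r = 1 → r ∈ dt.ker := fun _ => MonoidHom.mem_ker.2
  generalize (dt : (End F V)ˣ →* Fˣ).ker = S at *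
  have key : H ⊔ Zc (End F V) ≤ Nm R ∨ TT F V ≤ H ⊔ Zc (End F V) := by
    obtain ⟨m, hm⟩ := P.exists_pow hn
    cases m with
    | zero =>
      refine (P.base' (K := ⊤) (U := ⊤) (by rw [finrank_linearMap, hm]; rfl) (fun a => ?_) (Or.inl ⟨rfl, rfl⟩)
        le_sup_right (P.qp_of (S := S) (fun _ _ => h3 _) (fun _ _ _ _ _ _ => h3 _) (hH.trans le_sup_left) hm)
        (((inf_le_inf_left _ h2).trans hH).trans le_sup_left) le_top).imp_right fun h => h _ le_top h1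
      obtain ⟨n, hn⟩ := hp a
      exact ⟨n, Subtype.ext (by simpa using hn)⟩
    | succ m =>
      exact (lin hp _ hm P (P.Nm_le_sup (S := S) (fun _ _ => h3 _) (fun _ _ _ _ _ _ => h3 _) hH hm)).imp_right TT_le
  exact key.imp le_sup_left.trans fun h => centers_of_TT_le (h1.trans ((Subgroup.commutator_mono h h).trans
    ((commutator_sup_Zc H).trans (Subgroup.commutator_le_self H))))

/-- **The unitary case** for overgroups of `N(R) ∩ SU(V)`. -/
theorem uni_top {q : ℕ} {σ : F →+* F} (hp : ∀ a : IsBar.fixedField σ, ∃ n : ℕ, a = n) [FiniteDimensional F V]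
    {B : V →ₛₗ[σ] V →ₗ[F] F} (h : IsHerm B q) (hn : 4 ≤ finrank F V) {i : F} {R H : Subgroup (End F V)ˣ} (P : LP i R)
    (hR : R ≤ Un B) (hH : Nm R ⊓ SUn B ≤ H) (hU : H ≤ Un B) : H ≤ Nm R ∨ SUn B ≤ H := by
  have := h.bar.finite
  have : Finite (End F V) := Module.finite_of_finite F
  have h1 := SUn_le_commutator h hn
  have hi : σ i = -i := by
    obtain ⟨u, v, e⟩ : ∃ u v, B u v ≠ 0 := by
      by_contra e
      push Not at e
      have : Subsingleton V := ⟨fun a b => (h.nondeg a (e a)).trans (h.nondeg b (e b)).symm⟩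
      rw [finrank_zero_of_subsingleton] at hn
      omega
    have := mem_Un.1 (hR P.iR) u v
    simp only [scu_val (i_ne_zero P.ii), LinearMap.smul_apply, End.one_apply, map_smulₛₗ, smul_eq_mul,
      RingHom.id_apply] at this
    have h2 : (i * σ i - 1) * B u v = 0 := by linear_combination this
    linear_combination -i * (mul_eq_zero.1 h2).resolve_right e + σ i * P.ii
  have h2 : ∀ c ∈ R, c * c = 1 → sc i c ∈ Un B := fun c hc hc2 => mem_Un.2 fun u v => by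
    have e1 := mem_Un.1 (hR hc) u v
    have e2 := mem_Un.1 (hR hc) u (c.1 v)
    rw [← mul_app, hc2] at e2
    have e3 := P.one_add_ne
    have e4 : 1 + -i ≠ 0 := fun e => P.two (by linear_combination P.ii + (1 + i) * e)
    simp only [P.sc_app hc2, map_smulₛₗ, map_add, LinearMap.smul_apply, LinearMap.add_apply, smul_eq_mul,
      map_inv₀, map_one, hi, e1, Units.val_one, End.one_apply, RingHom.id_apply] at e2 ⊢
    rw [e2]
    field_simp
    ring
  have h3 : ∀ r ∈ R, dt r = 1 → r ∈ SUn B := fun r hr e => ⟨hR hr, e⟩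
  have h4 : ∀ c ∈ R, c * c = 1 → ∀ d ∈ R, d * d = 1 → dt (sc i d * (sc i c)⁻¹) = 1 → sc i d * (sc i c)⁻¹ ∈ SUn B :=
    fun c hc hc2 d hd hd2 e => ⟨mul_mem (h2 d hd hd2) (inv_mem (h2 c hc hc2)), e⟩
  have h5 : H ⊔ Zc (End F V) ≤ Sim B := sup_le (fun g hg => ⟨1, fun u v => by simpa using mem_Un.1 (hU hg) u v⟩)
    fun g hg => by
      obtain ⟨c, h0, hc⟩ := P.exists_smul_of_mem hg
      exact ⟨Units.mk0 (c * σ c) (by simp [h0]), fun u v => by simp [hc, map_smulₛₗ, mul_assoc]⟩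
  have key : H ⊔ Zc (End F V) ≤ Nm R ∨ SUn B ≤ H ⊔ Zc (End F V) := by
    obtain ⟨m, hm⟩ := P.exists_pow hn
    cases m with
    | zero =>
      refine (P.base' (by rw [finrank_linearMap, hm]; rfl) hp (amb h P.toPauli hR) le_sup_right
        (P.qp_of h3 h4 (hH.trans le_sup_left) hm) (((inf_le_inf_left _ fun g hg => ?_).trans hH).trans le_sup_left)
        (commutator_le_Un h5)).imp_right fun e => e _ (Subgroup.comap_mono SUG_le_UG) h1
      exact ⟨Subgroup.commutator_le_self (Un B) hg, Abelianization.commutator_subset_ker dt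
        (Subgroup.commutator_mono le_top le_top hg)⟩
    | succ m => exact uni hp _ h hm P hR (P.Nm_le_sup h3 h4 hH hm) h5
  exact key.imp le_sup_left.trans fun h => h1.trans ((Subgroup.commutator_mono h h).trans
    ((commutator_sup_Zc H).trans (Subgroup.commutator_le_self H)))

end CL.Pa
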