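/-
Project C6 (r = 2), file 14: matrices.  The normaliser of an absolutely irreducible group `4 ∘ 2^{1+2m}` is maximal in
`SL_n(p)` and in `SU_n(p)`, for all `n ≥ 4`.
-/
import Cfsg.Agent.Cls.Pauli13
import Cfsg.Agent.Cls.MaxTools
import Cfsg.Agent.Cls.GeoProper
import Cfsg.Agent.Cls.UniProper

set_option autoImplicit false

namespace CL.Pa

open Module Matrix Cfsg Cfsg.Geo CL.Asch
open scoped MatrixGroups

universe u

variable {ι : Type} [Fintype ι] [DecidableEq ι] {F : Type u} [Field F]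

/-- Matrices as endomorphisms. -/
noncomputable abbrev tl : GL ι F ≃* (End F (ι → F))ˣ := Matrix.GeneralLinearGroup.toLin

theorem tl_val (g : GL ι F) : (tl g : End F (ι → F)) = Matrix.toLinAlgEquiv' (g : Matrix ι ι F) := rfl

theorem tl_app (g : GL ι F) (x : ι → F) : (tl g).1 x = (g : Matrix ι ι F) *ᵥ x := rfl

theorem tl_neg (g : GL ι F) : tl (-g) = -tl g := Units.ext (by simp)

theorem tl_scal (c : Fˣ) : tl (scal ι c) = scu (End F (ι → F)) (c : F) :=
  Units.ext (by rw [tl_val, coe_scal, scu_val c.ne_zero, map_smul, map_one])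

theorem dt_tl (g : GL ι F) : (dt (tl g) : F) = (g : Matrix ι ι F).det := by
  rw [dt_val, ← LinearMap.det_toLin']; rfl

/-- The image of a matrix group. -/
noncomputable abbrev tlm (R : Subgroup (GL ι F)) : Subgroup (End F (ι → F))ˣ := R.map tl.toMonoidHom

theorem mem_tlm {R : Subgroup (GL ι F)} {g : GL ι F} : tl g ∈ tlm R ↔ g ∈ R :=
  Subgroup.mem_map_iff_mem (f := (tl (ι := ι) (F := F)).toMonoidHom) tl.injective

theorem mem_Nm_tlm {R : Subgroup (GL ι F)} {g : GL ι F} : tl g ∈ Nm (tlm R) ↔ g ∈ subgroupNormalizer R := by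
  rw [Nm, ← Subgroup.map_equiv_normalizer_eq]
  exact mem_tlm

theorem pauli_of [Finite F] (h2 : (2 : F) ≠ 0) (hn : 2 ≤ Fintype.card ι) {R : Subgroup (GL ι F)}
    (hR : IsSymplecticTypeGroup 2 R) (hirr : ActsAbsolutelyIrreducibly (matrixSet R)) : Pauli F (tlm R) := by
  have h := isHeis_of_symp_two hR hirr
  have : Nonempty ι := Fintype.card_pos_iff.1 (by omega)
  have h4 : ∀ x ∈ R, x ^ 4 = 1 := fun x hx =>
    congrArg Subtype.val ((show 4 = Monoid.exponent R from hR.exponent_eq.symm) ▸ Monoid.pow_exponent_eq_one (⟨x, hx⟩ : R))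
  have k0 : ∀ u : Fˣ, u ^ 2 = 1 → u = 1 ∨ u = -1 := fun u e =>
    (sq_eq_one_iff.1 (show (u : F) ^ 2 = 1 from congrArg Units.val e)).imp Units.ext Units.ext
  have key : ∀ x ∈ R, ∀ y ∈ R, ∀ u : Fˣ, y * x = x * y * scal ι u → u = 1 ∨ u = -1 := fun x hx y hy u e => by
    have e1 := comm_pow_eq_one e (r := 4) (h4 y hy ▸ one_mem _)
    have e2 := mul_pow_of_central e (scal_comm u x) (scal_comm u y) 4
    rw [h4 _ (R.mul_mem hx hy), h4 x hx, h4 y hy, one_mul, one_mul, ← map_pow, eq_comm, ← map_one (scal ι),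
      scal_injective.eq_iff, show Nat.choose 4 2 = 4 + 2 from rfl, pow_add, e1, one_mul] at e2
    exact k0 u e2
  refine ⟨h2, ?_, ?_, ?_, ?_, end_cen⟩
  · exact Matrix.toLinAlgEquiv'.injective.nontrivial
  · obtain ⟨x, hx, y, hy, u, hu, e⟩ := h.exists_not_comm hn
    obtain rfl := (key x hx y hy u e).resolve_left hu
    refine ⟨scal ι (-1), ?_, by rw [scal_neg_one]; exact (tl_neg 1).trans (by rw [map_one])⟩
    rw [show scal ι (-1) = (x * y)⁻¹ * (y * x) by rw [e, inv_mul_cancel_left]]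
    exact R.mul_mem (R.inv_mem (R.mul_mem hx hy)) (R.mul_mem hy hx)
  · rintro _ ⟨x, hx, rfl⟩
    obtain ⟨u, hu⟩ : x * x ∈ scalars ι F := mem_scalars_of_comm_span h.span fun y hy => by
      obtain ⟨u, e⟩ := h.comm x hx y hy
      rw [← mul_assoc, e, mul_assoc, scal_comm, ← mul_assoc, mul_assoc x y x, e]
      rcases key x hx y hy u e with rfl | rfl <;> simp [scal_neg_one, mul_assoc]
    have e : scal ι (u ^ 2) = scal ι 1 := by
      rw [map_pow, show scal ι u = x * x from hu, map_one, ← h4 x hx, ← sq, ← pow_mul]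
    show tl x * tl x = 1 ∨ tl x * tl x = -1
    rw [← map_mul, ← show scal ι u = x * x from hu]
    rcases k0 u (scal_injective e) with rfl | rfl
    · exact Or.inl (by simp)
    · exact Or.inr (by rw [scal_neg_one, tl_neg, map_one])
  · refine eq_top_iff.2 fun a _ => ?_
    obtain ⟨a, rfl⟩ := Matrix.toLinAlgEquiv'.surjective a
    have h1 : ∀ g ∈ R, Matrix.toLinAlgEquiv' (g : Matrix ι ι F) ∈
        Submodule.span F (Units.val '' (tlm R : Set (End F (ι → F))ˣ)) := fun g hg =>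
      Submodule.subset_span ⟨tl g, mem_tlm.2 hg, rfl⟩
    generalize Submodule.span F (Units.val '' (tlm R : Set (End F (ι → F))ˣ)) = W at *
    refine spanAlg_induction (L := R) (p := fun a => Matrix.toLinAlgEquiv' a ∈ W) h1 (by simp) (fun x y h h' => ?_)
      (fun c x h => ?_) (h.span ▸ Algebra.mem_top)
    · rw [map_add]; exact add_mem h h'
    · rw [map_smul]; exact Submodule.smul_mem _ c h

theorem lp_of [Finite F] (h2 : (2 : F) ≠ 0) (hn : 2 ≤ Fintype.card ι) {R : Subgroup (GL ι F)}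
    (hR : IsSymplecticTypeGroup 2 R) (hirr : ActsAbsolutelyIrreducibly (matrixSet R))
    (hZ : Nat.card (Subgroup.center R) = 4) : ∃ i : F, LP i (tlm R) := by
  have : Nonempty ι := Fintype.card_pos_iff.1 (by omega)
  rw [(isHeis_of_symp_two hR hirr).card_center] at hZ
  obtain ⟨u, hu⟩ := IsCyclic.exists_ofOrder_eq_natCard (α := R.comap (scal ι : Fˣ →* GL ι F))
  rw [hZ, ← Subgroup.orderOf_coe, ← orderOf_units] at hu
  refine ⟨u.1, pauli_of h2 hn hR hirr, ?_, tl_scal (ι := ι) u.1 ▸ mem_tlm.2 u.2⟩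
  have h1 : ((u.1 : F) ^ 2) ^ 2 = 1 := by rw [← pow_mul, show 2 * 2 = 4 from rfl, ← hu, pow_orderOf_eq_one]
  rw [← sq]
  exact (sq_eq_one_iff.1 h1).resolve_left (pow_ne_one_of_lt_orderOf two_ne_zero (by omega))

/-- **Class C6 in `SL_n(p)`, `r = 2`.** -/
theorem isMaximalIn_sl_pauli [Fintype F] (hn : 4 ≤ Fintype.card ι) {R : Subgroup (GL ι F)}
    (hR : IsLinearSymplecticTypeData 2 R) :
    IsMaximalIn (specialLinear ι F) (subgroupNormalizer R ⊓ specialLinear ι F) := by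
  obtain ⟨p, e, hp2, ⟨hp, -, hc, -⟩, h⟩ := hR.field
  obtain ⟨-, rfl, hZ, -⟩ := (h.resolve_left fun h => absurd h.1 (by decide)).resolve_right fun h => by omega
  rw [pow_one] at hc
  obtain ⟨i, P⟩ := lp_of (CL.Cls.two_ne_zero_of_odd_card (hc ▸ hp.odd_of_ne_two hp2.symm)) (by omega)
    hR.symplecticType hR.absIrred hZ
  refine CL.SLn.isMaximalIn_of (CL.SLn.not_sl_le_subgroupNormalizer (by omega) hR) fun H h1 _ g hg hg' => ?_
  rcases lin_top (CL.Cls.exists_natCast_of_prime_card (hc ▸ hp)) (by simpa using hn) P (H := tlm H) (fun k hk => by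
    obtain ⟨k, rfl⟩ := tl.surjective k
    exact mem_tlm.2 (h1 ⟨mem_Nm_tlm.1 hk.1, CL.Uni.mem_specialLinear_iff_det.2
      ((dt_tl k).symm.trans (congrArg Units.val (MonoidHom.mem_ker.1 hk.2)))⟩)) with h3 | h3
  · exact absurd (mem_Nm_tlm.1 (h3 (mem_tlm.2 hg))) hg'
  · refine CL.SLn.specialLinear_le_of_centers (eq_top_iff.2 fun v _ => CL.SLn.mem_centers.2 fun φ h0 => ?_)
    obtain ⟨-, _, ⟨k, hk, rfl⟩, e⟩ := CL.SLn.mem_centers.1 (h3 ▸ Submodule.mem_top : v ∈ _) φ h0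
    exact ⟨h0, k, hk, e⟩

/-- **Class C6 in `SU_n(p)`, `r = 2`.** -/
theorem isMaximalIn_su_pauli [Fintype F] {n q : ℕ} (hF : Fintype.card F = q ^ 2) (hn : 4 ≤ n) (hq : q.Prime)
    (hq2 : q ≠ 2) {R : Subgroup (GL (Fin n) F)} (hR : IsSymplecticTypeGroup 2 R)
    (hirr : ActsAbsolutelyIrreducibly (matrixSet R)) (hU : R ≤ GU n F q) (hZ : Nat.card (Subgroup.center R) = 4) :
    IsMaximalIn (GU n F q ⊓ specialLinear (Fin n) F) (subgroupNormalizer R ⊓ (GU n F q ⊓ specialLinear (Fin n) F)) := by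
  have h := CL.Uni.isBar_bar hF
  obtain ⟨i, P⟩ := lp_of (CL.Cls.two_ne_zero_of_odd_card (hF ▸ (hq.odd_of_ne_two hq2).pow)) (by simp; omega) hR hirr hZ
  have h1 : ∀ g : GL (Fin n) F, tl g ∈ Un (CL.Uni.stdB (CL.Uni.bar hF) (Fin n)) ↔ g ∈ GU n F q :=
    CL.Uni.glEquiv_mem_UG h
  have h2 : ∀ g : GL (Fin n) F, tl g ∈ SUn (CL.Uni.stdB (CL.Uni.bar hF) (Fin n)) ↔
      g ∈ GU n F q ⊓ specialLinear (Fin n) F := fun g => and_congr (h1 g)
    (show dt (tl g) = 1 ↔ g ∈ specialLinear _ F by rw [CL.Uni.mem_specialLinear_iff_det, ← dt_tl, Units.val_eq_one])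
  refine ⟨lt_of_le_of_ne inf_le_right fun e => CL.Uni.not_SUm_le_normalizer h (by omega) (by omega) hR.prime hR.pGroup
    hirr.1 (fun g hg => ⟨1, fun u v => by rw [Units.val_one, one_mul]; exact hU hg u v⟩) (e.ge.trans inf_le_left),
    fun H h3 h4 => ?_⟩
  have hp : ∀ a : CL.Uni.IsBar.fixedField (CL.Uni.bar hF), ∃ n : ℕ, a = n := by
    have := Fintype.ofFinite (CL.Uni.IsBar.fixedField (CL.Uni.bar hF))
    exact CL.Cls.exists_natCast_of_prime_card (by rwa [← Nat.card_eq_fintype_card, h.card_fixedField])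
  rcases uni_top hp (CL.Uni.isHerm_stdB h (Fin n)) (by simpa using hn) P (H := tlm H)
    (by rintro _ ⟨k, hk, rfl⟩; exact (h1 k).2 (hU hk)) (fun k hk => by
      obtain ⟨k, rfl⟩ := tl.surjective k
      exact mem_tlm.2 (h3 ⟨mem_Nm_tlm.1 hk.1, (h2 k).1 hk.2⟩))
    (by rintro _ ⟨k, hk, rfl⟩; exact (h1 k).2 (h4 hk).1) with h5 | h5
  · exact Or.inl (le_antisymm (fun g hg => ⟨mem_Nm_tlm.1 (h5 (mem_tlm.2 hg)), h4 hg⟩) h3)
  · exact Or.inr (le_antisymm h4 fun g hg => mem_tlm.1 (h5 ((h2 g).2 hg)))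

end CL.Pa
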