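/-
Project C6 (r = 2), real types `2^{1+2k}_±`: the interface between the local analysis and the generation step.
-/
import Cfsg.Agent.Cls.Pauli14

set_option autoImplicit false

namespace CL.Pa

open Module

universe u

/-- Any three elements of `R` are centralised by an element of `R` with square `-1`. -/
def NS3 {𝔄 : Type*} [Ring 𝔄] (R : Subgroup 𝔄ˣ) : Prop :=
  ∀ a ∈ R, ∀ b ∈ R, ∀ c ∈ R, ∃ u ∈ R, u * u = -1 ∧ u * a = a * u ∧ u * b = b * u ∧ u * c = c * u

/-- `H` contains all quadratic unipotent isometries commuting with `x`. -/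
def QU {F V : Type*} [Field F] [AddCommGroup V] [Module F V] (B : LinearMap.BilinForm F V)
    (H : Subgroup (End F V)ˣ) (x : (End F V)ˣ) : Prop :=
  ∀ g ∈ Un B, g * x = x * g → (g.1 - 1) * (g.1 - 1) = 0 → g ∈ H

/-- The local theorem for the real types. -/
def RealMain : Prop :=
  ∀ {ι : Type} [Fintype ι] [DecidableEq ι] {F : Type u} [Field F] [Fintype F], (Fintype.card F).Prime →
    8 ≤ Fintype.card ι → ∀ {B : LinearMap.BilinForm F (ι → F)}, B.Nondegenerate → B.IsAlt ∨ B.IsSymm →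
    ∀ {R G H : Subgroup (End F (ι → F))ˣ}, Pauli F R → R ≤ Un B → NS3 R → ⁅Un B, Un B⁆ ≤ G → G ≤ Un B →
      (∀ g ∈ Un B, g * g ∈ G) → Nm R ⊓ G ≤ H → H ≤ G → H ≤ Nm R ∨ ∀ x ∈ R, x * x = -1 → QU B H x

end CL.Pa
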