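/-
Project C6 (r = 2), real types: the generation step.  Two commuting quaternion pairs in `R` give a pair of complementary
totally isotropic subspaces whose unipotent radicals lie in `H`.
-/
import Cfsg.Agent.Cls.PauliR0
import Cfsg.Agent.Cls.SpMaxGL
import Cfsg.Agent.Cls.OrthMaxPair

set_option autoImplicit false

namespace CL.Pa

open Module

section Abs

variable {F 𝔄 : Type*} [Field F] [Ring 𝔄] [Algebra F 𝔄] {R : Subgroup 𝔄ˣ} (P : Pauli F R)
include P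

theorem Pauli.pair (h : NS3 R) {x y u w : 𝔄ˣ} (hx : x ∈ R) (hy : y ∈ R) (hu : u ∈ R) (hw : w ∈ R)
    (uw : u * w = -(w * u)) (wx : w * x = x * w) (wy : w * y = y * w) :
    ∃ w ∈ R, w * w = -1 ∧ u * w = -(w * u) ∧ w * x = x * w ∧ w * y = y * w := by
  rcases P.sq w hw with w2 | w2
  swap
  · exact ⟨w, hw, w2, uw, wx, wy⟩
  obtain ⟨t, ht, t2, tx, ty, tu⟩ := h x hx y hy _ (R.mul_mem hu hw)
  rcases P.comm hu ht with ut | ut
  swap
  · exact ⟨t, ht, t2, ut, tx, ty⟩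
  have tw : t * w = w * t := mul_left_cancel (a := u) (by rw [← mul_assoc, ut, mul_assoc, tu, mul_assoc])
  refine ⟨w * t, R.mul_mem hw ht, ?_, ?_, ?_, ?_⟩
  · rw [mul_assoc, ← mul_assoc t, tw, mul_assoc, t2, ← mul_assoc, w2, one_mul]
  · rw [← mul_assoc, uw, neg_mul, mul_assoc, ut, mul_assoc]
  · rw [mul_assoc, tx, ← mul_assoc, wx, mul_assoc]
  · rw [mul_assoc, ty, ← mul_assoc, wy, mul_assoc]

theorem Pauli.quad (h : NS3 R) (hZ : ∀ u ∈ R, u * u = -1 → u ∉ Zc 𝔄) : ∃ x ∈ R, ∃ y ∈ R, ∃ u ∈ R, ∃ w ∈ R,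
    x * x = -1 ∧ y * y = -1 ∧ u * u = -1 ∧ w * w = -1 ∧ x * y = -(y * x) ∧ u * w = -(w * u) ∧
      u * x = x * u ∧ u * y = y * u ∧ w * x = x * w ∧ w * y = y * w := by
  obtain ⟨x, hx, x2, -⟩ := h 1 R.one_mem 1 R.one_mem 1 R.one_mem
  obtain ⟨y, hy, xy⟩ := P.exists_anti hx (hZ x hx x2)
  obtain ⟨y, hy, y2, xy, -⟩ := P.pair h R.one_mem R.one_mem hx hy xy (by simp) (by simp)
  obtain ⟨u, hu, u2, ux, uy, -⟩ := h x hx y hy 1 R.one_mem
  have s1 : ∃ w ∈ R, u * w = -(w * u) ∧ w * x = x * w := by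
    obtain ⟨w, hw, uw⟩ := P.exists_anti hu (hZ u hu u2)
    rcases P.comm hw hx with e | e
    · exact ⟨w, hw, uw, e⟩
    refine ⟨w * y, R.mul_mem hw hy, ?_, ?_⟩
    · rw [← mul_assoc, uw, neg_mul, mul_assoc, uy, mul_assoc]
    · rw [mul_assoc, anti_symm xy, mul_neg, ← mul_assoc, e, neg_mul, neg_neg, mul_assoc]
  have s2 : ∃ w ∈ R, u * w = -(w * u) ∧ w * x = x * w ∧ w * y = y * w := by
    obtain ⟨w, hw, uw, wx⟩ := s1
    rcases P.comm hw hy with e | e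
    · exact ⟨w, hw, uw, wx, e⟩
    refine ⟨w * x, R.mul_mem hw hx, ?_, ?_, ?_⟩
    · rw [← mul_assoc, uw, neg_mul, mul_assoc, ux, mul_assoc]
    · rw [← mul_assoc, ← wx]
    · rw [mul_assoc, xy, mul_neg, ← mul_assoc, e, neg_mul, neg_neg, mul_assoc]
  obtain ⟨w, hw, uw, wx, wy⟩ := s2
  obtain ⟨w, hw, w2, uw, wx, wy⟩ := P.pair h hx hy hu hw uw wx wy
  exact ⟨x, hx, y, hy, u, hu, w, hw, x2, y2, u2, w2, xy, uw, ux, uy, wx, wy⟩

theorem Pauli.ns3_of_finrank [Finite 𝔄] (hd : 2 ^ 6 < finrank F 𝔄) : NS3 R := by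
  intro a ha b hb c hc
  have : Finite P.A := Nat.finite_of_card_ne_zero (by rw [P.card_A]; positivity)
  rw [P.finrank_eq, Nat.pow_lt_pow_iff_right one_lt_two] at hd
  let W := Submodule.span (ZMod 2) (Set.range ![P.φ ⟨a, ha⟩, P.φ ⟨b, hb⟩, P.φ ⟨c, hc⟩])
  have h1 : finrank (ZMod 2) W ≤ 3 := finrank_range_le_card _
  have h2 := LinearMap.BilinForm.finrank_orthogonal P.B_nondeg W
  obtain ⟨v, hv, hv'⟩ := SetLike.not_le_iff_exists.1 fun h : P.B.orthogonal W ≤ W => by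
    have := Submodule.finrank_mono h
    omega
  obtain ⟨v', h3, h4⟩ := CL.Sp.exists_orth_ne_zero P.B_alt P.B_nondeg hv'
  have key : ∀ u : R, P.φ u ∈ P.B.orthogonal W → (u : 𝔄ˣ) * a = a * u ∧ (u : 𝔄ˣ) * b = b * u ∧ (u : 𝔄ˣ) * c = c * u :=
    fun u hu => ⟨(bf_eq_zero.1 ((P.B_φ ⟨a, ha⟩ u).symm.trans (hu _ (Submodule.subset_span ⟨0, rfl⟩)))).symm,
      (bf_eq_zero.1 ((P.B_φ ⟨b, hb⟩ u).symm.trans (hu _ (Submodule.subset_span ⟨1, rfl⟩)))).symm,
      (bf_eq_zero.1 ((P.B_φ ⟨c, hc⟩ u).symm.trans (hu _ (Submodule.subset_span ⟨2, rfl⟩)))).symm⟩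
  obtain ⟨u, rfl⟩ := P.φ_surj v
  obtain ⟨u', rfl⟩ := P.φ_surj v'
  have h5 := P.anti_of_ne u.2 u'.2 fun e => h4 ((P.B_φ u u').trans (bf_eq_zero.2 e))
  rcases P.sq u u.2 with e | e
  swap
  · exact ⟨u, u.2, e, key u hv⟩
  rcases P.sq u' u'.2 with e' | e'
  swap
  · exact ⟨u', u'.2, e', key u' h3⟩
  refine ⟨u * u', (u * u').2, ?_, key (u * u') (P.φ_mul u u' ▸ add_mem hv h3)⟩
  rw [mul_assoc, ← mul_assoc (u' : 𝔄ˣ), anti_symm h5, neg_mul, mul_neg, mul_assoc, e', ← mul_assoc, e, one_mul]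

end Abs

theorem ns3_of_minus {F 𝔄 Γ : Type*} [Field F] [Ring 𝔄] [Algebra F 𝔄] [Group Γ] {R : Subgroup Γ} {f : Γ →* 𝔄ˣ}
    (hf : Function.Injective f) (P : Pauli F (R.map f)) {k : ℕ} (hk : 3 ≤ k) (hc : Nat.card R = 2 ^ (1 + 2 * k))
    (hm : Cfsg.Geo.IsOfMinusType k R) : NS3 (R.map f) := by
  intro a ha b hb c hc'
  have m : ∀ x : R, f x ∈ R.map f := fun x => ⟨x, x.2, rfl⟩
  let ψ : R →* Multiplicative (ZMod 2 × ZMod 2 × ZMod 2) := MonoidHom.mk'
    (fun x => Multiplicative.ofAdd (bf a (f x), bf b (f x), bf c (f x))) fun x y => by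
      rw [← ofAdd_add, Subgroup.coe_mul, map_mul, P.bf_mul_right ha (m x) (m y), P.bf_mul_right hb (m x) (m y),
        P.bf_mul_right hc' (m x) (m y)]
      rfl
  by_contra h
  have h1 : ∀ x ∈ ψ.ker, x * x = 1 := fun x hx => by
    have e : (bf a (f x), bf b (f x), bf c (f x)) = 0 := Multiplicative.ofAdd.injective hx
    simp only [Prod.mk_eq_zero, bf_eq_zero] at e
    refine Subtype.ext (hf ?_)
    rw [Subgroup.coe_mul, map_mul, Subgroup.coe_one, map_one]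
    exact (P.sq _ (m x)).resolve_right fun e' => h ⟨_, m x, e', e.1.symm, e.2.1.symm, e.2.2.symm⟩
  have h2 := hm ψ.ker ⟨⟨fun x y => Subtype.ext (comm_of_sq h1 x.2 y.2)⟩⟩ h1
  have h3 := ψ.ker.index_mul_card
  have h4 : ψ.ker.index ≤ 2 ^ 3 := by
    rw [Subgroup.index_ker]
    exact (Subgroup.card_le_card_group _).trans (by simp)
  have h5 : 2 ^ (1 + 2 * k) < 2 ^ (3 + (k + 1)) := by
    rw [← hc, ← h3, pow_add]
    exact Nat.mul_lt_mul_of_le_of_lt h4 h2 (by positivity)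
  have := (Nat.pow_lt_pow_iff_right one_lt_two).1 h5
  omega

variable {F V : Type*} [Field F] [AddCommGroup V] [Module F V] {B : LinearMap.BilinForm F V}
  {H : Subgroup (End F V)ˣ} {U : Submodule F V}

/-- `H` contains the unipotent radical of the stabiliser of `U`. -/
def Rad (B : LinearMap.BilinForm F V) (H : Subgroup (End F V)ˣ) (U : Submodule F V) : Prop :=
  ∀ g ∈ Un B, (∀ v, g.1 v - v ∈ U) → (∀ u ∈ U, g.1 u = u) → g ∈ H

/-- skew maps `V / U → U`. -/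
def Sk (B : LinearMap.BilinForm F V) (U : Submodule F V) : Submodule F (End F V) where
  carrier := {N | (∀ a b, B (N a) b = -B a (N b)) ∧ (∀ v, N v ∈ U) ∧ ∀ u ∈ U, N u = 0}
  add_mem' := fun h h' => ⟨fun a b => by simp [h.1, h'.1, add_comm], fun v => add_mem (h.2.1 v) (h'.2.1 v),
    fun u hu => by simp [h.2.2 u hu, h'.2.2 u hu]⟩
  zero_mem' := ⟨by simp, by simp, by simp⟩
  smul_mem' := fun c _ h => ⟨fun a b => by simp [h.1], fun v => U.smul_mem c (h.2.1 v),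
    fun u hu => by simp [h.2.2 u hu]⟩

theorem Sk.mul {N M : End F V} (hN : N ∈ Sk B U) (hM : M ∈ Sk B U) : N * M = 0 :=
  LinearMap.ext fun v => hN.2.2 _ (hM.2.1 v)

theorem skew_of {x : (End F V)ˣ} (hx : x ∈ Un B) (x2 : x * x = -1) (a b : V) : B (x.1 a) b = -B a (x.1 b) := by
  have : x.1 (x.1 a) = -a := LinearMap.congr_fun (congrArg Units.val x2) a
  rw [← mem_Un.1 hx, this, map_neg, LinearMap.neg_apply]

theorem Sk.conj {N x : End F V} (hN : N ∈ Sk B U) (hx : ∀ a b, B (x a) b = -B a (x b)) (hU : ∀ u ∈ U, x u ∈ U) :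
    x * N * x ∈ Sk B U :=
  ⟨fun a b => by simp [hx, hN.1], fun v => hU _ (hN.2.1 _), fun u hu => by simp [hN.2.2 _ (hU u hu)]⟩

/-- the unit `1 + N`. -/
def Sk.unit {N : End F V} (hN : N ∈ Sk B U) : (End F V)ˣ :=
  ⟨1 + N, 1 - N, by simp [mul_sub, add_mul, Sk.mul hN hN], by simp [sub_mul, mul_add, Sk.mul hN hN]⟩

theorem Sk.unit_add {N M : End F V} (hN : N ∈ Sk B U) (hM : M ∈ Sk B U) :
    Sk.unit (add_mem hN hM) = Sk.unit hN * Sk.unit hM :=
  Units.ext (show 1 + (N + M) = (1 + N) * (1 + M) by rw [add_mul, mul_add, mul_add, Sk.mul hN hM]; simp; abel)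

theorem Sk.unit_mem {N : End F V} (hN : N ∈ Sk B U) {x : (End F V)ˣ} (h : QU B H x) (e : N * x = x * N) :
    Sk.unit hN ∈ H := by
  refine h _ (mem_Un.2 fun a b => ?_) (Units.ext ?_) ?_
  · change B (a + N a) (b + N b) = B a b
    simp [hN.1, hN.2.2 _ (hN.2.1 _)]
  · change (1 + N) * x = x * (1 + N)
    rw [add_mul, mul_add, e, one_mul, mul_one]
  · change (1 + N - 1) * (1 + N - 1) = 0
    rw [add_sub_cancel_left, Sk.mul hN hN]

theorem rad_of (h2 : (2 : F) ≠ 0) {x y : (End F V)ˣ} (hx : x ∈ Un B) (hy : y ∈ Un B) (x2 : x * x = -1)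
    (y2 : y * y = -1) (xy : x * y = -(y * x)) (qx : QU B H x) (qy : QU B H y) (qz : QU B H (x * y))
    (hU : ∀ a ∈ U, ∀ b ∈ U, B a b = 0) (ux : ∀ u ∈ U, x.1 u ∈ U) (uy : ∀ u ∈ U, y.1 u ∈ U) : Rad B H U := by
  intro g hg h3 h4
  have h5 : g.1 - 1 ∈ Sk B U := by
    refine ⟨fun a b => ?_, h3, fun u hu => sub_eq_zero.2 (h4 u hu)⟩
    have e1 := mem_Un.1 hg a b
    have e2 := hU _ (h3 a) _ (h3 b)
    simp only [map_sub, LinearMap.sub_apply, End.one_apply] at e2 ⊢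
    linear_combination e1 - e2
  obtain ⟨N, hN, e⟩ : ∃ N ∈ Sk B U, g.1 = 1 + (4 : F) • N :=
    ⟨_, Submodule.smul_mem _ (4 : F)⁻¹ h5, by
      rw [smul_inv_smul₀ (by rw [show (4 : F) = 2 * 2 by norm_num]; exact mul_ne_zero h2 h2), add_sub_cancel]⟩
  have X2 : x.1 * x.1 = -1 := congrArg Units.val x2
  have Y2 : y.1 * y.1 = -1 := congrArg Units.val y2
  have XY : x.1 * y.1 = -(y.1 * x.1) := congrArg Units.val xy
  have X2' : ∀ a, x.1 * (x.1 * a) = -a := fun a => by rw [← mul_assoc, X2, neg_one_mul]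
  have Y2' : ∀ a, y.1 * (y.1 * a) = -a := fun a => by rw [← mul_assoc, Y2, neg_one_mul]
  have XY' : ∀ a, x.1 * (y.1 * a) = -(y.1 * (x.1 * a)) := fun a => by rw [← mul_assoc, XY, neg_mul, mul_assoc]
  have k1 := Sk.conj hN (skew_of hx x2) ux
  have k2 := add_mem hN k1
  have k3 := Sk.conj k2 (skew_of hy y2) uy
  have m1 := Sk.unit_mem (sub_mem hN k1) qx (by simp [sub_mul, mul_sub, mul_assoc, X2, X2', add_comm])
  have m2 := Sk.unit_mem (sub_mem k2 k3) qy (by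
    generalize N + x.1 * N * x.1 = M
    simp [sub_mul, mul_sub, mul_assoc, Y2, Y2', add_comm])
  have m3 := Sk.unit_mem (add_mem k2 k3) qz (by
    simp only [Units.val_mul, add_mul, mul_add, mul_assoc, X2, X2', Y2, Y2', XY, XY', mul_neg, neg_mul, mul_one,
      neg_neg]
    abel)
  have := H.mul_mem (H.mul_mem m1 m1) (H.mul_mem m2 m3)
  rw [← Sk.unit_add, ← Sk.unit_add, ← Sk.unit_add] at this
  convert this using 1
  refine Units.ext (e.trans ?_)
  change _ = 1 + _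
  rw [show (4 : F) = 1 + 1 + 1 + 1 by norm_num, add_smul, add_smul, add_smul, one_smul]
  abel

theorem exists_rad [Finite F] (hN : B.Nondegenerate) {R : Subgroup (End F V)ˣ} (P : Pauli F R) (hR : R ≤ Un B)
    (h : NS3 R) (hQ : ∀ x ∈ R, x * x = -1 → QU B H x) : ∃ U U' : Submodule F V,
      (∀ a ∈ U, ∀ b ∈ U, B a b = 0) ∧ (∀ a ∈ U', ∀ b ∈ U', B a b = 0) ∧ IsCompl U U' ∧ Rad B H U ∧ Rad B H U' := by
  obtain ⟨x, hx, y, hy, u, hu, w, hw, x2, y2, u2, w2, xy, uw, ux, uy, wx, wy⟩ := P.quad h fun u hu u2 hz => by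
    obtain ⟨c, h0, hc⟩ := P.exists_smul_of_mem hz
    refine P.neg_ne 1 (Units.ext (LinearMap.ext fun a => ?_))
    rw [hN.1 a fun b => ?_, map_zero, map_zero]
    have := skew_of (hR hu) u2 a b
    simp only [hc, LinearMap.smul_apply, End.one_apply, map_smul, smul_eq_mul] at this
    exact (mul_eq_zero.1 (show 2 * c * B a b = 0 by linear_combination this)).resolve_left (mul_ne_zero P.two h0)
  obtain ⟨a, b, hab⟩ := CL.Cls.exists_sq_add_sq_eq (F := F) one_ne_zero one_ne_zero (-1)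
  have U2 : u.1 * u.1 = -1 := congrArg Units.val u2
  have W2 : w.1 * w.1 = -1 := congrArg Units.val w2
  have UW : w.1 * u.1 = -(u.1 * w.1) := congrArg Units.val (anti_symm uw)
  have U2' : ∀ a, u.1 * (u.1 * a) = -a := fun a => by rw [← mul_assoc, U2, neg_one_mul]
  have UW' : ∀ a, w.1 * (u.1 * a) = -(u.1 * (w.1 * a)) := fun a => by rw [← mul_assoc, UW, neg_mul, mul_assoc]
  have z2 : u * w * (u * w) = -1 := Units.ext (by simp [mul_assoc, UW', W2, U2])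
  have z2' : x * y * (x * y) = -1 := by
    rw [mul_assoc, ← mul_assoc y, anti_symm xy, neg_mul, mul_neg, mul_assoc, y2, ← mul_assoc, x2]
    simp
  have key : ∀ a b : F, a ^ 2 * 1 + b ^ 2 * 1 = -1 → ∀ μ : End F V, μ = a • u.1 + b • w.1 + (u * w).1 →
      (∀ s ∈ LinearMap.range μ, ∀ t ∈ LinearMap.range μ, B s t = 0) ∧ Rad B H (LinearMap.range μ) := by
    intro a b hab μ hμ
    have m2 : μ * μ = 0 := by
      have : μ * μ = -((a ^ 2 * 1 + b ^ 2 * 1 + 1) • (1 : End F V)) := by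
        simp only [hμ, Units.val_mul, add_mul, mul_add, mul_assoc, smul_mul_assoc, mul_smul_comm, U2, U2', W2, UW, UW',
          mul_neg, neg_neg, mul_one, smul_neg]
        module
      rw [this, hab, neg_add_cancel, zero_smul, neg_zero]
    have i : ∀ s ∈ LinearMap.range μ, ∀ t ∈ LinearMap.range μ, B s t = 0 := by
      rintro _ ⟨s, rfl⟩ _ ⟨t, rfl⟩
      have : B (μ s) (μ t) = -B s (μ (μ t)) := by
        generalize μ t = r
        simp only [hμ, LinearMap.add_apply, LinearMap.smul_apply, map_add, map_smul, skew_of (hR hu) u2,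
          skew_of (hR hw) w2, skew_of (hR (R.mul_mem hu hw)) z2, smul_eq_mul]
        ring
      rw [this, ← End.mul_apply, m2]
      simp
    have inv : ∀ x : (End F V)ˣ, u * x = x * u → w * x = x * w → ∀ s ∈ LinearMap.range μ,
        x.1 s ∈ LinearMap.range μ := by
      rintro x e1 e2 _ ⟨s, rfl⟩
      have e3 : u * w * x = x * (u * w) := by rw [mul_assoc, e2, ← mul_assoc, e1, mul_assoc]
      refine ⟨x.1 s, LinearMap.congr_fun (show μ * x.1 = x.1 * μ from ?_) s⟩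
      simp only [hμ, add_mul, mul_add, smul_mul_assoc, mul_smul_comm, ← Units.val_mul, e1, e2, e3]
    exact ⟨i, rad_of P.two (hR hx) (hR hy) x2 y2 xy (hQ x hx x2) (hQ y hy y2) (hQ _ (R.mul_mem hx hy) z2') i
      (inv x ux wx) (inv y uy wy)⟩
  obtain ⟨i1, r1⟩ := key a b hab _ rfl
  obtain ⟨i2, r2⟩ := key (-a) (-b) (by linear_combination hab) _ rfl
  have hs : Codisjoint (LinearMap.range (a • u.1 + b • w.1 + (u * w).1))
      (LinearMap.range ((-a) • u.1 + (-b) • w.1 + (u * w).1)) := by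
    refine codisjoint_iff.2 (eq_top_iff.2 fun v _ => Submodule.mem_sup.2
      ⟨_, ⟨(2 : F)⁻¹ • (u * w)⁻¹.1 v, rfl⟩, _, ⟨(2 : F)⁻¹ • (u * w)⁻¹.1 v, rfl⟩, ?_⟩)
    rw [← LinearMap.add_apply, show a • u.1 + b • w.1 + (u * w).1 + ((-a) • u.1 + (-b) • w.1 + (u * w).1) =
      (2 : F) • (u * w).1 by module, LinearMap.smul_apply, map_smul, smul_inv_smul₀ P.two, ← End.mul_apply,
      Units.mul_inv, End.one_apply]
  refine ⟨_, _, i1, i2, ⟨Submodule.disjoint_def.2 fun v h1 h2 => hN.1 v fun t => ?_, hs⟩, r1, r2⟩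
  obtain ⟨s, hs', s', hs'', rfl⟩ := Submodule.mem_sup.1 (hs.eq_top ▸ Submodule.mem_top : t ∈ _)
  rw [map_add, i1 v h1 s hs', i2 v h2 s' hs'', add_zero]

end CL.Pa
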