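/-
Project C6 (r = 2), real types: maximality in `Sp_{2m}(p)` and `Ω_n(p)` from the local theorem.
-/
import Cfsg.Agent.Cls.PauliFin1
import Cfsg.Agent.Cls.MaxRich
import Cfsg.Agent.Cls.BunSp8

set_option autoImplicit false
set_option linter.unusedSectionVars false

namespace CL.Pa

open Module Matrix Cfsg Cfsg.Geo CL.Asch QuadraticMap
open scoped MatrixGroups commutatorElement

universe u

section Gen

variable {F V : Type*} [Field F] [Finite F] [AddCommGroup V] [Module F V] [FiniteDimensional F V]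
  {H : Subgroup (End F V)ˣ} {U U' : Submodule F V}

theorem sp_le {B : LinearMap.BilinForm F V} (hB : B.IsAlt) (hN : B.Nondegenerate) (h2 : (2 : F) ≠ 0)
    (h0 : 0 < finrank F V) (h : CL.Sp.IsTIPair B U U') (r : Rad B H U) (r' : Rad B H U') : Un B ≤ H := by
  have key : ∀ W : Submodule F V, (∀ a ∈ W, ∀ b ∈ W, B a b = 0) → Rad B H W →
      ∀ v ∈ W, v ∈ CL.Sp.Cen hB (H.map toE.toMonoidHom) := fun W i r v hv c =>
    ⟨toE.symm (CL.Sp.tv hB v c), r _ (CL.Sp.tv_mem_isom hB v c)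
      (fun x => by
        change CL.Sp.tv hB v c x - x ∈ W
        rw [CL.Sp.tv_apply, add_sub_cancel_left]
        exact W.smul_mem _ hv)
      fun x hx => CL.Sp.tv_apply_of_ortho hB c (i x hx v hv), toE.apply_symm_apply _⟩
  have h1 := h.isom_le_of_cen hB hN (CL.Cls.exists_ne_zero_one_of_two_ne_zero h2) (by
    rintro rfl
    have := Submodule.finrank_add_eq_of_isCompl h.compl
    rw [← h.finrank_eq hN, finrank_bot] at this
    omega) (key U h.left r) (key U' h.right r')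
  exact fun g hg => (Subgroup.mem_map_iff_mem toE.injective).1 (h1 hg)

open CL.Cls

variable {Q : QuadraticForm F V}

/-- isometries as units. -/
def ogU (Q : QuadraticForm F V) : OG Q →* (End F V)ˣ := toE.symm.toMonoidHom.comp (OG Q).subtype

theorem ogU_mem (g : OG Q) : ogU Q g ∈ Un (polarBilin Q) := mem_Un.2 (OG.polar_app g)

theorem range_ogU (h2 : (2 : F) ≠ 0) : (ogU Q).range = Un (polarBilin Q) := by
  refine le_antisymm (by rintro _ ⟨g, rfl⟩; exact ogU_mem g) fun g hg => ⟨⟨toE g, fun v => ?_⟩, toE.symm_apply_apply g⟩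
  have := mem_Un.1 hg v v
  simp only [polarBilin_apply_apply, polar_self'] at this
  exact mul_left_cancel₀ h2 this

theorem map_ogU (h2 : (2 : F) ≠ 0) :
    (commutator (OG Q)).map (ogU Q) = ⁅Un (polarBilin Q), Un (polarBilin Q)⁆ := by
  rw [commutator_def, Subgroup.map_commutator, ← MonoidHom.range_eq_map, range_ogU h2]

theorem eich_mem_of_rad (P : TSPair Q U U') (r : Rad (polarBilin Q) H U) {e e' : V} (he : e ∈ U) (he' : e' ∈ U) :
    eich Q e e' ∈ H.comap (ogU Q) :=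
  r _ (ogU_mem _) (fun x => eich_app_sub_mem e e' x he he') fun _ hx =>
    eich_app_of_polar (P.polar_eq_zero he hx) (P.polar_eq_zero he' hx)

theorem eichAdd_of_rad (P : TSPair Q U U') (h3 : 3 ≤ finrank F U) (r : Rad (polarBilin Q) H U)
    (r' : Rad (polarBilin Q) H U') {e : V} (he : e ∈ U) (v : V) (hv : polar Q e v = 0) :
    v ∈ eichAdd (H.comap (ogU Q)) (P.left e he) := by
  have h1 : ∀ a ∈ U, a ∈ eichAdd (H.comap (ogU Q)) (P.left e he) := fun a ha =>
    mem_eichAdd.2 ⟨P.polar_eq_zero he ha, eich_mem_of_rad P r he ha⟩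
  obtain ⟨a, ha, f, hf, rfl⟩ := P.exists_add v
  refine add_mem (h1 a ha) ?_
  rw [polar_add_right, P.polar_eq_zero he ha, zero_add] at hv
  obtain ⟨e₂, he₂, h2⟩ := exists_mem_not_mem_span (W := U ⊓ perp Q f)
    (by have := finrank_le_finrank_inf_perp_succ (Q := Q) U f; omega) e
  obtain ⟨f₂, hf₂, h4, h5⟩ := P.exists_dual ((Submodule.span_singleton_le_iff_mem _ _).2 he) he₂.1 h2
  have h6 := h4 e (Submodule.mem_span_singleton_self e)
  have h7 := app_mem_eichAdd (eich_mem_of_rad P.symm r' hf₂ hf)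
    (eich_app_of_polar (by rwa [polar_comm]) (by rwa [polar_comm])) (h1 e₂ he₂.1)
  rw [eich_app (P.right _ hf₂) (P.symm.polar_eq_zero hf₂ hf), mem_perp.1 he₂.2, P.right f hf, polar_comm, h5] at h7
  simpa using sub_mem (h1 e₂ he₂.1) h7

theorem om_le (h2 : (2 : F) ≠ 0) (h6 : 6 ≤ finrank F V) (P : TSPair Q U U') (r : Rad (polarBilin Q) H U)
    (r' : Rad (polarBilin Q) H U') : ⁅Un (polarBilin Q), Un (polarBilin Q)⁆ ≤ H := by
  have h1 := Submodule.finrank_add_eq_of_isCompl P.compl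
  have h3 := P.finrank_eq
  obtain ⟨e, he, h0⟩ := exists_mem_ne_zero_of_finrank_pos (W := U) (by omega)
  obtain ⟨f, hf, h4⟩ := P.exists_polar_eq_one he h0
  rw [← map_ogU h2, Subgroup.map_le_iff_le_comap]
  exact commutator_le_of_eichAdd P.nondeg (by omega) ⟨P.left e he, P.right f hf, h4⟩
    (eichAdd_of_rad P (by omega) r r' he) (eichAdd_of_rad P.symm (by omega) r' r hf)

theorem sq_mem_om (h2 : (2 : F) ≠ 0) (hQ : (polarBilin Q).Nondegenerate) :
    ∀ g ∈ Un (polarBilin Q), g * g ∈ ⁅Un (polarBilin Q), Un (polarBilin Q)⁆ := by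
  rw [← map_ogU h2, ← range_ogU h2]
  rintro _ ⟨g, rfl⟩
  refine ⟨g * g, (mem_commutator_OG_iff hQ (Or.inl (exists_ne_zero_one_of_two_ne_zero h2)) _).2 ?_, map_mul _ _ _⟩
  rw [map_mul, map_mul]
  exact ⟨Int.units_mul_self _, Int.units_mul_self _⟩

end Gen

variable {ι : Type} [Fintype ι] [DecidableEq ι] {F : Type u} [Field F] [Fintype F]

/-- the matrix form of the local theorem and the generation step. -/
theorem isMaximalIn_of_real (h : RealMain.{u}) (hp : (Fintype.card F).Prime) (h8 : 8 ≤ Fintype.card ι)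
    {B : LinearMap.BilinForm F (ι → F)} (hN : B.Nondegenerate) (hB : B.IsAlt ∨ B.IsSymm) {R G : Subgroup (GL ι F)}
    (P : Pauli F (tlm R)) (hR : tlm R ≤ Un B) (h3 : NS3 (tlm R)) (h4 : ⁅Un B, Un B⁆ ≤ tlm G) (h5 : tlm G ≤ Un B)
    (h6 : ∀ g ∈ Un B, g * g ∈ tlm G) (h7 : ¬ G ≤ subgroupNormalizer R)
    (h9 : ∀ (H : Subgroup (End F (ι → F))ˣ) (U U' : Submodule F (ι → F)), (∀ a ∈ U, ∀ b ∈ U, B a b = 0) →
      (∀ a ∈ U', ∀ b ∈ U', B a b = 0) → IsCompl U U' → Rad B H U → Rad B H U' → tlm G ≤ H) :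
    IsMaximalIn G (subgroupNormalizer R ⊓ G) := by
  refine ⟨lt_of_le_of_ne inf_le_right fun e => h7 (e.ge.trans inf_le_left), fun H h1 h2 => ?_⟩
  rcases h hp h8 hN hB P hR h3 h4 h5 h6 (H := tlm H) (fun k hk => by
      obtain ⟨k, rfl⟩ := tl.surjective k
      exact mem_tlm.2 (h1 ⟨mem_Nm_tlm.1 hk.1, mem_tlm.1 hk.2⟩)) (Subgroup.map_mono h2) with h' | h'
  · exact Or.inl (le_antisymm (fun g hg => ⟨mem_Nm_tlm.1 (h' (mem_tlm.2 hg)), h2 hg⟩) h1)
  · obtain ⟨U, U', a, b, c, d, e⟩ := exists_rad hN P hR h3 h'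
    exact Or.inr (le_antisymm h2 fun g hg => mem_tlm.1 (h9 _ U U' a b c d e (mem_tlm.2 hg)))

theorem sq_eq_of_card {R : Subgroup (GL ι F)} (hR : IsSymplecticTypeGroup 2 R)
    (hirr : ActsAbsolutelyIrreducibly (matrixSet R)) [Nonempty ι] {k : ℕ} (hcard : Nat.card R = 2 ^ (1 + 2 * k))
    (hZ : Nat.card (Subgroup.center R) = 2) : Fintype.card ι = 2 ^ k := by
  have := (isHeis_of_symp_two hR hirr).card_eq
  rw [hcard, hZ, pow_add, pow_one, mul_comm 2 k, pow_mul] at this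
  exact (Nat.pow_left_injective two_ne_zero (Nat.eq_of_mul_eq_mul_left two_pos this)).symm

/-- **Class C6 in `Sp_{2m}(p)`.** -/
theorem isMaximalIn_sp_pauli (h : RealMain.{u}) (m p k : ℕ) (hk : 3 ≤ k) (hp : p.Prime) (hpo : Odd p)
    (hF : Fintype.card F = p) (R : Subgroup (GL (Fin m ⊕ Fin m) F)) (hR : IsSymplecticTypeGroup 2 R)
    (hirr : ActsAbsolutelyIrreducibly (matrixSet R)) (hRD : R ≤ spGL m F) (hcard : Nat.card R = 2 ^ (1 + 2 * k))
    (hZ : Nat.card (Subgroup.center R) = 2) (hminus : IsOfMinusType k R) :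
    IsMaximalIn (spGL m F) (subgroupNormalizer R ⊓ spGL m F) := by
  have h2 : (2 : F) ≠ 0 := CL.Cls.two_ne_zero_of_odd_card (hF ▸ hpo)
  have : Nonempty (Fin m ⊕ Fin m) := by
    by_contra h0
    rw [not_nonempty_iff] at h0
    rw [Nat.card_unique] at hZ
    omega
  have h8 : 8 ≤ Fintype.card (Fin m ⊕ Fin m) := sq_eq_of_card hR hirr hcard hZ ▸ Nat.pow_le_pow_right two_pos hk
  have P := pauli_of h2 (by omega) hR hirr
  have hG : tlm (spGL m F) = Un (CL.Sp.stdForm (Fin m) F) := by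
    ext g
    obtain ⟨g, rfl⟩ := tl.surjective g
    exact mem_tlm.trans (CL.Sp.mem_spGL_iff g)
  have hA := CL.Sp.stdForm_isAlt (Fin m) F
  have hN := CL.Sp.stdForm_nondegenerate (Fin m) F
  refine isMaximalIn_of_real h (hF ▸ hp) h8 hN (Or.inl hA) P (hG ▸ Subgroup.map_mono hRD)
    (ns3_of_minus tl.injective P hk hcard hminus) (hG ▸ Subgroup.commutator_le.2 fun a ha b hb =>
      mul_mem (mul_mem (mul_mem ha hb) (inv_mem ha)) (inv_mem hb)) hG.le (fun g hg => hG ▸ mul_mem hg hg)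
    ((rich_spGL (by simp at h8; omega) (by simp at h8; omega)).not_le_subgroupNormalizer hR.prime hR.pGroup
      ((irr_of_spanAlg_eq_top (isHeis_of_symp_two hR hirr).span).not_le_scalars (by omega))
      fun x hx g hg => mul_mem (mul_mem (hRD hx) hg) (inv_mem (hRD hx)))
    fun H U U' a b c d e => hG ▸ sp_le hA hN h2 (by rw [finrank_fintype_fun_eq_card]; omega) ⟨a, b, c⟩ d e

/-- **Class C6 in `Ω_n(p)`.** -/
theorem isMaximalIn_omega_pauli (h : RealMain.{u}) (hn : 9 ≤ Fintype.card ι) (Q : (ι → F) → F)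
    (hQ : IsNondegenerateQuadraticForm Q) (p : ℕ) (hp : p.Prime) (hpo : Odd p) (hF : Fintype.card F = p)
    (R : Subgroup (GL ι F)) (hR : IsSymplecticTypeGroup 2 R) (hirr : ActsAbsolutelyIrreducibly (matrixSet R))
    (hRD : R ≤ isometryGroup F Q) : IsMaximalIn (omegaGL Q) (subgroupNormalizer R ⊓ omegaGL Q) := by
  have h2 : (2 : F) ≠ 0 := CL.Cls.two_ne_zero_of_odd_card (hF ▸ hpo)
  have P := pauli_of h2 (by omega) hR hirr
  have hr := (rich_omegaGL' hQ (by omega)).not_le_subgroupNormalizer hR.prime hR.pGroup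
    ((irr_of_spanAlg_eq_top (isHeis_of_symp_two hR hirr).span).not_le_scalars (by omega))
  have hN := nondeg_toQF hQ
  rw [← coe_toQF hQ] at hRD hr ⊢
  generalize toQF hQ = q at *
  have hI : tlm (isometryGroup F q) = Un (polarBilin q) := by
    rw [← range_ogU h2, ← ogGL_range]
    refine (MonoidHom.map_range _ _).trans (congrArg MonoidHom.range ?_)
    exact MonoidHom.ext fun g => Units.ext (LinearMap.ext (ogGL_mulVec q g))
  have hG : tlm (omegaGL q) = ⁅Un (polarBilin q), Un (polarBilin q)⁆ := by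
    rw [omegaGL_eq_commutator, ← hI]
    exact Subgroup.map_commutator _ _ _
  have : Finite (End F (ι → F)) := Module.finite_of_finite F
  refine isMaximalIn_of_real h (hF ▸ hp) (by omega) hN (Or.inr ⟨fun x y => polar_comm q x y⟩) P
    (hI ▸ Subgroup.map_mono hRD) (P.ns3_of_finrank ?_) hG.ge (hG ▸ Subgroup.commutator_le.2 fun a ha b hb =>
      mul_mem (mul_mem (mul_mem ha hb) (inv_mem ha)) (inv_mem hb)) (hG ▸ sq_mem_om h2 hN) (hr fun x hx g hg => ?_)
    fun H U U' a b c d e => hG ▸ om_le h2 (by rw [finrank_fintype_fun_eq_card]; omega)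
      ⟨hN, fun u hu => ?_, fun u hu => ?_, c⟩ d e
  · rw [finrank_linearMap, finrank_fintype_fun_eq_card]
    nlinarith
  · obtain ⟨x, rfl⟩ := ogGL_range q ▸ hRD hx
    obtain ⟨g, hg', rfl⟩ := omegaGL_eq_map q ▸ hg
    rw [← map_inv, ← map_mul, ← map_mul, ogGL_mem_omegaGL]
    exact Subgroup.Normal.conj_mem inferInstance g hg' x
  · exact (mul_eq_zero.1 ((CL.Cls.polar_self' q u).symm.trans (a u hu u hu))).resolve_left h2
  · exact (mul_eq_zero.1 ((CL.Cls.polar_self' q u).symm.trans (b u hu u hu))).resolve_left h2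

theorem s5651_of (h : RealMain.{u}) (m : ℕ) (hm : 7 ≤ m) (p k : ℕ) (hp : p.Prime) (hpo : Odd p)
    (hF : Fintype.card F = p) (R : Subgroup (GL (Fin m ⊕ Fin m) F)) (hR : IsSymplecticTypeGroup 2 R)
    (hirr : ActsAbsolutelyIrreducibly (matrixSet R)) (hRD : R ≤ spGL m F) (hcard : Nat.card R = 2 ^ (1 + 2 * k))
    (hZ : Nat.card (Subgroup.center R) = 2) (hminus : IsOfMinusType k R) :
    IsMaximalIn (spGL m F) (subgroupNormalizer R ⊓ spGL m F) := by
  have : Nonempty (Fin m ⊕ Fin m) := ⟨.inl ⟨0, by omega⟩⟩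
  refine isMaximalIn_sp_pauli h m p k (by_contra fun h3 => ?_) hp hpo hF R hR hirr hRD hcard hZ hminus
  have h1 := sq_eq_of_card hR hirr hcard hZ
  have := Nat.pow_le_pow_right two_pos (show k ≤ 2 by omega)
  simp at h1
  omega

theorem s5703_of (h : RealMain.{u}) {n : ℕ} (hn : 13 ≤ n) (Q : (Fin n → F) → F)
    (hQ : IsNondegenerateQuadraticForm Q) (p : ℕ) (hp : p.Prime) (hpo : Odd p) (hF : Fintype.card F = p)
    (R : Subgroup (GL (Fin n) F)) (hR : IsSymplecticTypeGroup 2 R) (hirr : ActsAbsolutelyIrreducibly (matrixSet R))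
    (hRD : R ≤ isometryGroup F Q) : IsMaximalIn (omegaGL Q) (subgroupNormalizer R ⊓ omegaGL Q) :=
  isMaximalIn_omega_pauli h (by rw [Fintype.card_fin]; omega) Q hQ p hp hpo hF R hR hirr hRD

theorem sp8_pauli (h : RealMain.{u}) (p : ℕ) (R : Subgroup (GL (Fin 4 ⊕ Fin 4) F)) (hp : p.Prime) (hpo : Odd p)
    (hF : Fintype.card F = p) (hR : IsSymplecticTypeGroup 2 R) (hirr : ActsAbsolutelyIrreducibly (matrixSet R))
    (hRD : R ≤ spGL 4 F) (hcard : Nat.card R = 128) (hZ : Nat.card (Subgroup.center R) = 2)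
    (hminus : IsOfMinusType 3 R) : IsMaximalIn (spGL 4 F) (subgroupNormalizer R ⊓ spGL 4 F) :=
  isMaximalIn_sp_pauli h 4 p 3 le_rfl hp hpo hF R hR hirr hRD hcard hZ hminus

end CL.Pa
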