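/-
Project C6 (r = 2), real types, file 1: two lemmas on quadratic spaces over `ZMod 2`.
-/
import Cfsg.Agent.Cls.SpBasic

set_option autoImplicit false

namespace CL.Pa

open Module CL.Sp

theorem z01 (c : ZMod 2) : c = 0 ∨ c = 1 := by revert c; decide

variable {A : Type*} [AddCommGroup A] [Module (ZMod 2) A] {B : LinearMap.BilinForm (ZMod 2) A} {q : A → ZMod 2}

theorem a2 (a : A) : a + a = 0 := ZModModule.add_self a

theorem b2 (hB : B.IsAlt) (a b : A) : B a b = B b a := by rw [alt_neg hB, CharTwo.neg_eq]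

theorem eq_of_add {a b : A} (h : a + b = 0) : a = b := by rw [← add_zero a, ← a2 b, ← add_assoc, h, zero_add]

theorem exists_one (hN : B.Nondegenerate) {s : A} (hs : s ≠ 0) : ∃ a, B a s = 1 := by
  by_contra h
  push Not at h
  exact hs (hN.2 s fun a => (z01 _).resolve_right (h a))

/-- A group of isometries normalised by `Ω` and semiregular on the non-singular vectors is trivial. -/
theorem exists_fixed_ns (hB : B.IsAlt) (hN : B.Nondegenerate) (hq : ∀ a b, q (a + b) = q a + q b + B a b)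
    (hP : ∀ a b, ∃ u, q u = 1 ∧ B u a = 0 ∧ B u b = 0) {g : A ≃ₗ[ZMod 2] A} (hI : g ∈ Isom B) (hg : ∀ a, q (g a) = q a)
    (h2 : ∀ u, q u = 1 → g (g u) = u → ∀ a, g (g a) = a)
    (key : ∀ v w u, q v = 1 → q w = 1 → q u = 1 → tv hB (g v) 1 (tv hB (g w) 1 u) = tv hB v 1 (tv hB w 1 u) →
      ∀ a, tv hB (g v) 1 (tv hB (g w) 1 a) = tv hB v 1 (tv hB w 1 a)) : ∃ u, q u = 1 ∧ g u = u := by
  by_contra hno
  push Not at hno
  have hI' : ∀ a b, B (g a) (g b) = B a b := hI
  have h0 : ∀ u, q u = 1 → u ≠ 0 := by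
    rintro _ h rfl
    have := hq 0 0
    rw [add_zero, h, alt_self hB] at this
    exact absurd this (by decide)
  have h1 : ∀ v, q v = 1 → g (g v) = v + B v (g v) • g v := fun v hv => by
    obtain ⟨u, hu, e1, e2⟩ := hP (g (g v)) (tv hB (g v) 1 v)
    have e3 := key v (g v) u hv (by rwa [hg]) hu (by
      rw [tv_apply_of_ortho hB _ e1, tv_apply_of_ortho hB (v := v) (x := tv hB (g v) 1 u)]
      rw [isom_left (tv_mem_isom hB _ _), tv_inv, CharTwo.neg_eq, e2])
    obtain ⟨a, ha⟩ := exists_one hN (h0 (g (g v)) (by rwa [hg, hg]))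
    have e4 := e3 a
    have e5 : B (g (g v)) (g v) = B v (g v) := by rw [hI', b2 hB]
    simp only [tv_apply, one_mul, ha, map_add, map_smul, e5, b2 hB (g v) v, one_smul] at e4
    have e6 : g (g v) = (B a v + B a (g v) * B v (g v)) • v + B v (g v) • g v := by
      linear_combination (norm := module) e4 - a2 (B v (g v) • g v)
    rcases z01 (B a v + B a (g v) * B v (g v)) with e | e <;> rw [e] at e6
    · rcases z01 (B v (g v)) with e' | e' <;> rw [e'] at e6
      · exact absurd (by simpa using e6) (h0 v hv)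
      · exact absurd (by simpa using e6) (hno v hv)
    · rwa [one_smul] at e6
  obtain ⟨v, hv, -⟩ := hP 0 0
  by_cases hc : ∃ v, q v = 1 ∧ B v (g v) = 0
  · obtain ⟨v₀, hv₀, e⟩ := hc
    have h3 := h2 v₀ hv₀ (by rw [h1 v₀ hv₀, e, zero_smul, add_zero])
    have h4 : ∀ v, q v = 1 → B v (g v) = 0 := fun v hv => (z01 _).resolve_right fun e =>
      h0 (g v) (by rwa [hg]) (by simpa [h3, e] using h1 v hv)
    have h5 : ∀ v, q v = 1 → v + g v ≠ 0 := fun v hv e => hno v hv (eq_of_add e).symm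
    have h6 : ∀ v w, q v = 1 → q w = 1 → B w (v + g v) = 0 → w + g w = v + g v := fun v w hv hw e => by
      have e1 : g (v + g v) = v + g v := by rw [map_add, h3, add_comm]
      have e2 : q (v + g v) = 0 := by rw [hq, hg, hv, h4 v hv]; rfl
      have e0 := h5 v hv
      generalize v + g v = s at *
      have e3 : B (g w) s = 0 := by rw [← e1, hI', e]
      have e4 := key w (w + s) w hw (by rw [hq, hw, e2, e]; rfl) hw (by
        simp [tv_apply, e1, h4 w hw, e, alt_self hB])
      obtain ⟨a, ha⟩ := exists_one hN e0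
      have e5 := e4 a
      simp only [tv_apply, one_mul, ha, map_add, map_smul, e1, alt_self hB, b2 hB s, e, e3, mul_zero] at e5
      have e6 : w + g w = (B a w + B a (g w)) • s := by
        linear_combination (norm := module) e5 + a2 w + a2 (B a w • w) - a2 (B a (g w) • g w) - a2 (B a (g w) • s)
      rcases z01 (B a w + B a (g w)) with e | e <;> rw [e] at e6
      · exact absurd (by simpa using e6) (h5 w hw)
      · rwa [one_smul] at e6
    obtain ⟨v', hv', e⟩ : ∃ v', q v' = 1 ∧ B v' (v + g v) = 1 := by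
      obtain ⟨a, ha⟩ := exists_one hN (h5 v hv)
      rcases z01 (q a) with e | e
      · obtain ⟨u, hu, e1, e2⟩ := hP a (v + g v)
        exact ⟨u + a, by rw [hq, hu, e, e1]; rfl, by rw [map_add B, LinearMap.add_apply, e2, ha, zero_add]⟩
      · exact ⟨a, e, ha⟩
    obtain ⟨w, hw, e1, e2⟩ := hP (v + g v) (v' + g v')
    rw [← h6 v w hv hw e1, h6 v' w hv' hw e2, map_add, alt_self hB, h4 v' hv'] at e
    exact absurd e (by decide)
  have h3 : ∀ v, q v = 1 → B v (g v) = 1 := fun v hv => (z01 _).resolve_left fun e => hc ⟨v, hv, e⟩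
  obtain ⟨w, hw, e1, e2⟩ := hP v (g v)
  have e3 : B (g w) (g v) = 0 := by rw [hI', e1]
  have e4 : B (g w) v = 0 := by
    have := hI' w (g v)
    rwa [h1 v hv, h3 v hv, one_smul, map_add, e3, e2, add_zero] at this
  obtain ⟨u, hu, e5, e6⟩ := hP (v + w) (g v + g w)
  rw [map_add] at e5 e6
  replace e5 := eq_of_add e5
  replace e6 := eq_of_add e6
  have hq0 : ∀ (c : ZMod 2) a, q a = 0 → q (c • a) = 0 := fun c a h => by
    rcases z01 c with rfl | rfl
    · simpa [h] using (hq 0 a).symm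
    · rwa [one_smul]
  have f1 := h3 v hv
  have f2 := h3 w hw
  have e7 := key v w (u + (B u (g v) • (v + w) + B u v • (g v + g w))) hv hw (by
    rw [hq, hq, hq0 _ _ (by rw [hq, hv, hw, b2 hB, e1]; rfl), hq0 _ _ (by rw [← map_add, hg, hq, hv, hw, b2 hB, e1]; rfl)]
    simp [hu, ← e5, ← e6, f1, f2, e2, b2 hB v (g w), e4, CharTwo.add_self_eq_zero]) (by
    rw [tv_apply_of_ortho hB (v := g w), tv_apply_of_ortho hB (v := w), tv_apply_of_ortho, tv_apply_of_ortho] <;>
      simp [← e5, ← e6, f1, f2, e1, e2, e3, e4, b2 hB v (g w), b2 hB v w, b2 hB (g v) v, b2 hB (g v) w,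
        b2 hB (g v) (g w), b2 hB (g w) w, alt_self hB, CharTwo.add_self_eq_zero]) v
  rw [tv_apply_of_ortho hB _ ((b2 hB _ _).trans e4), tv_apply_of_ortho hB _ ((b2 hB _ _).trans e1), tv_apply_self,
    tv_apply, f1] at e7
  exact h0 (g v) (by rwa [hg]) (by simpa using e7)

variable [FiniteDimensional (ZMod 2) A]

theorem finrank_le_ker {t : A ≃ₗ[ZMod 2] A} (h : ∀ a, t (t a) = a) :
    finrank (ZMod 2) A ≤ 2 * finrank (ZMod 2) (LinearMap.ker ((t : A →ₗ[ZMod 2] A) + LinearMap.id)) := by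
  have h1 := ((t : A →ₗ[ZMod 2] A) + LinearMap.id).finrank_range_add_finrank_ker
  have h2 : LinearMap.range ((t : A →ₗ[ZMod 2] A) + LinearMap.id) ≤
      LinearMap.ker ((t : A →ₗ[ZMod 2] A) + LinearMap.id) := by
    rintro _ ⟨a, rfl⟩
    simpa [h, add_comm a] using a2 (t a + a)
  have := Submodule.finrank_mono h2
  omega

/-- No large quadratic offenders made of isometries with a common fixed space. -/
theorem not_offender (hB : B.IsAlt) (hN : B.Nondegenerate) (hq : ∀ a b, q (a + b) = q a + q b + B a b)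
    (h3 : 2 < finrank (ZMod 2) A) {I J : Submodule (ZMod 2) A} (hI : finrank (ZMod 2) A ≤ 2 * finrank (ZMod 2) I)
    (hJ : finrank (ZMod 2) A ≤ 2 * finrank (ZMod 2) J) (hJ' : J ≠ ⊤) (τ : I → A ≃ₗ[ZMod 2] A) (h1 : ∀ a, τ a ∈ Isom B)
    (h2 : ∀ a v, q (τ a v) = q v) (h4 : ∀ a, ∀ j ∈ J, τ a j = j) (h5 : ∀ v ∉ J, ∀ a b, τ a v = τ b v → a = b) :
    False := by
  have : Finite A := Module.finite_of_finite (ZMod 2)
  have hd := LinearMap.BilinForm.finrank_orthogonal hN J
  have hc : ∀ S : Submodule (ZMod 2) A, Nat.card S = 2 ^ finrank (ZMod 2) S := fun S => by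
    rw [Module.natCard_eq_pow_finrank (K := ZMod 2), Nat.card_zmod]
  have key : ∀ v ∉ J, finrank (ZMod 2) I ≤ finrank (ZMod 2) (B.orthogonal J) ∧ ∀ j ∈ B.orthogonal J, B j v = q j :=
    fun v hv => by
      let f : I → B.orthogonal J := fun a => ⟨τ a v + v, mem_orth.2 fun j hj => by
        rw [map_add, ← h4 a j hj, h1 a, h4 a j hj, CharTwo.add_self_eq_zero]⟩
      have hf : Function.Injective f := fun a b e => h5 v hv a b (add_right_cancel (congrArg Subtype.val e))
      have h6 := Nat.card_le_card_of_injective f hf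
      rw [hc, hc, pow_le_pow_iff_right₀ one_lt_two] at h6
      refine ⟨h6, fun j hj => ?_⟩
      obtain ⟨a, e⟩ := (hf.bijective_of_nat_card_le (by
        rw [hc, hc, pow_le_pow_iff_right₀ one_lt_two]; omega)).2 ⟨j, hj⟩
      rw [← show τ a v + v = j from congrArg Subtype.val e, hq, h2, CharTwo.add_self_eq_zero, zero_add, map_add,
        LinearMap.add_apply, alt_self hB, add_zero]
  obtain ⟨v, -, hv⟩ := SetLike.exists_of_lt (lt_top_iff_ne_top.2 hJ')
  obtain ⟨w, -, hw⟩ : ∃ w ∈ (⊤ : Submodule (ZMod 2) A), w ∉ J ⊔ (ZMod 2) ∙ v := SetLike.exists_of_lt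
    (lt_top_iff_ne_top.2 fun e => by
      have h6 := Submodule.finrank_add_le_finrank_add_finrank J ((ZMod 2) ∙ v)
      have h7 := (key v hv).1
      rw [e, finrank_top, finrank_span_singleton (fun e : v = 0 => hv (e ▸ J.zero_mem))] at h6
      omega)
  refine hv (orth_orth hB hN J ▸ mem_orth.2 fun j hj => ?_)
  have h6 := (key (w + v) fun e => hw (by
    simpa [add_assoc, a2] using Submodule.add_mem_sup e (Submodule.mem_span_singleton_self v))).2 j hj
  rwa [map_add, (key w fun e => hw (Submodule.mem_sup_left e)).2 j hj, add_eq_left] at h6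

end CL.Pa
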