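/-
Project C6 (r = 2), real types, file 2: the elements `ρ_v = 1 + v`, the quadratic form on `R / Z(R)`, and groups in
which the elements of order four of `R` have their centralisers inside `R`.
-/
import Cfsg.Agent.Cls.PauliR0
import Cfsg.Agent.Cls.PauliR1

set_option autoImplicit false

namespace CL.Pa

open Module

variable {F 𝔄 : Type*} [Field F] [Ring 𝔄] [Algebra F 𝔄]

/-- The unit `1 + v`. -/
noncomputable def rho (v : 𝔄ˣ) : 𝔄ˣ := un (1 + (v : 𝔄))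

variable (F) in
/-- The unit `(1 + v) (1 + w) / 2`. -/
noncomputable def rr (v w : 𝔄ˣ) : 𝔄ˣ := (scu 𝔄 (2 : F))⁻¹ * (rho v * rho w)

theorem rho_aux {v : 𝔄} (hv : v * v = -1) : (1 + v) * (1 - v) = (2 : F) • 1 := by
  simp only [mul_sub, add_mul, mul_one, one_mul, hv]
  module

section rho

variable (h2 : (2 : F) ≠ 0) {v w : 𝔄ˣ}
include h2

omit h2 in
theorem scu_inv_val {c : F} (h : c ≠ 0) : (((scu 𝔄 c)⁻¹ : 𝔄ˣ) : 𝔄) = c⁻¹ • 1 := by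
  rw [← mul_one (((scu 𝔄 c)⁻¹ : 𝔄ˣ) : 𝔄), Units.inv_mul_eq_iff_eq_mul]
  simp [scu_val h, smul_smul, h]

theorem rho_val (hv : v * v = -1) : (rho v : 𝔄) = 1 + v := by
  have hv' : (v : 𝔄) * v = -1 := congrArg Units.val hv
  refine un_val (b := (2 : F)⁻¹ • (1 - (v : 𝔄))) ?_ ?_
  · rw [mul_smul_comm, rho_aux (F := F) hv', smul_smul, inv_mul_cancel₀ h2, one_smul]
  · have := rho_aux (F := F) (v := -(v : 𝔄)) (by simpa using hv')
    rw [sub_neg_eq_add, ← sub_eq_add_neg] at this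
    rw [smul_mul_assoc, this, smul_smul, inv_mul_cancel₀ h2, one_smul]

theorem rr_val (hv : v * v = -1) (hw : w * w = -1) : (rr F v w : 𝔄) = (2 : F)⁻¹ • ((1 + v) * (1 + w)) := by
  simp [rr, scu_inv_val h2, rho_val h2 hv, rho_val h2 hw]

theorem rho_comm {x : 𝔄ˣ} (hv : v * v = -1) (h : v * x = x * v) : rho v * x = x * rho v :=
  Units.ext (by simpa [rho_val h2 hv, mul_add, add_mul] using congrArg Units.val h)

theorem rho_anti {x : 𝔄ˣ} (hv : v * v = -1) (h : v * x = -(x * v)) : rho v * x * (rho v)⁻¹ = v * x := by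
  have hv' : (v : 𝔄) * v = -1 := congrArg Units.val hv
  have h' : (v : 𝔄) * x = -(x * v) := congrArg Units.val h
  rw [mul_inv_eq_iff_eq_mul]
  refine Units.ext ?_
  simp only [Units.val_mul, rho_val h2 hv, mul_add, add_mul, one_mul, mul_one]
  rw [add_comm, h', neg_mul, mul_assoc, hv', mul_neg, mul_one, neg_neg]

theorem rr_conj (x : 𝔄ˣ) : rr F v w * x * (rr F v w)⁻¹ = rho v * rho w * x * (rho v * rho w)⁻¹ := by
  rw [rr, show (scu 𝔄 (2 : F))⁻¹ * (rho v * rho w) * x * ((scu 𝔄 (2 : F))⁻¹ * (rho v * rho w))⁻¹ = (scu 𝔄 (2 : F))⁻¹ *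
    (rho v * rho w * x * (rho v * rho w)⁻¹) * (scu 𝔄 (2 : F))⁻¹⁻¹ by group,
    conj_eq_of_comm (Zc_comm (inv_mem (scu_mem h2)) _)]

theorem rr_comm {x : 𝔄ˣ} (hv : v * v = -1) (hw : w * w = -1) (h : v * x = x * v) (h' : w * x = x * w) :
    rr F v w * x = x * rr F v w :=
  comm_of_conj (by
    rw [rr_conj h2]
    exact conj_eq_of_comm ((show Commute _ x from rho_comm h2 hv h).mul_left (rho_comm h2 hw h')).eq)

end rho

namespace Pauli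

variable {R : Subgroup 𝔄ˣ} (P : Pauli F R) [Finite 𝔄]
include P

theorem rho_mem_Nm {v : 𝔄ˣ} (hv : v ∈ R) (hv2 : v * v = -1) : rho v ∈ Nm R :=
  mem_Nm fun x hx => by
    rcases P.comm hv hx with h | h
    · rwa [conj_eq_of_comm (rho_comm P.two hv2 h)]
    · rw [rho_anti P.two hv2 h]
      exact R.mul_mem hv hx

theorem rr_mem_Nm {v w : 𝔄ˣ} (hv : v ∈ R) (hw : w ∈ R) (hv2 : v * v = -1) (hw2 : w * w = -1) : rr F v w ∈ Nm R :=
  mul_mem (Zc_le_Nm R (inv_mem (scu_mem P.two))) (mul_mem (P.rho_mem_Nm hv hv2) (P.rho_mem_Nm hw hw2))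

omit [Finite 𝔄] in
theorem act_ext {s t : P.A ≃ₗ[ZMod 2] P.A} (h : ∀ x : R, s (P.φ x) = t (P.φ x)) : s = t :=
  LinearEquiv.ext fun v => by obtain ⟨x, rfl⟩ := P.φ_surj v; exact h x

/-- The action of the normaliser on `R / Z(R)`. -/
noncomputable def act : Nm R →* P.A ≃ₗ[ZMod 2] P.A :=
  MonoidHom.mk' (fun g => (P.exists_act g.2).choose) fun g h => P.act_ext fun x => by
    rw [LinearEquiv.mul_apply, (P.exists_act h.2).choose_spec.2, (P.exists_act g.2).choose_spec.2,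
      (P.exists_act (g * h).2).choose_spec.2]
    congr 1
    exact Subtype.ext (by simp only [Subgroup.coe_mul]; group)

theorem act_φ (g : Nm R) (x : R) : P.act g (P.φ x) = P.φ ⟨g * x * (g : 𝔄ˣ)⁻¹, conj_mem g.2 x.2⟩ :=
  (P.exists_act g.2).choose_spec.2 x

theorem act_mem (g : Nm R) : P.act g ∈ CL.Sp.Isom P.B := (P.exists_act g.2).choose_spec.1

theorem act_φ_eq {g : Nm R} {x : R} : P.act g (P.φ x) = P.φ x ↔ (x : 𝔄ˣ)⁻¹ * (g * x * (g : 𝔄ˣ)⁻¹) ∈ Zc 𝔄 := by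
  rw [P.act_φ, eq_comm, P.φ_eq_iff]

omit [Finite 𝔄] in
theorem conj_div_mem {x y : 𝔄ˣ} (hx : x ∈ R) (hy : y ∈ R) : y⁻¹ * (x * y * x⁻¹) ∈ Zc 𝔄 := by
  rcases P.conj_sign hx hy with e | e <;> rw [e]
  · rw [inv_mul_cancel]; exact one_mem _
  · rw [mul_neg, inv_mul_cancel]; exact neg_one_mem_Zc

theorem act_eq_one {g : Nm R} (h : (g : 𝔄ˣ) ∈ R) : P.act g = 1 :=
  P.act_ext fun x => P.act_φ_eq.2 (P.conj_div_mem h x.2)

theorem act_rho {v : R} (hv : (v : 𝔄ˣ) * v = -1) :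
    P.act ⟨rho v, P.rho_mem_Nm v.2 hv⟩ = CL.Sp.tv P.B_alt (P.φ v) 1 :=
  P.act_ext fun x => by
    rw [P.act_φ, CL.Sp.tv_apply, P.B_φ, one_mul]
    rcases P.comm v.2 x.2 with h | h
    · rw [bf_eq_zero.2 h.symm, zero_smul, add_zero]
      congr 1
      exact Subtype.ext (conj_eq_of_comm (rho_comm P.two hv h))
    · rw [bf_of_ne (P.ne_of_anti (anti_symm h)), one_smul, add_comm, ← P.φ_mul]
      congr 1
      exact Subtype.ext (rho_anti P.two hv h)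

omit [Finite 𝔄] in
theorem one_ne_neg : (1 : 𝔄ˣ) ≠ -1 := (P.neg_ne 1).symm

omit [Finite 𝔄] P in
theorem sq_anti {a b : 𝔄ˣ} (h : a * b = -(b * a)) : a * b * (a * b) = -(a * a * (b * b)) := by
  rw [mul_assoc, ← mul_assoc b, anti_symm h]; simp [mul_assoc]

omit [Finite 𝔄] P in
theorem sq_comm {a b : 𝔄ˣ} (h : a * b = b * a) : a * b * (a * b) = a * a * (b * b) := by
  rw [mul_assoc, ← mul_assoc b, ← h]; simp [mul_assoc]

/-- The quadratic form. -/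
noncomputable def q (v : P.A) : ZMod 2 := by classical exact if (P.rep v : 𝔄ˣ) * P.rep v = 1 then 0 else 1

end Pauli

variable (F) in
/-- A Pauli group of real type with enough elements of order four. -/
structure RP (R : Subgroup 𝔄ˣ) : Prop extends Pauli F R where
  sc : ∀ k ∈ R, k ∈ Zc 𝔄 → k = 1 ∨ k = -1
  ns : ∀ a ∈ R, ∀ b ∈ R, ∃ u ∈ R, u * u = -1 ∧ u * a = a * u ∧ u * b = b * u

namespace RP

variable {R : Subgroup 𝔄ˣ} (P : RP F R)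
include P

theorem notMem_of_ns {x : 𝔄ˣ} (hx : x ∈ R) (h : x * x = -1) : x ∉ Zc 𝔄 := fun e => by
  rcases P.sc x hx e with rfl | rfl <;> exact P.one_ne_neg (by simpa using h)

theorem q_φ (x : R) : ((x : 𝔄ˣ) * x = 1 ∧ P.q (P.φ x) = 0) ∨ ((x : 𝔄ˣ) * x = -1 ∧ P.q (P.φ x) = 1) := by
  have h : (P.rep (P.φ x) : 𝔄ˣ) * P.rep (P.φ x) = x * x := by
    rcases P.sc _ (R.mul_mem (R.inv_mem (P.rep (P.φ x)).2) x.2) (P.φ_eq_iff.1 (P.φ_rep (P.φ x))) with e | e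
    · rw [inv_mul_eq_one.1 e]
    · rw [← mul_inv_cancel_left (P.rep (P.φ x) : 𝔄ˣ) x, e]; simp
  unfold Pauli.q
  rw [h]
  rcases P.sq x x.2 with e | e
  · exact Or.inl ⟨e, if_pos e⟩
  · exact Or.inr ⟨e, if_neg fun e' => P.one_ne_neg (e'.symm.trans e)⟩

theorem q_eq_one {x : R} : P.q (P.φ x) = 1 ↔ (x : 𝔄ˣ) * x = -1 := by
  rcases P.q_φ x with ⟨e, e'⟩ | ⟨e, e'⟩ <;> simp [e, e', P.one_ne_neg]

theorem q_add (a b : P.A) : P.q (a + b) = P.q a + P.q b + P.B a b := by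
  obtain ⟨x, rfl⟩ := P.φ_surj a
  obtain ⟨y, rfl⟩ := P.φ_surj b
  have h1 := P.one_ne_neg
  rw [← P.φ_mul, P.B_φ]
  rcases P.comm x.2 y.2 with e | e
  · rcases P.q_φ x with ⟨a, a'⟩ | ⟨a, a'⟩ <;> rcases P.q_φ y with ⟨b, b'⟩ | ⟨b, b'⟩ <;>
      rcases P.q_φ (x * y) with ⟨c, c'⟩ | ⟨c, c'⟩ <;> rw [Subgroup.coe_mul, Pauli.sq_comm e, a, b] at c <;>
      rw [a', b', c', bf_eq_zero.2 e] <;> first | rfl | exact absurd (by simpa [eq_comm] using c) h1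
  · rcases P.q_φ x with ⟨a, a'⟩ | ⟨a, a'⟩ <;> rcases P.q_φ y with ⟨b, b'⟩ | ⟨b, b'⟩ <;>
      rcases P.q_φ (x * y) with ⟨c, c'⟩ | ⟨c, c'⟩ <;> rw [Subgroup.coe_mul, Pauli.sq_anti e, a, b] at c <;>
      rw [a', b', c', bf_of_ne (P.ne_of_anti e)] <;> first | rfl | exact absurd (by simpa [eq_comm] using c) h1

theorem exists_ns_anti {x : 𝔄ˣ} (hx : x ∈ R) (h : x ∉ Zc 𝔄) : ∃ y ∈ R, y * y = -1 ∧ x * y = -(y * x) := by
  obtain ⟨y, hy, e⟩ := P.exists_anti hx h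
  rcases P.sq y hy with e' | e'
  · obtain ⟨u, hu, h1, h2, h3⟩ := P.ns x hx y hy
    exact ⟨u * y, R.mul_mem hu hy, by rw [Pauli.sq_comm h3, h1, e', mul_one], by
      rw [← mul_assoc, ← h2, mul_assoc, e, mul_neg, mul_assoc]⟩
  · exact ⟨y, hy, e', e⟩

variable [Finite 𝔄]

theorem q_act (g : Nm R) (a : P.A) : P.q (P.act g a) = P.q a := by
  obtain ⟨x, rfl⟩ := P.φ_surj a
  have : P.q (P.act g (P.φ x)) = 1 ↔ P.q (P.φ x) = 1 := by
    rw [P.act_φ, P.q_eq_one, P.q_eq_one]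
    show (g : 𝔄ˣ) * x * (g : 𝔄ˣ)⁻¹ * (g * x * (g : 𝔄ˣ)⁻¹) = -1 ↔ _
    rw [conj_mul, mul_inv_eq_iff_eq_mul, neg_one_mul, ← mul_neg_one, mul_right_inj]
  revert this
  generalize P.q (P.act g (P.φ x)) = c
  generalize P.q (P.φ x) = d
  revert c d
  decide

variable {N : Subgroup 𝔄ˣ} (hN : R ≤ N) (hC : ∀ x ∈ R, x * x = -1 → ∀ g ∈ N, g * x = x * g → g ∈ R)
include hN hC

omit [Finite 𝔄] in
theorem mem_of_fix {x g : 𝔄ˣ} (hx : x ∈ R) (hx2 : x * x = -1) (hg : g ∈ N) (h : x⁻¹ * (g * x * g⁻¹) ∈ Zc 𝔄) :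
    g ∈ R := by
  rcases P.sign_of_conj hx h with e | e
  · exact hC x hx hx2 g hg e
  · obtain ⟨y, hy, e'⟩ := P.exists_anti hx (P.notMem_of_ns hx hx2)
    exact (R.mul_mem_cancel_left hy).1 (hC x hx hx2 _ (N.mul_mem (hN hy) hg) (by
      rw [mul_assoc, e, mul_neg, ← mul_assoc, anti_symm e', neg_mul, neg_neg, mul_assoc]))

variable (hρ : ∀ v ∈ R, ∀ w ∈ R, v * v = -1 → w * w = -1 → ∀ g ∈ N, rho v * rho w * g * (rho v * rho w)⁻¹ ∈ N)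
include hρ

theorem mem_of_Nm {g : 𝔄ˣ} (hg : g ∈ N) (hg' : g ∈ Nm R) : g ∈ R := by
  have h1 : ∀ k : Nm R, (k : 𝔄ˣ) ∈ N → ∀ u, P.q u = 1 → P.act k u = u → (k : 𝔄ˣ) ∈ R := fun k hk u hu e => by
    obtain ⟨x, rfl⟩ := P.φ_surj u
    exact P.mem_of_fix hN hC x.2 (P.q_eq_one.1 hu) hk (P.act_φ_eq.1 e)
  obtain ⟨u, hu, e⟩ := exists_fixed_ns P.B_alt P.B_nondeg P.q_add (fun a b => by
      obtain ⟨x, rfl⟩ := P.φ_surj a
      obtain ⟨y, rfl⟩ := P.φ_surj b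
      obtain ⟨u, hu, e1, e2, e3⟩ := P.ns x x.2 y y.2
      exact ⟨P.φ ⟨u, hu⟩, P.q_eq_one.2 e1, by rw [P.B_φ, bf_eq_zero.2 e2], by rw [P.B_φ, bf_eq_zero.2 e3]⟩)
    (P.act_mem ⟨g, hg'⟩) (P.q_act _) (fun u hu e a => by
      rw [← LinearEquiv.mul_apply, ← map_mul] at e ⊢
      rw [P.act_eq_one (h1 _ (N.mul_mem hg hg) u hu e)]; rfl) fun v w u hv hw hu e a => by
      obtain ⟨v, rfl⟩ := P.φ_surj v
      obtain ⟨w, rfl⟩ := P.φ_surj w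
      rw [P.q_eq_one] at hv hw
      let ω : Nm R := ⟨rho v, P.rho_mem_Nm v.2 hv⟩ * ⟨rho w, P.rho_mem_Nm w.2 hw⟩
      have e1 : ∀ a, P.act ω a = CL.Sp.tv P.B_alt (P.φ v) 1 (CL.Sp.tv P.B_alt (P.φ w) 1 a) := fun a => by
        rw [map_mul, P.act_rho hv, P.act_rho hw]; rfl
      have e2 : ∀ a, P.act (⟨g, hg'⟩ * ω * ⟨g, hg'⟩⁻¹ * ω⁻¹) (P.act ω a) = CL.Sp.tv P.B_alt (P.act ⟨g, hg'⟩ (P.φ v)) 1
          (CL.Sp.tv P.B_alt (P.act ⟨g, hg'⟩ (P.φ w)) 1 a) := fun a => by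
        rw [← LinearEquiv.mul_apply, ← map_mul, inv_mul_cancel_right, ← CL.Sp.conj_tv _ (P.act_mem _),
          ← CL.Sp.conj_tv _ (P.act_mem _), ← LinearEquiv.mul_apply, conj_mul, map_mul, map_mul, map_mul, map_inv,
          P.act_rho hv, P.act_rho hw]
      rw [← e1, ← e2, P.act_eq_one (h1 _ ?_ (P.act ω u) (by rwa [P.q_act]) (by rw [e2, e, e1]))]
      · rfl
      · simpa [ω, mul_assoc] using N.mul_mem hg (hρ v v.2 w w.2 hv hw _ (N.inv_mem hg))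
  exact h1 ⟨g, hg'⟩ hg u hu e

theorem mem_of_conj_mem {x g : 𝔄ˣ} (hx : x ∈ R) (hx2 : x * x = -1) (hg : g ∈ N) (h : g * x * g⁻¹ ∈ R) : g ∈ R :=
  inv_mem_iff.1 (P.mem_of_Nm hN hC hρ (N.inv_mem hg) (mem_Nm fun r hr => P.mem_of_fix hN hC hx hx2
    (N.mul_mem (N.mul_mem (N.inv_mem hg) (hN hr)) (N.inv_mem (N.inv_mem hg))) (by
      rw [show x⁻¹ * (g⁻¹ * r * g⁻¹⁻¹ * x * (g⁻¹ * r * g⁻¹⁻¹)⁻¹) =
        g⁻¹ * ((g * x * g⁻¹)⁻¹ * (r * (g * x * g⁻¹) * r⁻¹)) * g⁻¹⁻¹ by group, conj_mem_Zc]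
      exact P.conj_div_mem hr h)))

/-- A group in which the elements of order four of `R` have centralisers inside `R` is `R`. -/
theorem le_of_cent (hZ : ∀ k ∈ N, k ∈ Zc 𝔄 → k = 1 ∨ k = -1) : N ≤ R := by
  intro g hg
  obtain ⟨x, hx, hx2, -⟩ := P.ns 1 R.one_mem 1 R.one_mem
  obtain ⟨y, hy, hy2, hxy⟩ := P.exists_ns_anti hx (P.notMem_of_ns hx hx2)
  set π := QuotientGroup.mk' (Zc 𝔄)
  have hs : ∀ a : 𝔄ˣ, a * a = -1 → π a * π a = 1 := fun a h => by rw [← map_mul, h, mk_eq_one.2 neg_one_mem_Zc]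
  have h1 : ∀ k ∈ N, ∀ a ∈ R, a * a = -1 → ∀ b ∈ R, π k * π a * (π k)⁻¹ = π b → k ∈ R ∧ π a = π b :=
    fun k hk a ha ha2 b hb e => by
      have e1 : b⁻¹ * (k * a * k⁻¹) ∈ Zc 𝔄 :=
        mk_eq_one.1 (show π _ = 1 by simp only [map_mul, map_inv, e, inv_mul_cancel])
      have e2 : k ∈ R := P.mem_of_conj_mem hN hC hρ ha ha2 hk (by
        rw [← R.mul_mem_cancel_left (R.inv_mem hb)]
        rcases hZ _ (N.mul_mem (hN (R.inv_mem hb)) (N.mul_mem (N.mul_mem hk (hN ha)) (N.inv_mem hk))) e1 with e | e <;>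
          rw [e]
        exacts [R.one_mem, P.neg])
      exact ⟨e2, by rw [← e, ← map_mul, P.mk_comm e2 ha, map_mul, mul_inv_cancel_right]⟩
  have h2 : ∀ k ∈ N, ∀ a ∈ R, a * a = -1 → π k * π a = π a * π k → k ∈ R := fun k hk a ha ha2 e =>
    (h1 k hk a ha ha2 a ha (by rw [e, mul_inv_cancel_right])).1
  have h3 : ∀ k : ℕ, (x * (g * y * g⁻¹)) ^ k ∈ N := fun k =>
    N.pow_mem (N.mul_mem (hN hx) (N.mul_mem (N.mul_mem hg (hN hy)) (N.inv_mem hg))) k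
  have h4 : ∀ k : ℕ, ∀ b ∈ R, (π x * π (g * y * g⁻¹)) ^ k * π (g * y * g⁻¹) * ((π x * π (g * y * g⁻¹)) ^ k)⁻¹ = π b →
      π y = π b := fun k b hb e => (h1 _ (N.mul_mem (h3 k) hg) y hy hy2 b hb (by
    rw [← e]; simp only [map_mul, map_pow, map_inv]; group)).2
  rcases dihedral (hs x hx2) (hs (g * y * g⁻¹) (by rw [conj_mul, hy2]; simp)) with
    ⟨k, e⟩ | ⟨m, u, rfl, hu1, -, e1, e2, e3⟩
  · exact absurd (QuotientGroup.eq.1 (h4 k x hx e)) (P.notMem_of_anti (y := x) (by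
      rw [inv_eq_neg_of_sq hy2, ← mul_assoc, mul_neg, hxy, neg_neg, neg_mul, neg_mul]))
  rw [← map_mul, ← map_pow] at hu1 e1 e2
  have hn := h2 _ (h3 m) x hx hx2 e1
  rcases e3 with ⟨⟨k, e⟩, -⟩ | ⟨⟨k, e⟩, -⟩
  · have := (h1 _ (h3 k) x hx hx2 _ (R.mul_mem hn hx) (by simpa only [map_mul, map_pow] using e)).2
    rw [map_mul, eq_comm, mul_eq_right] at this
    exact absurd this hu1
  have e4 := h4 k _ (R.mul_mem hn hx) (by simpa only [map_mul, map_pow] using e)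
  generalize (x * (g * y * g⁻¹)) ^ m = n at *
  have e5 : n * n = -1 := by
    have e6 := P.sc _ (R.mul_mem (R.inv_mem hy) (R.mul_mem hn hx)) (QuotientGroup.eq.1 e4)
    have e7 : y * x⁻¹ * (y * x⁻¹) = -1 := by
      rw [inv_eq_neg_of_sq hx2, mul_neg, neg_mul_neg, Pauli.sq_anti (anti_symm hxy), hx2, hy2]; simp
    rw [show n = y * (y⁻¹ * (n * x)) * x⁻¹ by group]
    rcases e6 with e | e <;> simpa [e] using e7
  exact inv_mem_iff.1 (P.mem_of_conj_mem hN hC hρ hn e5 (N.inv_mem hg) (h2 _ (N.mul_mem (N.mul_mem (N.inv_mem hg) (hN hn))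
    (N.inv_mem (N.inv_mem hg))) y hy hy2 (by
      simpa [mul_assoc] using ((show Commute _ _ from e2).map (MulAut.conj (π g)⁻¹)).eq)))

end RP

end CL.Pa
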