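/-
Project C6 (r = 2), real types, file 3: an overgroup in which the centralisers of the non-central elements of `R`
normalise `R` normalises `R`.
-/
import Cfsg.Agent.Cls.PauliR2

set_option autoImplicit false

namespace CL.Pa

open Module

variable {F 𝔄 : Type*} [Field F] [Ring 𝔄] [Algebra F 𝔄]

/-- A group of isometries `H` containing `R` and the products of two `ρ`. -/
structure Ov (st : 𝔄 →ₗ[F] 𝔄) (R H : Subgroup 𝔄ˣ) : Prop extends Pauli F R where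
  mul : ∀ a b, st (a * b) = st b * st a
  iso : ∀ h ∈ H, st h * h = 1
  le : R ≤ H
  rr : ∀ v ∈ R, ∀ w ∈ R, v * v = -1 → w * w = -1 → rr F v w ∈ H

theorem st_eq {st : 𝔄 →ₗ[F] 𝔄} {g : 𝔄ˣ} (h : st g * g = 1) : st g = (g⁻¹ : 𝔄ˣ) := by
  rw [← mul_one (st g), ← g.mul_inv, ← mul_assoc, h, one_mul]

theorem Pauli.sign_of_iso {R : Subgroup 𝔄ˣ} (P : Pauli F R) {st : 𝔄 →ₗ[F] 𝔄} (h1 : st 1 = 1) {g : 𝔄ˣ}
    (h : st g * g = 1) (hg : g ∈ Zc 𝔄) : g = 1 ∨ g = -1 := by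
  obtain ⟨c, -, hc⟩ := P.exists_smul_of_mem hg
  refine P.sign_of_mem hg (Units.ext ?_)
  rwa [hc, map_smul, h1, ← hc] at h

namespace Ov

variable {st : 𝔄 →ₗ[F] 𝔄} {R H : Subgroup 𝔄ˣ} (O : Ov st R H)
include O

theorem one : st 1 = 1 := by simpa using O.iso 1 H.one_mem

theorem sc {g : 𝔄ˣ} (h : g ∈ H) (hg : g ∈ Zc 𝔄) : g = 1 ∨ g = -1 := O.sign_of_iso O.one (O.iso g h) hg

theorem mem_of_mul {r g : 𝔄ˣ} (hr : r ∈ R) (h : g ∈ H) (hg : r⁻¹ * g ∈ Zc 𝔄) : g ∈ R := by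
  rw [← R.mul_mem_cancel_left (R.inv_mem hr)]
  rcases O.sc (H.mul_mem (H.inv_mem (O.le hr)) h) hg with e | e <;> rw [e]
  exacts [R.one_mem, O.neg]

variable (h3 : NS3 R)
include h3

theorem rp : RP F R :=
  ⟨O.toPauli, fun _ hk => O.sc (O.le hk), fun a ha b hb =>
    let ⟨u, h1, h2, h4, h5, _⟩ := h3 a ha b hb 1 R.one_mem; ⟨u, h1, h2, h4, h5⟩⟩

variable [Finite 𝔄]

theorem exists_conj {a b : 𝔄ˣ} (ha : a ∈ R) (hb : b ∈ R) (ha0 : a ∉ Zc 𝔄) (hb0 : b ∉ Zc 𝔄) (h : a * a = b * b) :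
    ∃ m ∈ H ⊓ Nm R, m * a * m⁻¹ = b := by
  have key : ∀ a ∈ R, ∀ b ∈ R, a * a = b * b → a * b = -(b * a) → ∃ m ∈ H ⊓ Nm R, m * a * m⁻¹ = b := by
    intro a ha b hb h e
    have hab := R.mul_mem ha hb
    have h1 : a * b * (a * b) = -1 := by
      rw [Pauli.sq_anti e, ← h]
      rcases O.sq a ha with e | e <;> simp [e]
    obtain ⟨u, hu, hu2, h2, -⟩ := (O.rp h3).ns a ha 1 R.one_mem
    have h4 : CL.Pa.rr F (a * b) u * a * (CL.Pa.rr F (a * b) u)⁻¹ = -(a * a * b) := by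
      rw [rr_conj O.two, show rho (a * b) * rho u * a * (rho (a * b) * rho u)⁻¹ =
        rho (a * b) * (rho u * a * (rho u)⁻¹) * (rho (a * b))⁻¹ by group, conj_eq_of_comm (rho_comm O.two hu2 h2),
        rho_anti O.two h1 (by rw [mul_assoc, anti_symm e, mul_neg]), mul_assoc, anti_symm e, mul_neg, mul_assoc]
    have h5 : CL.Pa.rr F (a * b) u ∈ H ⊓ Nm R := ⟨O.rr _ hab u hu h1 hu2, O.rr_mem_Nm hab hu h1 hu2⟩
    rcases O.sq a ha with e' | e' <;> rw [e'] at h4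
    · exact ⟨a * _, mul_mem ⟨O.le ha, Subgroup.le_normalizer ha⟩ h5, by
        rw [mul_inv_rev, mul_assoc a, mul_assoc a, ← mul_assoc _ _ a⁻¹, h4, one_mul, neg_mul, mul_neg, ← mul_assoc,
          conj_eq_of_anti e, neg_neg]⟩
    · exact ⟨_, h5, by simpa using h4⟩
  obtain ⟨y, hy, e1, e2, e3⟩ : ∃ y ∈ R, a * a = y * y ∧ a * y = -(y * a) ∧ b * y = -(y * b) := by
    obtain ⟨y, hy, e1, e2⟩ := O.exists_anti_two ha hb ha0 hb0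
    by_cases e : a * a = y * y
    · exact ⟨y, hy, e, e1, e2⟩
    obtain ⟨u, hu, hu2, c1, c2, c3⟩ := h3 a ha b hb y hy
    refine ⟨u * y, R.mul_mem hu hy, ?_, by rw [← mul_assoc, ← c1, mul_assoc, e1, mul_neg, mul_assoc],
      by rw [← mul_assoc, ← c2, mul_assoc, e2, mul_neg, mul_assoc]⟩
    rw [Pauli.sq_comm c3, hu2]
    rcases O.sq a ha with e4 | e4 <;> rcases O.sq y hy with e5 | e5 <;> simp_all
  obtain ⟨m, hm, e⟩ := key a ha y hy e1 e2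
  obtain ⟨m', hm', e'⟩ := key y hy b hb (e1.symm.trans h) (anti_symm e3)
  exact ⟨m' * m, mul_mem hm' hm, by rw [← e', ← e]; group⟩

variable (hC : ∀ a ∈ R, a ∉ Zc 𝔄 → ∀ h ∈ H, h * a = a * h → h ∈ Nm R)
include hC

theorem mem_of_conj {a h : 𝔄ˣ} (ha : a ∈ R) (ha0 : a ∉ Zc 𝔄) (hh : h ∈ H) (e : h * a * h⁻¹ ∈ R) : h ∈ Nm R := by
  obtain ⟨m, hm, e'⟩ := O.exists_conj h3 ha e ha0 (by rwa [conj_mem_Zc]) (by
    rw [conj_mul]
    rcases O.sq a ha with e | e <;> simp [e])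
  rw [← (Nm R).mul_mem_cancel_left (inv_mem hm.2)]
  exact hC a ha ha0 _ (H.mul_mem (H.inv_mem hm.1) hh) (comm_of_conj (by
    rw [show m⁻¹ * h * a * (m⁻¹ * h)⁻¹ = m⁻¹ * (h * a * h⁻¹) * m by group, ← e']; group))

theorem mem_of_conj_Nm (hd : 4 < finrank F 𝔄) {a h : 𝔄ˣ} (ha : a ∈ R) (ha0 : a ∉ Zc 𝔄) (hh : h ∈ H)
    (e : h * a * h⁻¹ ∈ Nm R) : h ∈ Nm R := by
  by_contra hn
  have P := O.rp h3
  have T : ∀ k ∈ H, k ∉ Nm R → ∀ r ∈ R, k * r * k⁻¹ ∈ R → r ∈ Zc 𝔄 := fun k hk hk' r hr e =>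
    by_contra fun h0 => hk' (O.mem_of_conj h3 hC hr h0 hk e)
  have S1 : ∀ a ∈ R, ∀ b ∈ R, h * a * h⁻¹ ∈ Nm R → h⁻¹ * b * h⁻¹⁻¹ ∈ Nm R →
      b⁻¹ * (h * a * h⁻¹ * b * (h * a * h⁻¹)⁻¹) ∈ Zc 𝔄 := fun a ha b hb e1 e2 =>
    T h⁻¹ (H.inv_mem hh) (by rwa [inv_mem_iff]) _ (R.mul_mem (R.inv_mem hb) (conj_mem e1 hb)) (by
      convert R.mul_mem (conj_mem (inv_mem e2) ha) (R.inv_mem ha) using 1
      group)
  have S2 : ∀ k ∈ H, ∀ a ∈ R, a ∉ Zc 𝔄 → ∀ b ∈ R, b⁻¹ * (k * a * k⁻¹ * b * (k * a * k⁻¹)⁻¹) ∈ Zc 𝔄 →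
      k⁻¹ * b * k⁻¹⁻¹ ∈ Nm R := fun k hk a ha ha0 b hb e => by
    have h1 := H.mul_mem (H.mul_mem (H.inv_mem hk) (O.le hb)) (H.inv_mem (H.inv_mem hk))
    refine inv_mem_iff.1 (O.mem_of_conj h3 hC ha ha0 (H.inv_mem h1) (O.mem_of_mul ha
      (H.mul_mem (H.mul_mem (H.inv_mem h1) (O.le ha)) (H.inv_mem (H.inv_mem h1))) ?_))
    convert conj_mem_Zc (g := (k * a)⁻¹).2 e using 1
    group
  have hker : ∀ (t : Nm R) (b : R), P.φ b ∈ LinearMap.ker ((P.act t : P.A →ₗ[ZMod 2] P.A) + LinearMap.id) ↔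
      (b : 𝔄ˣ)⁻¹ * (t * b * (t : 𝔄ˣ)⁻¹) ∈ Zc 𝔄 := fun t b => by
    rw [← P.act_φ_eq]
    exact ⟨eq_of_add, fun e => (congrArg (· + P.φ b) e).trans (a2 _)⟩
  have hfin : ∀ k : 𝔄ˣ, ∀ a ∈ R, ∀ e : k * a * k⁻¹ ∈ Nm R, finrank (ZMod 2) P.A ≤ 2 * finrank (ZMod 2)
      (LinearMap.ker ((P.act ⟨_, e⟩ : P.A →ₗ[ZMod 2] P.A) + LinearMap.id)) := fun k a ha e =>
    finrank_le_ker fun v => by
      rw [← LinearEquiv.mul_apply, ← map_mul, P.act_eq_one]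
      · rfl
      · show k * a * k⁻¹ * (k * a * k⁻¹) ∈ R
        rw [conj_mul]
        rcases O.sq a ha with e | e <;> simp [e, O.neg]
  have h2 : 2 < finrank (ZMod 2) P.A :=
    (pow_lt_pow_iff_right₀ one_lt_two).1 (lt_of_lt_of_le (a := 2 ^ 2) hd P.finrank_le)
  have h4 := hfin h a ha e
  obtain ⟨v, hv, hv0⟩ := (Submodule.ne_bot_iff _).1 (show LinearMap.ker ((P.act ⟨_, e⟩ : P.A →ₗ[ZMod 2] P.A) +
    LinearMap.id) ≠ ⊥ from fun e => by rw [e, finrank_bot] at h4; omega)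
  obtain ⟨b, rfl⟩ := P.φ_surj v
  rw [Ne, P.φ_eq_zero] at hv0
  have e' := S2 h hh a ha ha0 b b.2 ((hker _ b).1 hv)
  have h5 : ∀ c : LinearMap.ker ((P.act ⟨_, e'⟩ : P.A →ₗ[ZMod 2] P.A) + LinearMap.id),
      h * P.rep c * h⁻¹ ∈ Nm R := fun c => by
    simpa using S2 h⁻¹ (H.inv_mem hh) b b.2 hv0 _ (P.rep c).2 ((hker ⟨_, e'⟩ _).1 (by rw [P.φ_rep]; exact c.2))
  refine not_offender P.B_alt P.B_nondeg P.q_add h2 (hfin _ b b.2 e') h4 (fun e1 => ?_) (fun c => P.act ⟨_, h5 c⟩)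
    (fun c => P.act_mem _) (fun c => P.q_act _) (fun c j hj => ?_) fun v hv c d e1 => ?_
  · obtain ⟨r, hr, e2⟩ := P.exists_mem_of_act fun x hx => (hker ⟨_, e⟩ ⟨x, hx⟩).1 (e1 ▸ Submodule.mem_top)
    exact ha0 (T h hh hn a ha (O.mem_of_mul hr (H.mul_mem (H.mul_mem hh (O.le ha)) (H.inv_mem hh)) e2))
  · obtain ⟨j, rfl⟩ := P.φ_surj j
    exact P.act_φ_eq.2 (S1 _ (P.rep c).2 j j.2 (h5 c) (S2 h hh a ha ha0 j j.2 ((hker _ j).1 hj)))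
  · obtain ⟨v, rfl⟩ := P.φ_surj v
    by_contra hcd
    refine hv ((hker _ v).2 (S1 a ha v v.2 e (S2 h hh _ (R.mul_mem (R.inv_mem (P.rep c).2) (P.rep d).2)
      (fun e2 => hcd (Subtype.ext (by rw [← P.φ_rep c, ← P.φ_rep d, P.φ_eq_iff.2 e2]))) v v.2 ?_)))
    have e2 : P.act (⟨_, h5 c⟩⁻¹ * ⟨_, h5 d⟩) (P.φ v) = P.φ v := by
      rw [map_mul, map_inv, LinearEquiv.mul_apply, ← show _ = P.act ⟨_, h5 d⟩ (P.φ v) from e1, CL.Sp.inv_apply_apply]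
    convert P.act_φ_eq.1 e2 using 1
    simp only [Subgroup.coe_mul, Subgroup.coe_inv]
    group

/-- If the centralisers in `H` of the non-central elements of `R` normalise `R`, then so does `H`. -/
theorem le_Nm_of_cent (hd : 4 < finrank F 𝔄) : H ≤ Nm R := by
  intro h hh
  by_contra hn
  have P := O.rp h3
  obtain ⟨x, hx, hx2, -⟩ := P.ns 1 R.one_mem 1 R.one_mem
  obtain ⟨y, hy, hxy⟩ := P.exists_anti hx (P.notMem_of_ns hx hx2)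
  obtain ⟨u, hu, hu2, c1, c2⟩ := P.ns x hx y hy
  have hz2 : u * x * (u * x) = 1 := by rw [Pauli.sq_comm c1, hu2, hx2]; simp
  have hz0 : u * x ∉ Zc 𝔄 := P.notMem_of_anti (y := y) (by rw [mul_assoc, hxy, mul_neg, ← mul_assoc, c2, mul_assoc])
  have hz := R.mul_mem hu hx
  generalize u * x = z at *
  set π := QuotientGroup.mk' (Zc 𝔄)
  have h1 : ∀ g, π g ∈ (H ⊓ Nm R).map π → g ∈ Nm R := fun g e =>
    (mk_mem_map (Zc_le_Nm R)).1 (Subgroup.map_mono inf_le_right e)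
  obtain ⟨k, e⟩ := ti_odd (A := R.map π) (M := (H ⊓ Nm R).map π) (H := H.map π)
    (Subgroup.map_mono (le_inf O.le Subgroup.le_normalizer)) (Subgroup.map_mono inf_le_left) (by
      rintro _ ⟨x, hx, rfl⟩
      rw [← map_mul, mk_eq_one]
      rcases P.sq x hx with e | e <;> rw [e]
      exacts [one_mem _, neg_one_mem_Zc]) (by
      rintro _ ⟨m, hm, rfl⟩ _ ⟨x, hx, rfl⟩
      exact ⟨_, conj_mem hm.2 hx, by simp only [map_mul, map_inv]⟩) (by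
      rintro _ ⟨x, hx, rfl⟩ h0 _ ⟨h, hh, rfl⟩ e
      rw [← map_inv, ← map_mul, ← map_mul] at e
      exact ⟨h, ⟨hh, O.mem_of_conj_Nm h3 hC hd hx (fun e => h0 (mk_eq_one.2 e)) hh (h1 _ e)⟩, rfl⟩)
    ⟨x, hx, rfl⟩ (fun e => P.notMem_of_ns hx hx2 (mk_eq_one.1 e)) ⟨z, hz, rfl⟩ (fun e => hz0 (mk_eq_one.1 e))
    ⟨h, hh, rfl⟩ fun e => hn (h1 _ e)
  have h2 : (x * (h * z * h⁻¹)) ^ k * h ∈ H :=
    H.mul_mem (H.pow_mem (H.mul_mem (O.le hx) (H.mul_mem (H.mul_mem hh (O.le hz)) (H.inv_mem hh))) k) hh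
  have h4 : x⁻¹ * ((x * (h * z * h⁻¹)) ^ k * h * z * ((x * (h * z * h⁻¹)) ^ k * h)⁻¹) ∈ Zc 𝔄 :=
    mk_eq_one.1 (show π _ = 1 by
      rw [map_mul, map_inv, inv_mul_eq_one, ← e]
      simp only [map_mul, map_inv, map_pow]
      group)
  generalize (x * (h * z * h⁻¹)) ^ k * h = g at h2 h4
  have h5 := conj_sq (g := g) hz2
  rcases O.sc (H.mul_mem (H.inv_mem (O.le hx)) (H.mul_mem (H.mul_mem h2 (O.le hz)) (H.inv_mem h2))) h4 with e | e <;>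
    rw [inv_mul_eq_iff_eq_mul] at e <;> rw [e] at h5 <;> exact P.one_ne_neg (by simpa [hx2] using h5.symm)

end Ov

end CL.Pa
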