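/-
Project C6 (r = 2), real types, file 4: centralisers of the non-central elements of `R`.
-/
import Cfsg.Agent.Cls.PauliR3

set_option autoImplicit false

namespace CL.Pa

open Module

section abstract

variable {F 𝔄 : Type*} [Field F] [Ring 𝔄] [Algebra F 𝔄] {st : 𝔄 →ₗ[F] 𝔄}

theorem rho_mul_neg (h2 : (2 : F) ≠ 0) {v : 𝔄ˣ} (hv : v * v = -1) : rho v * rho (-v) = scu 𝔄 (2 : F) :=
  Units.ext (by
    rw [Units.val_mul, rho_val h2 hv, rho_val h2 (by simpa using hv), scu_val h2, Units.val_neg, ← sub_eq_add_neg,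
      rho_aux (F := F) (congrArg Units.val hv)])

theorem rr_self (h2 : (2 : F) ≠ 0) {v : 𝔄ˣ} (hv : v * v = -1) : rr F v v = v := by
  have hv' : (v : 𝔄) * v = -1 := congrArg Units.val hv
  refine Units.ext ?_
  simp only [rr_val h2 hv hv, mul_add, add_mul, one_mul, mul_one, hv']
  match_scalars <;> field_simp <;> ring

theorem rr_mul (h2 : (2 : F) ≠ 0) (v w : 𝔄ˣ) {y : 𝔄ˣ} (hy : y * y = -1) : rr F v y * rr F (-y) w = rr F v w := by
  rw [rr, rr, rr, ← rho_mul_neg h2 hy, mul_assoc, mul_right_inj, mul_assoc, mul_right_inj, rho_mul_neg h2 hy,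
    ← mul_assoc, ← Zc_comm (inv_mem (scu_mem h2)), mul_assoc, ← mul_assoc (rho y), rho_mul_neg h2 hy,
    inv_mul_cancel_left]

theorem rr_cube (h2 : (2 : F) ≠ 0) {v w : 𝔄ˣ} (hv : v * v = -1) (hw : w * w = -1) (h : w * v = -(v * w)) :
    rr F v w = v * v * (rr F v w * rr F v w * (rr F v w * rr F v w)) := by
  have hv' : (v : 𝔄) * v = -1 := congrArg Units.val hv
  have hw' : (w : 𝔄) * w = -1 := congrArg Units.val hw
  have h' : (w : 𝔄) * v = -(v * w) := congrArg Units.val h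
  have e1 : ∀ x : 𝔄, v * (v * x) = -x := fun x => by rw [← mul_assoc, hv', neg_one_mul]
  have e2 : ∀ x : 𝔄, w * (v * x) = -(v * (w * x)) := fun x => by rw [← mul_assoc, h', neg_mul, mul_assoc]
  have e : (rr F v w : 𝔄) * rr F v w = rr F v w - 1 := by
    simp only [rr_val h2 hv hw, mul_add, add_mul, one_mul, mul_one, smul_mul_assoc, mul_smul_comm, mul_assoc, hv', hw',
      h', e1, e2, mul_neg, neg_neg]
    match_scalars <;> field_simp <;> ring
  refine Units.ext ?_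
  simp only [Units.val_mul, hv', e, mul_sub, sub_mul, mul_one, one_mul]
  simp

theorem st_pr (h1 : st 1 = 1) {z z' : 𝔄ˣ} (h : st z = z') : st (pr F z) = pr F z' := by simp [pr, h1, h]

variable (hm : ∀ a b, st (a * b) = st b * st a)
include hm

theorem rr_iso (h2 : (2 : F) ≠ 0) (h1 : st 1 = 1) {v w : 𝔄ˣ} (hv : v * v = -1) (hw : w * w = -1) (hv' : st v * v = 1)
    (hw' : st w * w = 1) : st (rr F v w) * rr F v w = 1 := by
  have key : ∀ v : 𝔄ˣ, v * v = -1 → st v * v = 1 → st (1 + v) * (1 + v) = (2 : F) • 1 := fun v hv hv' => by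
    have := rho_aux (F := F) (v := -(v : 𝔄)) (by simpa using congrArg Units.val hv)
    rwa [map_add, h1, st_eq hv', inv_eq_neg_of_sq hv, Units.val_neg, ← sub_neg_eq_add 1 (v : 𝔄)]
  rw [rr_val h2 hv hw, map_smul, hm, smul_mul_smul_comm, mul_assoc, ← mul_assoc (st (1 + v)), key v hv hv',
    smul_mul_assoc, one_mul, mul_smul_comm, key w hw hw', smul_smul, smul_smul]
  rw [show (2 : F)⁻¹ * 2⁻¹ * 2 * 2 = 1 by field_simp, one_smul]

theorem iso_ev {e : 𝔄} {g h : 𝔄ˣ} (he : st e = e) (hg : g ∈ Cm e) (hh : h ∈ Cm e) (h1 : Ev e g h)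
    (h3 : st h * h = 1) : st g * g * e = e := by
  have h0 : (g : 𝔄) * e = h * e := h1
  have h4 := congrArg st ((mem_Cm.1 hg).symm.trans (h0.trans (mem_Cm.1 hh)))
  rw [hm, hm, he] at h4
  rw [mul_assoc, mem_Cm.1 hg, ← mul_assoc, h4, mul_assoc, ← mem_Cm.1 hg, h0, ← mul_assoc, h3, one_mul]

theorem iso_of_glue (h2 : (2 : F) ≠ 0) (h1 : st 1 = 1) {z g h : 𝔄ˣ} (hz : st z = z) (hg : g * z = z * g)
    (hh : h * z = z * h) (e1 : Ev (pr F z) g h) (e2 : Ev (pr F (-z)) g 1) (h3 : st h * h = 1) : st g * g = 1 := by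
  rw [← mul_one (st g * g), ← pr_add h2 z, mul_add, iso_ev hm (st_pr h1 hz) (mem_Cm_pr hg) (mem_Cm_pr hh) e1 h3,
    iso_ev hm (st_pr h1 (by simp [hz])) (mem_Cm_pr_neg hg) (one_mem _) e2 (by simp [h1])]

theorem NS3.rr_mem {R U G : Subgroup 𝔄ˣ} (h3 : NS3 R) (P : RP F R) (hU : ∀ g, g ∈ U ↔ st g * g = 1) (hR : R ≤ U)
    (hG : ∀ g ∈ U, g * g ∈ G) {v w : 𝔄ˣ} (hv : v ∈ R) (hw : w ∈ R) (hv2 : v * v = -1) (hw2 : w * w = -1) :
    rr F v w ∈ G := by
  have h1 : st 1 = 1 := by simpa using (hU 1).1 U.one_mem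
  have key : ∀ v ∈ R, ∀ w ∈ R, v * v = -1 → w * w = -1 → w * v = -(v * w) → rr F v w ∈ G := fun v hv w hw hv2 hw2 e => by
    have := (hU _).2 (rr_iso hm P.two h1 hv2 hw2 ((hU v).1 (hR hv)) ((hU w).1 (hR hw)))
    rw [rr_cube P.two hv2 hw2 e]
    exact G.mul_mem (hG v (hR hv)) (hG _ (U.mul_mem this this))
  obtain ⟨y, hy, e1, e2, e3⟩ : ∃ y ∈ R, y * y = -1 ∧ v * y = -(y * v) ∧ w * y = -(y * w) := by
    obtain ⟨y, hy, e1, e2⟩ := P.exists_anti_two hv hw (P.notMem_of_ns hv hv2) (P.notMem_of_ns hw hw2)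
    rcases P.sq y hy with e | e
    · obtain ⟨u, hu, hu2, c1, c2, c3⟩ := h3 v hv w hw y hy
      exact ⟨u * y, R.mul_mem hu hy, by rw [Pauli.sq_comm c3, hu2, e, mul_one],
        by rw [← mul_assoc, ← c1, mul_assoc, e1, mul_neg, mul_assoc],
        by rw [← mul_assoc, ← c2, mul_assoc, e2, mul_neg, mul_assoc]⟩
    · exact ⟨y, hy, e, e1, e2⟩
  rw [← rr_mul P.two v w e1]
  exact G.mul_mem (key v hv y hy hv2 e1 (anti_symm e2)) (key _ (P.neg_mem hy) w hw (by simpa using e1) hw2 (by simp [e3]))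

omit hm in
theorem RP.le_of_ns {R G : Subgroup 𝔄ˣ} (P : RP F R) (h : ∀ v ∈ R, v * v = -1 → v ∈ G) : R ≤ G := fun r hr => by
  rcases P.sq r hr with e | e
  · obtain ⟨u, hu, hu2, c, -⟩ := P.ns r hr 1 R.one_mem
    exact (G.mul_mem_cancel_left (h u hu hu2)).1 (h _ (R.mul_mem hu hr) (by rw [Pauli.sq_comm c, hu2, e, mul_one]))
  · exact h r hr e

theorem exists_ov [Finite 𝔄] {R U G H : Subgroup 𝔄ˣ} (P : Pauli F R) (h3 : NS3 R) (hU : ∀ g, g ∈ U ↔ st g * g = 1)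
    (hR : R ≤ U) (hG : ∀ g ∈ U, g * g ∈ G) (hGU : G ≤ U) (hH : Nm R ⊓ G ≤ H) (hHG : H ≤ G) : Ov st R H := by
  have h1 : st 1 = 1 := by simpa using (hU 1).1 U.one_mem
  have P' : RP F R := ⟨P, fun k hk => P.sign_of_iso h1 ((hU k).1 (hR hk)), fun a ha b hb =>
    let ⟨u, h1, h2, h4, h5, _⟩ := h3 a ha b hb 1 R.one_mem; ⟨u, h1, h2, h4, h5⟩⟩
  have h4 : ∀ v ∈ R, ∀ w ∈ R, v * v = -1 → w * w = -1 → rr F v w ∈ H := fun v hv w hw hv2 hw2 =>
    hH ⟨P.rr_mem_Nm hv hw hv2 hw2, h3.rr_mem hm P' hU hR hG hv hw hv2 hw2⟩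
  exact ⟨P, hm, fun h hh => (hU h).1 (hGU (hHG hh)), P'.le_of_ns fun v hv hv2 => rr_self P.two hv2 ▸ h4 v hv v hv hv2 hv2,
    h4⟩

omit hm

/-- The centraliser of `x` in `H` acts on `C_R(x)` like the normaliser of `R`. -/
def Cx (R H : Subgroup 𝔄ˣ) (x : 𝔄ˣ) : Prop :=
  ∀ h ∈ H, h * x = x * h → ∃ m ∈ H ⊓ Nm R, ∀ c ∈ R, c * x = x * c → m⁻¹ * h * c = c * (m⁻¹ * h)

theorem Ov.cent_ns [Finite 𝔄] {R H : Subgroup 𝔄ˣ} (O : Ov st R H) (h3 : NS3 R) (hx : ∀ x ∈ R, x * x = -1 → Cx R H x)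
    {x h : 𝔄ˣ} (hxR : x ∈ R) (hx2 : x * x = -1) (hh : h ∈ H) (e : h * x = x * h) : h ∈ Nm R := by
  obtain ⟨m, hm, e1⟩ := hx x hxR hx2 h hh e
  obtain ⟨y, hy, e2⟩ := O.exists_anti hxR ((O.rp h3).notMem_of_ns hxR hx2)
  obtain ⟨u, hu, hu2, c1, c2⟩ := (O.rp h3).ns x hxR y hy
  obtain ⟨m', hm', e3⟩ := hx u hu hu2 _ (H.mul_mem (H.inv_mem hm.1) hh) (e1 u hu c1)
  refine ((Nm R).mul_mem_cancel_left (inv_mem hm.2)).1 (O.mem_Nm_of hxR hy (anti_symm e2) ?_ fun c hc e => by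
    rwa [conj_eq_of_comm (e1 c hc e)])
  convert conj_mem hm'.2 (show m'⁻¹ * (m⁻¹ * h) * y * (m'⁻¹ * (m⁻¹ * h))⁻¹ ∈ R by
    rwa [conj_eq_of_comm (e3 y hy c2.symm)]) using 1
  group

end abstract

variable {F V : Type*} [Field F] [AddCommGroup V] [Module F V] {st : End F V →ₗ[F] End F V}

theorem Rs.rr (h2 : (2 : F) ≠ 0) {W : Submodule F V} {v w : (End F V)ˣ} {v' w' : (End F W)ˣ} (hv : Rs v v')
    (hw : Rs w w') (h : v * v = -1) (h' : w * w = -1) : Rs (rr F v w) (rr F v' w') := fun x => by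
  simp [rr_val h2 h h', rr_val h2 ((hv.mul hv).unique (h ▸ Rs.one.neg)) ((hw.mul hw).unique (h' ▸ Rs.one.neg)),
    hv _, hw _]

theorem rs_self (z : (End F V)ˣ) : Rs (W := fx z) z 1 := fun w => (mem_fx.1 w.2).symm

namespace Ov

variable {R H : Subgroup (End F V)ˣ} (O : Ov st R H) {z : (End F V)ˣ} (hz : z ∈ R) (hz2 : z * z = 1)
  (hz0 : z ∉ Zc (End F V))
include O hz hz2 hz0

theorem res_sc {g : (End F V)ˣ} {k : (End F (fx z))ˣ} (hg : g ∈ H) (e : g * z = z * g) (h : Rs g k)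
    (hk : k ∈ Zc (End F (fx z))) : k = 1 ∨ k = -1 := by
  have P' := O.res hz hz2 hz0
  obtain ⟨c, hc0, hc⟩ := P'.exists_smul_of_mem hk
  have h1 := (h.ev_iff O.two hz2).2 (show Rs (scu _ c) k by
    rw [show k = scu _ c from Units.ext (hc.trans (scu_val hc0).symm)]; exact Rs.scu hc0)
  have h2 := iso_ev O.mul (st_pr O.one ((st_eq (O.iso z (O.le hz))).trans (congrArg _ (inv_eq_of_sq hz2))))
    (mem_Cm_pr (Zc_comm (scu_mem hc0) z)) (mem_Cm_pr e) h1.symm (O.iso g hg)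
  refine P'.sign_of_mem hk (Units.ext (LinearMap.ext fun w => Subtype.ext ?_))
  simpa [hc, scu_val hc0, O.one, pr_of_mem O.two w.2] using LinearMap.congr_fun h2 w

theorem res_lift {k : (End F (fx z))ˣ} (hk : k ∈ resG z R) (hk2 : k * k = -1) :
    ∃ x ∈ R, x * x = -1 ∧ x * z = z * x ∧ Rs x k := by
  obtain ⟨x, hx, e, h⟩ := hk
  exact ⟨x, hx, (O.sq x hx).resolve_left fun e' => (O.res hz hz2 hz0).one_ne_neg
    (((h.mul h).unique (e' ▸ Rs.one)).symm.trans hk2), e, h⟩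

variable (h3 : NS3 R)
include h3

theorem res_rp : RP F (resG z R) :=
  ⟨O.res hz hz2 hz0, fun _ ⟨_, hg, e, h⟩ => O.res_sc hz hz2 hz0 (O.le hg) e h, by
    rintro a ⟨a', ha, -, h⟩ b ⟨b', hb, -, h'⟩
    obtain ⟨u, hu, hu2, c1, c2, c3⟩ := h3 z hz a' ha b' hb
    obtain ⟨k, hk⟩ := exists_rs c1
    exact ⟨k, ⟨u, hu, c1, hk⟩, (hk.mul hk).unique (hu2 ▸ Rs.one.neg), (hk.mul h).unique (c2 ▸ h.mul hk),
      (hk.mul h').unique (c3 ▸ h'.mul hk)⟩⟩

theorem res_le_ker : resG z R ≤ kerG z H :=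
  (O.res_rp hz hz2 hz0 h3).le_of_ns fun k hk hk2 => by
    obtain ⟨v, hv, hv2, e, h⟩ := O.res_lift hz hz2 hz0 hk hk2
    have h1 : v * z * (v * z) = -1 := by rw [Pauli.sq_comm e, hv2, hz2, mul_one]
    have h4 : ∀ x, v.1 (v.1 x) = -x := fun x => by rw [← mul_app, hv2]; rfl
    refine ⟨_, O.rr v hv _ (R.mul_mem hv hz) hv2 h1, rr_comm O.two hv2 h1 e (by rw [mul_assoc, ← mul_assoc z, ← e,
      mul_assoc]), ?_, (ev_iff O.two (by simpa using hz2)).2 fun x hx => ?_⟩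
    · simpa [rr_self O.two hk2] using Rs.rr O.two h (h.mul (rs_self z)) hv2 h1
    · have := O.two
      simp only [rr_val O.two hv2 h1, Units.val_mul, LinearMap.smul_apply, End.mul_apply, LinearMap.add_apply,
        End.one_apply, mem_fx_neg.1 hx, map_add, map_neg, h4, Units.val_one]
      match_scalars <;> field_simp <;> ring

variable [Finite (End F V)] [Finite (End F (fx z))] (hN : ∀ x ∈ R, x * x = -1 → ∀ h ∈ H, h * x = x * h → h ∈ Nm R)
include hN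

theorem ker_le_res : kerG z H ≤ resG z R := by
  have P' := O.res_rp hz hz2 hz0 h3
  have h1 := O.res_le_ker hz hz2 hz0 h3
  have hZ : ∀ k ∈ kerG z H, k ∈ Zc (End F (fx z)) → k = 1 ∨ k = -1 := fun _ ⟨_, hg, e, h, _⟩ =>
    O.res_sc hz hz2 hz0 hg e h
  refine P'.le_of_cent h1 (fun x' hx' hx2 g' hg' e => ?_) (fun v' hv' w' hw' hv2 hw2 g' hg' => ?_) hZ
  · obtain ⟨x, hx, e1, e2, h⟩ := O.res_lift hz hz2 hz0 hx' hx2
    obtain ⟨g, hg, e3, h4, h5⟩ := id hg'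
    have h6 := hN x hx e1 g hg (Ev.ext O.two (z := z) (((h4.mul h).ev_iff O.two hz2).2 (e ▸ h.mul h4))
      ((h5.right (mem_Cm_pr_neg e2)).trans (by simpa using (h5.left x).symm)))
    obtain ⟨r, hr, e4⟩ := P'.exists_mem_of_act (g := g') (by
      rintro c' ⟨c, hc, e4, h7⟩
      have h8 := h7.inv.mul ((h4.mul h7).mul h4.inv)
      have h9 := R.mul_mem (R.inv_mem hc) (conj_mem h6 hc)
      have h10 : Ev (pr F (-z)) (c⁻¹ * (g * c * g⁻¹)) 1 := by
        simpa using (h5.conj_eq (one_mem _) (mem_Cm_pr_neg e4)).left c⁻¹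
      generalize c⁻¹ * (g * c * g⁻¹) = d at *
      generalize c'⁻¹ * (g' * c' * g'⁻¹) = k at *
      have key : ∀ y, Rs y 1 → y⁻¹ * d ∈ H → y⁻¹ * d ∈ Zc (End F V) → k ∈ Zc (End F (fx z)) := fun y hy a b => by
        rcases O.sc a b with e | e
        · exact (by simpa using (hy.inv.mul h8).unique (e ▸ Rs.one) : k = 1) ▸ one_mem _
        · exact (by simpa using (hy.inv.mul h8).unique (e ▸ Rs.one.neg) : k = -1) ▸ neg_one_mem_Zc
      by_contra h0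
      obtain ⟨u, hu, e5, e6⟩ := O.sep_one hz h9 (fun e => h0 (key 1 Rs.one (by simpa using O.le h9) (by simpa using e)))
        fun e => h0 (key z (rs_self z) (O.le (R.mul_mem (R.inv_mem hz) h9)) e)
      refine hz0 (neg_mem_Zc.1 ?_)
      rw [eq_neg_one_of_pr O.two (z := -z) (Ev.eq_zero O.two (a := u) ?_)]
      · exact neg_one_mem_Zc
      have h11 := h10.right (mem_Cm_pr_neg e5.symm)
      rw [e6, one_mul] at h11
      exact (by simpa using (h10.left u).neg.symm : Ev _ (-u) _).trans h11)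
    rw [← (resG z R).mul_mem_cancel_left (inv_mem hr)]
    rcases hZ _ (mul_mem (inv_mem (h1 hr)) hg') e4 with e | e <;> rw [e]
    exacts [one_mem _, P'.neg]
  · obtain ⟨v, hv, a1, a2, a3⟩ := O.res_lift hz hz2 hz0 hv' hv2
    obtain ⟨w, hw, b1, b2, b3⟩ := O.res_lift hz hz2 hz0 hw' hw2
    rw [← rr_conj O.two]
    exact conj_mem_kerG _ ⟨_, O.rr v hv w hw a1 b1, rr_comm O.two a1 b1 a2 b2, Rs.rr O.two a3 b3 a1 b1⟩ _ hg'

/-- The centraliser of a non-central involution of `R`. -/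
theorem cent_sing [Finite (End F (fx (-z)))] (hδ : ∀ X ∈ R, ∀ g : (End F V)ˣ, st g * g = 1 → g * (X * g * X⁻¹) ∈ Nm R →
    g * (X * g * X⁻¹) ∈ H) {h : (End F V)ˣ} (hh : h ∈ H) (e : h * z = z * h) : h ∈ Nm R := by
  obtain ⟨X, hX, hXz⟩ := O.exists_anti hz hz0
  replace hXz := anti_symm hXz
  obtain ⟨d, hd, e1, e2, e3⟩ := O.exists_delta hz hz2 hX hXz e (O.hz_of_res hz2 (fun k hk => mem_Nm fun n hn =>
    O.ker_le_res hz hz2 hz0 h3 hN (conj_mem_kerG k hk n (O.res_le_ker hz hz2 hz0 h3 hn))) h hh e)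
  obtain ⟨g, e4, e5, e6⟩ := exists_glue O.two hz2 e (h := 1) (by simp)
  have e7 : d = g * (X * g * X⁻¹) := Ev.ext O.two (z := z)
    (e3.trans (by simpa using (e5.mul (e6.swap' hXz) (by simp)).symm)) (by
      have := (e6.right (c := X * g * X⁻¹) (mem_Cm_pr_neg (by
        simpa [conj_eq_of_anti hXz] using ((show Commute g z from e4).map (MulAut.conj X)).eq))).trans
        (by simpa using (e5.trans e3.symm).swap hXz)
      rw [conj_eq_of_comm e2.symm] at this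
      exact this.symm)
  have hdH : d ∈ H := e7 ▸ hδ X hX g (iso_of_glue O.mul O.two O.one ((st_eq (O.iso z (O.le hz))).trans
    (congrArg _ (inv_eq_of_sq hz2))) e4 e e5 e6 (O.iso h hh)) (e7 ▸ hd)
  have c : d⁻¹ * h * -z = -z * (d⁻¹ * h) := by
    simpa using ((show Commute d z from e1).inv_left.mul_left e).eq
  have e8 : Ev (pr F z) (d⁻¹ * h) 1 := by simpa using (e3.left d⁻¹).symm
  obtain ⟨k, hk⟩ := exists_rs c
  have hz' : -z * -z = 1 := by simpa using hz2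
  obtain ⟨r, hr, e9, hr'⟩ := O.ker_le_res (O.neg_mem hz) hz' (by rwa [neg_mem_Zc]) h3 hN
    ⟨_, H.mul_mem (H.inv_mem hdH) hh, c, hk, by rwa [neg_neg]⟩
  exact ((Nm R).mul_mem_cancel_left (inv_mem hd)).1 (O.gate_mem hz hz2 hz0 hr (by simpa using e9) e8
    ((hk.ev_iff O.two hz').2 hr'))

end Ov

/-- **The local analysis** for the real types. -/
theorem Ov.le_Nm [Finite F] [FiniteDimensional F V] {R H : Subgroup (End F V)ˣ} (O : Ov st R H) (h3 : NS3 R)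
    (hd : 3 ≤ finrank F V) (hδ : ∀ X ∈ R, ∀ g : (End F V)ˣ, st g * g = 1 → g * (X * g * X⁻¹) ∈ Nm R →
      g * (X * g * X⁻¹) ∈ H) (hx : ∀ x ∈ R, x * x = -1 → Cx R H x) : H ≤ Nm R := by
  have : Finite (End F V) := Module.finite_of_finite F
  refine O.le_Nm_of_cent h3 (fun a ha ha0 h hh e => ?_) (by rw [finrank_linearMap]; nlinarith)
  rcases O.sq a ha with e' | e'
  · have : Finite (End F (fx a)) := Module.finite_of_finite F
    have : Finite (End F (fx (-a))) := Module.finite_of_finite F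
    exact O.cent_sing ha e' ha0 h3 (fun x hx' hx2 h hh e => O.cent_ns h3 hx hx' hx2 hh e) hδ hh e
  · exact O.cent_ns h3 hx ha e' hh e

end CL.Pa
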