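/-
Project C6 (r = 2), real types, file 5: the centraliser of an element `x` of `R` with `x ^ 2 = -1` in a model where
`x` acts as the scalar `i`.
-/
import Cfsg.Agent.Cls.PauliR4

set_option autoImplicit false

namespace CL.Pa

open Module

theorem mem_TT_of_quad {F V : Type*} [Field F] [AddCommGroup V] [Module F V] [FiniteDimensional F V]
    {k : (End F V)ˣ} (h : (k.1 - 1) * (k.1 - 1) = 0) : k ∈ TT F V := by
  classical
  set N : End F V := k.1 - 1 with hN
  let b := Module.finBasis F (LinearMap.range N)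
  let φ := fun j => b.coord j ∘ₗ N.rangeRestrict
  have h0 : ∀ j l, φ j (b l) = 0 := fun j l => by
    obtain ⟨y, hy⟩ := (b l).2
    have : N.rangeRestrict (b l) = 0 := Subtype.ext (hy ▸ LinearMap.congr_fun h y)
    simp [φ, this]
  have key : ∀ s : Finset (Fin (finrank F (LinearMap.range N))), ∃ g ∈ TT F V, ∀ x,
      g.1 x = x + ∑ j ∈ s, φ j x • (b j : V) := fun s => by
    induction s using Finset.induction_on with
    | empty => exact ⟨1, one_mem _, fun x => by simp⟩
    | insert j s hj ih =>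
      obtain ⟨g, hg, e⟩ := ih
      obtain ⟨-, t, ht, e'⟩ := tv_TT (h0 j j)
      refine ⟨t * g, mul_mem ht hg, fun x => ?_⟩
      rw [mul_app, ← smul_def', e', e, Finset.sum_insert hj]
      simp only [map_add, map_sum, map_smul, h0, smul_zero, Finset.sum_const_zero, add_zero]
      abel
  obtain ⟨g, hg, e⟩ := key Finset.univ
  refine (Units.ext (LinearMap.ext fun x => ?_) : g = k) ▸ hg
  have := congrArg Subtype.val (b.sum_repr (N.rangeRestrict x))
  simp only [Submodule.coe_sum, Submodule.coe_smul] at this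
  rw [e]
  exact (congrArg (x + ·) this).trans (by simp [hN])

variable {F E V W : Type*} [Field F] [Field E] [Algebra F E] [AddCommGroup V] [Module F V] [AddCommGroup W]
  [Module F W] [Module E W] [IsScalarTower F E W]

/-- `k` is induced by `a`. -/
def Rl (j : W →ₗ[F] V) (a : End F V) (k : End E W) : Prop := ∀ w, j (k w) = a (j w)

/-- `k` is induced by `g`. -/
def Ru (j : W →ₗ[F] V) (g : (End F V)ˣ) (k : (End E W)ˣ) : Prop := Rl j g.1 k.1

section

variable {j : W →ₗ[F] V} {a b : End F V} {c d : End E W} {g g' : (End F V)ˣ} {k k' : (End E W)ˣ}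
omit [Algebra F E] [IsScalarTower F E W]

theorem Rl.mul (h : Rl j a c) (h' : Rl j b d) : Rl j (a * b) (c * d) := fun w => by
  rw [End.mul_apply, h, h']; rfl

theorem Rl.add (h : Rl j a c) (h' : Rl j b d) : Rl j (a + b) (c + d) := fun w => by simp [h w, h' w]

theorem Rl.one : Rl j 1 (1 : End E W) := fun _ => rfl

theorem Rl.unique (hj : Function.Injective j) (h : Rl j a c) (h' : Rl j a d) : c = d :=
  LinearMap.ext fun w => hj ((h w).trans (h' w).symm)

theorem Ru.one : Ru j 1 (1 : (End E W)ˣ) := Rl.one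

theorem Ru.mul (h : Ru j g k) (h' : Ru j g' k') : Ru j (g * g') (k * k') := Rl.mul h h'

theorem Ru.inv (h : Ru j g k) : Ru j g⁻¹ k⁻¹ := fun w => by
  rw [← inv_app_app g (j _), ← h, app_inv_app]

theorem Ru.neg (h : Ru j g k) : Ru j (-g) (-k) := fun w => by simpa using h w

theorem Ru.unique (hj : Function.Injective j) (h : Ru j g k) (h' : Ru j g k') : k = k' := Units.ext (Rl.unique hj h h')

/-- The maps induced by the elements of `H` commuting with `x`. -/
def rG (E : Type*) [Field E] [Module E W] (j : W →ₗ[F] V) (x : (End F V)ˣ) (H : Subgroup (End F V)ˣ) :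
    Subgroup (End E W)ˣ where
  carrier := {k | ∃ g ∈ H, g * x = x * g ∧ Ru j g k}
  one_mem' := ⟨1, H.one_mem, by simp, Ru.one⟩
  mul_mem' := fun ⟨g, h1, h2, h3⟩ ⟨g', h1', h2', h3'⟩ =>
    ⟨g * g', H.mul_mem h1 h1', ((show Commute g x from h2).mul_left h2').eq, h3.mul h3'⟩
  inv_mem' := fun ⟨g, h1, h2, h3⟩ => ⟨g⁻¹, H.inv_mem h1, (show Commute g x from h2).inv_left.eq, h3.inv⟩

end

theorem Rl.smul {j : W →ₗ[F] V} {a : End F V} {c : End E W} (h : Rl j a c) (t : F) :
    Rl j (t • a) (algebraMap F E t • c) := fun w => by simp [h w]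

/-- A model of the centraliser of `x`, in which `x` acts as the scalar `i`. -/
structure Mdl (st : End F V →ₗ[F] End F V) (i : E) (x : (End F V)ˣ) (j : W →ₗ[F] V) : Prop where
  ii : i * i = -1
  nt : Nontrivial W
  inj : Function.Injective j
  si : ∀ w, j (i • w) = x.1 (j w)
  res : ∀ a : End F V, a * x = x * a → ∃ k : End E W, Rl j a k
  ext : ∀ k : End E W, ∃ a : End F V, a * x = x * a ∧ Rl j a k
  dual : ∀ g : (End F V)ˣ, st g * g = 1 → g * x = x * g → Ru (E := E) j g 1 → g = 1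

namespace Mdl

variable {st : End F V →ₗ[F] End F V} {i : E} {x : (End F V)ˣ} {j : W →ₗ[F] V} (M : Mdl st i x j)
include M

omit [Algebra F E] [IsScalarTower F E W] in
theorem exists_ru {g : (End F V)ˣ} (h : g * x = x * g) : ∃ k : (End E W)ˣ, Ru j g k := by
  obtain ⟨k, hk⟩ := M.res g (congrArg Units.val h)
  obtain ⟨l, hl⟩ := M.res (g⁻¹ : (End F V)ˣ) (congrArg Units.val (show Commute g x from h).inv_left.eq)
  exact ⟨⟨k, l, (hk.mul hl).unique M.inj (g.mul_inv ▸ Rl.one), (hl.mul hk).unique M.inj (g.inv_mul ▸ Rl.one)⟩, hk⟩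

omit [Algebra F E] [IsScalarTower F E W] in
theorem ru_x : Ru j x (scu (End E W) i) := fun w => by
  rw [scu_val (i_ne_zero M.ii)]; exact M.si w

variable {R H : Subgroup (End F V)ˣ} (O : Ov st R H) (hx : x ∈ R)
include O

omit M [IsScalarTower F E W] in
theorem two' : (2 : E) ≠ 0 := map_ofNat (algebraMap F E) 2 ▸ (map_ne_zero (algebraMap F E)).2 O.two


include hx

theorem lp : LP i (rG E j x R) := by
  have := M.nt
  refine ⟨⟨two' O, inferInstance, ⟨-1, O.neg, by simp, Ru.one.neg⟩, ?_, eq_top_iff.2 fun k _ => ?_, end_cen⟩, M.ii,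
    x, hx, rfl, M.ru_x⟩
  · rintro k ⟨g, hg, -, h⟩
    rcases O.sq g hg with e | e
    exacts [Or.inl ((h.mul h).unique M.inj (e ▸ Ru.one)), Or.inr ((h.mul h).unique M.inj (e ▸ Ru.one.neg))]
  · obtain ⟨a, ha, hk⟩ := M.ext k
    obtain ⟨l, hl, e⟩ := O.induction (p := fun a => ∃ l ∈ Submodule.span E (Units.val '' (rG E j x R : Set (End E W)ˣ)),
      Rl j (a + x * a * (x⁻¹ : (End F V)ˣ)) l) (fun r hr => by
        rcases O.comm hx hr with e | e
        · obtain ⟨l, hl⟩ := M.exists_ru e.symm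
          have h1 : l.1 ∈ Submodule.span E (Units.val '' (rG E j x R : Set (End E W)ˣ)) :=
            Submodule.subset_span ⟨l, ⟨r, hr, e.symm, hl⟩, rfl⟩
          refine ⟨_, add_mem h1 h1, ?_⟩
          rw [← Units.val_mul, ← Units.val_mul, conj_eq_of_comm e]
          exact Rl.add hl hl
        · refine ⟨0, zero_mem _, fun w => ?_⟩
          rw [← Units.val_mul, ← Units.val_mul, conj_eq_of_anti e]
          simp) ⟨0, zero_mem _, fun w => by simp⟩
      (fun a b ⟨c, hc, e⟩ ⟨d, hd, e'⟩ => ⟨_, add_mem hc hd, by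
        convert e.add e' using 1
        rw [mul_add, add_mul]; abel⟩)
      (fun t a ⟨c, hc, e⟩ => ⟨_, Submodule.smul_mem _ _ hc, by
        convert e.smul t using 1
        rw [smul_add, mul_smul_comm, smul_mul_assoc]⟩) a
    rw [← ha, Units.mul_inv_cancel_right] at e
    rw [(e.unique M.inj (hk.add hk) : l = _), ← two_smul E] at hl
    exact (Submodule.smul_mem_iff _ (two' O)).1 hl

variable [Finite (End F V)] [Finite (End E W)] (hx2 : x * x = -1)
include hx2

theorem Nm_le : Nm (rG E j x R) ≤ rG E j x (H ⊓ Nm R) ⊔ Zc (End E W) := by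
  have P := M.lp O hx
  refine P.Nm_le (fun k ⟨g, hg, h⟩ => Subgroup.mem_sup_left ⟨g, ⟨O.le hg, Subgroup.le_normalizer hg⟩, h⟩)
    le_sup_right ?_
  rintro k ⟨a, ha, e, h⟩ hk -
  have ha2 : a * a = 1 := (O.sq a ha).resolve_right fun e' => P.one_ne_neg
    (hk.symm.trans ((h.mul h).unique M.inj (e' ▸ Ru.one.neg)))
  have h1 : x * a * (x * a) = -1 := by rw [Pauli.sq_comm e.symm, hx2, ha2, mul_one]
  have h2 : (1 + i) / 2 ≠ 0 := div_ne_zero P.one_add_ne P.two
  rw [← mul_inv_cancel_right (sig i k) (scu _ ((1 + i) / 2))]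
  refine Subgroup.mul_mem_sup ⟨rr F (x * a) x, ⟨O.rr _ (R.mul_mem hx ha) x hx h1 hx2,
    O.rr_mem_Nm (R.mul_mem hx ha) hx h1 hx2⟩, rr_comm O.two h1 hx2 (by rw [mul_assoc, e]) rfl, ?_⟩
    (inv_mem (scu_mem h2))
  have h3 := ((Rl.one.add (M.ru_x.mul h)).mul (Rl.one.add M.ru_x)).smul (2 : F)⁻¹
  rw [Ru, rr_val O.two h1 hx2]
  convert h3 using 1
  simp only [Units.val_mul, sig_val P.two P.ii hk, scu_val h2, scu_val (i_ne_zero P.ii), map_inv₀, map_ofNat,
    mul_add, smul_mul_assoc, mul_smul_comm, one_mul, mul_one]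
  match_scalars <;> ring

theorem cx (h : rG E j x H ≤ Nm (rG E j x R)) : Cx R H x := fun g hg e => by
  obtain ⟨k, hk⟩ := M.exists_ru e
  obtain ⟨l, ⟨m, hm, e1, hl⟩, u, hu, rfl⟩ := Subgroup.mem_sup_of_normal_right.1 (M.Nm_le O hx hx2 (h ⟨g, hg, e, hk⟩))
  refine ⟨m, hm, fun c hc e2 => comm_of_conj (mul_inv_eq_one.1 ?_)⟩
  obtain ⟨c', hc'⟩ := M.exists_ru e2
  have h1 : m⁻¹ * g ∈ H := H.mul_mem (H.inv_mem hm.1) hg
  have h2 : Commute (m⁻¹ * g) x := (show Commute m x from e1).inv_left.mul_left e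
  have h3 := (((hl.inv.mul hk).mul hc').mul (hl.inv.mul hk).inv).mul hc'.inv
  rw [inv_mul_cancel_left, Zc_comm hu, mul_inv_cancel_right, mul_inv_cancel] at h3
  exact M.dual _ (O.iso _ (H.mul_mem (H.mul_mem (H.mul_mem h1 (O.le hc)) (H.inv_mem h1)) (H.inv_mem (O.le hc))))
    (((h2.mul_left e2).mul_left h2.inv_left).mul_left (show Commute c x from e2).inv_left).eq h3

theorem dich {T : Subgroup (End E W)ˣ} (hT : T ≤ ⁅T, T⁆) (hK : Nm (rG E j x R) ≤ rG E j x H ⊔ Zc (End E W) →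
    rG E j x H ⊔ Zc (End E W) ≤ Nm (rG E j x R) ∨ T ≤ rG E j x H ⊔ Zc (End E W)) :
    Cx R H x ∨ ∀ g : (End F V)ˣ, st g * g = 1 → g * x = x * g → ∀ k ∈ T, Ru j g k → g ∈ H := by
  refine (hK ((M.Nm_le O hx hx2).trans (sup_le_sup_right (fun k ⟨g, hg, h⟩ => ⟨g, hg.1, h⟩) _))).imp
    (fun h => M.cx O hx hx2 (le_sup_left.trans h)) fun h g hg e k hk hgk => ?_
  obtain ⟨t, ht, e', h1⟩ := Subgroup.commutator_le_self _ (commutator_sup_Zc _ (Subgroup.commutator_mono h h (hT hk)))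
  rw [← eq_of_inv_mul_eq_one (M.dual (t⁻¹ * g) ?_ ((show Commute t x from e').inv_left.mul_left e).eq
    (by simpa using h1.inv.mul hgk))]
  · exact ht
  · rw [Units.val_mul, O.mul, mul_assoc, ← mul_assoc (st t⁻¹.1), O.iso _ (H.inv_mem ht), one_mul, hg]

end Mdl

end CL.Pa
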