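/-
Project C6 (r = 2), real types, file 6: the two models and the local theorem `RealMain`.
-/
import Cfsg.Agent.Cls.PauliR5

set_option autoImplicit false

namespace CL.Pa

open Module

universe u

variable {F V : Type*} [Field F] [AddCommGroup V] [Module F V] {st : End F V →ₗ[F] End F V}

theorem Ru.quad {E W : Type*} [Field E] [AddCommGroup W] [Module F W] [Module E W] {j : W →ₗ[F] V}
    (hj : Function.Injective j) {g : (End F V)ˣ} {k : (End E W)ˣ} (h : Ru j g k) (e : (g.1 - 1) * (g.1 - 1) = 0) :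
    (k.1 - 1) * (k.1 - 1) = 0 :=
  have h1 : Rl j (g.1 - 1) (k.1 - 1) := fun w => by simp [h w]
  (h1.mul h1).unique hj fun w => by simp [e]

/-- The split model: the `i`-eigenspace of `x`. -/
theorem Ov.mdl_split [FiniteDimensional F V] {R H : Subgroup (End F V)ˣ} (O : Ov st R H) {i : F} (hi : i * i = -1)
    (hn : 0 < finrank F V) {x : (End F V)ˣ} (hx : x ∈ R) (hx2 : x * x = -1) (hx0 : x ∉ Zc (End F V)) :
    ∃ W : Submodule F V, 2 * finrank F W = finrank F V ∧ Mdl st i x W.subtype := by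
  obtain ⟨z, hz⟩ : ∃ z : (End F V)ˣ, z = -(scu _ i * x) := ⟨_, rfl⟩
  have hι := scu_mem (𝔄 := End F V) (i_ne_zero hi)
  have hz1 : z.1 = -i • x.1 := by simp [hz, scu_val (i_ne_zero hi)]
  have hz2 : z * z = 1 := by rw [hz, neg_mul_neg, Pauli.sq_comm (Zc_comm hι x), scu_i_sq hi, hx2]; simp
  have h1 : ∀ w ∈ fx z, x.1 w = i • w := fun w hw => by
    have := congrArg (i • ·) (mem_fx.1 hw)
    simpa [hz1, smul_smul, hi] using this
  have h2 : ∀ a : End F V, a * x = x * a → a * z = z * a := fun a e => by simp [hz1, e]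
  obtain ⟨X, hX, e⟩ := O.exists_anti hx hx0
  have h3 := finrank_fx O.two hz2 (X := X) (Units.ext (by
    simp [hz1, show x.1 * X.1 = -(X.1 * x.1) from congrArg Units.val e]))
  refine ⟨fx z, h3, hi, Module.nontrivial_of_finrank_pos (R := F) (by omega), Subtype.val_injective,
    fun w => (h1 w w.2).symm, fun a e => ⟨a.restrict fun w hw => mem_fx.2 ?_, fun w => rfl⟩,
    fun k => ⟨(fx z).subtype ∘ₗ k ∘ₗ (pr F z).codRestrict _ (pr_mem hz2), LinearMap.ext fun v => ?_, fun w => ?_⟩,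
    fun g hg e h => ?_⟩
  · rw [← End.mul_apply, ← h2 a e, End.mul_apply, mem_fx.1 hw]
  · have : (pr F z).codRestrict _ (pr_mem hz2) (x.1 v) = i • (pr F z).codRestrict _ (pr_mem hz2) v := Subtype.ext (by
      simpa [h1 _ (pr_mem hz2 v)] using
        (LinearMap.congr_fun (mem_Cm.1 (mem_Cm_pr (F := F) (a := x) (Units.ext (h2 x rfl)))) v).symm)
    simp [this, h1 _ (k _).2]
  · exact congrArg (fun w => (k w : V)) (Subtype.ext (pr_of_mem O.two w.2).symm)
  · have h4 : Ev (pr F z) g 1 := (ev_iff O.two hz2).2 fun w hw => (h ⟨w, hw⟩).symm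
    have h5 := congrArg st (h4 : g.1 * _ = _)
    rw [O.mul, Units.val_one, one_mul, st_pr O.one (z' := -z) (by
      simp [hz1, st_eq (O.iso x (O.le hx)), inv_eq_neg_of_sq hx2])] at h5
    refine Ev.ext O.two h4 ?_
    rw [Ev, mem_Cm.1 (mem_Cm_pr_neg (Units.ext (h2 g (congrArg Units.val e)))), ← h5, mul_assoc, hg, h5]
    simp

theorem Ov.dich_split [Finite F] [FiniteDimensional F V] (hp : ∀ a : F, ∃ n : ℕ, a = n) {R H : Subgroup (End F V)ˣ}
    (O : Ov st R H) {i : F} (hi : i * i = -1) (hn : 8 ≤ finrank F V) {x : (End F V)ˣ} (hx : x ∈ R) (hx2 : x * x = -1)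
    (hx0 : x ∉ Zc (End F V)) : Cx R H x ∨ ∀ g : (End F V)ˣ, st g * g = 1 → g * x = x * g →
      (g.1 - 1) * (g.1 - 1) = 0 → g ∈ H := by
  obtain ⟨W, hW, M⟩ := O.mdl_split hi (by omega) hx hx2 hx0
  have : Finite (End F V) := Module.finite_of_finite F
  have : Finite (End F W) := Module.finite_of_finite F
  obtain ⟨m, hm⟩ := (M.lp O hx).exists_pow (by omega)
  refine (M.dich O hx hx2 (TT_le_commutator (by omega)) fun h => (lin hp m hm (M.lp O hx) h).imp_right TT_le).imp_right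
    fun h g hg e hq => ?_
  obtain ⟨k, hk⟩ := M.exists_ru e
  exact h g hg e k (mem_TT_of_quad (hk.quad M.inj hq)) hk

/-- The field `F(i)`. -/
abbrev Ei (F : Type*) [Field F] := QuadraticAlgebra F (-1) 0

/-- `V` as a vector space over `F(i)`, with `i` acting as `u`. -/
def Vx (_u : {u : End F V // u * u = (-1 : F) • 1 + (0 : F) • u}) := V

section

variable {u : {u : End F V // u * u = (-1 : F) • 1 + (0 : F) • u}}

instance : AddCommGroup (Vx u) := inferInstanceAs (AddCommGroup V)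
instance : Module F (Vx u) := inferInstanceAs (Module F V)
noncomputable instance : Module (Ei F) (Vx u) := Module.compHom V (QuadraticAlgebra.lift u).toRingHom

/-- The identity map. -/
def jx (u : {u : End F V // u * u = (-1 : F) • 1 + (0 : F) • u}) : Vx u ≃ₗ[F] V := LinearEquiv.refl F V

theorem jx_smul (e : Ei F) (w : Vx u) : jx u (e • w) = e.re • jx u w + e.im • u.1 (jx u w) := rfl

instance : IsScalarTower F (Ei F) (Vx u) := ⟨fun c e w => (jx u).injective (by simp [jx_smul, mul_smul])⟩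

theorem exists_herm {B : LinearMap.BilinForm F V} (h : ∀ v w, B (u.1 v) w = -B v (u.1 w)) (κ : Ei F) :
    ∃ f : Vx u →ₛₗ[starRingEnd (Ei F)] Vx u →ₗ[Ei F] Ei F,
      ∀ v w, f v w = κ * ⟨B (jx u v) (jx u w), -B (jx u v) (u.1 (jx u w))⟩ := by
  have h2 : ∀ w, u.1 (u.1 w) = -w := fun w => by simpa using LinearMap.congr_fun u.2 w
  refine ⟨LinearMap.mk₂'ₛₗ _ _ (fun v w => κ * ⟨B (jx u v) (jx u w), -B (jx u v) (u.1 (jx u w))⟩) (fun _ _ _ => ?_)
    (fun _ _ _ => ?_) (fun _ _ _ => ?_) fun _ _ _ => ?_, fun _ _ => rfl⟩ <;> ext <;>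
    simp [jx_smul, h, h2, starRingEnd_apply] <;> ring

end

theorem Ov.dich_ns [Finite F] [FiniteDimensional F V] (hp : ∀ a : F, ∃ n : ℕ, a = n) {B : LinearMap.BilinForm F V}
    (hB : B.Nondegenerate) (hs : B.IsAlt ∨ B.IsSymm) (hU : ∀ g, g ∈ Un B ↔ st g * g = 1) {R H : Subgroup (End F V)ˣ}
    (O : Ov st R H) (hi : ∀ i : F, i * i ≠ -1) (hn : 8 ≤ finrank F V) {x : (End F V)ˣ} (hx : x ∈ R) (hx2 : x * x = -1) :
    Cx R H x ∨ ∀ g : (End F V)ˣ, st g * g = 1 → g * x = x * g → (g.1 - 1) * (g.1 - 1) = 0 → g ∈ H := by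
  have : Fact (∀ r : F, r ^ 2 ≠ -1 + 0 * r) := ⟨fun r => by simpa [sq] using hi r⟩
  let u : {u : End F V // u * u = (-1 : F) • 1 + (0 : F) • u} := ⟨x, by simpa using congrArg Units.val hx2⟩
  have : Finite (Ei F) := Module.finite_of_finite F
  have : FiniteDimensional F (Vx u) := ‹FiniteDimensional F V›
  have : FiniteDimensional (Ei F) (Vx u) := .of_restrictScalars_finite F _ _
  have : Finite (End F V) := Module.finite_of_finite F
  have : Finite (End (Ei F) (Vx u)) := Module.finite_of_finite (Ei F)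
  have hW : 2 * finrank (Ei F) (Vx u) = finrank F V := by
    rw [← QuadraticAlgebra.finrank_eq_two (R := F) (a := -1) (b := 0), finrank_mul_finrank]; rfl
  have hW' : 4 ≤ finrank (Ei F) (Vx u) := by omega
  have hω : ∀ w : Vx u, jx u ((QuadraticAlgebra.omega : Ei F) • w) = x.1 (jx u w) := fun w => by simp [jx_smul, u]
  have M : Mdl st (QuadraticAlgebra.omega : Ei F) x (jx u).toLinearMap := ⟨by
    ext <;> simp [QuadraticAlgebra.re_one, QuadraticAlgebra.im_one],
    Module.nontrivial_of_finrank_pos (R := Ei F) (by omega), (jx u).injective, hω,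
    fun a e => ⟨⟨⟨fun w => (jx u).symm (a (jx u w)), by simp⟩, fun c w => (jx u).injective (by
      simp [jx_smul, u, show ∀ v, a (x.1 v) = x.1 (a v) from LinearMap.congr_fun e])⟩, fun w => rfl⟩,
    fun k => ⟨(jx u).conj (k.restrictScalars F), LinearMap.ext fun v => by
      obtain ⟨w, rfl⟩ := (jx u).surjective v
      simp [← hω], fun w => by simp⟩,
    fun g _ _ h => Units.ext (LinearMap.ext fun v => (h v).symm)⟩
  have hxB : ∀ v w, B (x.1 v) w = -B v (x.1 w) := fun v w => by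
    rw [← mem_Un.1 ((hU x).2 (O.iso x (O.le hx))) v, ← mul_app, hx2]; simp
  obtain ⟨q, hq⟩ := CL.Uni.exists_isBar (starRingEnd (Ei F)) (fun e => O.two (by
    have := congrArg (fun f : Ei F →+* Ei F => (f QuadraticAlgebra.omega).im) e
    simp [starRingEnd_apply] at this
    linear_combination -this)) star_star
  obtain ⟨κ, hκ, f, hf, h⟩ : ∃ κ : Ei F, κ ≠ 0 ∧ ∃ f : Vx u →ₛₗ[starRingEnd (Ei F)] Vx u →ₗ[Ei F] Ei F,
      (∀ v w, f v w = κ * ⟨B (jx u v) (jx u w), -B (jx u v) (x.1 (jx u w))⟩) ∧ ∀ v w, star (f v w) = f w v := by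
    rcases hs with hs | hs
    · obtain ⟨f, hf⟩ := exists_herm (u := u) hxB QuadraticAlgebra.omega
      refine ⟨_, i_ne_zero M.ii, f, hf, fun v w => ?_⟩
      ext
      · simp [hf, u, ← hs.neg_eq (x.1 _) (jx u w), hxB]
      · simp [hf, u, hs.neg_eq]
    · obtain ⟨f, hf⟩ := exists_herm (u := u) hxB 1
      refine ⟨_, one_ne_zero, f, hf, fun v w => ?_⟩
      ext
      · simpa [hf] using hs.eq _ _
      · simpa [hf, u] using (hs.eq _ _).trans (hxB _ _)
  have hh : CL.Uni.IsHerm f q := ⟨hq, h, fun v hv => (jx u).injective (hB.1 _ fun w => by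
    have := congrArg QuadraticAlgebra.re ((mul_eq_zero.1 ((hf v ((jx u).symm w)).symm.trans (hv _))).resolve_left hκ)
    simpa using this)⟩
  have hUn : ∀ (g : (End F V)ˣ) k, st g * g = 1 → g * x = x * g → Ru (jx u).toLinearMap g k → k ∈ Un f :=
      fun g k hg e hk v w => by
    have h1 : ∀ w, jx u (k.1 w) = g.1 (jx u w) := hk
    show f (k.1 v) (k.1 w) = f v w
    rw [hf, hf, h1, h1, ← mul_app, ← e, mul_app, mem_Un.1 ((hU g).2 hg), mem_Un.1 ((hU g).2 hg)]
  have P := M.lp O hx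
  obtain ⟨m, hm⟩ := P.exists_pow hW'
  refine (M.dich O hx hx2 (SUn_le_commutator hh hW') fun hM => uni (fun a => ?_) m hh hm P
    (fun k ⟨g, hg, e, hk⟩ => hUn g k (O.iso g (O.le hg)) e hk) hM (sup_le (fun k ⟨g, hg, e, hk⟩ =>
      ⟨1, fun v w => by simpa using hUn g k (O.iso g hg) e hk v w⟩) fun k hk => ?_)).imp_right fun hK g hg e hq => ?_
  · obtain ⟨n, hn⟩ := hp a.1.re
    have h1 := congrArg QuadraticAlgebra.im (a.2 : star a.1 = a.1)
    refine ⟨n, Subtype.ext (QuadraticAlgebra.ext (by simpa using hn) ?_)⟩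
    simpa [O.two] using (by simp [starRingEnd_apply] at h1; linear_combination -h1 : 2 * a.1.im = 0)
  · obtain ⟨c, hc, e⟩ := P.exists_smul_of_mem hk
    exact ⟨.mk0 (star c * c) (by simpa using hc), fun v w => by simp [e, starRingEnd_apply]; ring⟩
  · obtain ⟨k, hk⟩ := M.exists_ru e
    refine hK g hg e k ⟨hUn g k hg e hk, ?_⟩ hk
    exact (Subgroup.commutator_le.2 fun a _ b _ => by simp [commutatorElement_def] : _ ≤ dt.ker)
      (TT_le_commutator (Nat.le_of_succ_le hW') (mem_TT_of_quad (hk.quad M.inj hq)))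

/-- **The local theorem for the real types.** -/
theorem realMain : RealMain.{u} := by
  intro ι _ _ F _ _ hF hn B hB hs R G H P hR h3 hG1 hGU hG hH hHG
  have hp := CL.Cls.exists_natCast_of_prime_card hF
  have hd : 8 ≤ finrank F (ι → F) := by simpa using hn
  have : Finite (End F (ι → F)) := Module.finite_of_finite F
  obtain ⟨st, h1, hm⟩ := P.exists_st fun k hk hk0 => P.sign_of_mem hk0 (by
    obtain ⟨c, -, hc⟩ := P.exists_smul_of_mem hk0
    refine Units.ext (LinearMap.ext fun v => sub_eq_zero.1 (hB.1 _ fun w => ?_))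
    simpa [hc, sub_eq_zero] using mem_Un.1 (hR hk) v w)
  have h2 : ∀ a : End F (ι → F), ∀ u v, B (a u) v = B u (st a v) := P.induction (fun r hr u v => by
    rw [h1 r hr, ← mem_Un.1 (hR hr) u, app_inv_app]) (by simp) (fun a b ha hb u v => by simp [ha, hb])
    fun c a ha u v => by simp [ha]
  have hU : ∀ g, g ∈ Un B ↔ st g * g = 1 := fun g => ⟨fun hg => LinearMap.ext fun v => sub_eq_zero.1 (hB.2 _ fun u => by
    simp [← h2, mem_Un.1 hg]), fun hg u v => (h2 _ _ _).trans (congrArg (B u) (LinearMap.congr_fun hg v))⟩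
  have O := exists_ov hm P h3 hU hR hG hGU hH hHG
  by_cases h : ∀ x ∈ R, x * x = -1 → Cx R H x
  · refine Or.inl (O.le_Nm h3 (by omega) (fun X hX g hg e => hH ⟨e, ?_⟩) h)
    have := (hU g).2 hg
    simpa [commutatorElement_def, mul_assoc] using
      G.mul_mem (hG g this) (hG1 (Subgroup.commutator_mem_commutator (inv_mem this) (hR hX)))
  · push Not at h
    obtain ⟨y, hy, hy2, h⟩ := h
    have hy0 := (O.rp h3).notMem_of_ns hy hy2
    have h4 : QU B H y := fun g hg => by
      by_cases hi : ∃ i : F, i * i = -1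
      · exact (O.dich_split hp hi.choose_spec hd hy hy2 hy0).resolve_left h g ((hU g).1 hg)
      · exact (O.dich_ns hp hB hs hU (not_exists.1 hi) hd hy hy2).resolve_left h g ((hU g).1 hg)
    refine Or.inr fun x hx hx2 g hg e hq => ?_
    obtain ⟨m, ⟨hm, -⟩, rfl⟩ := O.exists_conj h3 hy hx hy0 ((O.rp h3).notMem_of_ns hx hx2) (hy2.trans hx2.symm)
    have hm' := hGU (hHG hm)
    have e1 : ((m⁻¹ * g * m : (End F (ι → F))ˣ).1 - 1) = (m⁻¹ : (End F (ι → F))ˣ) * (g.1 - 1) * m := by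
      simp [mul_sub, sub_mul]
    simpa [mul_assoc] using H.mul_mem (H.mul_mem hm (h4 (m⁻¹ * g * m) (mul_mem (mul_mem (inv_mem hm') hg) hm')
      (by simpa [mul_assoc] using congrArg (m⁻¹ * · * m) e) (by
        rw [e1, mul_assoc, ← mul_assoc m.1, ← mul_assoc m.1, Units.mul_inv, one_mul, mul_assoc, ← mul_assoc (g.1 - 1), hq]
        simp))) (H.inv_mem hm)

end CL.Pa
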