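/-
Elements of prime order of `PSL_n(q)` and similarity groups of symplectic and quadratic forms.
-/
import Cfsg.Agent.Cls.PrimeOrderForm
import Cfsg.Agent.Cls.OAut11
import Cfsg.Agent.Cls.OrthMaxBridge
import Cfsg.Agent.Cls.OrthOrder
import Cfsg.Agent.Cls.OrthCount
import Cfsg.Agent.Cls.SpOrder

set_option autoImplicit false

open Polynomial Module Matrix

namespace CL.Elu

open CL.GLn CL.Known CL.SLn CL.Asch Cfsg.Geo

variable {F : Type*} [Field F] {κ : Type} [Fintype κ] [DecidableEq κ] {ε l D D' : F}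
  {f : (κ → F) → (κ → F) → F} {g : End F (κ → F)} {s t : Multiset F[X]}

/-- `s` lists the elementary divisors of a map multiplying a form of discriminant `D` by `l`. -/
def Blk (ε l D : F) (s : Multiset F[X]) : Prop := ∃ (m : ℕ) (A G : Matrix (Fin m) (Fin m) F), elemDiv A = s ∧
  Gᵀ = ε • G ∧ (ε = -1 → ∀ i, G i i = 0) ∧ Aᵀ * G * A = l • G ∧ G.det = D

theorem Blk.add (h : Blk ε l D s) (h' : Blk ε l D' t) : Blk ε l (D * D') (s + t) := by
  obtain ⟨m, A, G, rfl, h1, h2, h3, rfl⟩ := h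
  obtain ⟨m', A', G', rfl, h1', h2', h3', rfl⟩ := h'
  let e : Fin (m + m') ≃ Fin m ⊕ Fin m' := finSumFinEquiv.symm
  refine ⟨m + m', (fromBlocks A 0 0 A').submatrix e e, (fromBlocks G 0 0 G').submatrix e e,
    CL.ClassNo.elemDiv_fromBlocks e A A', ?_, fun h i => ?_, ?_, by simp⟩
  · rw [transpose_submatrix, fromBlocks_transpose, h1, h1']
    ext i j
    rcases hi : e i with a | a <;> rcases hj : e j with b | b <;> simp [hi, hj]
  · rcases hi : e i with a | a <;> simp [hi, h2 h, h2' h]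
  · rw [transpose_submatrix, submatrix_mul_equiv, submatrix_mul_equiv, fromBlocks_transpose, fromBlocks_multiply,
      fromBlocks_multiply]
    ext i j
    rcases hi : e i with a | a <;> rcases hj : e j with b | b <;> simp [hi, hj, h3, h3']

theorem blk_zero : Blk ε l 1 0 :=
  ⟨0, 0, 0, (hasED_elemDiv _).unique (hasED_zero _), Subsingleton.elim _ _, fun _ i => i.elim0, Subsingleton.elim _ _,
    det_isEmpty⟩

theorem Blk.nsmul (h : Blk ε l D s) (k : ℕ) : Blk ε l (D ^ k) (k • s) := by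
  induction k with
  | zero => simpa using blk_zero
  | succ k ih => rw [pow_succ, succ_nsmul]; exact ih.add h

theorem blk_alt (hs : ∀ P ∈ s, IsPrimaryPoly P) (h : (s.map natDegree).sum = 2) : Blk (-1) (s.prod.coeff 0) 1 s := by
  obtain ⟨A, rfl⟩ := exists_elemDiv_eq (n := Fin 2) s hs (by simpa using h)
  refine ⟨2, A, !![0, 1; -1, 0], rfl, ?_, fun _ i => ?_, ?_, by simp⟩
  · ext i j; fin_cases i <;> fin_cases j <;> simp
  · fin_cases i <;> simp
  · rw [prod_elemDiv, show A.charpoly.coeff 0 = A.det by simp [det_eq_sign_charpoly_coeff]]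
    ext i j
    fin_cases i <;> fin_cases j <;> simp [det_fin_two, mul_apply, Fin.sum_univ_two] <;> ring

theorem elemDiv_of_aeval {m : ℕ} {A : Matrix (Fin m) (Fin m) F} {P : F[X]} (hP : P.Monic) (hi : Irreducible P)
    (h : aeval A P = 0) (hm : P.natDegree = m) : elemDiv A = {P} :=
  (hasED_elemDiv A).unique (hasED_of_aeval_irreducible (k := 1) hP hi (by rw [aeval_toLin', h, map_zero]) (by simp [hm]))

theorem blk_one (h2 : (1 : F) ≠ -1) (c D : F) : Blk 1 (c ^ 2) D {X - C c} := by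
  refine ⟨1, !![c], !![D], elemDiv_of_aeval (monic_X_sub_C c) (irreducible_X_sub_C c) ?_ (natDegree_X_sub_C c), ?_,
    fun h => absurd h h2, ?_, by simp⟩
  all_goals ext i j; fin_cases i; fin_cases j; simp [mul_apply, algebraMap_matrix_apply]
  ring

theorem blk_hyp (h2 : (1 : F) ≠ -1) {b : F} (hb : b ≠ 0) : Blk 1 1 (-1) {X - C b, X - C b⁻¹} := by
  let e : Fin 2 ≃ Fin 1 ⊕ Fin 1 := (finSumFinEquiv (m := 1) (n := 1)).symm
  refine ⟨2, (fromBlocks !![b] 0 0 !![b⁻¹]).submatrix e e, !![0, 1; 1, 0], ?_, ?_, fun h => absurd h h2, ?_, by simp⟩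
  · have h : ∀ c : F, elemDiv !![c] = {X - C c} := fun c =>
      elemDiv_of_aeval (monic_X_sub_C c) (irreducible_X_sub_C c) (by
        ext i j; fin_cases i; fin_cases j; simp [algebraMap_matrix_apply]) (natDegree_X_sub_C c)
    rw [CL.ClassNo.elemDiv_fromBlocks, h, h]; rfl
  · ext i j; fin_cases i <;> fin_cases j <;> simp
  · rw [show (fromBlocks !![b] 0 0 !![b⁻¹]).submatrix e e = !![b, 0; 0, b⁻¹] by
      ext i j; fin_cases i <;> fin_cases j <;> rfl]
    ext i j; fin_cases i <;> fin_cases j <;> simp [mul_apply, Fin.sum_univ_two, hb]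

theorem blk_quad [Fintype F] (h2 : ((2 : ℕ) : F) ≠ 0) {c : F} (hc : ∀ d, d ^ 2 ≠ c) (D : F) :
    Blk 1 c D {X ^ 2 - C c} := by
  have h0 : c ≠ 0 := fun e => hc 0 (by simp [e])
  obtain ⟨a, b, h⟩ := FiniteField.exists_root_sum_quadratic (f := C c * X ^ 2) (g := C (-c ^ 2) * X ^ 2 - C D)
    (by compute_degree!) (by compute_degree!) (Nat.odd_iff.1 (odd_card_iff.2 h2))
  refine ⟨2, !![0, c; 1, 0], !![a, b * c; b * c, a * c], elemDiv_of_aeval (monic_X_pow_sub_C c two_ne_zero)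
    (X_pow_sub_C_irreducible_of_prime Nat.prime_two hc) ?_ natDegree_X_pow_sub_C, ?_,
    fun h => absurd (by push_cast; linear_combination h) h2, ?_, ?_⟩
  · ext i j; fin_cases i <;> fin_cases j <;> simp [sq, algebraMap_matrix_apply]
  · ext i j; fin_cases i <;> fin_cases j <;> simp
  · ext i j; fin_cases i <;> fin_cases j <;> simp [mul_apply, Fin.sum_univ_two] <;> ring
  · simp only [eval_mul, eval_C, eval_pow, eval_X, eval_sub] at h
    rw [det_fin_two_of]; linear_combination h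

theorem Blk.conjIn (h : Blk ε l D s) (hε : ε ≠ 0) (hl : l ≠ 0) (hD : D ≠ 0) (hg : HasED g s) (hu : IsUnit g)
    (hf : ∀ f₀, IsSesq (RingHom.id F) ε f₀ → (ε = -1 → ∀ v, f₀ v v = 0) → (gramMatrix f₀).det = D →
      ∃ (P : GL κ F) (c : F), c ≠ 0 ∧ ∀ u v, f (P.val *ᵥ u) (P.val *ᵥ v) = c * f₀ u v) :
    ConjIn (similarityGroup f) g := by
  obtain ⟨m, A, G, rfl, h1, h2, h3, rfl⟩ := h
  have hs := (hasED_elemDiv A).sim hg
  let e : κ ≃ Fin m := Fintype.equivOfCardEq (by simpa using hs.finrank_eq.symm)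
  have h4 : ∀ i j, G j i = ε * G i j := fun i j => congrFun (congrFun h1 i) j
  have h5 : Sim (toLin' (A.submatrix e e)) (toLin' A) :=
    ⟨LinearEquiv.funCongrLeft F F e.symm, fun v => by ext i; simp [submatrix_mulVec_equiv]⟩
  obtain ⟨P, c, hc, hP⟩ := hf (gform (RingHom.id F) (G.submatrix e e))
    (isSesq_gform (fun _ => rfl) hε (fun a b => h4 _ _) (by simpa using hD)) (fun h v => by
      simp only [gform, dotProduct, mulVec, Finset.mul_sum, ← Finset.sum_product']
      refine Finset.sum_ninvolution Prod.swap (fun p => ?_) (fun p hp e' => hp ?_) (fun _ => Finset.mem_univ _)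
        fun _ => rfl
      · simp [h4 (e p.1), h]; ring
      · simp [show p.2 = p.1 from congrArg Prod.fst e', h2 h]) (by simp [gramMatrix_gform])
  refine conjIn_of_similar hc hP ⟨GeneralLinearGroup.mkOfDetNeZero (A.submatrix e e) ?_,
    (mem_similarityGroup_gform_iff _ _ _).2 ⟨Units.mk0 l hl, ?_⟩, h5.trans hs⟩
  · rw [← LinearMap.det_toLin', (h5.trans hs).det]
    exact ((LinearMap.isUnit_iff_isUnit_det g).1 hu).ne_zero
  · change (A.submatrix e e)ᵀ * G.submatrix e e * A.submatrix e e = l • G.submatrix e e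
    rw [transpose_submatrix, submatrix_mul_equiv, submatrix_mul_equiv, h3]; rfl

theorem isUnit_smul (hg : IsUnit g) {d : F} (hd : d ≠ 0) : IsUnit (d • g) := by
  rw [Algebra.smul_def]; exact ((IsUnit.mk0 d hd).map _).mul hg

theorem rk_jb {μ : Multiset ℕ} (h : HasED g (jb F μ)) (k : ℕ) : rk g k = prk μ k := by
  obtain ⟨A, rfl⟩ := toLin'.surjective g
  rw [rk_toLin', rank_eq_prk ((hasED_elemDiv A).unique h) (by
    rw [← sum_natDegree_jb (F := F), ← h.finrank_eq, finrank_fintype_fun_eq_card])]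

theorem prod_odd_even (q m : ℕ) : ∏ i ∈ Finset.range (2 * m), (q ^ (i + 1) - 1) =
    (∏ i ∈ Finset.range m, (q ^ (2 * (i + 1)) - 1)) * ∏ i ∈ Finset.range m, (q ^ (2 * i + 1) - 1) := by
  induction m with
  | zero => rfl
  | succ m ih =>
    rw [mul_add, mul_one, Finset.prod_range_succ, Finset.prod_range_succ, ih, Finset.prod_range_succ,
      Finset.prod_range_succ, show 2 * (m + 1) = 2 * m + 1 + 1 by ring]
    ring

theorem dvd_of_mul_dvd {r q a b E O : ℕ} (hr : r.Prime) (hq : ¬ r ∣ q) (hE : E ≠ 0)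
    (h : r * (a * E) ∣ q ^ b * (E * O)) : r ∣ O := by
  rw [mul_left_comm (q ^ b), ← mul_assoc, mul_comm _ E, Nat.mul_dvd_mul_iff_left (Nat.pos_of_ne_zero hE)] at h
  exact ((Nat.Prime.dvd_mul hr).1 ((dvd_mul_right r a).trans h)).resolve_left fun e => hq (hr.dvd_of_dvd_pow e)

variable [Fintype F]

theorem prod_even_ne_zero (m : ℕ) : ∏ i ∈ Finset.range m, (Fintype.card F ^ (2 * (i + 1)) - 1) ≠ 0 :=
  Finset.prod_ne_zero_iff.2 fun _ _ => Nat.sub_ne_zero_of_lt (Nat.one_lt_pow (by omega) Fintype.one_lt_card)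

/-- If `r` divides `q ^ j - 1` with `j` odd, some element of order `r` preserves no bilinear form. -/
theorem not_forall_of_odd [Nonempty κ] (hf : IsSesq (RingHom.id F) ε f) {r : ℕ} [hr : Fact r.Prime] (hr2 : r ≠ 2)
    (hrF : (r : F) ≠ 0) (hq : ¬ r ∣ Fintype.card F - 1) {m : ℕ} (hm : 2 * m ≤ Fintype.card κ + 1)
    (h : r ∣ ∏ i ∈ Finset.range m, (Fintype.card F ^ (2 * i + 1) - 1)) :
    ¬ ∀ g, PEl r g → ConjIn (similarityGroup f) g := fun H => by
  obtain ⟨j, hj, h1⟩ := (hr.out.prime.dvd_finsetProd_iff _).1 h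
  have h2 : orderOf ((Nat.card F : ℕ) : ZMod r) ∣ 2 * j + 1 := by
    rw [orderOf_dvd_iff_pow_eq_one, ← Nat.cast_pow, ← orderOf_eq_one_iff, Nat.card_eq_fintype_card,
      orderOf_eq_one_iff_dvd (Nat.one_le_pow _ _ Fintype.card_pos)]
    exact h1
  obtain ⟨P, hP, e⟩ := exists_recip_eq hf hr.out hrF hq ((Nat.le_of_dvd (by omega) h2).trans (by
    have := Finset.mem_range.1 hj; omega)) H
  obtain ⟨p, hp⟩ := CharP.exists F
  haveI := Fact.mk (CharP.char_is_prime F p)
  have h3 := (recip_eq_self_iff (fun _ => rfl) p (k := 0) (by simp) hrF hP).1 e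
  rw [pow_zero, exists_dvd_pow_add_one_iff hr.out hr2 (orderOf_card_ne_zero hrF)] at h3
  exact Nat.not_even_iff_odd.2 (odd_two_mul_add_one j) (h3.trans_dvd h2)

theorem of_forall_bilin (hf : IsSesq (RingHom.id F) ε f) {r : ℕ} [hr : Fact r.Prime] (hr2 : r ≠ 2)
    (hrF : (r : F) ≠ 0) (hq : r ∣ Fintype.card F - 1) (hn : 3 ≤ Fintype.card κ) (hgap : ¬ (Fintype.card κ = 6 ∧ r = 3))
    (H : ∀ g, PEl r g → ConjIn (similarityGroup f) g) : r = Fintype.card κ ∧
      (Fintype.card κ = 3 ∨ Fintype.card κ = 5) ∧ padicValNat r (Fintype.card F - 1) = 1 :=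
  (of_forall_sym hr2 hrF hq (invBar_injective (σ := RingHom.id F)) (fun _ e => inv_ne_self_of_orderOf hr.out hr2 e) finrank_fun_eq
    (by omega) hgap fun g hg => (H g hg).sym_form hf).2.resolve_left (by omega)

theorem exists_isom_jb [Nonempty κ] (hf : IsSesq (RingHom.id F) ε f) (p : ℕ) [hp : Fact p.Prime] [CharP F p] {e : ℕ}
    (he : 2 ≤ e) (hep : e ≤ p) (hn : e ≤ Fintype.card κ) (H : ∀ g, PEl p g → ConjIn (similarityGroup f) g) :
    ∃ (x : (κ → F) ≃ₗ[F] (κ → F)) (μ : Multiset ℕ), (∀ u v, hf.isSL.toSesq (x u) (x v) = hf.isSL.toSesq u v) ∧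
      (∀ k, rk (x : End F (κ → F)) k = prk μ k) ∧ μ.count e = 1 := by
  have h1 : ∀ a ∈ ({e} + Multiset.replicate (Fintype.card κ - e) 1 : Multiset ℕ), 0 < a ∧ a ≤ p := fun a ha => by
    rcases Multiset.mem_add.1 ha with ha | ha
    · rw [Multiset.mem_singleton.1 ha]; omega
    · rw [Multiset.eq_of_mem_replicate ha]; omega
  obtain ⟨g, hg⟩ := exists_hasED_jb (F := F) (V := κ → F) (fun a ha => (h1 a ha).1) (by simp; omega)
  obtain ⟨x, hx, hs⟩ := (H g (pEl_of_jb p (fun a ha => (h1 a ha).2) ⟨e, by simp, he⟩ hg)).exists_isom hf (r := p)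
    (fun l hl => frobenius_inj F p (hl.trans (map_one _).symm)) (by
      rw [← sub_eq_zero, ← sub_one_pow_char p]
      exact (sub_one_pow_eq_zero_iff_jb hg p).2 fun a ha => (h1 a ha).2)
  exact ⟨CL.Sp.glEquiv κ F x, _, fun u v => hx v u, fun k => by rw [CL.Sp.glEquiv_toLinearMap, Sim.rk_eq hs, rk_jb hg],
    by simp [Multiset.count_replicate, show 1 ≠ e by omega]⟩

omit [Fintype F] [Fintype κ] [DecidableEq κ] in
theorem nondeg_toSesq (hf : IsSesq (RingHom.id F) ε f) : LinearMap.BilinForm.Nondegenerate hf.isSL.toSesq :=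
  ⟨fun x hx => hf.nondeg x hx, fun x hx => hf.nondeg' x hx⟩

section Sp

theorem not_elus_sp (hf : IsSesq (RingHom.id F) (-1) f) (ha : ∀ v, f v v = 0) (hn : 4 ≤ Fintype.card κ) {r : ℕ}
    [hr : Fact r.Prime] (hr2 : r ≠ 2) (hgap : ¬ (Fintype.card κ = 6 ∧ r = 3))
    (hΩ : r ∣ ((similarityGroup f).comap (SpecialLinearGroup.toGL : SpecialLinearGroup κ F →* GL κ F)).index) :
    ¬ Elus r (similarityGroup f) := fun H => by
  haveI : Nonempty κ := Fintype.card_pos_iff.1 (by omega)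
  replace H := H.conjIn
  obtain ⟨m, hm⟩ := hf.even_card ha
  by_cases hrF : (r : F) = 0
  · haveI : CharP F r := (CharP.charP_iff_prime_eq_zero hr.out).2 hrF
    obtain ⟨x, μ, h1, h2, h3⟩ := exists_isom_jb hf r (e := 3) (by omega) (by have := hr.out.two_le; omega) (by omega) H
    exact absurd (h3 ▸ even_count_of_alt (nondeg_toSesq hf) ha h1 h2 (j := 3) (by decide)) (by decide)
  by_cases hq : r ∣ Fintype.card F - 1
  · have := of_forall_bilin hf hr2 hrF hq (by omega) hgap H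
    omega
  have h1 := mul_card_dvd_GL (I := (CL.Sp.Isom hf.isSL.toSesq).comap (CL.Sp.glEquiv κ F).toMonoidHom)
    (fun x hx => Isom.mem_similarityGroup fun u v => hx v u) hΩ
  rw [Subgroup.comap_equiv_eq_map_symm', Subgroup.card_map_of_injective (CL.Sp.glEquiv κ F).symm.injective,
    CL.Sp.card_isom (B := hf.isSL.toSesq) ha (nondeg_toSesq hf) (m := m) (by rw [finrank_fun_eq, hm, two_mul]), card_GL', hm, ← two_mul,
    prod_odd_even, Nat.card_eq_fintype_card] at h1
  exact not_forall_of_odd hf hr2 hrF hq (by omega)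
    (dvd_of_mul_dvd hr.out (not_dvd_card hr.out hrF) (prod_even_ne_zero m) h1) H

theorem conjIn_sp (hf : IsSesq (RingHom.id F) (-1) f) (ha : ∀ v, f v v = 0) (hu : IsUnit g) {d : F} (hd : d ≠ 0)
    (hs : HasED (d • g) s) (hl : l ≠ 0) (h : Blk (-1) l 1 s) : ConjIn (similarityGroup f) g :=
  ConjIn.of_smul (scalars_le_similarity hf) hd (h.conjIn hf.eps_ne hl one_ne_zero hs (isUnit_smul hu hd)
    fun _ h₀ h₁ _ => (similar_of_alt h₀ hf (h₁ rfl) ha).imp fun _ hP => ⟨1, one_ne_zero, by simpa using hP⟩)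

omit [Fintype F] in
theorem blk_alt_two {c : F} (hc : c ^ 2 = 1) (k : ℕ) : Blk (-1 : F) 1 1 (Multiset.replicate (k + k) (X - C c)) := by
  have := (blk_alt (s := Multiset.replicate 2 (X - C c)) (fun P hP => Multiset.eq_of_mem_replicate hP ▸
    isPrimaryPoly_of_irreducible (monic_X_sub_C c) (irreducible_X_sub_C c)) (by simp)).nsmul k
  have e : (Multiset.replicate 2 (X - C c)).prod.coeff 0 = 1 := by simp [coeff_zero_eq_eval_zero, ← sq, hc]
  rwa [one_pow, Multiset.nsmul_replicate, mul_two, e] at this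

theorem elus_sp_two (hf : IsSesq (RingHom.id F) (-1) f) (ha : ∀ v, f v v = 0) (hn : 4 ≤ Fintype.card κ) :
    Elus 2 (similarityGroup f) ↔ padicValNat 2 (Fintype.card F - 1) ≤ padicValNat 2 (Fintype.card κ) := by
  haveI : Nonempty κ := Fintype.card_pos_iff.1 (by omega)
  obtain ⟨m, hm⟩ := hf.even_card ha
  rw [elus_iff Nat.prime_two (Or.inr rfl)]
  by_cases h2 : ((2 : ℕ) : F) = 0
  · haveI : CharP F 2 := (CharP.charP_iff_prime_eq_zero Nat.prime_two).2 h2
    have h3 := Nat.not_odd_iff_even.1 fun h => odd_card_iff.1 h h2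
    refine iff_of_true (fun g hg => ?_) (by
      rw [padicValNat.eq_zero_of_not_dvd (by have := Fintype.card_pos (α := F); grind)]; omega)
    obtain ⟨c, hc⟩ := hg.pow
    obtain ⟨d, hd, -, μ, h1, -, h4, hs⟩ := unipotent_cases 2 hg.isUnit hg.ns hc
    rw [eq_of_parts_two h1] at hs h4
    simp only [Multiset.sum_add, Multiset.sum_replicate, smul_eq_mul, finrank_fun_eq] at h4
    obtain ⟨k, hk⟩ : ∃ k, μ.count 1 = k + k := ⟨m - μ.count 2, by omega⟩
    have h5 := ((blk_alt (s := {(X - 1 : F[X]) ^ 2}) (primary_jb (μ := {2}) (by simp))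
      (sum_natDegree_jb {2})).nsmul (μ.count 2))
    rw [show (({(X - 1 : F[X]) ^ 2} : Multiset F[X])).prod.coeff 0 = 1 by simp [coeff_zero_eq_eval_zero]] at h5
    refine conjIn_sp hf ha hg.isUnit hd hs one_ne_zero ?_
    simpa [jb_add, jb_replicate, hk, Multiset.nsmul_singleton] using h5.add (blk_alt_two (one_pow 2) k)
  have h3 : (-1 : F) ≠ 1 := fun e => h2 (by push_cast; linear_combination -e)
  rw [← not_lt, ← exists_pow_eq_neg_one_iff h2 Fintype.card_ne_zero]
  constructor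
  · rintro H ⟨d, hd, e⟩
    have ho : orderOf (-1 : F) = 2 := orderOf_eq_prime (by simp) h3
    obtain ⟨g, h4, h5⟩ := exists_diag (V := κ → F) h2 {-1} (by simpa using ho) (a := Fintype.card κ - 1)
      (by simp; omega)
    have hu : ∀ P ∈ ({-1} : Multiset F).map fun b => X - C b, P ∈ ordFactors F 2 := by
      simpa using X_sub_C_mem_ordFactors h2 ho
    obtain ⟨x, ⟨l, hx⟩, hs⟩ := (H _ (pEl_smul_of_ord (by decide) h2 hu (by simp) (by omega) h4
      (by rw [finrank_fun_eq, e, h5]; simp) hd)).of_smul (scalars_le_similarity hf) hd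
    have h6 := mult_pow hf hx hs (c := 1) ((pow_eq_one_of_ord h2 hu h4).trans (one_smul _ _).symm)
    rcases sq_eq_one_iff.1 (h6.trans (mul_one _)) with h7 | h7
    · have h8 := CL.Cls.det_of_alt_sim (nondeg_toSesq hf).1 ha (m := m) (by rw [finrank_fun_eq, hm, two_mul])
        (CL.Sp.glEquiv κ F x) l.ne_zero fun u v => hx v u
      rw [CL.Sp.glEquiv_toLinearMap, hs.det, h5, h7, one_pow, Multiset.prod_singleton] at h8
      exact h3 h8
    · classical
      have h8 := kd_star_linear hf l.ne_zero hx hs one_ne_zero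
      have h9 : HasED g (({-1} + Multiset.replicate (Fintype.card κ - 1) 1 : Multiset F).map fun b => X - C b) := by
        simpa using h4
      rw [kd_linear h9, kd_linear h9, h7] at h8
      simp [Multiset.count_replicate, Multiset.count_singleton, h3, h3.symm] at h8
      omega
  · intro H g hg
    rcases hg.cases Nat.prime_two h2 with ⟨d, hd, u, a, hu, -, hs⟩ | ⟨c, k, hc0, hcr, -, -, hs⟩
    · rw [eq_replicate_of_two h2 hu] at hs
      have h4 : HasED (d • g) ((Multiset.replicate (Multiset.card u) (-1) + Multiset.replicate a 1 : Multiset F).map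
        fun b => X - C b) := by simpa using hs
      have h5 := det_of_linear h4
      have h6 := h4.finrank_eq
      rw [sum_natDegree_linear, finrank_fun_eq, Multiset.card_add, Multiset.card_replicate,
        Multiset.card_replicate] at h6
      rw [LinearMap.det_smul, hg.det, finrank_fun_eq] at h5
      obtain ⟨k, hk⟩ | hk := Nat.even_or_odd (Multiset.card u)
      · obtain ⟨j, rfl⟩ : ∃ j, a = j + j := ⟨m - k, by omega⟩
        refine conjIn_sp hf ha hg.isUnit hd hs one_ne_zero ?_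
        have h7 := (blk_alt_two (F := F) neg_one_sq k).add (blk_alt_two (one_pow 2) j)
        rwa [one_mul, C_1, ← hk] at h7
      · exact absurd ⟨d, hd, by simpa [hk.neg_one_pow] using h5⟩ H
    · have h4 := (blk_alt (s := {X ^ 2 - C c}) (fun P hP => Multiset.mem_singleton.1 hP ▸ isPrimaryPoly_of_irreducible
        (monic_X_pow_sub_C c two_ne_zero) (X_pow_sub_C_irreducible_of_prime Nat.prime_two hcr)) (by simp)).nsmul k
      rw [one_pow, Multiset.nsmul_singleton] at h4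
      exact conjIn_sp hf ha hg.isUnit one_ne_zero (by rwa [one_smul]) (by simpa using hc0) h4

end Sp

section Orth

omit [Fintype F] in
theorem quadSim_eq {Q : (κ → F) → F} (hQ : IsNondegenerateQuadraticForm Q) (h2 : (2 : F) ≠ 0) :
    quadSimilarityGroup Q = similarityGroup (QuadraticMap.polar Q) :=
  le_antisymm (quadSimilarityGroup_le Q) fun _ ⟨c, hc⟩ => ⟨c, fun v => mul_left_cancel₀ h2 (by
    rw [← quad_polar_self hQ, hc, quad_polar_self hQ]; ring)⟩

omit [Fintype F] in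
theorem exists_blk_of_inv (h2 : (1 : F) ≠ -1) (t : Multiset F) (h0 : ∀ b ∈ t, b ≠ 0) (ht : t.map (·⁻¹) = t) :
    ∃ D : F, D ≠ 0 ∧ Blk 1 1 D (t.map fun b => X - C b) := by
  induction t using Multiset.strongInductionOn with
  | ih t ih =>
  rcases t.empty_or_exists_mem with rfl | ⟨b, hb⟩
  · exact ⟨1, one_ne_zero, blk_zero⟩
  obtain ⟨t, rfl⟩ := Multiset.exists_cons_of_mem hb
  have hb0 := h0 b hb
  rw [Multiset.map_cons] at ht
  by_cases e : b⁻¹ = b
  · obtain ⟨D, hD, h⟩ := ih t (Multiset.lt_cons_self _ _) (fun c hc => h0 c (Multiset.mem_cons_of_mem hc))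
      (by rwa [e, Multiset.cons_inj_right] at ht)
    have h1 := blk_one h2 b 1
    rw [show b ^ 2 = 1 by rw [sq]; nth_rw 1 [← e]; exact inv_mul_cancel₀ hb0] at h1
    exact ⟨_, mul_ne_zero one_ne_zero hD, by simpa using h1.add h⟩
  · obtain ⟨t, rfl⟩ := Multiset.exists_cons_of_mem ((Multiset.mem_cons.1 (ht ▸ Multiset.mem_cons_self _ _)).resolve_left e)
    obtain ⟨D, hD, h⟩ := ih t ((Multiset.lt_cons_self _ _).trans (Multiset.lt_cons_self _ _))
      (fun c hc => h0 c (Multiset.mem_cons_of_mem (Multiset.mem_cons_of_mem hc)))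
      (by rwa [Multiset.map_cons, inv_inv, Multiset.cons_swap, Multiset.cons_inj_right, Multiset.cons_inj_right] at ht)
    exact ⟨_, mul_ne_zero (neg_ne_zero.2 one_ne_zero) hD, by simpa using (blk_hyp h2 hb0).add h⟩

theorem conjIn_orth (hf : IsSesq (RingHom.id F) 1 f) (h2 : (2 : F) ≠ 0) (hu : IsUnit g) {d : F} (hd : d ≠ 0)
    (hs : HasED (d • g) s) (hl : l ≠ 0) (hD : D ≠ 0) (h : Blk 1 l D s)
    (h' : IsSquare (D * (gramMatrix f).det) ∨ Odd (Fintype.card κ)) : ConjIn (similarityGroup f) g :=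
  ConjIn.of_smul (scalars_le_similarity hf) hd (h.conjIn hf.eps_ne hl hD hs (isUnit_smul hu hd)
    fun _ h₀ _ e => h'.elim (fun h' => (similar_of_symm_of_isSquare h2 h₀ hf (e ▸ h')).imp
      fun _ hP => ⟨1, one_ne_zero, by simpa using hP⟩) fun h' => similar_of_symm_odd h2 h' h₀ hf)

theorem conjIn_orth_two (hf : IsSesq (RingHom.id F) 1 f) (h2 : (2 : F) ≠ 0) (hg : PEl 2 g) :
    ConjIn (similarityGroup f) g := by
  have h2' : ((2 : ℕ) : F) ≠ 0 := by exact_mod_cast h2
  have h3 : (1 : F) ≠ -1 := fun e => h2 (by linear_combination e)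
  have hG := hf.isUnit_gram.ne_zero
  rcases hg.cases Nat.prime_two h2' with ⟨d, hd, u, a, hu, hu0, hs⟩ | ⟨c, k, hc0, hcr, -, -, hs⟩
  · obtain ⟨t, ht, e⟩ := exists_linear_of_order_one h2' (order_two h2') hu a
    rw [e] at hs
    obtain ⟨b, hb⟩ := Multiset.exists_mem_of_ne_zero (s := t) (by rintro rfl; simp [hu0] at e)
    obtain ⟨t, rfl⟩ := Multiset.exists_cons_of_mem hb
    obtain ⟨D, hD, h⟩ := exists_blk_of_inv h3 t (fun c hc e => by simpa [e] using ht c (Multiset.mem_cons_of_mem hc))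
      ((Multiset.map_congr rfl fun c hc => by
        rcases sq_eq_one_iff.1 (ht c (Multiset.mem_cons_of_mem hc)) with rfl | rfl <;> simp).trans (Multiset.map_id _))
    have h1 := blk_one h3 b (D * (gramMatrix f).det)
    rw [ht b hb] at h1
    exact conjIn_orth hf h2 hg.isUnit hd hs one_ne_zero (mul_ne_zero (mul_ne_zero hD hG) hD) (by simpa using h1.add h)
      (Or.inl ⟨D * (gramMatrix f).det, by ring⟩)
  · obtain ⟨k, rfl⟩ := Nat.exists_eq_add_of_le' (show 1 ≤ k from Nat.pos_of_ne_zero (by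
      rintro rfl
      exact hg.ns 1 ((HasED.eq_smul_iff hs 1).2 (by simp))))
    have h1 := ((blk_quad h2' hcr 1).nsmul k).add (blk_quad h2' hcr (gramMatrix f).det)
    rw [one_pow, one_mul, Multiset.nsmul_singleton, ← Multiset.replicate_one, ← Multiset.replicate_add] at h1
    exact conjIn_orth hf h2 hg.isUnit one_ne_zero (by rwa [one_smul]) hc0 hG h1 (Or.inl ⟨_, rfl⟩)

open CL.Cls in
theorem orth_even_data {Q : QuadraticForm F (κ → F)} (hQ : (QuadraticMap.polarBilin Q).Nondegenerate) {m : ℕ}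
    (hm : Fintype.card κ = 2 * m + 2) : ∃ N₁ N₂ : ℕ, Nat.card (OG Q) = 2 * Fintype.card F ^ ((m + 1) * m) * N₁ *
      ∏ i ∈ Finset.range m, (Fintype.card F ^ (2 * (i + 1)) - 1) ∧ N₁ * N₂ = Fintype.card F ^ (2 * (m + 1)) - 1 ∧
      ∀ r, r ∣ N₂ → (Nat.card {v // Q v = 0} : ZMod r) * Fintype.card F = 2 - Fintype.card F := by
  obtain ⟨a, b, hab⟩ := exists_anisotropic_pair F
  have h0 : ∀ k, 1 ≤ Fintype.card F ^ k := fun k => Nat.one_le_pow _ _ Fintype.card_pos
  have h1 : (Fintype.card F ^ (m + 1) + 1) * (Fintype.card F ^ (m + 1) - 1) = Fintype.card F ^ (2 * (m + 1)) - 1 := by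
    rw [← Nat.sq_sub_sq, ← pow_mul, mul_comm, one_pow]
  rcases exists_equiv_qfPlus_or_qfMinus hQ (finrank_fun_eq.trans hm) hab with ⟨e, he⟩ | ⟨e, he⟩
  · refine ⟨_, _, (Nat.card_congr (OG.congr e he).toEquiv).trans (card_OG_qfPlus m), (mul_comm _ _).trans h1,
      fun r hr => ?_⟩
    rw [Nat.card_congr (e.toEquiv.subtypeEquiv (q := fun v => Cfsg.quadFormPlus (m + 1) F v = 0)
      fun v => by rw [← he]; rfl), card_zeros_quadFormPlus]
    rw [← ZMod.natCast_eq_zero_iff] at hr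
    push_cast [h0] at hr ⊢
    linear_combination ((Fintype.card F : ZMod r) ^ (m + 1) + Fintype.card F - 2) * hr
  · refine ⟨_, _, (Nat.card_congr (OG.congr e he).toEquiv).trans (card_OG_qfMinus m a b hab), h1, fun r hr => ?_⟩
    rw [Nat.card_congr (e.toEquiv.subtypeEquiv (q := fun v => Cfsg.quadFormMinus m F a b v = 0)
      fun v => by rw [← he]; rfl), card_zeros_quadFormMinus m a b hab]
    rw [← ZMod.natCast_eq_zero_iff] at hr
    push_cast [h0] at hr ⊢
    linear_combination ((Fintype.card F : ZMod r) ^ (m + 1) - Fintype.card F + 2) * hr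

theorem card_zeros_modEq {Q : (κ → F) → F} (h0 : Q 0 = 0) (h : ConjIn (quadSimilarityGroup Q) g) {r : ℕ} [Fact r.Prime]
    (hg : g ^ r = 1) (hk : kd g (X - C 1) = 0) : Nat.card {v // Q v = 0} ≡ 1 [MOD r] := by
  obtain ⟨x, hx, hs⟩ := h
  have h1 : CL.Sp.glEquiv κ F x ^ r = 1 := LinearEquiv.toLinearMap_injective (by
    rw [← map_pow, CL.Sp.glEquiv_toLinearMap, Units.val_pow_eq_pow_val, toLin'_pow]
    exact (Sim.pow_eq_one_iff hs r).2 hg)
  refine (card_modEq_fix (R := Subgroup.zpowers (CL.Sp.glEquiv κ F x)) (r := r) ?_ (fun v => Q v = 0) ?_).trans ?_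
  · rintro ⟨_, j, rfl⟩
    exact ⟨1, Subtype.ext (by
      rw [pow_one, SubmonoidClass.coe_pow, ← _root_.zpow_natCast, ← _root_.zpow_mul, mul_comm, _root_.zpow_mul,
        _root_.zpow_natCast, h1, _root_.one_zpow]; rfl)⟩
  · rintro _ ⟨j, rfl⟩ v hv
    obtain ⟨c, hc⟩ := (quadSimilarityGroup Q).zpow_mem hx j
    exact ((congrArg (fun y : (κ → F) ≃ₗ[F] (κ → F) => Q (y v)) (map_zpow _ x j).symm).trans (hc v)).trans
      (by rw [hv, mul_zero])
  · rw [← hs.kd, kd, Submodule.finrank_eq_zero, Submodule.eq_bot_iff] at hk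
    rw [Nat.card_eq_one_iff_exists.2 ⟨⟨0, h0, Submodule.zero_mem _⟩, fun v => Subtype.ext (hk _ (mem_ker_X_sub_C.2
      ((v.2.2 _ (Subgroup.mem_zpowers _)).trans (one_smul _ _).symm)))⟩]

theorem elus_orth {Q : (κ → F) → F} (hQ : IsNondegenerateQuadraticForm Q) (h2 : (2 : F) ≠ 0) (hn : 3 ≤ Fintype.card κ)
    {r : ℕ} [hr : Fact r.Prime] (hgap : ¬ (Fintype.card κ = 6 ∧ r = 3))
    (hΩ : r ∣ ((quadSimilarityGroup Q).comap (SpecialLinearGroup.toGL : SpecialLinearGroup κ F →* GL κ F)).index) :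
    Elus r (quadSimilarityGroup Q) ↔
      r = 2 ∨ ((r = 3 ∨ r = 5) ∧ Fintype.card κ = r ∧ padicValNat r (Fintype.card F - 1) = 1) := by
  haveI : Nonempty κ := Fintype.card_pos_iff.1 (by omega)
  have hf := isSesq_polar hQ
  have hE := quadSim_eq hQ h2
  by_cases hr2 : r = 2
  · subst hr2
    rw [hE, elus_iff Nat.prime_two (Or.inr rfl)]
    exact iff_of_true (fun g hg => conjIn_orth_two hf h2 hg) (Or.inl rfl)
  rw [or_iff_right hr2]
  constructor
  swap
  · rintro ⟨h1, h3, h4⟩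
    have h5 : r ∣ Fintype.card F - 1 := dvd_of_one_le_padicValNat h4.ge
    have hrF : (r : F) ≠ 0 := fun e => by
      haveI : CharP F r := (CharP.charP_iff_prime_eq_zero hr.out).2 e
      obtain ⟨k, -, hk⟩ := FiniteField.card F r
      have h6 := Nat.dvd_sub (hk ▸ dvd_pow_self r k.ne_zero : r ∣ Fintype.card F) h5
      rw [Nat.sub_sub_self Fintype.card_pos] at h6
      exact hr.out.not_dvd_one h6
    rw [hE, elus_iff hr.out (Or.inl hrF)]
    intro g hg
    obtain ⟨d, hd, t, ht, h6, hs⟩ := exists_inv_sym h1 hrF (finrank_fun_eq.trans h3) h4 hg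
    obtain ⟨D, hD, h⟩ := exists_blk_of_inv (fun e => h2 (by linear_combination e)) t
      (fun b hb e => by simpa [e, hr.out.ne_zero] using ht b hb) h6
    exact conjIn_orth hf h2 hg.isUnit hd hs one_ne_zero hD h (Or.inr (h3 ▸ hr.out.odd_of_ne_two hr2))
  intro H
  replace H := H.conjIn
  have H' := hE ▸ H
  by_cases hrF : (r : F) = 0
  · haveI : CharP F r := (CharP.charP_iff_prime_eq_zero hr.out).2 hrF
    obtain ⟨x, μ, h1, h3, h4⟩ := exists_isom_jb hf r (e := 2) le_rfl hr.out.two_le (by omega) H'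
    exact absurd (h4 ▸ even_count_of_symm h2 (nondeg_toSesq hf) ⟨fun u v => (hf.symm u v).trans (one_mul _)⟩ h1 h3
      (j := 2) (by decide) two_pos) (by decide)
  by_cases hq : r ∣ Fintype.card F - 1
  · have := of_forall_bilin hf hr2 hrF hq hn hgap H'
    omega
  exfalso
  obtain ⟨Q, rfl, hQ'⟩ := CL.Cls.exists_qf_of_isNondeg hQ
  have h1 := mul_card_dvd_GL (I := Cfsg.isometryGroup F Q) (N := quadSimilarityGroup Q)
    (fun x hx => ⟨1, fun v => by simpa using mem_isometryGroup_iff.1 hx v⟩) hΩ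
  rw [Nat.card_congr (CL.Cls.isomEquiv Q).toEquiv, card_GL'] at h1
  have h3 := not_dvd_card hr.out hrF
  obtain ⟨m, hm | hm⟩ : ∃ m, Fintype.card κ = 2 * m + 1 ∨ Fintype.card κ = 2 * m + 2 :=
    ⟨(Fintype.card κ - 1) / 2, by omega⟩
  · obtain ⟨c, e, hc, he⟩ := CL.Cls.exists_equiv_qfOdd hQ' (finrank_fun_eq.trans hm)
    rw [Nat.card_congr (CL.Cls.OG.congrSim e c hc he).toEquiv, CL.Cls.card_OG_qfOdd h2, hm, Finset.prod_range_succ,
      prod_odd_even, mul_assoc (∏ _ ∈ _, _), ← Finset.prod_range_succ (fun i => Fintype.card F ^ (2 * i + 1) - 1)] at h1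
    exact not_forall_of_odd hf hr2 hrF hq (by omega) (dvd_of_mul_dvd hr.out h3 (prod_even_ne_zero m) h1) H'
  obtain ⟨N₁, N₂, h4, h5, h6⟩ := orth_even_data hQ' hm
  have h7 := prod_even_ne_zero (F := F) (m + 1)
  rw [h4, hm, show 2 * m + 2 = 2 * (m + 1) by ring, prod_odd_even, mul_assoc _ N₁, mul_comm N₁] at h1
  rw [Finset.prod_range_succ, ← h5, ← mul_assoc _ N₁ N₂] at h1 h7
  rw [mul_assoc _ N₂] at h1
  rcases (Nat.Prime.dvd_mul hr.out).1 (dvd_of_mul_dvd hr.out h3 (left_ne_zero_of_mul h7) h1) with h8 | h8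
  swap
  · exact not_forall_of_odd hf hr2 hrF hq (by omega) h8 H'
  obtain ⟨k, hk⟩ : orderOf ((Nat.card F : ℕ) : ZMod r) ∣ 2 * (m + 1) := by
    rw [orderOf_dvd_iff_pow_eq_one, ← Nat.cast_pow, ← orderOf_eq_one_iff, Nat.card_eq_fintype_card,
      orderOf_eq_one_iff_dvd (Nat.one_le_pow _ _ Fintype.card_pos), ← h5]
    exact h8.mul_left _
  obtain ⟨g, u, hg, hu, -, hs⟩ := exists_pEl_ord (V := κ → F) hr.out hrF hq (a := 0) (k := k) (by rintro rfl; omega)
    (by rw [finrank_fun_eq, hm, zero_add, mul_comm k, ← hk]; ring)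
  have h9 := card_zeros_modEq (map_zero Q) (H g hg) (pow_eq_one_of_ord hrF hu hs) (kd_of_ord hr.out.ne_one hrF hu hs)
  have h10 := h6 r h8
  rw [(ZMod.natCast_eq_natCast_iff _ _ _).2 h9] at h10
  have h11 : (2 : ZMod r) ≠ 0 := fun e => hr2 ((Nat.prime_dvd_prime_iff_eq hr.out Nat.prime_two).1
    ((ZMod.natCast_eq_zero_iff 2 r).1 (by exact_mod_cast e)))
  exact hq ((orderOf_eq_one_iff_dvd Fintype.card_pos).1 (orderOf_eq_one_iff.2 (mul_left_cancel₀ h11
    (by push_cast at h10; linear_combination h10))))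

end Orth

end CL.Elu
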