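/-
Elements of prime order of `PSL_n(q)` and stabilisers of tensor decompositions with two factors.
-/
import Cfsg.Agent.Cls.PrimeOrderForm
import Cfsg.Agent.Cls.TenMat
import Mathlib.RingTheory.Flat.Equalizer

set_option autoImplicit false

open Polynomial Module Matrix TensorProduct

namespace CL.Elu

open CL.GLn CL.Known CL.SLn Cfsg.Geo

variable {F : Type*} [Field F] {V W : Type*} [AddCommGroup V] [Module F V] [AddCommGroup W] [Module F W]
  [FiniteDimensional F V] [FiniteDimensional F W]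

theorem kd_lTensor (g : End F W) (Q : F[X]) : kd (g.lTensor V) Q = finrank F V * kd g Q := by
  have h1 : aeval (g.lTensor V) Q = (aeval g Q : End F W).lTensor V :=
    aeval_algHom_apply (Module.End.lTensorAlgHom F W V) g Q
  rw [kd, h1, kd, ← finrank_tensorProduct]
  exact (LinearMap.tensorKerEquiv F V (aeval g Q : End F W)).finrank_eq.symm

theorem hasED_lTensor {g : End F W} {s : Multiset F[X]} (h : HasED g s) : HasED (g.lTensor V) (finrank F V • s) := by
  obtain ⟨t, ht⟩ := exists_hasED (g.lTensor V)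
  obtain ⟨g', hg'⟩ := exists_end_hasED (V := V ⊗[F] W) (finrank F V • s)
    (fun P hP => h.primary P (Multiset.mem_of_mem_nsmul hP))
    (by rw [Multiset.map_nsmul, Multiset.sum_nsmul, ← h.finrank_eq, finrank_tensorProduct, smul_eq_mul])
  rwa [← ht.eq_of_kd hg' fun π _ _ k => by
    rw [kd_lTensor, hg'.kd_eq, h.kd_eq, Multiset.map_nsmul, Multiset.sum_nsmul, smul_eq_mul]]

theorem kd_map_add_le {g₁ : End F V} {g₂ : End F W} (h₁ : ∀ c : F, g₁ ≠ c • (1 : End F V)) (h₂ : IsUnit g₂) (c : F) :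
    kd (TensorProduct.map g₁ g₂) (X - C c) + finrank F W ≤ finrank F V * finrank F W := by
  obtain ⟨v, hv⟩ : ∃ v, g₁ v ∉ F ∙ v := by
    by_contra h
    push Not at h
    obtain ⟨c, hc⟩ := LinearMap.exists_eq_smul_id_of_forall_notLinearIndependent (f := g₁) fun v hv => by
      obtain ⟨a, ha⟩ := Submodule.mem_span_singleton.1 (h v)
      have := LinearIndependent.pair_iff.1 hv a (-1) (by simp [ha])
      simp at this
    exact h₁ c hc
  obtain ⟨φ, hφ, hφ'⟩ := (F ∙ v).exists_dual_map_eq_bot_of_notMem hv inferInstance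
  have h0 : φ v = 0 := by
    have := Submodule.mem_map_of_mem (f := φ) (Submodule.mem_span_singleton_self (R := F) v)
    rwa [hφ', Submodule.mem_bot] at this
  have key : ∀ w, TensorProduct.map g₁ g₂ (v ⊗ₜ w) = c • (v ⊗ₜ w) → w = 0 := fun w h => by
    have := congrArg (fun x => TensorProduct.lid F W (φ.rTensor W x)) h
    simp only [map_tmul, LinearMap.rTensor_tmul, lid_tmul, map_smul, h0, zero_smul, smul_zero] at this
    exact (LinearMap.isUnit_iff_ker_eq_bot g₂).1 h₂ |>.le ((smul_eq_zero.1 this).resolve_left hφ)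
  have hinj : Function.Injective (TensorProduct.mk F V W v) := (injective_iff_map_eq_zero _).2 fun w h =>
    key w (by rw [TensorProduct.mk_apply] at h; rw [h, map_zero, smul_zero])
  have hd : Disjoint (LinearMap.ker (aeval (TensorProduct.map g₁ g₂ : End F (V ⊗[F] W)) (X - C c)))
      (LinearMap.range (TensorProduct.mk F V W v)) := by
    rw [Submodule.disjoint_def]
    rintro _ hx ⟨w, rfl⟩
    rw [key w (mem_ker_X_sub_C.1 hx), map_zero]
  rw [← finrank_tensorProduct, kd, ← LinearMap.finrank_range_of_inj hinj, ← finrank_sup_of_disjoint hd]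
  exact Submodule.finrank_le _

variable {κ : Type} [Fintype κ] [DecidableEq κ] {a b : ℕ} {e : κ ≃ Fin a × Fin b} {P : GL κ F} {f : End F (κ → F)}

/-- `f` is similar to a tensor product of two invertible maps. -/
def TP (a b : ℕ) (f : End F (κ → F)) : Prop := ∃ (g₁ : End F (Fin a → F)) (g₂ : End F (Fin b → F)),
  IsUnit g₁ ∧ IsUnit g₂ ∧ Sim (TensorProduct.map g₁ g₂) f

theorem conjIn_tensor_iff : ConjIn (tensorProductSubgroup a b e P) f ↔ TP a b f := by
  have key : ∀ (g : (κ → F) ≃ₗ[F] (κ → F)) (g₁ : End F (Fin a → F)) (g₂ : End F (Fin b → F)),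
      (∀ x y, g (CL.Sp.tenE e P (x ⊗ₜ y)) = CL.Sp.tenE e P (g₁ x ⊗ₜ g₂ y)) →
      Sim (TensorProduct.map g₁ g₂) (toLin' ((CL.Sp.glEquiv κ F).symm g).val) := fun g g₁ g₂ h =>
    ⟨CL.Sp.tenE e P, fun v => by
      rw [toLin'_apply, CL.Sp.glEquiv_symm_mulVec]
      induction v using TensorProduct.induction_on with
      | zero => simp
      | tmul x y => rw [h, map_tmul]
      | add x y hx hy => simp only [map_add, hx, hy]⟩
  constructor
  · rintro ⟨g, hg, hs⟩
    obtain ⟨g, rfl⟩ := (CL.Sp.glEquiv κ F).symm.surjective g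
    obtain ⟨g₁, g₂, h⟩ := (CL.Sp.mem_tensorProductSubgroup_symm_iff e P g).1 hg
    exact ⟨g₁, g₂, (LinearMap.isUnit_iff_ker_eq_bot _).2 g₁.ker, (LinearMap.isUnit_iff_ker_eq_bot _).2 g₂.ker,
      (key g g₁ g₂ h).trans hs⟩
  · rintro ⟨g₁, g₂, ⟨u₁, rfl⟩, ⟨u₂, rfl⟩, hs⟩
    let g := (CL.Sp.tenE e P).symm.trans ((TensorProduct.congr (LinearMap.GeneralLinearGroup.toLinearEquiv u₁)
      (LinearMap.GeneralLinearGroup.toLinearEquiv u₂)).trans (CL.Sp.tenE e P))
    have h : ∀ x y, g (CL.Sp.tenE e P (x ⊗ₜ y)) = CL.Sp.tenE e P (u₁.val x ⊗ₜ u₂.val y) := fun x y => by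
      simp [g]
    exact ⟨_, (CL.Sp.mem_tensorProductSubgroup_symm_iff e P g).2 ⟨LinearMap.GeneralLinearGroup.toLinearEquiv u₁,
      LinearMap.GeneralLinearGroup.toLinearEquiv u₂, h⟩, (key g _ _ h).symm.trans hs⟩

theorem TP.of_smul {d : F} (hd : d ≠ 0) (h : TP a b (d • f)) : TP a b f := by
  obtain ⟨g₁, g₂, h₁, h₂, hs⟩ := h
  refine ⟨g₁, d⁻¹ • g₂, h₁, IsUnit.smul (Units.mk0 _ (inv_ne_zero hd)) h₂, ?_⟩
  have := sim_smul hs d⁻¹
  rwa [smul_smul, inv_mul_cancel₀ hd, one_smul, ← TensorProduct.map_smul_right] at this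

theorem TP.cases (h : TP a b f) : (∃ s, HasED f (a • s)) ∨ ((∀ c, kd f (X - C c) + b ≤ a * b) ∧
    ∃ (g₁ : End F (Fin a → F)), IsUnit g₁ ∧ (∀ c : F, g₁ ≠ c • (1 : End F (Fin a → F))) ∧
      ∀ r, f ^ r = 1 → b ≠ 0 → ∃ c : F, g₁ ^ r = c • (1 : End F (Fin a → F))) := by
  obtain ⟨g₁, g₂, h₁, h₂, hs⟩ := h
  by_cases h : ∃ c : F, g₁ = c • (1 : End F (Fin a → F))
  · obtain ⟨c, rfl⟩ := h
    obtain ⟨s, ht⟩ := exists_hasED (c • g₂)
    have := hasED_lTensor (V := Fin a → F) ht
    rw [finrank_fin_fun] at this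
    refine Or.inl ⟨s, HasED.of_sim hs.symm ?_⟩
    rwa [TensorProduct.map_smul_left, ← TensorProduct.map_smul_right]
  · push Not at h
    refine Or.inr ⟨fun c => ?_, g₁, h₁, h, fun r hr hb => ?_⟩
    · simpa only [hs.kd, finrank_fin_fun] using kd_map_add_le h h₂ c
    · by_contra h'
      push Not at h'
      have h3 := kd_map_add_le h' (h₂.pow r) 1
      have h4 := hs.aeval (X ^ r)
      rw [aeval_X_pow, aeval_X_pow, TensorProduct.map_pow, hr] at h4
      rw [h4.kd, kd, map_sub, aeval_X, aeval_C, map_one, sub_self, LinearMap.ker_zero, finrank_top,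
        ← h4.finrank_eq, finrank_tensorProduct, finrank_fin_fun, finrank_fin_fun] at h3
      omega

theorem dvd_kd_of_nsmul {s : Multiset F[X]} (h : HasED f (a • s)) (Q : F[X]) : a ∣ kd f Q := by
  rw [h.kd_eq, Multiset.map_nsmul, Multiset.sum_nsmul]
  exact dvd_mul_right _ _

theorem TP.kd_ne (h : TP a b f) {c : F} {k : ℕ} (hk : kd f (X - C c) + k = a * b) (hb : k < b) : a ∣ k := by
  rcases h.cases with ⟨s, hs⟩ | ⟨h1, -⟩
  · exact (Nat.dvd_add_right (dvd_kd_of_nsmul hs _)).1 (hk ▸ dvd_mul_right _ _)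
  · have := h1 c
    omega

variable [Fintype F]

theorem order_le_of_dvd_index [Nonempty κ] {N : Subgroup (GL κ F)} {r : ℕ} (hr : r.Prime) (hrF : (r : F) ≠ 0)
    (h : r ∣ (N.comap (SpecialLinearGroup.toGL : SpecialLinearGroup κ F →* GL κ F)).index) :
    orderOf ((Nat.card F : ℕ) : ZMod r) ≤ Fintype.card κ := by
  have h1 := (dvd_mul_right _ _).trans (mul_card_dvd_GL bot_le h)
  rw [card_GL'] at h1
  obtain ⟨j, hj, h2⟩ := (hr.prime.dvd_finsetProd_iff _).1 (((Nat.Prime.dvd_mul hr).1 h1).resolve_left fun h =>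
    not_dvd_card hr hrF (hr.dvd_of_dvd_pow h))
  refine (Nat.le_of_dvd j.succ_pos ?_).trans (Finset.mem_range.1 hj)
  rw [orderOf_dvd_iff_pow_eq_one, ← Nat.cast_pow, ← orderOf_eq_one_iff, Nat.card_eq_fintype_card,
    orderOf_eq_one_iff_dvd (Nat.one_le_pow _ _ Fintype.card_pos)]
  exact h2

theorem tp_two (hn : Fintype.card κ = 2 * b) (h2 : ((2 : ℕ) : F) ≠ 0) (hb : b ≠ 0)
    (hv : padicValNat 2 (Fintype.card F - 1) ≤ padicValNat 2 (Fintype.card κ)) (hf : PEl 2 f) : TP 2 b f := by
  rcases hf.cases Nat.prime_two h2 with ⟨d, hd, u, j, hu, -, h⟩ | ⟨c, k, hc, hc', hk, -, h⟩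
  · rw [eq_replicate_of_two h2 hu] at h
    generalize Multiset.card u = k at h
    have e : ∀ k j : ℕ, Multiset.replicate k (X - C (-1 : F)) + Multiset.replicate j (X - 1) =
        (Multiset.replicate k (-1 : F) + Multiset.replicate j 1).map fun x : F => X - C x := fun k j => by
      simp only [Multiset.map_add, Multiset.map_replicate, map_one]
    rw [e] at h
    have h1 := h.finrank_eq
    have h3 := det_of_linear h
    rw [sum_natDegree_linear, finrank_fun_eq, Multiset.card_add, Multiset.card_replicate,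
      Multiset.card_replicate] at h1
    rw [LinearMap.det_smul, hf.det, finrank_fun_eq, mul_one, Multiset.prod_add, Multiset.prod_replicate,
      Multiset.prod_replicate, one_pow, mul_one] at h3
    obtain ⟨k, rfl⟩ : Even k := by
      by_contra h4
      rw [(Nat.not_even_iff_odd.1 h4).neg_one_pow] at h3
      exact hv.not_gt ((exists_pow_eq_neg_one_iff h2 (by omega)).1 ⟨d, hd, h3⟩)
    obtain ⟨g, hg⟩ := exists_end_hasED (V := Fin b → F)
      ((Multiset.replicate k (-1 : F) + Multiset.replicate (b - k) 1).map fun x : F => X - C x)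
      (fun P hP => by
        obtain ⟨x, -, rfl⟩ := Multiset.mem_map.1 hP
        exact isPrimaryPoly_of_irreducible (monic_X_sub_C x) (irreducible_X_sub_C x))
      (by rw [sum_natDegree_linear]; simp; omega)
    have h4 := hasED_lTensor (V := Fin 2 → F) hg
    rw [finrank_fin_fun, ← Multiset.map_nsmul, nsmul_add, Multiset.nsmul_replicate, Multiset.nsmul_replicate,
      show 2 * k = k + k by ring, show 2 * (b - k) = j by omega] at h4
    refine TP.of_smul hd ⟨1, g, isUnit_one, ?_, h4.sim h⟩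
    rw [LinearMap.isUnit_iff_isUnit_det, det_of_linear hg]
    simp
  · have hi : Irreducible (X ^ 2 - C c) := X_pow_sub_C_irreducible_of_prime Nat.prime_two hc'
    have hm : (X ^ 2 - C c).Monic := monic_X_pow_sub_C c two_ne_zero
    obtain ⟨g, hg⟩ := exists_end_hasED (V := Fin 2 → F) {X ^ 2 - C c}
      (fun P hP => Multiset.mem_singleton.1 hP ▸ isPrimaryPoly_of_irreducible hm hi) (by simp)
    have h1 : g ^ 2 = c • 1 := (HasED.pow_eq_iff hg 2 c).2 fun P hP => Multiset.mem_singleton.1 hP ▸ dvd_rfl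
    refine ⟨g, 1, isUnit_of_pow_eq two_ne_zero hc h1, isUnit_one, HasED.sim (hasED_of_aeval_irreducible hm hi ?_ ?_) h⟩
    · rw [map_sub, aeval_X_pow, aeval_C, TensorProduct.map_pow, h1, one_pow, TensorProduct.map_smul_left,
        TensorProduct.map_one, Algebra.algebraMap_eq_smul_one, sub_self]
    · rw [finrank_tensorProduct, finrank_fin_fun, finrank_fin_fun, natDegree_X_pow_sub_C, ← hk, finrank_fun_eq, hn]

theorem elus_tensor (hn : Fintype.card κ = a * b) (ha : 2 ≤ a) (hab : a < b) {r : ℕ} [hr : Fact r.Prime]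
    (hΩ : r ∣ ((tensorProductSubgroup a b e P).comap
      (SpecialLinearGroup.toGL : SpecialLinearGroup κ F →* GL κ F)).index) :
    Elus r (tensorProductSubgroup a b e P) ↔ r = 2 ∧ a = 2 ∧ Odd (Fintype.card F) ∧
      padicValNat 2 (Fintype.card F - 1) ≤ padicValNat 2 (Fintype.card κ) := by
  classical
  have h6 : 6 ≤ a * b := Nat.mul_le_mul ha (show 3 ≤ b by omega)
  haveI : Nonempty κ := Fintype.card_pos_iff.1 (by omega)
  refine ⟨fun H => ?_, ?_⟩
  swap
  · rintro ⟨rfl, rfl, h1, h2⟩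
    exact (elus_iff hr.out (Or.inr rfl) _).2 fun f hf =>
      conjIn_tensor_iff.2 (tp_two hn (odd_card_iff.1 h1) (by omega) h2 hf)
  have H' : ∀ f : End F (κ → F), PEl r f → TP a b f := fun f hf => conjIn_tensor_iff.1 (H.conjIn f hf)
  have hV : finrank F (κ → F) = a * b := finrank_fun_eq.trans hn
  have h1 : ¬ a ∣ 1 := fun h => by have := Nat.dvd_one.1 h; omega
  by_cases hrF : (r : F) = 0
  · obtain ⟨p, hp⟩ := CharP.exists F
    haveI := Fact.mk (CharP.char_is_prime F p)
    obtain rfl : r = p := by_contra fun h => (natCast_ne_zero_iff p).2 h hrF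
    obtain ⟨g, hg, -, h⟩ := exists_transvection (F := F) (V := κ → F) r (by omega)
    exact (h1 ((H' g hg).kd_ne (c := 1) (by omega) (by omega))).elim
  by_cases hq : r ∣ Fintype.card F - 1
  · obtain ⟨ω, hω, eω⟩ := exists_orderOf_eq hq
    have ht : ∀ x ∈ ({ω, ω⁻¹} : Multiset F), orderOf x = r := fun x hx => by
      rcases Multiset.mem_cons.1 hx with rfl | hx
      · exact eω
      · rw [Multiset.mem_singleton.1 hx, orderOf_inv_field, eω]
    obtain ⟨g, hg, hd⟩ := exists_diag (V := κ → F) hrF {ω, ω⁻¹} ht (a := a * b - 2) (by simp; omega)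
    have hu : ∀ P ∈ ({ω, ω⁻¹} : Multiset F).map fun x => X - C x, P ∈ ordFactors F r := fun P hP => by
      obtain ⟨x, hx, rfl⟩ := Multiset.mem_map.1 hP
      exact X_sub_C_mem_ordFactors hrF (ht x hx)
    have h2 := H' _ (pEl_smul_of_ord hr.out.ne_one hrF hu (by simp) (by omega) hg (d := 1) (by simp [hd, hω])
      one_ne_zero)
    rw [one_smul] at h2
    have h3 := kd_of_ord hr.out.ne_one hrF hu hg
    obtain rfl : a = 2 := le_antisymm (Nat.le_of_dvd two_pos (h2.kd_ne (c := 1) (by omega) (by omega))) ha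
    obtain rfl : r = 2 := by
      by_contra h4
      rcases h2.cases with ⟨s, hs⟩ | ⟨h5, -⟩
      · have h5 := dvd_kd_of_nsmul hs (X - C ω)
        rw [show Multiset.replicate (2 * b - 2) (X - 1 : F[X]) = (Multiset.replicate (2 * b - 2) 1).map
          fun x : F => X - C x by simp, ← Multiset.map_add] at hg
        rw [kd_linear hg, Multiset.count_add, Multiset.insert_eq_cons, Multiset.count_cons_self,
          Multiset.count_singleton, if_neg (inv_ne_self_of_orderOf hr.out h4 eω).symm, Multiset.count_replicate,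
          if_neg (by rintro rfl; exact hr.out.ne_one (by simpa using eω.symm))] at h5
        exact h1 h5
      · have := h5 1
        omega
    refine ⟨rfl, rfl, odd_card_iff.2 hrF, not_lt.1 fun h4 => ?_⟩
    obtain ⟨d, hd0, hd⟩ := exists_pow_mul_eq_one (by omega) h4 hω eω
    obtain ⟨g, hg, h5⟩ := exists_pEl_kd (V := κ → F) hr.out.ne_one hrF {ω} (by simp) (by simpa using eω)
      (a := 2 * b - 1) (by omega) (by simp; omega) hd0 (by simpa using hd)
    exact h1 (((H' _ hg).of_smul hd0).kd_ne (c := 1) (by omega) (by omega))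
  · have h2 := order_le_of_dvd_index hr.out hrF hΩ
    obtain ⟨g, u, hg, hu, hc, h⟩ := exists_pEl_ord (V := κ → F) hr.out hrF hq (k := 1)
      (a := a * b - orderOf ((Nat.card F : ℕ) : ZMod r)) one_ne_zero (by omega)
    have h3 := kd_of_ord hr.out.ne_one hrF hu h
    exfalso
    rcases (H' g hg).cases with ⟨s, hs⟩ | ⟨h4, g₁, hu₁, hns, h5⟩
    · obtain ⟨Q, rfl⟩ := Multiset.card_eq_one.1 hc
      have h5 := congrArg (Multiset.count Q) (hs.unique h)
      rw [Multiset.count_nsmul, Multiset.count_add, Multiset.count_singleton_self, Multiset.count_replicate,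
        if_neg] at h5
      · exact h1 ⟨_, h5.symm⟩
      · rintro rfl
        have h6 := kd_of_ord hr.out.ne_one hrF hu (a := 0) (g := (1 : End F (Fin 1 → F))) (by
          simpa using hasED_smul_one (V := Fin 1 → F) (1 : F))
        simp [kd] at h6
    · obtain ⟨c, hc⟩ := h5 r (pow_eq_one_of_ord hrF hu h) (by omega)
      have h6 := h4 1
      rcases semisimple_cases hr.out hrF hu₁ hns hc with ⟨d, -, -, v, j, hv, hv0, h7⟩ | ⟨hc0, h7, -⟩
      · have h8 := h7.finrank_eq
        rw [sum_natDegree_ord hrF hv, finrank_fin_fun] at h8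
        have h9 := Nat.le_mul_of_pos_left (orderOf ((Nat.card F : ℕ) : ZMod r)) (Multiset.card_pos.2 hv0)
        omega
      · exact hq (dvd_of_forall_pow_ne hr.out hc0 h7)

end CL.Elu
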