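import Cfsg.Agent.Inv.ZStar
import Cfsg.Agent.Odd.FT
import Cfsg.Agent.Fus.StronglyEmb
import Cfsg.Agent.Grp.Coprime2
import Cfsg.Agent.Grp.Fitting

set_option autoImplicit false
set_option linter.unusedSectionVars false

/-!
Project C6 (`r = 3`), file 1: elementary abelian 3-groups whose elements fix a unique coset of an overgroup.
-/

namespace CL.Qt

open Cfsg Subgroup
open scoped commutatorElement

variable {G : Type*} [Group G]

/-- The non-trivial elements of `A` fix only the trivial coset of `M` in `H`. -/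
structure Uq (H A M : Subgroup G) : Prop where
  le : A ≤ M
  cube : ∀ a ∈ A, a ^ 3 = 1
  comm : ∀ a ∈ A, ∀ b ∈ A, a * b = b * a
  uniq : ∀ a ∈ A, a ≠ 1 → ∀ g ∈ H, g * a * g⁻¹ ∈ M → g ∈ M

namespace Uq

variable {H A M : Subgroup G}

theorem sub (h : Uq H A M) {X : Subgroup G} (hX : X ≤ H) : Uq ⊤ (A.subgroupOf X) (M.subgroupOf X) :=
  ⟨fun _ ha => h.le ha, fun a ha => Subtype.ext (h.cube a ha), fun a ha b hb => Subtype.ext (h.comm a ha b hb),
    fun a ha a1 g _ e => h.uniq a ha (fun e => a1 (Subtype.ext e)) g (hX g.2) e⟩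

theorem pgroup (h : Uq H A M) : IsPGroup 3 A := fun a => ⟨1, Subtype.ext (h.cube a a.2)⟩

theorem not_cyclic (h : Uq H A M) {a b : G} (ha : a ∈ A) (hb : b ∈ A) (a1 : a ≠ 1) (e : b ∉ zpowers a) :
    ¬ IsCyclic A := fun hc => by
  obtain ⟨g, hg⟩ := hc.exists_generator
  have a2 : (⟨a, ha⟩ : A) ≠ 1 := fun e => a1 (congrArg Subtype.val e)
  have := Fact.mk Nat.prime_three
  have h3 : Nat.card A = 3 := by
    rw [← orderOf_eq_card_of_forall_mem_zpowers hg]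
    refine orderOf_eq_prime (Subtype.ext (h.cube g g.2)) fun e => a2 ?_
    simpa [e] using hg ⟨a, ha⟩
  obtain ⟨k, hk⟩ := mem_zpowers_of_prime_card (g' := ⟨b, hb⟩) h3 a2
  exact e ⟨k, congrArg Subtype.val hk⟩

variable [Finite G] (h : Uq ⊤ A M)
include h

theorem pgroup_le {P : Subgroup G} (hP : IsPGroup 3 P) {a : G} (ha : a ∈ A) (a1 : a ≠ 1) (haP : a ∈ P) : P ≤ M :=
  have := Fact.mk Nat.prime_three
  CL.Fus.le_of_inf_normalizer_le hP fun g hg =>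
    h.uniq a ha a1 g trivial ((mem_normalizer_iff.1 hg.2 a).1 ⟨haP, h.le ha⟩).2

theorem coprime_le (hc : ¬ IsCyclic A) (K : Subgroup G) [K.Normal] (h3 : ¬ 3 ∣ Nat.card K) : K ≤ M := by
  have := Fact.mk Nat.prime_three
  have : IsMulCommutative A := ⟨⟨fun a b => Subtype.ext (h.comm a a.2 b b.2)⟩⟩
  obtain ⟨n, hn⟩ := IsPGroup.iff_card.1 h.pgroup
  refine CL.Grp.le_of_forall_centralizer_le hc (normalizer_eq_top K ▸ le_top)
    (hn ▸ Nat.Coprime.pow_left n (Nat.prime_three.coprime_iff_not_dvd.2 h3)) fun a ha a1 g hg => ?_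
  refine h.uniq a ha a1 g trivial ?_
  rw [mem_centralizer_singleton_iff.1 hg.2, mul_inv_cancel_right]
  exact h.le ha

theorem burnside_top (hc : ¬ IsCyclic A) (h4 : ∀ y ∈ M, ∀ y' ∈ M, ⁅y, y'⁆ ^ 4 = 1) : M = ⊤ := by
  have := Fact.mk Nat.prime_three
  obtain ⟨P, hP⟩ := h.pgroup.exists_le_sylow
  obtain ⟨a, ha, a1⟩ : ∃ a ∈ A, a ≠ 1 := by
    by_contra! h1
    exact hc (@isCyclic_of_subsingleton A _ ⟨fun x y => Subtype.ext ((h1 _ x.2).trans (h1 _ y.2).symm)⟩)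
  have h1 := h.pgroup_le P.2 ha a1 (hP ha)
  have h2 : normalizer (P : Set G) ≤ centralizer (P : Set G) := fun n hn p hp => by
    have h5 := (mem_normalizer_iff.1 hn p).1 hp
    have h6 : ⁅n, p⁆ ∈ (P : Subgroup G) := mul_mem h5 (inv_mem hp)
    obtain ⟨k, hk⟩ := P.2 ⟨_, h6⟩
    have h7 := h4 n (h.uniq a ha a1 n trivial (h1 ((mem_normalizer_iff.1 hn a).1 (hP ha)))) p (h1 hp)
    have h8 := (pow_eq_one_iff_of_coprime (Nat.Coprime.pow_left k (by norm_num : Nat.Coprime 3 4))).1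
      ⟨congrArg Subtype.val hk, h7⟩
    exact (commutatorElement_eq_one_iff_mul_comm.1 h8).symm
  rw [eq_top_iff, ← (MonoidHom.ker_transferSylow_isComplement' P h2).sup_eq_top]
  exact sup_le (h.coprime_le hc _ (MonoidHom.not_dvd_card_ker_transferSylow P h2)) h1

theorem eq_top (hc : ¬ IsCyclic A) (hn : ∀ m ∈ M, ∀ a ∈ A, m * a * m⁻¹ ∈ A)
    (hC : ∀ g ∈ M, (∀ a ∈ A, g * a = a * g) → g ∈ A) {s t : G} (hs : s ∈ M) (s2 : s * s = 1)
    (si : ∀ a ∈ A, s * a * s⁻¹ = a⁻¹) (ht : t ∈ M) (t2 : t * t = 1) (st : s * t = t * s)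
    (hT : ∀ g, g * t = t * g → g ∈ M) (hst : ∀ g, g * s * g⁻¹ ≠ t)
    (hu : ∀ u ∈ M, u * u = 1 → u = 1 ∨ (∀ a ∈ A, u * a * u⁻¹ = a⁻¹) ∨ ∃ m ∈ M, u = m * t * m⁻¹) : M = ⊤ := by
  have := Fact.mk Nat.prime_three
  have := Fact.mk Nat.prime_two
  obtain ⟨a, ha, a1⟩ : ∃ a ∈ A, a ≠ 1 := by
    by_contra! h1
    exact hc (@isCyclic_of_subsingleton A _ ⟨fun x y => Subtype.ext ((h1 _ x.2).trans (h1 _ y.2).symm)⟩)
  have s' := inv_eq_of_mul_eq_one_right s2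
  have e3 : ∀ b ∈ A, b⁻¹ * b⁻¹ = b := fun b hb => by
    rw [← mul_inv_rev, inv_eq_iff_mul_eq_one, ← h.cube b hb, pow_three']
  have inv : ∀ u ∈ M, (∀ a ∈ A, u * a * u⁻¹ = a⁻¹) → ∃ b ∈ A, u = s * b ∧ u = b * s * b⁻¹ := fun u hu hi => by
    have h1 := hC (s * u) (mul_mem hs hu) fun a ha => by
      rw [← mul_inv_eq_iff_eq_mul, mul_inv_rev, show s * u * a * (u⁻¹ * s⁻¹) = s * (u * a * u⁻¹) * s⁻¹ by group, hi a ha,
        si _ (inv_mem ha), inv_inv]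
    refine ⟨_, h1, by rw [← mul_assoc, s2, one_mul], ?_⟩
    have h2 := si _ h1
    rw [s'] at h2
    calc u = s * ((s * u)⁻¹ * (s * u)⁻¹) := by rw [e3 _ h1, ← mul_assoc, s2, one_mul]
      _ = _ := by nth_rw 1 [← h2]; simp only [← mul_assoc, s2, one_mul]
  have h2 : IsPGroup 2 (zpowers s ⊔ zpowers t : Subgroup G) := by
    have p : ∀ x : G, x * x = 1 → IsPGroup 2 (zpowers x) := fun x hx y => ⟨1, Subtype.ext (by
      obtain ⟨_, k, rfl⟩ := y
      rw [pow_one, Subgroup.coe_pow, ← zpow_natCast, ← zpow_mul, mul_comm, zpow_mul, zpow_natCast, pow_two, hx, one_zpow]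
      rfl)⟩
    refine (p s s2).to_sup_of_normal_right' (p t t2) (zpowers_le.2 (mem_normalizer_fintype ?_))
    rintro _ ⟨k, rfl⟩
    exact ⟨k, by rw [((show Commute s t from st).zpow_right k).eq, mul_inv_cancel_right]⟩
  obtain ⟨S, hS⟩ := h2.exists_le_sylow
  have hsS : s ∈ (S : Subgroup G) := hS (le_sup_left (a := zpowers s) (mem_zpowers s))
  have hSM : (S : Subgroup G) ≤ M := CL.Fus.le_of_inf_normalizer_le S.2 fun n hn => by
    rcases hu _ ((mem_normalizer_iff.1 hn.2 t).1 ⟨hS (le_sup_right (a := zpowers s) (mem_zpowers t)), ht⟩).2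
      (by rw [conj_mul, t2]; simp) with e | e | ⟨m, hm, e⟩
    · exact hT n (by rw [show t = 1 by simpa using e, mul_one, one_mul])
    · obtain ⟨b, -, -, e⟩ := inv _ ((mem_normalizer_iff.1 hn.2 t).1
        ⟨hS (le_sup_right (a := zpowers s) (mem_zpowers t)), ht⟩).2 e
      refine (hst (n⁻¹ * b) ?_).elim
      rw [show n⁻¹ * b * s * (n⁻¹ * b)⁻¹ = n⁻¹ * (b * s * b⁻¹) * n by group, ← e]
      group
    · have := hT (m⁻¹ * n) (by rw [mul_assoc, ← mul_inv_cancel_right (n * t) n⁻¹, inv_inv, e]; group)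
      simpa using mul_mem hm this
  have s1 : s ≠ 1 := fun e => a1 (by
    have := si a ha
    rw [e, one_mul, inv_one, mul_one] at this
    rw [← e3 a ha]
    nth_rw 1 [← this]
    exact mul_inv_cancel a)
  have iso : ∀ g, g * s * g⁻¹ ∈ (S : Subgroup G) → g * s * g⁻¹ = s := fun g hg => by
    rcases hu _ (hSM hg) (by rw [conj_mul, s2]; simp) with e | e | ⟨m, -, e⟩
    · exact (s1 (by simpa using e)).elim
    · obtain ⟨b, hb, e, -⟩ := inv _ (hSM hg) e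
      obtain ⟨k, hk⟩ := S.2 ⟨b, (mul_mem_cancel_left hsS).1 (e ▸ hg)⟩
      rw [e, (pow_eq_one_iff_of_coprime (a := b) (Nat.Coprime.pow_left k (by norm_num : Nat.Coprime 2 3))).1
        ⟨congrArg Subtype.val hk, h.cube b hb⟩, mul_one]
    · refine (hst (m⁻¹ * g) ?_).elim
      rw [show m⁻¹ * g * s * (m⁻¹ * g)⁻¹ = m⁻¹ * (g * s * g⁻¹) * m by group, e]
      group
  have hz : IsIsolatedInvolution s := CL.Inv.isolated_of_sylow S (orderOf_eq_prime (by rw [pow_two, s2]) s1) iso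
  have hO : a ∈ oddCore G := by
    have := CL.Inv.zstar_mem_oddCore hz a
    rwa [si a ha, e3 a ha] at this
  have := CL.Odd.feit_thompson (CL.Inv.odd_card_oddCore (G := G))
  have : Nontrivial (oddCore G) := (nontrivial_iff_ne_bot _).2 fun e => a1 (by simpa [e] using hO)
  obtain ⟨l, hl, hne⟩ := CL.Grp.exists_pCore_ne_bot (oddCore G)
  have := Fact.mk hl
  set Y := pCoreOf l (oddCore G)
  have hY : Y ≤ M := by
    by_cases e : l = 3
    · subst e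
      exact le_sup_right.trans (h.pgroup_le ((h.pgroup.to_le (zpowers_le.2 ha)).to_sup_of_normal_right
        (CL.Grp.pCoreOf_isPGroup 3 _)) ha a1 (le_sup_left (b := Y) (mem_zpowers a)))
    · obtain ⟨n, hn⟩ := IsPGroup.iff_card.1 (CL.Grp.pCoreOf_isPGroup l (oddCore G))
      exact h.coprime_le hc Y fun h3 => e ((Nat.prime_dvd_prime_iff_eq Nat.prime_three hl).1
        (Nat.prime_three.dvd_of_dvd_pow (hn ▸ h3))).symm
  obtain ⟨y, hy, hA, y1⟩ : ∃ y ∈ Y, y ∈ A ∧ y ≠ 1 := by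
    by_contra! h1
    obtain ⟨⟨y, hy⟩, y1⟩ := ne_bot_iff_exists_ne_one.1 (show Y ≠ ⊥ from fun e => hne ((map_eq_bot_iff_of_injective _
      (subtype_injective _)).1 e))
    refine y1 (Subtype.ext (h1 y hy (hC y (hY hy) fun b hb => commutatorElement_eq_one_iff_mul_comm.1 (h1 _ ?_
      (mul_mem (hn y (hY hy) b hb) (inv_mem hb))))))
    simpa [commutatorElement_def, mul_assoc] using mul_mem hy (Normal.conj_mem inferInstance _ (inv_mem hy) b)
  exact eq_top_iff.2 fun g _ => h.uniq y hA y1 g trivial (hY (Normal.conj_mem inferInstance _ hy g))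

omit h

theorem not_cyclic_sub (h : Uq H A M) {X : Subgroup G} (hX : X ≤ H) {a b : G} (ha : a ∈ A) (hb : b ∈ A) (haX : a ∈ X)
    (hbX : b ∈ X) (a1 : a ≠ 1) (e : b ∉ zpowers a) : ¬ IsCyclic (A.subgroupOf X) :=
  (h.sub hX).not_cyclic (a := ⟨a, haX⟩) (b := ⟨b, hbX⟩) ha hb (fun e => a1 (congrArg Subtype.val e))
    fun ⟨k, hk⟩ => e ⟨k, congrArg Subtype.val hk⟩

theorem le_of_comm (h : Uq H A M) {X : Subgroup G} (hX : X ≤ H) {a b : G} (ha : a ∈ A) (hb : b ∈ A) (haX : a ∈ X)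
    (hbX : b ∈ X) (a1 : a ≠ 1) (e : b ∉ zpowers a)
    (h4 : ∀ y ∈ X, y ∈ M → ∀ y' ∈ X, y' ∈ M → ⁅y, y'⁆ ^ 4 = 1) : X ≤ M :=
  subgroupOf_eq_top.1 ((h.sub hX).burnside_top (h.not_cyclic_sub hX ha hb haX hbX a1 e) fun y hy y' hy' =>
    Subtype.ext (h4 y y.2 hy y' y'.2 hy'))

theorem le_of_invol (h : Uq H A M) (hM : M ≤ H) {a b : G} (ha : a ∈ A) (hb : b ∈ A) (a1 : a ≠ 1) (e : b ∉ zpowers a)
    (hn : ∀ m ∈ M, ∀ a ∈ A, m * a * m⁻¹ ∈ A) (hC : ∀ g ∈ M, (∀ a ∈ A, g * a = a * g) → g ∈ A) {s t : G} (hs : s ∈ M)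
    (s2 : s * s = 1) (si : ∀ a ∈ A, s * a * s⁻¹ = a⁻¹) (ht : t ∈ M) (t2 : t * t = 1) (st : s * t = t * s)
    (hT : ∀ g ∈ H, g * t = t * g → g ∈ M) (hst : ∀ g, g * s * g⁻¹ ≠ t)
    (hu : ∀ u ∈ M, u * u = 1 → u = 1 ∨ (∀ a ∈ A, u * a * u⁻¹ = a⁻¹) ∨ ∃ m ∈ M, u = m * t * m⁻¹) : H ≤ M :=
  subgroupOf_eq_top.1 ((h.sub le_rfl).eq_top (h.not_cyclic_sub le_rfl ha hb (hM (h.le ha)) (hM (h.le hb)) a1 e)
    (fun m hm a ha => hn m hm a ha)
    (fun g hg e => hC g hg fun a ha => congrArg Subtype.val (e ⟨a, hM (h.le ha)⟩ ha)) (s := ⟨s, hM hs⟩) (t := ⟨t, hM ht⟩)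
    hs (Subtype.ext s2) (fun a ha => Subtype.ext (si a ha)) ht (Subtype.ext t2) (Subtype.ext st)
    (fun g e => hT g g.2 (congrArg Subtype.val e)) (fun g e => hst g (congrArg Subtype.val e)) fun u hM' e =>
      (hu u hM' (congrArg Subtype.val e)).imp Subtype.ext (Or.imp (fun h a ha => Subtype.ext (h a ha))
        fun ⟨m, hm, e⟩ => ⟨⟨m, hM hm⟩, hm, Subtype.ext e⟩))

end Uq

end CL.Qt
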