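/-
Block triangular subgroups of `GL`: orders of the Borel subgroup and of the maximal parabolic
subgroups; the inverse-transpose automorphism.
-/
import Cfsg.Agent.Cls.SLnParabolic

set_option autoImplicit false

namespace CL.SLn

open Module Matrix Cfsg Cfsg.Geo

variable {F : Type*} [Field F]

/-- Invertible block upper triangular matrices correspond to triples of blocks. -/
noncomputable def blockEquiv (α β : Type*) [Fintype α] [DecidableEq α] [Fintype β] [DecidableEq β] :
    {g : GL (α ⊕ β) F // (g : Matrix (α ⊕ β) (α ⊕ β) F).toBlocks₂₁ = 0} ≃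
      Matrix α β F × GL α F × GL β F where
  toFun g :=
    have h : (g.1 : Matrix (α ⊕ β) (α ⊕ β) F).toBlocks₁₁.det *
        (g.1 : Matrix (α ⊕ β) (α ⊕ β) F).toBlocks₂₂.det ≠ 0 := by
      obtain ⟨g, hg⟩ := g
      dsimp only
      rw [← det_fromBlocks_zero₂₁ _ (g : Matrix (α ⊕ β) (α ⊕ β) F).toBlocks₁₂, ← hg,
        fromBlocks_toBlocks]
      exact g.det_ne_zero
    ((g.1 : Matrix (α ⊕ β) (α ⊕ β) F).toBlocks₁₂,
      GeneralLinearGroup.mkOfDetNeZero _ (left_ne_zero_of_mul h),
      GeneralLinearGroup.mkOfDetNeZero _ (right_ne_zero_of_mul h))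
  invFun x := ⟨GeneralLinearGroup.mkOfDetNeZero
      (fromBlocks (x.2.1 : Matrix α α F) x.1 0 (x.2.2 : Matrix β β F)) (by
        rw [det_fromBlocks_zero₂₁]
        exact mul_ne_zero x.2.1.det_ne_zero x.2.2.det_ne_zero), rfl⟩
  left_inv g := Subtype.ext (Units.ext (by
    obtain ⟨g, hg⟩ := g
    change fromBlocks (g : Matrix (α ⊕ β) (α ⊕ β) F).toBlocks₁₁
      (g : Matrix (α ⊕ β) (α ⊕ β) F).toBlocks₁₂ 0
      (g : Matrix (α ⊕ β) (α ⊕ β) F).toBlocks₂₂ = (g : Matrix (α ⊕ β) (α ⊕ β) F)
    rw [← hg]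
    exact fromBlocks_toBlocks _))
  right_inv x := Prod.ext rfl (Prod.ext (Units.ext rfl) (Units.ext rfl))

/-- The order of the group of invertible matrices with a zero block `(¬ p, p)`. -/
theorem card_blockTriangular {ι : Type*} [Fintype ι] [DecidableEq ι] [Fintype F] (p : ι → Prop)
    [DecidablePred p] :
    Nat.card {g : GL ι F // ∀ i j, ¬ p i → p j → (g : Matrix ι ι F) i j = 0} =
      Fintype.card F ^ (Fintype.card {i // p i} * Fintype.card {i // ¬ p i}) *
        Nat.card (GL {i // p i} F) * Nat.card (GL {i // ¬ p i} F) := by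
  have e : {g : GL ι F // ∀ i j, ¬ p i → p j → (g : Matrix ι ι F) i j = 0} ≃
      {g : GL ({i // p i} ⊕ {i // ¬ p i}) F //
        (g : Matrix ({i // p i} ⊕ {i // ¬ p i}) ({i // p i} ⊕ {i // ¬ p i}) F).toBlocks₂₁ = 0} :=
    (glReindex (Equiv.sumCompl p).symm).toEquiv.subtypeEquiv fun g ↦ by
      constructor
      · intro h
        ext i j
        exact h i j i.2 j.2
      · intro h i j hi hj
        exact congrFun (congrFun h ⟨i, hi⟩) ⟨j, hj⟩
  rw [Nat.card_congr (e.trans (blockEquiv _ _)), Nat.card_prod, Nat.card_prod,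
    mul_assoc]
  congr 1
  rw [Nat.card_congr (Matrix.of (m := {i // p i}) (n := {i // ¬ p i}) (α := F)).symm,
    Nat.card_eq_fintype_card, Fintype.card_fun, Fintype.card_fun, ← pow_mul, mul_comm]

/-- Stabilising the coordinate subspace supported on `p` means having a zero block. -/
theorem mem_stabilizing_coord {ι : Type} [Fintype ι] [DecidableEq ι] (p : ι → Prop) (g : GL ι F) :
    g ∈ stabilizing (glToMat ι F) {v : ι → F | ∀ i, ¬ p i → v i = 0} ↔
      ∀ i j, ¬ p i → p j → (g : Matrix ι ι F) i j = 0 := by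
  let W : Submodule F (ι → F) :=
    { carrier := {v : ι → F | ∀ i, ¬ p i → v i = 0}
      add_mem' := fun ha hb i hi ↦ by simp [ha i hi, hb i hi]
      zero_mem' := fun _ _ ↦ rfl
      smul_mem' := fun c _ ha i hi ↦ by simp [ha i hi] }
  constructor
  · intro h i j hi hj
    have := (h (Pi.single j 1)).1 (fun k hk ↦ Pi.single_eq_of_ne (by rintro rfl; exact hk hj) _) i hi
    simpa using this
  · intro h
    refine mem_subspaceStabilizer_of_mapsTo (W := W) fun v hv i hi ↦ ?_
    rw [gl_smul_def, mulVec, dotProduct]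
    refine Finset.sum_eq_zero fun j _ ↦ ?_
    by_cases hj : p j
    · rw [h i j hi hj, zero_mul]
    · rw [hv j hj, mul_zero]

/-- The inverse-transpose automorphism of `GL ι R`. -/
def invTranspose {ι R : Type*} [Fintype ι] [DecidableEq ι] [CommRing R] : GL ι R ≃* GL ι R where
  toFun g := ⟨(g⁻¹ : GL ι R).val.transpose, g.val.transpose,
    by rw [← transpose_mul, Units.mul_inv, transpose_one],
    by rw [← transpose_mul, Units.inv_mul, transpose_one]⟩
  invFun g := ⟨(g⁻¹ : GL ι R).val.transpose, g.val.transpose,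
    by rw [← transpose_mul, Units.mul_inv, transpose_one],
    by rw [← transpose_mul, Units.inv_mul, transpose_one]⟩
  left_inv g := Units.ext (transpose_transpose _)
  right_inv g := Units.ext (transpose_transpose _)
  map_mul' g h := Units.ext (by
    change (((g * h)⁻¹ : GL ι R) : Matrix ι ι R)ᵀ = _
    rw [_root_.mul_inv_rev, Units.val_mul, transpose_mul]; rfl)

@[simp] theorem invTranspose_coe {ι R : Type*} [Fintype ι] [DecidableEq ι] [CommRing R]
    (g : GL ι R) : ((invTranspose g : GL ι R) : Matrix ι ι R) = ((g⁻¹ : GL ι R) : Matrix ι ι R)ᵀ :=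
  rfl

@[simp] theorem invTranspose_inv_coe {ι R : Type*} [Fintype ι] [DecidableEq ι] [CommRing R]
    (g : GL ι R) : (((invTranspose g)⁻¹ : GL ι R) : Matrix ι ι R) = (g : Matrix ι ι R)ᵀ :=
  rfl

@[simp] theorem invTranspose_invTranspose {ι R : Type*} [Fintype ι] [DecidableEq ι] [CommRing R]
    (g : GL ι R) : invTranspose (invTranspose g) = g := Units.ext (transpose_transpose _)

theorem det_invTranspose {ι R : Type*} [Fintype ι] [DecidableEq ι] [CommRing R]
    (g : GL ι R) : GeneralLinearGroup.det (invTranspose g) = (GeneralLinearGroup.det g)⁻¹ := by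
  rw [← map_inv]
  exact Units.ext (by simp only [GeneralLinearGroup.val_det_apply, invTranspose_coe, det_transpose])

end CL.SLn
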