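import Cfsg.Agent.Cls.OmTen

set_option autoImplicit false

/-!
Overgroups of `Sp(V₁) ⊗ Sp(V₂)` in the orthogonal group of `V₁ ⊗ V₂`.
-/

namespace CL.Sp

open Module CL.SLn QuadraticMap
open CL.Uni (UG)
open CL.Cls hiding glEquiv

variable {F V₁ V₂ V : Type*} [Field F] [AddCommGroup V₁] [Module F V₁] [AddCommGroup V₂] [Module F V₂]
  [AddCommGroup V] [Module F V] {Q : QuadraticForm F V} {X : Subgroup (V ≃ₗ[F] V)}
  {β₁ : LinearMap.BilinForm F V₁} {β₂ : LinearMap.BilinForm F V₂}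

section Lin

variable [FiniteDimensional F V₁] (hB : β₁.IsAlt) (R : RF (RingHom.id F) (-1) β₁)
include hB R

theorem witt_pair {a b a' b' : V₁} (ha : a ≠ 0) (hb : ∀ c : F, c • a ≠ b) (ha' : a' ≠ 0) (hb' : ∀ c : F, c • a' ≠ b')
    (h : β₁ a' b' = β₁ a b) : ∃ t ∈ Isom β₁, t a = a' ∧ t b = b' := by
  obtain ⟨t, ht, e⟩ := witt_family hB R.nondegenerate ((LinearIndependent.pair_iff' ha).2 hb)
    ((LinearIndependent.pair_iff' ha').2 hb') fun i j => by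
      fin_cases i <;> fin_cases j <;> simp [alt_self hB, alt_neg hB b' a', alt_neg hB b a, h]
  exact ⟨t, ht, e 0, e 1⟩

omit hB in
theorem RF.exists_dual {a b : V₁} (hb : ∀ c : F, c • a ≠ b) : ∃ c, β₁ c a = 0 ∧ β₁ c b = 1 := by
  obtain ⟨f, f1, f0⟩ := exists_dual_pair (F := F) hb
  obtain ⟨c, rfl⟩ := R.repr f
  exact ⟨c, f0, f1⟩

/-- An invariant space of maps in the Lie algebra of the conformal symplectic group contains a root element. -/
theorem exists_sym (ex : (∃ l : F, l ≠ 0 ∧ l ≠ 1) ∨ 3 ≤ finrank F V₁) (𝒮 : Submodule F (V₁ →ₗ[F] V₁))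
    (hc : ∀ t ∈ Isom β₁, ∀ S ∈ 𝒮, cnj t S ∈ 𝒮) {S : V₁ →ₗ[F] V₁} (hS : S ∈ 𝒮) {s : F}
    (h : ∀ a b, β₁ (S b) a + β₁ b (S a) = s * β₁ b a) (hn : ¬ ∃ s : F, ∀ a, S a = s • a) :
    (∃ c ≠ 0, (β₁ c).smulRight c ∈ 𝒮) ∨
      ∃ c d, c ≠ 0 ∧ (∀ l : F, l • c ≠ d) ∧ β₁ c d = 0 ∧ (β₁ d).smulRight c + (β₁ c).smulRight d ∈ 𝒮 := by
  obtain ⟨c, hcS⟩ : ∃ c, ∀ l : F, l • c ≠ S c := by
    by_contra hc
    push Not at hc
    exact hn (exists_smul_of_forall fun v => (hc v).imp fun _ => Eq.symm)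
  have c0 : c ≠ 0 := fun e => hcS 0 (by simp [e])
  have h1 : ∀ l : F, l • ((β₁ (S c)).smulRight c + (β₁ c).smulRight (S c)) -
      (l * s - l * l * β₁ (S c) c) • (β₁ c).smulRight c ∈ 𝒮 := fun l => by
    convert sub_mem (hc _ (tv_mem_isom hB c l) S hS) hS using 1
    ext x
    have e := h c x
    simp only [cnj_apply, tv_inv, tv_apply, LinearMap.sub_apply, LinearMap.smul_apply, LinearMap.add_apply,
      LinearMap.smulRight_apply, map_add, map_smul, smul_eq_mul, alt_neg hB x] at e ⊢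
    linear_combination (norm := module) (-l * e) • c
  have h2 : ∀ e, β₁ c e = 0 → β₁ (S c) e ≠ 0 → (β₁ e).smulRight c + (β₁ c).smulRight e ∈ 𝒮 := fun e he he' => by
    rw [← 𝒮.smul_mem_iff he']
    have ht := tv_mem_isom hB e 1
    have hc' : tv hB e 1 c = c := tv_apply_of_ortho hB 1 he
    convert sub_mem (hc _ ht _ (h1 1)) (h1 1) using 1
    ext x
    simp only [cnj_apply, LinearMap.sub_apply, LinearMap.smul_apply, LinearMap.add_apply, LinearMap.smulRight_apply,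
      map_add, map_smul, map_sub, ← isom_left ht, hc', tv_apply hB e 1 (S c), smul_eq_mul]
    module
  by_cases h0 : β₁ (S c) c = 0
  · obtain ⟨e, e0, e1⟩ := R.exists_dual hcS
    exact Or.inr ⟨c, e, c0, fun l hl => by simp [← hl, alt_neg hB c (S c), h0] at e1, R.flip0 e0,
      h2 e (R.flip0 e0) (R.flip_ne (e1 ▸ one_ne_zero))⟩
  rcases ex with ⟨l, l0, l1⟩ | h3
  · refine Or.inl ⟨c, c0, (𝒮.smul_mem_iff (mul_ne_zero (mul_ne_zero l0 (sub_ne_zero.2 l1)) h0)).1 ?_⟩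
    convert sub_mem (h1 l) (𝒮.smul_mem l (h1 1)) using 1
    module
  obtain ⟨e, -, e0, he⟩ := R.exists_perp ⊤ ![c, S c] (by simp; omega)
  have e1 : β₁ c e = 0 := he 0
  have e2 : β₁ (S c) e = 0 := he 1
  refine Or.inr ⟨c, c + e, c0, fun l hl => e0 ?_, by simp [alt_self hB, e1], h2 _ (by simp [alt_self hB, e1])
    (by simp [e2, h0])⟩
  have := congrArg (β₁ (S c)) hl
  simp only [map_smul, map_add, e2, add_zero, smul_eq_mul, mul_eq_right₀ h0] at this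
  simpa [this] using hl

end Lin

/-- A group of isometries containing `Sp(V₁) ⊗ Sp(V₂)`. -/
structure SB (T : TF (RingHom.id F) (-1) (-1) 1 β₁ β₂ (polarBilin Q)) (X : Subgroup (V ≃ₗ[F] V)) : Prop where
  alt₁ : β₁.IsAlt
  alt₂ : β₂.IsAlt
  pure : ∀ a y, Q (T.tm a y) = 0
  le : X ≤ OG Q
  kron : ∀ a ∈ Isom β₁, ∀ t ∈ Isom β₂, T.kron a t ∈ X

/-- `X` contains the map `1 + S ⊗ (w ∧ z)`. -/
def TF.PK (T : TF (RingHom.id F) (-1) (-1) 1 β₁ β₂ (polarBilin Q)) (X : Subgroup (V ≃ₗ[F] V)) (S : V₁ →ₗ[F] V₁)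
    (w z : V₂) : Prop := ∃ k ∈ X, ∀ a y, k (T.tm a y) = T.tm a y + T.tm (S a) (β₂ z y • w - β₂ w y • z)

namespace SB

variable {T : TF (RingHom.id F) (-1) (-1) 1 β₁ β₂ (polarBilin Q)} (O : SB T X)
include O

theorem sw : SB T.sw X :=
  ⟨O.alt₂, O.alt₁, fun y a => O.pure a y, O.le, fun t ht a ha => T.sw_kron a t ▸ O.kron a ha t ht⟩

theorem leU : X ≤ UG (polarBilin Q) := O.le.trans OG_le_UG

variable [FiniteDimensional F V₁] [FiniteDimensional F V₂]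

theorem all_of_one {a : V₁} {w z : V₂} (ha : a ≠ 0) (hw : w ≠ 0) (hz : ∀ c : F, c • w ≠ z) (hwz : β₂ w z = 0)
    (h : (eich Q (T.tm a w) (T.tm a z)).1 ∈ X) (a' : V₁) (w' z' : V₂) (h' : β₂ w' z' = 0) :
    T.tm a' z' ∈ ES Q X (T.tm a' w') := by
  by_cases h0 : a' = 0 ∨ w' = 0
  · rcases h0 with rfl | rfl <;> simpa using ES_zero _
  push Not at h0
  refine ⟨by simp [T.polar_tm, h'], fun l => ?_⟩
  by_cases h1 : ∃ c : F, c • w' = l • z'
  · obtain ⟨c, hc⟩ := h1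
    rw [← map_smul, ← hc, map_smul, eich_smul_self]
    exact one_mem X
  push Not at h1
  obtain ⟨t, ht, e1, e2⟩ := witt_pair O.alt₂ T.r₂ hw hz h0.2 h1 (by simp [h', hwz])
  obtain ⟨g, hg, e3⟩ := exists_isom_apply_eq O.alt₁ T.r₁.nondegenerate ha h0.1
  have hk := O.kron g hg t ht
  have := congrArg Subtype.val (eich_conj ⟨_, O.le hk⟩ (T.tm a w) (T.tm a z))
  simp only [T.kron_tm, e1, e2, e3, map_smul] at this
  exact this ▸ mul_mem (mul_mem hk h) (inv_mem hk)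

theorem gen (h5 : 5 ≤ finrank F V₂) (hA : ∀ a w z, β₂ w z = 0 → T.tm a z ∈ ES Q X (T.tm a w)) {a : V₁} {w : V₂}
    (ha : a ≠ 0) (hw : w ≠ 0) (x : V) (hx : polar Q (T.tm a w) x = 0) : x ∈ ES Q X (T.tm a w) := by
  have h1 : ∀ b z, β₂ w z = 0 → β₁ b a ≠ 0 → T.tm b z ∈ ES Q X (T.tm a w) := fun b z hz hb => by
    obtain ⟨y, y', h, h', e⟩ := T.r₂.exists_pair ![w, z] (by omega)
    exact ES_step₁ O.le (O.pure _ _) (hA b z y (h 1)) (hA a w y' (h' 0)) (by simp [T.polar_tm, T.r₂.flip0 hz])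
      (by simp [T.polar_tm, show β₂ y w = 0 from T.r₂.flip0 (h 0)])
      (by simp [T.polar_tm, show β₂ z y' = 0 from h' 1]) (by simp [T.polar_tm, e, hb])
  obtain ⟨a', ha'⟩ := T.r₁.exists_one' ha
  have h2 : ∀ b z, β₂ w z = 0 → T.tm b z ∈ ES Q X (T.tm a w) := fun b z hz => by
    by_cases hb : β₁ b a = 0
    · simpa using sub_mem (h1 (b + a') z hz (by simp [hb, ha'])) (h1 a' z hz (by simp [ha']))
    · exact h1 b z hz hb
  have h3 : ∀ b u, β₁ a b = 0 → T.tm b u ∈ ES Q X (T.tm a w) := fun b u hb => by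
    by_cases b0 : b = 0
    · simp [b0]
    obtain ⟨b', hb'⟩ := T.r₁.exists_one b0
    obtain ⟨y, y', h, h', e⟩ := T.r₂.exists_pair ![w, u] (by omega)
    exact ES_step₁ O.le (O.pure _ _) (hA b u y (h 1)) (h2 b' y' (h' 0)) (by simp [T.polar_tm, T.r₁.flip0 hb])
      (by simp [T.polar_tm, T.r₁.flip0 hb]) (by simp [T.polar_tm, show β₂ u y' = 0 from h' 1])
      (by simp [T.polar_tm, e, hb'])
  obtain ⟨w', hw'⟩ := T.r₂.exists_one hw
  simpa using add_mem (T.mem_of_perp hw' h2 (x := x - T.tm (T.ψ' w x) w') (by simp [T.ψ_tm, hw']))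
    (h3 (T.ψ' w x) w' (by rwa [← T.polar_ψ]))

theorem pk_conj {S : V₁ →ₗ[F] V₁} {w z : V₂} (h : T.PK X S w z) {a : V₁ ≃ₗ[F] V₁} (ha : a ∈ Isom β₁)
    {t : V₂ ≃ₗ[F] V₂} (ht : t ∈ Isom β₂) : T.PK X (cnj a S) (t w) (t z) := by
  obtain ⟨k, hk, e⟩ := h
  have := O.kron a ha t ht
  exact ⟨_, mul_mem (mul_mem this hk) (inv_mem this), fun b y => by
    simp [T.kron_inv, T.kron_tm, e, cnj_apply, apply_inv_apply, isom_left ht]⟩

theorem pk_of_RD {S : V₁ →ₗ[F] V₁} (h2 : ∀ a, S (S a) = 0) (hS : ∀ a b, β₁ (S a) b = -β₁ a (S b)) {w z u : V₂}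
    (hw : w ≠ 0) (hz : β₂ w z = 0) (hu : β₂ w u = 0) (h : S ∘ₗ T.ψ' z ∈ T.RD X w) : T.PK X S w (β₂ z u • u) := by
  obtain ⟨w', hw'⟩ := T.r₂.exists_one hw
  obtain ⟨k, hk, -, e⟩ := h
  let N := T.kr S ((β₂ z).smulRight w - (β₂ w).smulRight z)
  have hN : ∀ a y, N (T.tm a y) = T.tm (S a) (β₂ z y • w - β₂ w y • z) := fun a y => T.kr_tm _ _ a y
  have hN2 : ∀ x, N (N x) = 0 := T.ext_tm (f := N ∘ₗ N) (g := 0) fun a y => by simp [hN, h2]
  have ht := tv_mem_isom O.alt₂ u 1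
  have htw : tv O.alt₂ u 1 w = w := tv_apply_of_ortho _ 1 hu
  have hk' := O.kron 1 (one_mem _) _ ht
  have h1 := TF.comm_eq (T := T) hw' (O.leU hk) (h₀ := unip N hN2 1) (t := T.kron 1 (tv O.alt₂ u 1))
    (T.ext_bil (f := (polarBilin Q).compl₁₂ (unip N hN2 1 : V →ₗ[F] V) (unip N hN2 1 : V →ₗ[F] V))
      (g := polarBilin Q) fun a y b y' => by
        simp only [LinearMap.compl₁₂_apply, LinearEquiv.coe_coe, unip_apply, hN, one_smul, map_add,
          LinearMap.add_apply, T.B_tm, hS, h2, map_sub, map_smul, LinearMap.sub_apply, LinearMap.smul_apply,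
          smul_eq_mul, alt_neg O.alt₂ y, map_zero]
        ring)
    (fun x hx => (e x hx).trans (T.ext_perp hw' (f := LinearMap.id + T.tm.flip w ∘ₗ S ∘ₗ T.ψ' z) (g := unip N hN2 1)
      (fun a y hy => by simp [unip_apply, hN, T.ψ_tm, hy]) hx))
    (fun a => by rw [T.kron_tm, htw]; rfl) fun x => by
      rw [T.ψ'_kron _ ht, ← htw, inv_apply_apply, htw]; rfl
  refine ⟨_, h1 ▸ mul_mem (mul_mem (mul_mem hk' hk) (inv_mem hk')) (inv_mem hk), fun a y => ?_⟩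
  rw [← unip_cnj, unip_inv]
  simp only [LinearEquiv.mul_apply, unip_apply, cnj_apply, T.kron_inv, map_add, map_smul, T.kron_tm, hN, inv_one,
    LinearEquiv.coe_one, id, h2, map_zero, LinearMap.zero_apply, map_sub, htw, ← isom_left ht,
    tv_apply O.alt₂ u 1 z, LinearMap.add_apply, LinearMap.smul_apply, smul_eq_mul]
  module

omit [FiniteDimensional F V₁] [FiniteDimensional F V₂] in
theorem eich_tm (c : V₁) (w z : V₂) (a : V₁) (y : V₂) : (eich Q (T.tm c w) (T.tm c z)).1 (T.tm a y) =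
    T.tm a y + T.tm (β₁ c a • c) (β₂ z y • w - β₂ w y • z) := by
  rw [eich_app (O.pure _ _) (by simp [T.polar_tm, alt_self O.alt₁])]
  simp only [T.polar_tm, O.pure, map_smul, map_sub, LinearMap.smul_apply]
  module

variable [Finite F] [FiniteDimensional F V] (h5 : 5 ≤ finrank F V₂)
include h5

theorem OmL_le {a : V₁} {w z : V₂} (ha : a ≠ 0) (hw : w ≠ 0) (hz : ∀ c : F, c • w ≠ z) (hwz : β₂ w z = 0)
    (h : (eich Q (T.tm a w) (T.tm a z)).1 ∈ X) : OmL Q ≤ X := by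
  obtain ⟨a', ha'⟩ := T.r₁.exists_one ha
  obtain ⟨w', hw'⟩ := T.r₂.exists_one hw
  have hA := O.all_of_one ha hw hz hwz h
  have : Nontrivial V₁ := ⟨_, _, ha⟩
  refine OmL_le_of_ES T.r.nondegenerate ?_ ⟨O.pure a w, O.pure a' w', by simp [T.polar_tm, ha', hw']⟩
    (O.gen h5 hA ha hw) (O.gen h5 hA (fun e => by simp [e] at ha') fun e => by simp [e] at hw')
  have := Nat.mul_le_mul (finrank_pos (R := F) (M := V₁)) h5
  rw [← T.finrank_eq] at this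
  omega

theorem OmL_le' {a b : V₁} {w : V₂} (ha : a ≠ 0) (hb : ∀ c : F, c • a ≠ b) (hab : β₁ a b = 0) (hw : w ≠ 0)
    (h : (eich Q (T.tm a w) (T.tm b w)).1 ∈ X) : OmL Q ≤ X := by
  have hB : ∀ w a b, β₁ a b = 0 → T.tm b w ∈ ES Q X (T.tm a w) := O.sw.all_of_one hw ha hb hab h
  obtain ⟨c, e0, e1⟩ := T.r₁.exists_dual hb
  have h1 : ∀ u, β₂ u w ≠ 0 → T.tm a u ∈ ES Q X (T.tm a w) := fun u hu =>
    ES_step₁ O.le (O.pure _ _) (hB u a c (T.r₁.flip0 e0)) (hB w a b hab) (by simp [T.polar_tm, alt_self O.alt₁])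
      (by simp [T.polar_tm, e0]) (by simp [T.polar_tm, hab]) (by simp [T.polar_tm, e1, hu])
  obtain ⟨w', hw'⟩ := T.r₂.exists_one' hw
  obtain ⟨z, -, z0, hz⟩ := T.r₂.exists_perp ⊤ ![w, w'] (by simp; omega)
  refine O.OmL_le h5 ha hw (z := z) (fun l hl => z0 ?_) (hz 0) ?_
  · have : β₂ w' z = 0 := hz 1
    simp only [← hl, map_smul, hw', smul_eq_mul, mul_one] at this
    rw [← hl, this, zero_smul]
  · simpa using (sub_mem (h1 (z + w') (by simp [hw', show β₂ z w = 0 from T.r₂.flip0 (hz 0)]))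
      (h1 w' (by simp [hw']))).2 1

theorem OmL_le_of_sym {c d : V₁} (hc : c ≠ 0) (hd : ∀ l : F, l • c ≠ d) (hcd : β₁ c d = 0) {w z : V₂} (hw : w ≠ 0)
    (hz : ∀ l : F, l • w ≠ z) (hwz : β₂ w z = 0) (h : T.PK X ((β₁ d).smulRight c + (β₁ c).smulRight d) w z) :
    OmL Q ≤ X := by
  obtain ⟨d', e0, e1⟩ := T.r₁.exists_dual hd
  have z0 : z ≠ 0 := fun e => hz 0 (by simp [e])
  obtain ⟨w', e2, e3⟩ := T.r₂.exists_dual (a := z) (b := w) fun l hl => by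
    have l0 : l ≠ 0 := fun e => hw (by simp [← hl, e])
    exact hz l⁻¹ (by simp [← hl, smul_smul, l0])
  obtain ⟨v, hv⟩ := T.r₂.exists_one' z0
  obtain ⟨z', -, z'0, hz'⟩ := T.r₂.exists_perp ⊤ ![w, w', z, v] (by simp; omega)
  have e4 : β₂ w z' = 0 := hz' 0
  have e5 : β₂ w' z' = 0 := hz' 1
  have e6 : β₂ z z' = 0 := hz' 2
  have e7 : β₂ v z' = 0 := hz' 3
  obtain ⟨a, ha, a1, a2⟩ := witt_pair O.alt₁ T.r₁ hc hd hc (b' := d')
    (fun l hl => by simp [← hl, hcd] at e1) (by rw [hcd, T.r₁.flip0 e0])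
  obtain ⟨t, ht, t1, t2⟩ := witt_pair O.alt₂ T.r₂ hw hz (a' := w') (b' := z') (fun e => by simp [e] at e3)
    (fun l hl => z'0 (by
      have := T.r₂.flip0 e4
      simp only [← hl, map_smul, LinearMap.smul_apply, e3, smul_eq_mul, mul_one] at this
      rw [← hl, this, zero_smul])) (by rw [e5, hwz])
  obtain ⟨k', hk', e'⟩ := O.pk_conj h ha ht
  obtain ⟨k, hk, e⟩ := h
  refine O.OmL_le h5 hc z0 (fun l hl => z'0 ?_) e6 ?_
  · simp only [← hl, map_smul, hv, smul_eq_mul, mul_one] at e7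
    rw [← hl, e7, zero_smul]
  rw [show (eich Q (T.tm c z) (T.tm c z')).1 = k' * k * (k * k')⁻¹ from
    eq_mul_inv_of_mul_eq (T.equiv_ext fun b y => ?_)]
  · exact mul_mem (mul_mem hk' hk) (inv_mem (mul_mem hk hk'))
  simp only [LinearEquiv.mul_apply, e, e', O.eich_tm, map_add, cnj_apply, LinearMap.add_apply,
    LinearMap.smulRight_apply, map_smul, ← isom_left ha, a1, a2, t1, t2, map_sub, LinearMap.smul_apply,
    alt_self O.alt₁, alt_self O.alt₂, hcd, T.r₁.flip0 hcd, e0, T.r₁.flip0 e0, e1, alt_neg O.alt₁ d d', hwz,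
    T.r₂.flip0 hwz, e2, T.r₂.flip0 e2, e3, alt_neg O.alt₂ w w', e4, T.r₂.flip0 e4, e5, T.r₂.flip0 e5, e6,
    T.r₂.flip0 e6]
  module

theorem scalar_or {w : V₂} (w0 : w ≠ 0) :
    OmL Q ≤ X ∨ ∀ A ∈ T.ZA X (alt_self O.alt₂ w), ∃ s : F, ∀ a, A a = s • a := by
  refine or_iff_not_imp_right.2 fun hn => ?_
  push Not at hn
  obtain ⟨A, hA, hn⟩ := hn
  obtain ⟨c, hc⟩ : ∃ c, ∀ l : F, l • c ≠ A c := by
    by_contra hc
    push Not at hc
    obtain ⟨s, hs⟩ := exists_smul_of_forall fun v => (hc v).imp fun _ => Eq.symm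
    exact (hn s).elim fun a ha => ha (hs a)
  obtain ⟨w', hw'⟩ := T.r₂.exists_one w0
  have h1 : β₁ c (A c) = 0 := by
    obtain ⟨k, hk, e⟩ := hA
    simpa [e, T.ψ_tm, hw', map_add', O.pure, T.polar_tm, T.flip_one hw'] using O.le hk (T.tm c w')
  refine O.OmL_le' h5 (fun e => hc 0 (by simp [e])) hc h1 w0 (one_smul F (T.tm (A c) w) ▸
    (TF.mem_ES_of_ZA (hw := alt_self O.alt₂ w) (O.pure · w) fun l => ?_).2 1)
  convert sub_mem hA (TF.ZA_conj hA (O.kron _ (tv_mem_isom O.alt₁ c l) 1 (one_mem _)) (one_mem _) _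
    (one_smul F w).symm) using 1
  ext x
  simp only [cnj_apply, tv_inv, tv_apply, LinearMap.sub_apply, LinearMap.smul_apply, LinearMap.smulRight_apply,
    map_add, map_smul, smul_eq_mul, TF.ZA_skew O.leU hw' hA, alt_neg O.alt₁ x, h1, RingHom.id_apply,
    LinearMap.add_apply]
  module

omit h5 [Finite F] [FiniteDimensional F V] [FiniteDimensional F V₁] [FiniteDimensional F V₂] in
theorem ψ'_mem {w : V₂} (w0 : w ≠ 0) {z : V₂} (hz : β₂ w z = 0) : T.ψ' z ∈ T.RD (X ⊓ T.KS) w := by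
  obtain ⟨w', hw'⟩ := T.r₂.exists_one w0
  refine TF.ψ'_mem_RD hw' (Subgroup.mem_inf.2 ⟨O.kron 1 (one_mem _) _
    (mul_mem (tv_mem_isom O.alt₂ (w + z) (-1)) (tv_mem_isom O.alt₂ z 1)), T.kron_mem_KS _ _⟩)
    (by simp [tv_apply, hz, alt_self O.alt₂]) fun y hy => ?_
  simp only [LinearEquiv.mul_apply, tv_apply, map_add, map_smul, LinearMap.add_apply, LinearMap.smul_apply,
    alt_self O.alt₂, T.r₂.flip0 hz, T.r₂.flip0 hy, alt_neg O.alt₂ y z]
  module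

theorem mem_KS_of_rad [Nontrivial V₁] (ex : (∃ l : F, l ≠ 0 ∧ l ≠ 1) ∨ 3 ≤ finrank F V₁) (hn : ¬ OmL Q ≤ X) {w : V₂}
    (w0 : w ≠ 0) {k : V ≃ₗ[F] V} (hk : k ∈ X) (R : T.Rad w k) : k ∈ T.KS := by
  obtain ⟨w', hww⟩ := T.r₂.exists_one w0
  obtain ⟨D, hD⟩ := R.exists_D w0
  have hw := alt_self O.alt₂ w
  have hZ := (O.scalar_or h5 w0).resolve_left hn
  have hD' : D ∈ T.RD X w := ⟨k, hk, R, hD⟩
  refine TF.mem_KS_of_scalar O.leU hw hww (fun z => O.ψ'_mem w0) hZ hk R hD fun z hz => by_contra fun hs => hn ?_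
  let 𝒮 : Submodule F (V₁ →ₗ[F] V₁) :=
    { carrier := {S | ∀ l : F, (l • S) ∘ₗ T.ψ' z ∈ T.RD X w}
      zero_mem' := fun l => by simpa using zero_mem _
      add_mem' := fun h h' l => by simpa [LinearMap.add_comp] using add_mem (h l) (h' l)
      smul_mem' := fun c S h l => by rw [smul_smul]; exact h _ }
  obtain ⟨A, hA, e⟩ := TF.exists_comm_ψ O.leU hw hww hD' hz (TF.RD_mono inf_le_left (O.ψ'_mem w0 hz))
  obtain ⟨s, hs'⟩ := hZ A hA
  obtain ⟨u, u0, u1⟩ := T.r₂.exists_dual (a := w) (b := z) fun l hl =>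
    hs ⟨0, fun a => by simp [← hl, TF.RD_self w0 hw hD']⟩
  have hu : β₂ z u ≠ 0 := T.r₂.flip_ne (u1 ▸ one_ne_zero)
  have hu' : ∀ l : F, l • w ≠ β₂ z u • u := fun l hl => by
    simpa [T.r₂.flip0 hz, hu] using congrArg (β₂ z) hl
  have hu'' : β₂ w (β₂ z u • u) = 0 := by simp [T.r₂.flip0 u0]
  rcases exists_sym O.alt₁ T.r₁ ex 𝒮 (S := D ∘ₗ T.tm.flip z) (s := s)
    (fun t ht S hS l => TF.RD_congr' hww (TF.RD_conj O.leU (hS l) (O.kron t⁻¹ (inv_mem ht) 1 (one_mem _)) (α := t⁻¹)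
      fun a => T.kron_tm _ _ _ _) fun a y _ => by simp [cnj_apply, T.kron_tm, T.ψ_tm])
    (fun l => TF.RD_congr' hww (sub_mem hD' (TF.RD_conj O.leU hD' (O.kron 1 (one_mem _) _ (tv_mem_isom O.alt₂ z l))
      (α := 1) fun a => by rw [T.kron_tm, tv_apply_of_ortho _ _ hz])) fun a y _ => by
        simp [T.kron_tm, T.ψ_tm, tv_apply, alt_neg O.alt₂ y z, mul_smul])
    (fun a b => by simpa [hs'] using (e a b).symm) hs with ⟨c, c0, h⟩ | ⟨c, d, c0, hd, hcd, h⟩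
  · obtain ⟨g, hg, e⟩ := O.pk_of_RD (S := (β₁ c).smulRight c) (fun a => by simp [alt_self O.alt₁])
      (fun a b => by simp [alt_neg O.alt₁ a c, mul_comm]) w0 hz (T.r₂.flip0 u0) (by simpa using h 1)
    refine O.OmL_le h5 c0 w0 hu' hu'' ?_
    rwa [show (eich Q (T.tm c w) (T.tm c (β₂ z u • u))).1 = g from T.equiv_ext fun a y => by rw [O.eich_tm, e]; rfl]
  · exact O.OmL_le_of_sym h5 c0 hd hcd w0 hu' hu'' (O.pk_of_RD
      (fun a => by simp [alt_self O.alt₁, hcd, T.r₁.flip0 hcd])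
      (fun a b => by simp [alt_neg O.alt₁ a c, alt_neg O.alt₁ a d]; ring) w0 hz (T.r₂.flip0 u0) (by simpa using h 1))

end SB

namespace TF

variable {T : TF (RingHom.id F) (-1) (-1) 1 β₁ β₂ (polarBilin Q)} (hp : ∀ a y, Q (T.tm a y) = 0)
include hp

theorem mem_OG_of_pure {g : V ≃ₗ[F] V} (hg : g ∈ T.KS) (hU : g ∈ UG (polarBilin Q)) : g ∈ OG Q := by
  obtain ⟨a, t, rfl⟩ := hg
  exact T.ind (P := fun x => Q (T.kron a t x) = Q x) (by simp) (fun b y => by rw [T.kron_tm, hp, hp])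
    fun x y hx hy => by rw [map_add, map_add', map_add', hx, hy]; exact congrArg _ (hU x y)

variable [Finite F] [FiniteDimensional F V₁] [FiniteDimensional F V₂] [FiniteDimensional F V]

theorem isom_le_rightOf (h5 : 5 ≤ finrank F V) (hB : β₂.IsAlt) : Isom β₂ ≤ T.rightOf (OmL Q) :=
  isom_le_of_tv_mem hB T.r₂.nondegenerate fun u c => mem_OmL_of_sub (T := T) h5 (hp · u)
    (mem_OG_of_pure hp (T.kron_mem_KS _ _) (T.kron_mem_UG' (one_mem _) (tv_mem_isom hB u c)))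
    (T.ind (P := fun x => T.kron 1 (tv hB u c) x - x ∈ T.L u) (by simp)
      (fun a y => by simpa [T.kron_tm, tv_apply] using Submodule.smul_mem _ _ (T.tm_mem_L a u))
      fun x y hx hy => by rw [map_add, add_sub_add_comm]; exact add_mem hx hy)

/-- A proper overgroup of the stabiliser of the decomposition in `Ω` preserves the decomposition. -/
theorem le_KS_of_alt (alt₁ : β₁.IsAlt) (alt₂ : β₂.IsAlt) [Nontrivial V₁] (hlt : finrank F V₁ < finrank F V₂)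
    (h5 : 5 ≤ finrank F V₂) (ex : (∃ l : F, l ≠ 0 ∧ l ≠ 1) ∨ 3 ≤ finrank F V₁) (h1 : T.KS ⊓ OmL Q ≤ X)
    (h2 : X ≤ OmL Q) (hn : ¬ OmL Q ≤ X) : X ≤ T.KS := by
  have h5' : 5 ≤ finrank F V := by
    have := Nat.mul_le_mul (finrank_pos (R := F) (M := V₁)) h5
    rwa [← T.finrank_eq] at this
  have O : SB T X := ⟨alt₁, alt₂, hp, h2.trans OmL_le, fun a ha t ht => h1 ⟨T.kron_mem_KS _ _,
    T.kron_mem (isom_le_rightOf (T := T.sw) (fun y a => hp a y) h5' alt₁ ha) (isom_le_rightOf hp h5' alt₂ ht)⟩⟩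
  have hQ := mem_KS_of_map O.leU (by omega)
    (fun w w0 _ => (T.r₂.exists_one w0).imp fun _ h => ⟨h, alt_self alt₂ _⟩)
    (fun _ _ h0 h0' _ _ => (exists_isom_apply_eq alt₂ T.r₂.nondegenerate h0 h0').elim fun t ht =>
      ⟨t, 1, O.kron 1 (one_mem _) t ht.1, by rw [ht.2, one_smul]⟩)
    (fun w w0 z _ hz => RD_mono inf_le_left (O.ψ'_mem w0 hz)) (fun _ w0 _ _ => O.mem_KS_of_rad h5 ex hn w0)
    fun w w0 hw a t k hk hU R => h1 ⟨T.kron_mem_KS _ _, by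
      simpa using mul_mem (h2 hk) (inv_mem (R.mem_OmL h5' w0 hw (hp · w)
        (mul_mem (inv_mem (mem_OG_of_pure hp (T.kron_mem_KS _ _) hU)) (O.le hk))))⟩
  refine le_KS_of_add_le O.leU hlt one_ne_zero (fun u u0 hu => uf_κ' O.leU hlt hQ u0 hu one_ne_zero ?_)
    (fun u => ?_) (k := 1) hlt fun W hW => ?_
  · rw [show unip (T.κ' u) (T.κ'_κ' hu) 1 = T.kron 1 (tv alt₂ u (-1)) from T.equiv_ext fun a y => by
      simp [unip_apply, T.kron_tm, tv_apply, T.κ_apply, T.ψ_tm, alt_neg alt₂ y u]]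
    exact O.kron 1 (one_mem _) _ (tv_mem_isom _ _ _)
  · by_cases u0 : u = 0
    · obtain ⟨v, -, v0, -⟩ := T.r₂.exists_perp ⊤ ![u] (by simp; omega)
      exact ⟨v, by simpa [u0], alt_self alt₂ v, by simp [u0]⟩
    obtain ⟨u', hu'⟩ := T.r₂.exists_one' u0
    obtain ⟨v, -, v0, hv⟩ := T.r₂.exists_perp ⊤ ![u, u'] (by simp; omega)
    refine ⟨v, fun c e => v0 ?_, alt_self alt₂ v, hv 0⟩
    have : β₂ u' v = 0 := hv 1
    simp only [e, map_smul, hu', smul_eq_mul, mul_one] at this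
    rw [e, this, zero_smul]
  · obtain ⟨u, hu, u0⟩ := Submodule.exists_mem_ne_zero_of_ne_bot (p := W) fun e => by simp [e] at hW
    exact ⟨u, hu, u0, alt_self alt₂ u⟩

end TF

open Cfsg Cfsg.Geo in
/-- The stabiliser of a tensor decomposition into symplectic spaces is maximal in `Ω`. -/
theorem isMaximalIn_omega_sp_tensor [Fintype F] {ι : Type} [Fintype ι] [DecidableEq ι] (hn : 9 ≤ Fintype.card ι)
    {Q : (ι → F) → F} (hQ : IsNondegenerateQuadraticForm Q) {n₁ n₂ : ℕ} (h12 : n₁ < n₂)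
    (hex : ¬ (Fintype.card F = 2 ∧ n₁ = 2)) (e : ι ≃ Fin n₁ × Fin n₂) (P : GL ι F)
    {f₁ : (Fin n₁ → F) → (Fin n₁ → F) → F} {f₂ : (Fin n₂ → F) → (Fin n₂ → F) → F} (hf₁ : IsSymplecticForm f₁)
    (hf₂ : IsSymplecticForm f₂) (hT : IsTensorFormStructure id (polar Q) f₁ f₂ e P)
    (hp : ∀ (x₁ : Fin n₁ → F) (x₂ : Fin n₂ → F),
      Q (Matrix.mulVec (P : Matrix ι ι F) ((fun a : Fin n₁ × Fin n₂ => x₁ a.1 * x₂ a.2) ∘ e)) = 0) :
    IsMaximalIn (omegaGL Q) (tensorProductSubgroup n₁ n₂ e P ⊓ omegaGL Q) := by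
  obtain ⟨Q, rfl, hN⟩ := exists_qf_of_isNondeg hQ
  obtain ⟨c, hc, h⟩ := exists_form_tenE hf₁.bilinear hf₂.bilinear hT
  have hN₁ := bilinOf_nondegenerate hf₁.bilinear hf₁.nondegenerate
  have hN₂ := bilinOf_nondegenerate hf₂.bilinear hf₂.nondegenerate
  have a₁ : (bilinOf hf₁.bilinear).IsAlt := hf₁.alternating
  have a₂' : (bilinOf hf₂.bilinear).IsAlt := hf₂.alternating
  have a₂ : (c • bilinOf hf₂.bilinear).IsAlt := fun x => by simp [hf₂.alternating x]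
  let T : TF (RingHom.id F) (-1) (-1) 1 (bilinOf hf₁.bilinear) (c • bilinOf hf₂.bilinear) (polarBilin Q) :=
    { E := tenE e P
      r₁ := ⟨fun _ => rfl, by simp, fun x y => by rw [alt_neg a₁]; simp, hN₁.1⟩
      r₂ := ⟨fun _ => rfl, by simp, fun x y => by rw [alt_neg a₂]; simp,
        fun x hx => hN₂.1 x fun y => by simpa [hc] using hx y⟩
      r := ⟨fun _ => rfl, by simp, fun x y => by simp [polar_comm Q x], hN.1⟩
      form := fun a y a' y' => h a y a' y' }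
  have hp' : ∀ a y, Q (T.tm a y) = 0 := fun a y => by rw [TL.tm_apply, tenE_tmul, hp]
  have h1 := Fintype.card_congr e
  obtain ⟨m₁, e₁⟩ := even_finrank_of_alt _ hN₁.1 a₁
  obtain ⟨m₂, e₂⟩ := even_finrank_of_alt _ hN₂.1 a₂'
  simp only [Fintype.card_prod, Fintype.card_fin, Module.finrank_fin_fun] at h1 e₁ e₂
  have h2 : 2 ≤ n₁ := by
    by_contra h2
    obtain rfl : n₁ = 0 := by omega
    omega
  have h5 : 5 ≤ n₂ := by
    by_contra h5
    obtain ⟨rfl, rfl⟩ : n₁ = 2 ∧ n₂ = 4 := by omega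
    omega
  have : Nontrivial (Fin n₁) := Fin.nontrivial_iff_two_le.2 h2
  obtain ⟨v, hv⟩ := exists_ne (0 : Fin n₁ → F)
  refine isMaximalIn_omega_tensor hN (by omega) e P (K := T.KS) rfl
    (T.sw_KS ▸ TF.exists_not_mem_KS (T := T.sw) (by simp; omega) hv (a₁ v) (hp' v)) fun X =>
    TF.le_KS_of_alt hp' a₁ a₂ (by simpa using h12) (by simpa using h5) ?_
  by_cases hq : Fintype.card F = 2
  · right; simp only [Module.finrank_fin_fun]; omega
  · exact Or.inl (CL.Cls.exists_ne_zero_one_of_card hq)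

end CL.Sp
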