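import Cfsg.Agent.Cls.TenOrth

set_option autoImplicit false

/-!
Tensor decompositions `V = V₁ ⊗ V₂` of a symplectic space into a symplectic and an orthogonal space: contractions,
Kronecker products, and the first properties of the overgroups of `Sp(V₁) ⊗ O(V₂)`.
-/

namespace CL.Sp

open Module TensorProduct

variable {F V₁ V₂ V : Type*} [Field F] [AddCommGroup V₁] [Module F V₁] [AddCommGroup V₂] [Module F V₂]
  [AddCommGroup V] [Module F V]

/-- A tensor decomposition of a symplectic space. -/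
structure TD (β : LinearMap.BilinForm F V₁) (s : LinearMap.BilinForm F V₂) (B : LinearMap.BilinForm F V) where
  E : V₁ ⊗[F] V₂ ≃ₗ[F] V
  altβ : β.IsAlt
  ndβ : β.Nondegenerate
  sym : SymD s
  alt : B.IsAlt
  nd : B.Nondegenerate
  form : ∀ a y a' y', B (E (a ⊗ₜ y)) (E (a' ⊗ₜ y')) = β a a' * s y y'

namespace TD

variable {β : LinearMap.BilinForm F V₁} {s : LinearMap.BilinForm F V₂} {B : LinearMap.BilinForm F V} (T : TD β s B)

/-- Pure tensors. -/
noncomputable def tm : V₁ →ₗ[F] V₂ →ₗ[F] V := (TensorProduct.mk F V₁ V₂).compr₂ T.E.toLinearMap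

/-- Contraction of the first factor. -/
noncomputable def φ : V₁ →ₗ[F] V →ₗ[F] V₂ :=
  (TensorProduct.lift (LinearMap.mk₂ F (fun a y => (β a).smulRight y) (fun _ _ _ => by ext; simp [add_smul])
    (fun _ _ _ => by ext; simp [mul_smul]) (fun _ _ _ => by ext; simp)
    (fun _ _ _ => by ext; simp [smul_comm _ (β _ _)])) ∘ₗ T.E.symm.toLinearMap).flip

/-- Contraction of the second factor. -/
noncomputable def ψ : V₂ →ₗ[F] V →ₗ[F] V₁ :=
  (TensorProduct.lift (LinearMap.mk₂ F (fun a y => (s y).smulRight a) (fun _ _ _ => by ext; simp)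
    (fun _ _ _ => by ext; simp [smul_comm _ (s _ _)]) (fun _ _ _ => by ext; simp [add_smul])
    (fun _ _ _ => by ext; simp [mul_smul])) ∘ₗ T.E.symm.toLinearMap).flip

/-- Kronecker products. -/
noncomputable def kron (g : V₁ ≃ₗ[F] V₁) (t : V₂ ≃ₗ[F] V₂) : V ≃ₗ[F] V :=
  T.E.symm.trans ((TensorProduct.congr g t).trans T.E)

/-- The nilpotent part of `t ⊗ 1` for a transvection `t` with centre `v`. -/
noncomputable def τ (v : V₁) : V →ₗ[F] V := T.tm v ∘ₗ T.φ v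

theorem tm_apply (a : V₁) (y : V₂) : T.tm a y = T.E (a ⊗ₜ y) := rfl

theorem φ_tm (b a : V₁) (y : V₂) : T.φ b (T.tm a y) = β a b • y := by simp [φ, tm_apply]

theorem ψ_tm (u : V₂) (a : V₁) (y : V₂) : T.ψ u (T.tm a y) = s y u • a := by simp [ψ, tm_apply]

theorem kron_tm (g : V₁ ≃ₗ[F] V₁) (t : V₂ ≃ₗ[F] V₂) (a : V₁) (y : V₂) :
    T.kron g t (T.tm a y) = T.tm (g a) (t y) := by simp [kron, tm_apply]

theorem τ_apply (v : V₁) (x : V) : T.τ v x = T.tm v (T.φ v x) := rfl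

theorem ind {P : V → Prop} (h0 : P 0) (h1 : ∀ a y, P (T.tm a y)) (h2 : ∀ x y, P x → P y → P (x + y)) (x : V) :
    P x := by
  obtain ⟨x, rfl⟩ := T.E.surjective x
  induction x using TensorProduct.induction_on with
  | zero => simpa using h0
  | tmul a y => exact h1 a y
  | add x y hx hy => rw [map_add]; exact h2 _ _ hx hy

theorem ext_tm {W : Type*} [AddCommGroup W] [Module F W] {f g : V →ₗ[F] W}
    (h : ∀ a y, f (T.tm a y) = g (T.tm a y)) (x : V) : f x = g x :=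
  T.ind (P := fun x => f x = g x) (by simp) h (fun x y hx hy => by rw [map_add, map_add, hx, hy]) x

theorem equiv_ext {f g : V ≃ₗ[F] V} (h : ∀ a y, f (T.tm a y) = g (T.tm a y)) : f = g :=
  LinearEquiv.ext (T.ext_tm (f := (f : V →ₗ[F] V)) (g := (g : V →ₗ[F] V)) h)

theorem B_tm_tm (a : V₁) (y : V₂) (a' : V₁) (y' : V₂) : B (T.tm a y) (T.tm a' y') = β a a' * s y y' := T.form _ _ _ _

theorem B_φ (x : V) (b : V₁) (u : V₂) : B x (T.tm b u) = s (T.φ b x) u :=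
  T.ext_tm (f := B.flip (T.tm b u)) (g := s.flip u ∘ₗ T.φ b) (fun a y => by simp [B_tm_tm, φ_tm]) x

theorem B_ψ (x : V) (b : V₁) (u : V₂) : B x (T.tm b u) = β (T.ψ u x) b :=
  T.ext_tm (f := B.flip (T.tm b u)) (g := β.flip b ∘ₗ T.ψ u) (fun a y => by simp [B_tm_tm, ψ_tm, mul_comm]) x

theorem kron_mul (g g' : V₁ ≃ₗ[F] V₁) (t t' : V₂ ≃ₗ[F] V₂) : T.kron g t * T.kron g' t' = T.kron (g * g') (t * t') :=
  T.equiv_ext fun a y => by simp [kron_tm]

theorem kron_one : T.kron 1 1 = 1 :=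
  T.equiv_ext fun a y => by simp [kron_tm]

theorem kron_inv (g : V₁ ≃ₗ[F] V₁) (t : V₂ ≃ₗ[F] V₂) : (T.kron g t)⁻¹ = T.kron g⁻¹ t⁻¹ := by
  rw [inv_eq_iff_mul_eq_one, kron_mul, mul_inv_cancel, mul_inv_cancel, kron_one]

theorem φ_kron {g : V₁ ≃ₗ[F] V₁} (hg : g ∈ Isom β) (t : V₂ ≃ₗ[F] V₂) (b : V₁) (x : V) :
    T.φ b (T.kron g t x) = t (T.φ (g⁻¹ b) x) :=
  T.ext_tm (f := T.φ b ∘ₗ (T.kron g t : V →ₗ[F] V)) (g := (t : V₂ →ₗ[F] V₂) ∘ₗ T.φ (g⁻¹ b))
    (fun a y => by simp [kron_tm, φ_tm, isom_left hg]) x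

theorem ψ_kron (g : V₁ ≃ₗ[F] V₁) {t : V₂ ≃ₗ[F] V₂} (ht : t ∈ Isom s) (u : V₂) (x : V) :
    T.ψ u (T.kron g t x) = g (T.ψ (t⁻¹ u) x) :=
  T.ext_tm (f := T.ψ u ∘ₗ (T.kron g t : V →ₗ[F] V)) (g := (g : V₁ →ₗ[F] V₁) ∘ₗ T.ψ (t⁻¹ u))
    (fun a y => by simp [kron_tm, ψ_tm, isom_left ht]) x

theorem kron_mem {g : V₁ ≃ₗ[F] V₁} (hg : g ∈ Isom β) {t : V₂ ≃ₗ[F] V₂} (ht : t ∈ Isom s) : T.kron g t ∈ Isom B :=
  fun x => T.ext_tm (f := B (T.kron g t x) ∘ₗ (T.kron g t : V →ₗ[F] V)) (g := B x) fun a y => by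
    simp only [LinearMap.comp_apply, LinearEquiv.coe_coe, kron_tm, B_φ, T.φ_kron hg, inv_apply_apply, ht _ _]

theorem eq_zero_of_φ {x : V} (h : ∀ b, T.φ b x = 0) : x = 0 :=
  T.nd.1 _ (T.ext_tm (f := B x) (g := 0) fun a y => by simp [B_φ, h])

theorem eq_zero_of_ψ {x : V} (h : ∀ u, T.ψ u x = 0) : x = 0 :=
  T.nd.1 _ (T.ext_tm (f := B x) (g := 0) fun a y => by simp [B_ψ, h])

include T in
theorem exists_β {v : V₁} (hv : v ≠ 0) : ∃ v', β v' v = 1 := by
  obtain ⟨x, hx⟩ : ∃ x, β x v ≠ 0 := by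
    by_contra h
    push Not at h
    exact hv (T.ndβ.2 _ h)
  exact ⟨(β x v)⁻¹ • x, by simp [hx]⟩

include T in
theorem exists_s {z : V₂} (hz : z ≠ 0) : ∃ z', s z' z = 1 := by
  obtain ⟨x, hx⟩ : ∃ x, s x z ≠ 0 := by
    by_contra h
    push Not at h
    exact hz (T.sym.nondeg.2 _ h)
  exact ⟨(s x z)⁻¹ • x, by simp [hx]⟩

theorem tm_eq_zero {a : V₁} {y : V₂} (h : T.tm a y = 0) : a = 0 ∨ y = 0 := by
  by_cases ha : a = 0
  · exact Or.inl ha
  obtain ⟨b, hb⟩ := T.exists_β ha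
  have := congrArg (T.φ b) h
  rw [φ_tm, alt_neg T.altβ, hb, map_zero] at this
  exact Or.inr (by simpa using this)

theorem tm_injective {v : V₁} (hv : v ≠ 0) : Function.Injective (T.tm v) := by
  rw [← LinearMap.ker_eq_bot, eq_bot_iff]
  exact fun y hy => (T.tm_eq_zero hy).resolve_left hv

theorem mem_range_tm {v : V₁} (hv : v ≠ 0) {x : V} (h : ∀ b, β b v = 0 → T.φ b x = 0) :
    ∃ y, x = T.tm v y := by
  obtain ⟨v', hv'⟩ := T.exists_β hv
  refine ⟨-T.φ v' x, sub_eq_zero.1 (T.eq_zero_of_φ fun b => ?_)⟩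
  have := h (b - β b v • v') (by simp [hv'])
  simp only [map_sub, map_smul, LinearMap.sub_apply, LinearMap.smul_apply] at this
  rw [map_sub, φ_tm, alt_neg T.altβ v b]
  linear_combination (norm := module) this

theorem mem_range_tm' {z : V₂} (hz : z ≠ 0) {x : V} (h : ∀ u, s u z = 0 → T.ψ u x = 0) :
    ∃ a, x = T.tm a z := by
  obtain ⟨z', hz'⟩ := T.exists_s hz
  refine ⟨T.ψ z' x, sub_eq_zero.1 (T.eq_zero_of_ψ fun u => ?_)⟩
  have := h (u - s u z • z') (by simp [hz'])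
  simp only [map_sub, map_smul, LinearMap.sub_apply, LinearMap.smul_apply] at this
  rw [map_sub, ψ_tm, T.sym.symm z u]
  linear_combination (norm := module) this

theorem range_τ {v : V₁} (hv : v ≠ 0) : LinearMap.range (T.τ v) = LinearMap.range (T.tm v) := by
  obtain ⟨v', hv'⟩ := T.exists_β hv
  refine le_antisymm (by rintro _ ⟨x, rfl⟩; exact ⟨_, rfl⟩) ?_
  rintro _ ⟨y, rfl⟩
  exact ⟨T.tm v' y, by rw [τ_apply, φ_tm, hv', one_smul]⟩

theorem τ_τ (v : V₁) (x : V) : T.τ v (T.τ v x) = 0 := by simp [τ_apply, φ_tm, alt_self T.altβ]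

theorem τ_adj (v : V₁) (x y : V) : B (T.τ v x) y = -B x (T.τ v y) := by
  rw [alt_neg T.alt, τ_apply, τ_apply, B_φ, B_φ, T.sym.symm]

theorem τ_eq_zero {v : V₁} (hv : v ≠ 0) {x : V} : T.τ v x = 0 ↔ T.φ v x = 0 :=
  ⟨fun h => (T.tm_eq_zero h).resolve_left hv, fun h => by rw [τ_apply, h, map_zero]⟩

theorem kron_tv (v : V₁) (c : F) : T.kron (tv T.altβ v c) 1 = unip (T.τ v) (T.τ_τ v) c :=
  T.equiv_ext fun a y => by simp [kron_tm, tv_apply, unip_apply, τ_apply, φ_tm, mul_smul]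

theorem kron_sr {v b : V₁} (h : β v b = 0) (x : V) :
    T.kron (sr T.altβ v b) 1 x = x + T.tm v (T.φ b x) + T.tm b (T.φ v x) :=
  T.ext_tm (f := T.kron (sr T.altβ v b) 1) (g := LinearMap.id + T.tm v ∘ₗ T.φ b + T.tm b ∘ₗ T.φ v) (fun a y => by
    simp [kron_tm, sr_apply T.altβ h, φ_tm]) x

theorem kron_orefl {u : V₂} (hu : s u u ≠ 0) (x : V) :
    T.kron 1 (orefl T.sym hu) x = x - (2 / s u u) • T.tm (T.ψ u x) u :=
  T.ext_tm (f := T.kron 1 (orefl T.sym hu)) (g := LinearMap.id - (2 / s u u) • T.tm.flip u ∘ₗ T.ψ u) (fun a y => by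
    simp [kron_tm, orefl_apply, ψ_tm, mul_smul]) x

/-- `X` is a group of isometries containing `Sp(V₁) ⊗ O(V₂)`. -/
structure Ov (X : Subgroup (V ≃ₗ[F] V)) : Prop where
  le : X ≤ Isom B
  mem : ∀ g ∈ Isom β, ∀ t ∈ Isom s, T.kron g t ∈ X

/-- The elements of `X` acting trivially on `v^⊥ ⊗ V₂` are the obvious ones. -/
def ND (X : Subgroup (V ≃ₗ[F] V)) : Prop :=
  ∀ v ≠ 0, ∀ k ∈ X, (∀ x, T.φ v x = 0 → k x = x) → ∃ c, k = unip (T.τ v) (T.τ_τ v) c

variable {T} {X : Subgroup (V ≃ₗ[F] V)}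

theorem Ov.unip_mem (O : T.Ov X) (v : V₁) (c : F) : unip (T.τ v) (T.τ_τ v) c ∈ X :=
  T.kron_tv v c ▸ O.mem _ (tv_mem_isom _ _ _) _ (one_mem _)

theorem exists_form {v : V₁} (hv : v ≠ 0) {k : V ≃ₗ[F] V} (hk : k ∈ Isom B) (h : ∀ x, T.φ v x = 0 → k x = x) :
    ∃ A : Module.End F V₂, ∀ x, k x = x + T.tm v (A (T.φ v x)) := by
  obtain ⟨v', hv'⟩ := T.exists_β hv
  refine ⟨-(T.φ v' ∘ₗ ((k : V →ₗ[F] V) - LinearMap.id) ∘ₗ T.tm v'), fun x => ?_⟩
  obtain ⟨y, hy⟩ := T.mem_range_tm hv (x := k x - x) fun b hb => T.sym.nondeg.1 _ fun u => by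
    rw [← B_φ, map_sub, LinearMap.sub_apply, ← h (T.tm b u) (by rw [φ_tm, hb, zero_smul]), hk,
      h (T.tm b u) (by rw [φ_tm, hb, zero_smul]), sub_self]
  have e := h (x - T.tm v' (T.φ v x)) (by rw [map_sub, φ_tm, hv', one_smul, sub_self])
  have e' : k (T.tm v' (T.φ v x)) - T.tm v' (T.φ v x) = T.tm v y := by
    rw [map_sub] at e
    linear_combination (norm := module) hy - e
  simp only [LinearMap.neg_apply, LinearMap.comp_apply, LinearMap.sub_apply, LinearEquiv.coe_coe,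
    LinearMap.id_apply, e', φ_tm, alt_neg T.altβ v v', hv', neg_smul, one_smul, neg_neg]
  linear_combination (norm := module) hy

variable [FiniteDimensional F V₁] [FiniteDimensional F V₂] [FiniteDimensional F V] [Finite F]

theorem Ov.isom_le (O : T.Ov X) (h3 : 3 ≤ finrank F V₂) (h4 : 4 ≤ finrank F V₂ ∨ 5 ≤ Nat.card F) (h : ¬ T.ND X) :
    Isom B ≤ X := by
  simp only [ND, not_forall, not_exists] at h
  obtain ⟨v, hv, k, hk, hk1, hk2⟩ := h
  obtain ⟨v', hv'⟩ := T.exists_β hv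
  let 𝒜₀ : AddSubgroup (Module.End F V₂) :=
    { carrier := {A | ∃ k ∈ X, ∀ x, k x = x + T.tm v (A (T.φ v x))}
      add_mem' := by
        rintro A A' ⟨k, hk, e⟩ ⟨k', hk', e'⟩
        refine ⟨_, mul_mem hk hk', fun x => ?_⟩
        rw [LinearEquiv.mul_apply, e', e]
        simp only [map_add, φ_tm, alt_self T.altβ, zero_smul, LinearMap.add_apply, map_zero]
        abel
      zero_mem' := ⟨1, one_mem _, by simp⟩
      neg_mem' := by
        rintro A ⟨k, hk, e⟩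
        refine ⟨_, inv_mem hk, fun x => k.injective ?_⟩
        rw [apply_inv_apply, e]
        simp [φ_tm, alt_self T.altβ] }
  have conj : ∀ A ∈ 𝒜₀, ∀ g ∈ Isom β, ∀ t ∈ Isom s, ∀ c : F, g v = c • v →
      (c ^ 2) • ((t : Module.End F V₂) * A * (t⁻¹ : V₂ ≃ₗ[F] V₂)) ∈ 𝒜₀ := by
    rintro A ⟨k, hk, e⟩ g hg t ht c hc
    refine ⟨_, mul_mem (mul_mem (O.mem g hg t ht) hk) (inv_mem (O.mem g hg t ht)), fun x => ?_⟩
    rw [LinearEquiv.mul_apply, LinearEquiv.mul_apply, e, map_add, apply_inv_apply, kron_tm, kron_inv,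
      T.φ_kron (inv_mem hg), inv_inv, hc]
    simp [sq, mul_smul]
  let 𝒜 : Submodule F (Module.End F V₂) :=
    { carrier := 𝒜₀
      add_mem' := add_mem
      zero_mem' := zero_mem 𝒜₀
      smul_mem' := fun c A hA => by
        refine mem_of_sq_mul_mem (𝒜₀.comap (LinearMap.toSpanSingleton F _ A).toAddMonoidHom) one_ne_zero
          (fun a => ?_) c
        change (a ^ 2 * 1) • A ∈ 𝒜₀
        by_cases ha : a = 0
        · simp [ha]
        obtain ⟨g, hg, e⟩ := exists_isom_apply_eq T.altβ T.ndβ hv (smul_ne_zero ha hv)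
        convert conj A hA g hg 1 (one_mem _) a e using 1
        ext; simp }
  have key : ∀ z, s z z = 0 → T.tm v z ∈ Cen T.alt X := fun z hz c => by
    obtain ⟨k, hk, e⟩ := 𝒜.smul_mem c (T.sym.sq_mem h3 h4 𝒜 (by
      rintro A ⟨k, hk, e⟩ x y
      have := O.le hk (T.tm v' x) (T.tm v' y)
      rw [e, e] at this
      simp only [φ_tm, hv', one_smul, map_add, LinearMap.add_apply, B_tm_tm, alt_self T.altβ,
        alt_neg T.altβ v v'] at this
      linear_combination -this) (fun A hA u hu => by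
        have := conj A hA 1 (one_mem _) _ (orefl_mem T.sym hu) 1 (by simp)
        rwa [orefl_inv, one_pow, one_smul] at this) (by
      obtain ⟨A, hA⟩ := exists_form hv (O.le hk) hk1
      refine ⟨A, ⟨k, hk, hA⟩, fun c hc => hk2 c (LinearEquiv.ext fun x => ?_)⟩
      simp [hA, hc, unip_apply, τ_apply]) hz)
    convert hk using 1
    ext x
    simp [e, tv_apply, B_φ, mul_smul]
  have key' : ∀ b z, s z z = 0 → T.tm b z ∈ Cen T.alt X := fun b z hz => by
    by_cases hb : b = 0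
    · simpa [hb] using zero_mem_cen T.alt X
    obtain ⟨g, hg, e⟩ := exists_isom_apply_eq T.altβ T.ndβ hv hb
    simpa [kron_tm, e] using apply_mem_cen T.alt (O.mem g hg 1 (one_mem _)) (T.kron_mem hg (one_mem _)) (key z hz)
  obtain ⟨z, -, hz0, hz⟩ := SymD.exists_sing (s := s) ⊤ (by rwa [finrank_top])
  refine isom_le_of_cen_conn T.alt T.nd (exists_ne_zero_one_of_two_ne T.sym.two) (key z hz) fun S hzS hS => ?_
  let Y : Submodule F V₂ := ⨅ a, S.comap (T.tm a)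
  have hY : ∀ y, y ∈ Y ↔ ∀ a, T.tm a y ∈ S := fun y => by simp [Y]
  have step : ∀ a ≠ 0, ∀ y x, T.tm a y ∈ S → s x x = 0 → s y x ≠ 0 → x ∈ Y := fun a ha y x h1 h2 h3 => by
    have k : ∀ b, β a b ≠ 0 → T.tm b x ∈ S := fun b hb =>
      hS _ (key' b x h2) _ h1 (by rw [B_tm_tm]; exact mul_ne_zero hb h3)
    obtain ⟨a', ha'⟩ := T.exists_β ha
    have ha'' : β a a' ≠ 0 := by rw [alt_neg T.altβ, ha']; simp
    refine (hY x).2 fun b => ?_
    by_cases hb : β a b = 0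
    · simpa using sub_mem (k (b + a') (by simpa [hb] using ha'')) (k a' ha'')
    · exact k b hb
  obtain ⟨z', hz'⟩ := T.exists_s hz0
  have two := T.sym.two
  have q : s (z' - (s z' z' / 2) • z) (z' - (s z' z' / 2) • z) = 0 := by
    rw [T.sym.q_sub]
    simp only [map_smul, LinearMap.smul_apply, smul_eq_mul, hz, hz']
    field_simp; ring
  have q' : s z (z' - (s z' z' / 2) • z) ≠ 0 := by simp [hz, T.sym.symm z z', hz']
  have := T.sym.eq_top_of_sing (step v hv z _ hzS q q') (fun e => q' (by rw [e, map_zero])) q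
    fun x hx ⟨y, hy, hyx⟩ => step v hv y x ((hY y).1 hy v) hx hyx
  exact eq_top_iff.2 fun x _ => T.ind (P := (· ∈ S)) (zero_mem _)
    (fun a y => (hY y).1 (this ▸ Submodule.mem_top) a) (fun _ _ => add_mem) x

end TD

end CL.Sp
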