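import Cfsg.Agent.Cls.SpTen

set_option autoImplicit false

/-!
Overgroups `X` of `Sp(V₁) ⊗ O(V₂)` without new elements in the centre of the radical of the stabiliser of
`v ⊗ V₂`: the stabiliser of `v ⊗ V₂` in `X` consists of Kronecker products.
-/

namespace CL.Sp

open Module TensorProduct

variable {F V₁ V₂ V : Type*} [Field F] [AddCommGroup V₁] [Module F V₁] [AddCommGroup V₂] [Module F V₂]
  [AddCommGroup V] [Module F V]

namespace TD

variable {β : LinearMap.BilinForm F V₁} {s : LinearMap.BilinForm F V₂} {B : LinearMap.BilinForm F V} {T : TD β s B}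
  {X : Subgroup (V ≃ₗ[F] V)} {v : V₁}

/-- Elements of `X` in the unipotent radical of the stabiliser of `v ⊗ V₂`. -/
structure QEl (T : TD β s B) (X : Subgroup (V ≃ₗ[F] V)) (v : V₁) (g : V ≃ₗ[F] V) : Prop where
  mem : g ∈ X
  fix : ∀ y, g (T.tm v y) = T.tm v y
  sub : ∀ x, T.φ v x = 0 → ∃ y, g x = x + T.tm v y

theorem φ_of_stab {k : V ≃ₗ[F] V} (hk : k ∈ Isom B) {t : V₂ ≃ₗ[F] V₂} (h : ∀ y, k (T.tm v y) = T.tm v (t y))
    (x : V) (u : V₂) : s (T.φ v (k x)) (t u) = s (T.φ v x) u := by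
  rw [← B_φ, ← h, hk, B_φ]

theorem φ_of_fix {k : V ≃ₗ[F] V} (hk : k ∈ Isom B) (h : ∀ y, k (T.tm v y) = T.tm v y) (x : V) :
    T.φ v (k x) = T.φ v x :=
  sub_eq_zero.1 (T.sym.nondeg.1 _ fun u => by
    rw [map_sub, LinearMap.sub_apply, sub_eq_zero]; exact φ_of_stab hk (t := 1) h x u)

theorem φ_eq_zero_of_stab {k : V ≃ₗ[F] V} (hk : k ∈ Isom B) {t : V₂ ≃ₗ[F] V₂}
    (h : ∀ y, k (T.tm v y) = T.tm v (t y)) {x : V} (hx : T.φ v x = 0) : T.φ v (k x) = 0 :=
  T.sym.nondeg.1 _ fun u => by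
    rw [← apply_inv_apply t u, φ_of_stab hk h, hx, map_zero, LinearMap.zero_apply]

theorem stab_inv {k : V ≃ₗ[F] V} {t : V₂ ≃ₗ[F] V₂} (h : ∀ y, k (T.tm v y) = T.tm v (t y)) (y : V₂) :
    k⁻¹ (T.tm v y) = T.tm v (t⁻¹ y) := by
  rw [← apply_inv_apply t y, ← h, inv_apply_apply, inv_apply_apply]

theorem exists_stab [FiniteDimensional F V₂] (hv : v ≠ 0) {k : V ≃ₗ[F] V} (h : ∀ y, ∃ y', k (T.tm v y) = T.tm v y') :
    ∃ t : V₂ ≃ₗ[F] V₂, ∀ y, k (T.tm v y) = T.tm v (t y) := by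
  obtain ⟨v', hv'⟩ := T.exists_β hv
  let t : V₂ →ₗ[F] V₂ := -(T.φ v' ∘ₗ (k : V →ₗ[F] V) ∘ₗ T.tm v)
  have ht : ∀ y, k (T.tm v y) = T.tm v (t y) := fun y => by
    obtain ⟨y', e⟩ := h y
    simp [t, e, φ_tm, alt_neg T.altβ v v', hv']
  refine ⟨LinearEquiv.ofInjectiveEndo t ?_, ht⟩
  intro y y' e
  exact T.tm_injective hv (k.injective (by rw [ht, ht, e]))

theorem QEl.conj (O : T.Ov X) {g k : V ≃ₗ[F] V} (hg : QEl T X v g) (hk : k ∈ X) {t : V₂ ≃ₗ[F] V₂}
    (h : ∀ y, k (T.tm v y) = T.tm v (t y)) : QEl T X v (k * g * k⁻¹) where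
  mem := mul_mem (mul_mem hk hg.mem) (inv_mem hk)
  fix y := by
    rw [LinearEquiv.mul_apply, LinearEquiv.mul_apply, stab_inv h, hg.fix, h, apply_inv_apply]
  sub x hx := by
    obtain ⟨y, e⟩ := hg.sub _ (φ_eq_zero_of_stab (inv_mem (O.le hk)) (stab_inv h) hx)
    exact ⟨t y, by rw [LinearEquiv.mul_apply, LinearEquiv.mul_apply, e, map_add, apply_inv_apply, h]⟩

theorem qEl_sr (O : T.Ov X) {b : V₁} (h : β v b = 0) : QEl T X v (T.kron (sr T.altβ v b) 1) where
  mem := O.mem _ (sr_mem_isom _ _ _) _ (one_mem _)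
  fix y := by simp [T.kron_sr h, φ_tm, h, alt_self T.altβ]
  sub x hx := ⟨T.φ b x, by simp [T.kron_sr h, hx]⟩

theorem QEl.comm (O : T.Ov X) (N : T.ND X) (hv : v ≠ 0) {g g' : V ≃ₗ[F] V} (hg : QEl T X v g)
    (hg' : QEl T X v g') :
    ∃ c, ∀ x y, B (g x - x) (g' y - y) + B (g y - y) (g' x - x) = c * s (T.φ v x) (T.φ v y) := by
  obtain ⟨c, hc⟩ := N v hv _ (mul_mem (inv_mem (mul_mem hg'.mem hg.mem)) (mul_mem hg.mem hg'.mem)) fun x hx => by
    obtain ⟨y, e⟩ := hg.sub x hx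
    obtain ⟨y', e'⟩ := hg'.sub x hx
    have : (g * g') x = (g' * g) x := by
      simp only [LinearEquiv.mul_apply, e, e', map_add, hg.fix, hg'.fix]; abel
    rw [LinearEquiv.mul_apply, this, inv_apply_apply]
  have key : ∀ {k : V ≃ₗ[F] V}, QEl T X v k → ∀ n y, T.φ v n = 0 → B (k n - n) y = -B n (k y - y) :=
    fun {k} hk n y hn => by
      obtain ⟨z, e⟩ := hk.sub n hn
      have h1 := O.le hk.mem n y
      have h2 : B (T.tm v z) (k y) = B (T.tm v z) y := by rw [← hk.fix, O.le hk.mem, hk.fix]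
      rw [e, map_add, LinearMap.add_apply, h2] at h1
      rw [e, add_sub_cancel_left, map_sub]
      linear_combination h1
  refine ⟨-c, fun x y => ?_⟩
  have e1 := congrArg (g' * g) (LinearEquiv.congr_fun hc x)
  rw [LinearEquiv.mul_apply (g' * g)⁻¹, apply_inv_apply, unip_apply, map_add, map_smul, τ_apply] at e1
  simp only [LinearEquiv.mul_apply, hg.fix, hg'.fix] at e1
  have e2 := key hg (g' x - x) y (by rw [map_sub, φ_of_fix (O.le hg'.mem) hg'.fix, sub_self])
  have e3 := key hg' (g x - x) y (by rw [map_sub, φ_of_fix (O.le hg.mem) hg.fix, sub_self])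
  have e4 : g (g' x - x) - (g' x - x) = g' (g x - x) - (g x - x) + c • T.tm v (T.φ v x) := by
    rw [map_sub, map_sub, e1]; abel
  rw [e4, map_add, LinearMap.add_apply, e3, map_smul, LinearMap.smul_apply, alt_neg T.alt (T.tm v _), B_φ,
    alt_neg T.alt (g' x - x), T.sym.symm (T.φ v y), smul_eq_mul] at e2
  linear_combination -e2

theorem QEl.scalar [FiniteDimensional F V₂] (O : T.Ov X) (N : T.ND X) (h3 : 3 ≤ finrank F V₂) (hv : v ≠ 0)
    {g : V ≃ₗ[F] V} (hg : QEl T X v g) {b : V₁} (hb : β v b = 0) : ∃ c : F, ∀ y, g (T.tm b y) = T.tm (b + c • v) y := by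
  have two := T.sym.two
  obtain ⟨v', hv'⟩ := T.exists_β hv
  wlog hb' : β v' b = 0 generalizing b
  · obtain ⟨c, hc⟩ := this (b := b - β v' b • v) (by simp [hb, alt_self T.altβ]) (by simp [hv'])
    refine ⟨c, fun y => ?_⟩
    have := hc y
    simp only [map_sub, map_add, map_smul, LinearMap.sub_apply, LinearMap.add_apply, LinearMap.smul_apply,
      hg.fix] at this ⊢
    linear_combination (norm := module) this
  let α : (V ≃ₗ[F] V) → V₂ → V₂ := fun g y => T.φ b (g (T.tm v' y))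
  have hφ : ∀ y, T.φ v (T.tm v' y) = y := fun y => by rw [φ_tm, hv', one_smul]
  have hφb : ∀ y, T.φ b (T.tm v' y) = 0 := fun y => by rw [φ_tm, hb', zero_smul]
  have h2 : ∀ g g', QEl T X v g → QEl T X v g' → ∃ c, ∀ y y', s (α g y) (α g' y') + s (α g y') (α g' y) = c * s y y' :=
    fun g g' hg hg' => by
      obtain ⟨c, hc⟩ := hg.comm O N hv hg'
      obtain ⟨d, hd⟩ := hg.comm O N hv (hg'.conj O (O.unip_mem b 1) (t := 1) fun y => by
        simp [unip_apply, τ_apply, φ_tm, hb])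
      refine ⟨d - c, fun y y' => ?_⟩
      have e1 := hc (T.tm v' y) (T.tm v' y')
      have e2 := hd (T.tm v' y) (T.tm v' y')
      have e3 : ∀ y, (unip (T.τ b) (T.τ_τ b) 1 * g' * (unip (T.τ b) (T.τ_τ b) 1)⁻¹) (T.tm v' y) - T.tm v' y =
          g' (T.tm v' y) - T.tm v' y + T.tm b (α g' y) := fun y => by
        simp only [unip_inv, LinearEquiv.mul_apply, unip_apply, τ_apply, hφb, map_zero, smul_zero, add_zero,
          one_smul, α]
        abel
      rw [e3, e3, map_add, map_add, B_φ, B_φ, map_sub (T.φ b), map_sub (T.φ b), hφb, hφb, sub_zero, sub_zero] at e2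
      rw [hφ, hφ] at e1 e2
      linear_combination e2 - e1
  obtain ⟨c, hc⟩ := hg.comm O N hv (qEl_sr O hb)
  have h1 : ∀ y y', s (α g y) y' + s (α g y') y = c * s y y' := fun y y' => by
    have e := hc (T.tm v' y) (T.tm v' y')
    simp only [T.kron_sr hb, hφ, hφb, map_zero, add_zero, add_sub_cancel_left, B_φ, map_sub (T.φ b), sub_zero] at e
    exact e
  let A : V₂ →ₗ[F] V₂ := T.φ b ∘ₗ (g : V →ₗ[F] V) ∘ₗ T.tm v' - (c / 2) • LinearMap.id
  have hA : ∀ y, α g y = A y + (c / 2) • y := fun y => by simp [A, α]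
  have hs : ∀ y y', s (A y) y' = -s (A y') y := fun y y' => by
    have := h1 y y'
    simp only [hA, map_add, map_smul, LinearMap.add_apply, LinearMap.smul_apply, smul_eq_mul,
      T.sym.symm y' y] at this
    field_simp at this
    refine mul_left_cancel₀ two ?_
    linear_combination this
  have hA0 : (⊤ : Submodule F V₂) ≤ LinearMap.ker A := T.sym.mem_of_nonsing T.sym.ndOn_top fun u _ hu => by
    have hr := hg.conj O (O.mem 1 (one_mem _) _ (orefl_mem T.sym hu)) (t := orefl T.sym hu) fun y => by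
      simp [kron_tm]
    set g' := T.kron 1 (orefl T.sym hu) * g * (T.kron 1 (orefl T.sym hu))⁻¹ with hg'
    have hu0 : s (A u) u = 0 := mul_left_cancel₀ two (by linear_combination hs u u)
    have e : ∀ y, α g' y = α g y + (2 / s u u) • (s y (A u) • u - s y u • A u) := fun y => by
      have : α g' y = orefl T.sym hu (α g (orefl T.sym hu y)) := by
        simp only [α, hg', kron_inv, orefl_inv, LinearEquiv.mul_apply, kron_tm, T.φ_kron (one_mem _), inv_one,
          LinearEquiv.coe_one, id]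
      rw [this]
      simp only [hA, orefl_apply, map_sub, map_add, map_smul, LinearMap.add_apply, LinearMap.sub_apply,
        LinearMap.smul_apply, smul_eq_mul, hu0, hs y u, T.sym.symm (A u) y]
      match_scalars <;> field_simp <;> ring
    obtain ⟨c1, e1⟩ := h2 g g hg hg
    obtain ⟨c2, e2⟩ := h2 g g' hg hr
    obtain ⟨c3, e3⟩ := h2 g' g' hr hr
    have e4 : ∀ y y', 2 * s ((2 / s u u) • (s y (A u) • u - s y u • A u))
        ((2 / s u u) • (s y' (A u) • u - s y' u • A u)) = (c3 - 2 * c2 + c1) * s y y' := fun y y' => by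
      have a1 := e1 y y'
      have a2 := e2 y y'
      have a3 := e3 y y'
      rw [e, e] at a2 a3
      generalize (2 / s u u) • (s y (A u) • u - s y u • A u) = p at *
      generalize (2 / s u u) • (s y' (A u) • u - s y' u • A u) = p' at *
      simp only [map_add, LinearMap.add_apply, T.sym.symm p' p, T.sym.symm p (α g y'),
        T.sym.symm p' (α g y)] at a1 a2 a3
      linear_combination a3 - 2 * a2 + a1
    obtain ⟨w, -, w0, hw⟩ := exists_ne_zero_orth (B := s) ⊤ ![u, A u] (by simp; omega)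
    obtain ⟨w', hw'⟩ := T.exists_s w0
    have w1 : s w u = 0 := hw 0
    have w2 : s w (A u) = 0 := hw 1
    have k := e4 w' w
    simp only [w1, w2, zero_smul, sub_self, smul_zero, map_zero, mul_zero, hw', mul_one] at k
    refine T.sym.nondeg.2 _ fun y => ?_
    have k2 := e4 (y - (s y u / s u u) • u) (y - (s y u / s u u) • u)
    simp only [← k, zero_mul, map_sub, map_smul, LinearMap.sub_apply, LinearMap.smul_apply, smul_eq_mul,
      T.sym.symm u (A u), hu0, div_mul_cancel₀ _ hu, sub_self, zero_smul, mul_zero, sub_zero] at k2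
    simpa [two, hu] using k2
  refine ⟨-(c / 2), fun y => ?_⟩
  obtain ⟨z, hz⟩ := hg.sub (T.tm b y) (by rw [φ_tm, alt_neg T.altβ, hb, neg_zero, zero_smul])
  rw [hz, map_add, LinearMap.add_apply, map_smul, LinearMap.smul_apply, ← map_smul]
  congr 2
  refine sub_eq_zero.1 (T.sym.nondeg.1 _ fun y' => ?_)
  have e1 := O.le hg.mem (T.tm v' y') (T.tm b y)
  have e2 : α g y' = (c / 2) • y' := by rw [hA, LinearMap.mem_ker.1 (hA0 trivial), zero_add]
  rw [hz, map_add, B_φ, B_φ, B_φ, hφb, φ_of_fix (O.le hg.mem) hg.fix, hφ] at e1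
  simp only [α] at e2
  rw [e2] at e1
  simp only [map_smul, LinearMap.smul_apply, smul_eq_mul, map_zero, LinearMap.zero_apply, map_sub,
    LinearMap.sub_apply, T.sym.symm y' y, T.sym.symm y' z] at e1 ⊢
  linear_combination e1

theorem exists_sp [FiniteDimensional F V₁] (hv : v ≠ 0) {g : V ≃ₗ[F] V} (hg : g ∈ Isom B)
    (hf : ∀ y, g (T.tm v y) = T.tm v y) {y₀ y₁ : V₂} (hy : s y₀ y₁ = 1)
    (h : ∀ a, β v a = 0 → ∀ y, ∃ z, g (T.tm a y) = T.tm (T.ψ y₁ (g (T.tm a y₀))) y + T.tm v z) :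
    ∃ t ∈ Isom β, t v = v ∧ ∀ a, β v a = 0 → t a = T.ψ y₁ (g (T.tm a y₀)) := by
  have hy0 : y₀ ≠ 0 := fun e => by simp [e] at hy
  have h1 : ∀ a, β v a = 0 → β (T.ψ y₁ (g (T.tm a y₀))) v = 0 := fun a ha => by
    rw [← B_ψ, ← hf, hg, B_tm_tm, alt_neg T.altβ, ha, neg_zero, zero_mul]
  have hv1 : T.ψ y₁ (g (T.tm v y₀)) = v := by rw [hf, ψ_tm, hy, one_smul]
  obtain ⟨t, ht, e⟩ := witt T.altβ T.ndβ (LinearMap.ker (β v)) (T.ψ y₁ ∘ₗ (g : V →ₗ[F] V) ∘ₗ T.tm.flip y₀)
    (fun a ha e => by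
      obtain ⟨z, hz⟩ := h a ha y₀
      simp only [LinearMap.comp_apply, LinearEquiv.coe_coe, LinearMap.flip_apply] at e
      rw [e, map_zero, LinearMap.zero_apply, zero_add, ← hf, g.injective.eq_iff] at hz
      have h2 := congrArg (T.ψ y₁) hz
      rw [ψ_tm, ψ_tm, hy, one_smul] at h2
      rw [h2, map_smul, LinearMap.smul_apply, map_smul, map_smul, hv1, ← h2] at e
      exact e)
    (fun a ha a' ha' => by
      obtain ⟨z, hz⟩ := h a ha y₀
      obtain ⟨z', hz'⟩ := h a' ha' y₁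
      have := hg (T.tm a y₀) (T.tm a' y₁)
      rw [hz, hz'] at this
      simp only [map_add, LinearMap.add_apply, B_tm_tm, h1 a ha, alt_neg T.altβ v (T.ψ _ _), h1 a' ha',
        alt_self T.altβ, hy] at this
      simpa using this)
  exact ⟨t, ht, (e v (alt_self T.altβ v)).trans hv1, fun a ha => e a ha⟩

theorem fix_of_perp (hv : v ≠ 0) {g : V ≃ₗ[F] V} {P : V → V → Prop}
    (h0 : ∀ x x' y y', P x y → P x' y' → P (x + x') (y + y')) (hz : P 0 0) (h : ∀ a, β v a = 0 → ∀ y, P (T.tm a y) (g (T.tm a y))) {x : V} (hx : T.φ v x = 0) : P x (g x) := by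
  obtain ⟨v', hv'⟩ := T.exists_β hv
  have key : ∀ x, P (x - T.tm v' (T.φ v x)) (g (x - T.tm v' (T.φ v x))) := T.ind (by simpa using hz)
    (fun a y => by
      have := h (a - β a v • v') (by simp [alt_neg T.altβ v, hv']) y
      simpa [φ_tm] using this)
    (fun x y hx hy => by
      have := h0 _ _ _ _ hx hy
      rwa [← map_add, ← add_sub_add_comm, ← map_add, ← map_add] at this)
  simpa [hx] using key x

/-- Elements of `X` fixing `v ⊗ V₂` pointwise. -/
theorem eq_kron_of_fix [FiniteDimensional F V₁] [FiniteDimensional F V₂] (O : T.Ov X) (N : T.ND X)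
    (h3 : 3 ≤ finrank F V₂) (hv : v ≠ 0) {g : V ≃ₗ[F] V} (hg : g ∈ X) (hf : ∀ y, g (T.tm v y) = T.tm v y) :
    ∃ t ∈ Isom β, t v = v ∧ g = T.kron t 1 := by
  obtain ⟨y₁, -, hy₁, -⟩ := exists_ne_zero_orth (B := s) ⊤ (![] : Fin 0 → V₂) (by simp; omega)
  obtain ⟨y₀, hy⟩ := T.exists_s hy₁
  obtain ⟨t, ht, htv, e⟩ := exists_sp hv (O.le hg) hf hy fun a ha y => by
    obtain ⟨z, hz⟩ := T.mem_range_tm hv (x := g (T.tm a y) - T.tm (T.ψ y₁ (g (T.tm a y₀))) y) fun b hb => by
      have hb' : β v b = 0 := (alt_eq_zero_comm T.altβ).1 hb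
      obtain ⟨c, hc⟩ := ((qEl_sr O hb').conj O (inv_mem hg) (t := 1) (stab_inv (t := 1) hf)).scalar O N h3 hv ha
      have h1 : ∀ y, T.φ b (g (T.tm a y)) = c • y := fun y => by
        have := congrArg g (hc y)
        simp only [inv_inv, LinearEquiv.mul_apply, apply_inv_apply, T.kron_sr hb', φ_of_fix (O.le hg) hf, φ_tm,
          alt_neg T.altβ a v, ha, neg_zero, zero_smul, map_zero, add_zero, map_add, map_smul, LinearMap.add_apply,
          LinearMap.smul_apply, hf, add_right_inj] at this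
        exact T.tm_injective hv (by rw [this, map_smul])
      rw [map_sub, φ_tm, ← B_ψ, B_φ, h1, h1]
      simp [hy]
    exact ⟨z, by rw [← hz]; abel⟩
  have hk := O.mem t ht 1 (one_mem _)
  have hf' : ∀ y, ((T.kron t 1)⁻¹ * g) (T.tm v y) = T.tm v y := fun y => by
    rw [LinearEquiv.mul_apply, hf, kron_inv, kron_tm, inv_one, ← htv, inv_apply_apply, htv]; rfl
  have hQ : QEl T X v ((T.kron t 1)⁻¹ * g) := ⟨mul_mem (inv_mem hk) hg, hf', fun x hx =>
    fix_of_perp (T := T) hv (P := fun x y => ∃ z, y = x + T.tm v z)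
      (fun x x' y y' ⟨z, e⟩ ⟨z', e'⟩ => ⟨z + z', by rw [e, e', map_add]; abel⟩) ⟨0, by simp⟩ (fun a ha y => by
        obtain ⟨z, hz⟩ := T.mem_range_tm hv (x := ((T.kron t 1)⁻¹ * g) (T.tm a y) - T.tm a y) fun b hb => by
          have hb' : β v (t b) = 0 := by rw [← htv, ht, alt_neg T.altβ, hb, neg_zero]
          obtain ⟨c, hc⟩ := ((qEl_sr O hb').conj O (inv_mem hg) (t := 1) (stab_inv (t := 1) hf)).scalar O N h3 hv ha
          have h1 : ∀ y, T.φ (t b) (g (T.tm a y)) = c • y := fun y => by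
            have := congrArg g (hc y)
            simp only [inv_inv, LinearEquiv.mul_apply, apply_inv_apply, T.kron_sr hb', φ_of_fix (O.le hg) hf, φ_tm,
              alt_neg T.altβ a v, ha, neg_zero, zero_smul, map_zero, add_zero, map_add, map_smul,
              LinearMap.add_apply, LinearMap.smul_apply, hf, add_right_inj] at this
            exact T.tm_injective hv (by rw [this, map_smul])
          rw [map_sub, φ_tm, ← ht a b, e a ha, ← B_ψ, B_φ, h1, LinearEquiv.mul_apply, kron_inv,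
            T.φ_kron (inv_mem ht), inv_inv, h1]
          simp [hy]
        exact ⟨z, by rw [← hz]; abel⟩) hx⟩
  obtain ⟨t', ht', htv', e'⟩ := exists_sp hv (O.le hQ.mem) hf' hy fun a ha y => by
    obtain ⟨c, hc⟩ := hQ.scalar O N h3 hv ha
    exact ⟨0, by rw [hc, hc, ψ_tm, hy, one_smul, map_zero, add_zero]⟩
  have hk' := O.mem t' ht' 1 (one_mem _)
  obtain ⟨c, hc⟩ := N v hv _ (mul_mem (inv_mem hk') hQ.mem) fun x hx =>
    fix_of_perp (T := T) hv (P := fun x y => y = x) (fun _ _ _ _ e e' => by rw [e, e']) rfl (fun a ha y => by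
      obtain ⟨c, hc⟩ := hQ.scalar O N h3 hv ha
      have := e' a ha
      rw [hc, ψ_tm, hy, one_smul] at this
      rw [LinearEquiv.mul_apply, hc, ← this, kron_inv, kron_tm, inv_apply_apply, inv_one]; rfl) hx
  refine ⟨t * t' * tv T.altβ v c, mul_mem (mul_mem ht ht') (tv_mem_isom _ _ _), ?_, ?_⟩
  · rw [LinearEquiv.mul_apply, LinearEquiv.mul_apply, tv_apply_self, htv', htv]
  · rw [← T.kron_tv, inv_mul_eq_iff_eq_mul, inv_mul_eq_iff_eq_mul, kron_mul, kron_mul] at hc
    rw [hc, mul_assoc, mul_one, mul_one]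

theorem eq_kron_of_stab [FiniteDimensional F V₁] [FiniteDimensional F V₂] (O : T.Ov X) (N : T.ND X)
    (h3 : 3 ≤ finrank F V₂) (hv : v ≠ 0) {g : V ≃ₗ[F] V} (hg : g ∈ X) {t : V₂ ≃ₗ[F] V₂} (ht : t ∈ Isom s)
    (hf : ∀ y, g (T.tm v y) = T.tm v (t y)) : ∃ a ∈ Isom β, a v = v ∧ g = T.kron a t := by
  obtain ⟨a, ha, hav, e⟩ := eq_kron_of_fix O N h3 hv (mul_mem (inv_mem (O.mem 1 (one_mem _) t ht)) hg) fun y => by
    rw [LinearEquiv.mul_apply, hf, kron_inv, kron_tm, inv_apply_apply, inv_one]; rfl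
  rw [inv_mul_eq_iff_eq_mul, kron_mul, one_mul, mul_one] at e
  exact ⟨a, ha, hav, e⟩

theorem exists_mult (O : T.Ov X) (N : T.ND X) (hv : v ≠ 0) {k : V ≃ₗ[F] V} (hk : k ∈ X) {t : V₂ ≃ₗ[F] V₂}
    (h : ∀ y, k (T.tm v y) = T.tm v (t y)) :
    ∃ μ : F, (∀ x, k (T.τ v x) = μ • T.τ v (k x)) ∧ ∀ y y', s (t y) (t y') = μ * s y y' := by
  obtain ⟨c, hc⟩ := N v hv _ (mul_mem (mul_mem hk (O.unip_mem v 1)) (inv_mem hk)) fun x hx => by
    rw [LinearEquiv.mul_apply, LinearEquiv.mul_apply, unip_apply, τ_apply,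
      φ_eq_zero_of_stab (inv_mem (O.le hk)) (stab_inv h) hx]
    simp [apply_inv_apply]
  have h1 : ∀ x, k (T.τ v x) = c • T.τ v (k x) := fun x => by
    have := LinearEquiv.congr_fun hc (k x)
    simpa [unip_apply, inv_apply_apply] using this
  refine ⟨c, h1, fun y y' => ?_⟩
  obtain ⟨v', hv'⟩ := T.exists_β hv
  have h2 := h1 (T.tm v' y)
  rw [τ_apply, τ_apply, φ_tm, hv', one_smul, h, ← map_smul] at h2
  rw [T.tm_injective hv h2, map_smul, LinearMap.smul_apply, φ_of_stab (O.le hk) h, φ_tm, hv', one_smul, smul_eq_mul]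

/-- Elements of `X` acting trivially on `V₁ ⊗ z^⊥` for a singular vector `z` are trivial. -/
theorem eq_one_of_ψ [FiniteDimensional F V₂] (O : T.Ov X) (N : T.ND X) (h3 : 3 ≤ finrank F V₂) {z : V₂} (hz0 : z ≠ 0)
    (hz : s z z = 0) {k : V ≃ₗ[F] V} (hk : k ∈ X) (h : ∀ x, T.ψ z x = 0 → k x = x) : k = 1 := by
  have two := T.sym.two
  obtain ⟨z', hz'⟩ := T.exists_s hz0
  let A : V₁ →ₗ[F] V₁ := T.ψ z' ∘ₗ ((k : V →ₗ[F] V) - LinearMap.id) ∘ₗ T.tm.flip z'
  have hA : ∀ x, k x = x + T.tm (A (T.ψ z x)) z := fun x => by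
    obtain ⟨a, ha⟩ := T.mem_range_tm' hz0 (x := k x - x) fun u hu => T.ndβ.1 _ fun b => by
      rw [← B_ψ, map_sub, LinearMap.sub_apply, ← h (T.tm b u) (by rw [ψ_tm, hu, zero_smul]), O.le hk,
        h (T.tm b u) (by rw [ψ_tm, hu, zero_smul]), sub_self]
    have e := h (x - T.tm (T.ψ z x) z') (by rw [map_sub, ψ_tm, hz', one_smul, sub_self])
    have e' : k (T.tm (T.ψ z x) z') - T.tm (T.ψ z x) z' = T.tm a z := by
      rw [map_sub] at e
      linear_combination (norm := module) ha - e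
    simp only [A, LinearMap.comp_apply, LinearMap.sub_apply, LinearEquiv.coe_coe, LinearMap.id_apply,
      LinearMap.flip_apply, e', ψ_tm, T.sym.symm z z', hz', one_smul]
    linear_combination (norm := module) ha
  have hA' : ∀ x, k⁻¹ x = x - T.tm (A (T.ψ z x)) z := fun x => k.injective (by
    rw [apply_inv_apply, hA]; simp [ψ_tm, hz])
  have q : ∀ b, β (A b) b = 0 := fun b => by
    by_cases hb : b = 0
    · simp [hb]
    have hψ : ∀ x, T.ψ z (T.τ b x) = β (T.ψ z x) b • b := fun x => by rw [τ_apply, ψ_tm, ← B_φ, B_ψ]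
    have e : ∀ x, (unip (T.τ b) (T.τ_τ b) 1 * k * unip (T.τ b) (T.τ_τ b) (-1) *
        (unip (T.τ b) (T.τ_τ b) (-1) * k * unip (T.τ b) (T.τ_τ b) 1) * k⁻¹ * k⁻¹) x =
        x - (2 * β (A b) b * β (T.ψ z x) b) • T.tm b z := fun x => by
      have hτ : ∀ a, T.τ b (T.tm a z) = β a b • T.tm b z := fun a => by rw [τ_apply, φ_tm, map_smul]
      simp only [LinearEquiv.mul_apply, hA', hA, unip_apply, map_add, map_sub, map_smul, hψ, ψ_tm, hz, hτ, τ_τ,
        alt_self T.altβ, zero_smul, smul_zero, LinearMap.add_apply, LinearMap.sub_apply, LinearMap.smul_apply,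
        map_zero, LinearMap.zero_apply, smul_eq_mul]
      module
    obtain ⟨c, hc⟩ := N b hb _ (mul_mem (mul_mem (mul_mem (mul_mem (mul_mem (O.unip_mem b 1) hk) (O.unip_mem b (-1)))
      (mul_mem (mul_mem (O.unip_mem b (-1)) hk) (O.unip_mem b 1))) (inv_mem hk)) (inv_mem hk)) fun x hx => by
        rw [e, ← B_ψ, B_φ, hx]; simp
    obtain ⟨b', hb'⟩ := T.exists_β hb
    have e2 : ∀ y, (2 * β (A b) b * s y z) • z + c • y = 0 := fun y => by
      have := e (T.tm b' y)
      rw [hc, unip_apply, τ_apply, φ_tm, ψ_tm, map_smul β, LinearMap.smul_apply, hb', one_smul, smul_eq_mul,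
        mul_one] at this
      refine T.tm_injective hb ?_
      rw [map_add, map_smul, map_smul, map_zero]
      linear_combination (norm := module) this
    have e3 := e2 z
    rw [hz, mul_zero, zero_smul, zero_add, smul_eq_zero] at e3
    have e4 := e2 z'
    rw [e3.resolve_right hz0, hz'] at e4
    simpa [two, hz0] using e4
  ext x
  have hA0 : ∀ a, A a = 0 := fun a => T.ndβ.1 _ fun b => by
    have h1 := q (a + b)
    have h2 := O.le hk (T.tm a z') (T.tm b z')
    simp only [hA, ψ_tm, hz', one_smul, map_add, LinearMap.add_apply, B_tm_tm, hz, T.sym.symm z z', q,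
      alt_neg T.altβ a (A b)] at h1 h2
    exact mul_left_cancel₀ two (by linear_combination h1 + h2)
  rw [hA, hA0]; simp

end TD

end CL.Sp
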