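import Cfsg.Agent.Cls.SpTen2

set_option autoImplicit false

/-!
Overgroups `X` of `Sp(V₁) ⊗ O(V₂)`: the `X`-conjugates of the subspaces `v ⊗ V₂` and their intersections.
-/

namespace CL.Sp

open Module TensorProduct

variable {F V₁ V₂ V : Type*} [Field F] [AddCommGroup V₁] [Module F V₁] [AddCommGroup V₂] [Module F V₂]
  [AddCommGroup V] [Module F V]

namespace TD

variable {β : LinearMap.BilinForm F V₁} {s : LinearMap.BilinForm F V₂} {B : LinearMap.BilinForm F V} {T : TD β s B}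
  {X : Subgroup (V ≃ₗ[F] V)} {v : V₁}

/-- The conjugate of `τ v` by `g`. -/
noncomputable def cj (T : TD β s B) (v : V₁) (g : V ≃ₗ[F] V) : V →ₗ[F] V :=
  (g : V →ₗ[F] V) ∘ₗ T.τ v ∘ₗ ((g⁻¹ : V ≃ₗ[F] V) : V →ₗ[F] V)

/-- The image of `v ⊗ V₂` under `g`. -/
noncomputable def W (T : TD β s B) (v : V₁) (g : V ≃ₗ[F] V) : Submodule F V := LinearMap.range (T.cj v g)

theorem cj_apply (g : V ≃ₗ[F] V) (x : V) : T.cj v g x = g (T.τ v (g⁻¹ x)) := rfl

theorem cj_one : T.cj v 1 = T.τ v := rfl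

theorem cj_cj (g : V ≃ₗ[F] V) (x : V) : T.cj v g (T.cj v g x) = 0 := by
  simp [cj_apply, inv_apply_apply, τ_τ]

theorem cj_adj {g : V ≃ₗ[F] V} (hg : g ∈ Isom B) (x y : V) : B (T.cj v g x) y = -B x (T.cj v g y) := by
  rw [cj_apply, cj_apply, isom_left hg, τ_adj, isom_right hg]

theorem unip_cj (g : V ≃ₗ[F] V) (c : F) : unip (T.cj v g) (cj_cj g) c = g * unip (T.τ v) (T.τ_τ v) c * g⁻¹ := by
  ext x; simp [unip_apply, cj_apply, apply_inv_apply]

theorem Ov.unip_cj_mem (O : T.Ov X) {g : V ≃ₗ[F] V} (hg : g ∈ X) (c : F) : unip (T.cj v g) (cj_cj g) c ∈ X :=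
  unip_cj (T := T) g c ▸ mul_mem (mul_mem hg (O.unip_mem v c)) (inv_mem hg)

theorem mem_W (hv : v ≠ 0) {g : V ≃ₗ[F] V} {x : V} : x ∈ T.W v g ↔ ∃ y, x = g (T.tm v y) := by
  constructor
  · rintro ⟨x, rfl⟩; exact ⟨_, rfl⟩
  · rintro ⟨y, rfl⟩
    obtain ⟨x, hx⟩ : T.tm v y ∈ LinearMap.range (T.τ v) := T.range_τ hv ▸ ⟨y, rfl⟩
    exact ⟨g x, by rw [cj_apply, inv_apply_apply, hx]⟩

theorem W_mul (hv : v ≠ 0) (k g : V ≃ₗ[F] V) : T.W v (k * g) = (T.W v g).map (k : V →ₗ[F] V) := by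
  ext x
  simp only [mem_W hv, Submodule.mem_map]
  exact ⟨fun ⟨y, e⟩ => ⟨_, ⟨y, rfl⟩, e.symm⟩, fun ⟨_, ⟨y, rfl⟩, e⟩ => ⟨y, e.symm⟩⟩

theorem mem_W_mul (hv : v ≠ 0) {k g : V ≃ₗ[F] V} {x : V} : x ∈ T.W v (k * g) ↔ k⁻¹ x ∈ T.W v g := by
  simp only [mem_W hv]
  exact ⟨fun ⟨y, e⟩ => ⟨y, by rw [e, LinearEquiv.mul_apply, inv_apply_apply]⟩,
    fun ⟨y, e⟩ => ⟨y, by rw [LinearEquiv.mul_apply, ← e, apply_inv_apply]⟩⟩

theorem mem_W_one (hv : v ≠ 0) {x : V} : x ∈ T.W v 1 ↔ ∃ y, x = T.tm v y := mem_W hv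

theorem finrank_W (hv : v ≠ 0) (g : V ≃ₗ[F] V) : finrank F (T.W v g) = finrank F V₂ := by
  have : T.W v g = LinearMap.range ((g : V →ₗ[F] V) ∘ₗ T.tm v) := by
    ext x; rw [mem_W hv]; exact ⟨fun ⟨y, e⟩ => ⟨y, e.symm⟩, fun ⟨y, e⟩ => ⟨y, e.symm⟩⟩
  rw [this]
  exact LinearMap.finrank_range_of_inj (g.injective.comp (T.tm_injective hv))

theorem W_iso {g : V ≃ₗ[F] V} (hg : g ∈ Isom B) {x y : V} (hx : x ∈ T.W v g) (hy : y ∈ T.W v g) : B x y = 0 := by
  obtain ⟨x, rfl⟩ := hx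
  obtain ⟨y, rfl⟩ := hy
  rw [cj_adj hg, cj_cj, map_zero, neg_zero]

theorem cj_eq_zero {g : V ≃ₗ[F] V} (hg : g ∈ Isom B) {x : V} (h : ∀ w ∈ T.W v g, B w x = 0) : T.cj v g x = 0 := by
  rw [← LinearMap.mem_ker, ker_eq_orth_range T.alt T.nd (cj_adj hg)]; exact h

theorem exists_W_eq [FiniteDimensional F V₁] (O : T.Ov X) (hv : v ≠ 0) {b : V₁} (hb : b ≠ 0) :
    ∃ k ∈ X, T.W v k = T.W b 1 := by
  obtain ⟨a, ha, e⟩ := exists_isom_apply_eq T.altβ T.ndβ hv hb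
  refine ⟨_, O.mem a ha 1 (one_mem _), Submodule.ext fun x => ?_⟩
  simp only [mem_W hv, mem_W hb, kron_tm, e]; rfl

/-- The subspace `V₁ ⊗ E`. -/
noncomputable def LT (T : TD β s B) (E : Submodule F V₂) : Submodule F V := ⨅ b, E.comap (T.φ b)

theorem mem_LT {E : Submodule F V₂} {x : V} : x ∈ T.LT E ↔ ∀ b, T.φ b x ∈ E := by simp [LT]

theorem tm_mem_LT {E : Submodule F V₂} (a : V₁) {y : V₂} (hy : y ∈ E) : T.tm a y ∈ T.LT E :=
  mem_LT.2 fun b => by rw [φ_tm]; exact E.smul_mem _ hy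

theorem LT_spec [FiniteDimensional F V₁] [FiniteDimensional F V₂] (E : Submodule F V₂) :
    finrank F (T.LT E) = finrank F V₁ * finrank F E ∧
      ∀ S : Submodule F V, (∀ a, ∀ y ∈ E, T.tm a y ∈ S) → T.LT E ≤ S := by
  classical
  let c := Module.finBasis F V₁
  let b := β.dualBasis T.ndβ c
  have ex : ∀ x, x = ∑ i, T.tm (b i) (T.φ (c i) x) := fun x => by
    simpa using T.ext_tm (f := LinearMap.id) (g := ∑ i, T.tm (b i) ∘ₗ T.φ (c i)) (fun a y => by
      simp only [LinearMap.id_apply, LinearMap.sum_apply, LinearMap.comp_apply, φ_tm, map_smul]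
      conv_lhs => rw [← b.sum_repr a]
      simp [b]) x
  let Θ : (Fin (finrank F V₁) → E) →ₗ[F] V := ∑ i, T.tm (b i) ∘ₗ E.subtype ∘ₗ LinearMap.proj i
  have hΘ : ∀ f, Θ f = ∑ i, T.tm (b i) (f i) := fun f => by simp [Θ]
  have hinj : Function.Injective Θ := by
    rw [← LinearMap.ker_eq_bot, eq_bot_iff]
    intro f hf
    ext j
    have := congrArg (T.φ (c j)) (LinearMap.mem_ker.1 hf)
    simpa [hΘ, φ_tm, b, LinearMap.BilinForm.apply_dualBasis_left] using this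
  have hr : LinearMap.range Θ = T.LT E := le_antisymm
    (by rintro _ ⟨f, rfl⟩; rw [hΘ]; exact sum_mem fun i _ => tm_mem_LT _ (f i).2)
    fun x hx => ⟨fun i => ⟨_, mem_LT.1 hx (c i)⟩, by rw [hΘ]; exact (ex x).symm⟩
  refine ⟨by rw [← hr, LinearMap.finrank_range_of_inj hinj]; simp [Module.finrank_pi_fintype], fun S hS x hx => ?_⟩
  rw [ex x]
  exact sum_mem fun i _ => hS _ _ (mem_LT.1 hx _)

include T in
theorem two_le_finrank [FiniteDimensional F V₁] (hv : v ≠ 0) : 2 ≤ finrank F V₁ := by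
  obtain ⟨v', hv'⟩ := T.exists_β hv
  have : LinearIndependent F ![v, v'] := LinearIndependent.pair_iff.2 fun a b h => by
    have e1 := congrArg (β v') h
    have e2 := congrArg (β · v) h
    simp only [map_add, map_smul, hv', alt_self T.altβ, smul_eq_mul, mul_one, mul_zero, add_zero, map_zero,
      LinearMap.add_apply, LinearMap.smul_apply, zero_add, LinearMap.zero_apply] at e1 e2
    exact ⟨e1, e2⟩
  simpa using this.fintype_card_le_finrank

/-- Distinct conjugates of `v ⊗ V₂` meet in dimension at most `d`. -/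
def MM (T : TD β s B) (X : Subgroup (V ≃ₗ[F] V)) (v : V₁) (d : ℕ) : Prop :=
  ∀ g ∈ X, ∀ g' ∈ X, T.W v g ≠ T.W v g' → finrank F (T.W v g ⊓ T.W v g' : Submodule F V) ≤ d

theorem finrank_inf_mul (hv : v ≠ 0) (k g g' : V ≃ₗ[F] V) :
    finrank F (T.W v (k * g) ⊓ T.W v (k * g') : Submodule F V) = finrank F (T.W v g ⊓ T.W v g' : Submodule F V) := by
  rw [W_mul hv, W_mul hv, ← Submodule.map_inf _ k.injective, LinearEquiv.finrank_map_eq]

variable [FiniteDimensional F V₁] [FiniteDimensional F V₂] [FiniteDimensional F V]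

theorem MM.eq_of_lt {d : ℕ} (h : MM T X v d) {g g' : V ≃ₗ[F] V} (hg : g ∈ X) (hg' : g' ∈ X) {S : Submodule F V}
    (h1 : S ≤ T.W v g) (h2 : S ≤ T.W v g') (h3 : d < finrank F S) : T.W v g = T.W v g' := by
  by_contra hne
  have := (Submodule.finrank_mono (le_inf h1 h2)).trans (h g hg g' hg' hne)
  omega

theorem refl_mem (O : T.Ov X) (hv : v ≠ 0) {g : V ≃ₗ[F] V} {u : V₂} (hu : s u u ≠ 0)
    (h : T.W v g = T.W v (T.kron 1 (orefl T.sym hu) * g)) {w : V} (hw : w ∈ T.W v g) : T.tm (T.ψ u w) u ∈ T.W v g := by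
  have h1 : T.kron 1 (orefl T.sym hu) w ∈ T.W v g := by rw [h, mem_W_mul hv, inv_apply_apply]; exact hw
  have := Submodule.smul_mem _ (s u u / 2) (sub_mem hw h1)
  rwa [kron_orefl, sub_sub_cancel, smul_smul, div_mul_div_cancel₀ T.sym.two, div_self hu, one_smul] at this

theorem ker_ψ_le (hv : v ≠ 0) (g : V ≃ₗ[F] V) {u : V₂} (hu : s u u ≠ 0) :
    T.W v g ⊓ LinearMap.ker (T.ψ u) ≤ T.W v (T.kron 1 (orefl T.sym hu) * g) := fun w hw => by
  rw [mem_W_mul hv, kron_inv, inv_one, orefl_inv, kron_orefl, LinearMap.mem_ker.1 hw.2]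
  simpa using hw.1

theorem finrank_inf_ker_ψ (hv : v ≠ 0) (g : V ≃ₗ[F] V) (u : V₂) :
    finrank F V₂ ≤ finrank F (T.W v g ⊓ LinearMap.ker (T.ψ u) : Submodule F V) + finrank F V₁ := by
  have h1 := LinearMap.finrank_range_add_finrank_ker ((T.ψ u).domRestrict (T.W v g))
  have h2 := Submodule.finrank_le (LinearMap.range ((T.ψ u).domRestrict (T.W v g)))
  rw [← Submodule.finrank_map_subtype_eq _ (LinearMap.ker _), finrank_W hv] at h1
  have h3 : finrank F ((LinearMap.ker ((T.ψ u).domRestrict (T.W v g))).map (T.W v g).subtype) ≤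
      finrank F (T.W v g ⊓ LinearMap.ker (T.ψ u) : Submodule F V) :=
    Submodule.finrank_mono (by rintro _ ⟨x, hx, rfl⟩; exact ⟨x.2, hx⟩)
  omega

/-- A conjugate of a root group stabilising `v ⊗ V₂` is a Kronecker product with one trivial factor. -/
theorem cj_cases (O : T.Ov X) (N : T.ND X) (h3 : 3 ≤ finrank F V₂) (hv : v ≠ 0) {b : V₁} (hb : b ≠ 0)
    {g : V ≃ₗ[F] V} (hg : g ∈ X) (h : ∀ y, T.cj v g (T.tm b y) ∈ T.W b 1) :
    (∃ a : V₁ →ₗ[F] V₁, ∀ x y, T.cj v g (T.tm x y) = T.tm (a x) y) ∨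
      ∃ t : V₂ →ₗ[F] V₂, ∀ x y, T.cj v g (T.tm x y) = T.tm x (t y) := by
  have two := T.sym.two
  have hk := O.unip_cj_mem (v := v) hg 1
  obtain ⟨t, ht⟩ := exists_stab (T := T) hb (k := unip (T.cj v g) (cj_cj g) 1) fun y => by
    obtain ⟨y', e⟩ := (mem_W_one hb).1 (h y)
    exact ⟨y + y', by rw [unip_apply, e, one_smul, map_add]⟩
  have h1 : ∀ y, T.cj v g (T.tm b y) = T.tm b (t y - y) := fun y => by
    rw [map_sub, ← ht, unip_apply, one_smul, add_sub_cancel_left]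
  have h2 : ∀ y, t (t y - y) = t y - y := fun y =>
    sub_eq_zero.1 (T.tm_injective hb (by rw [← h1, ← h1, cj_cj, map_zero]))
  obtain ⟨μ, -, hμ⟩ := exists_mult O N hb hk ht
  have hI : t ∈ Isom s := by
    by_cases h0 : μ = 1
    · intro y y'; rw [hμ, h0, one_mul]
    have h4 : ∀ y y', s (t y - y) (t y' - y') = 0 := fun y y' => by
      have := hμ (t y - y) (t y' - y')
      rw [h2, h2] at this
      exact mul_left_cancel₀ (sub_ne_zero.2 h0) (by linear_combination -this)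
    have h5 : ∀ y, t y = y := fun y => sub_eq_zero.1 (T.sym.nondeg.1 _ fun y' => by
      have := hμ (t y - y) y'
      have h6 := h4 y y'
      rw [h2] at this
      rw [map_sub (s _)] at h6
      exact mul_left_cancel₀ (sub_ne_zero.2 h0) (by linear_combination h6 - this))
    intro y y'; rw [h5, h5]
  obtain ⟨a, -, -, e⟩ := eq_kron_of_stab O N h3 hb hk hI ht
  have e1 : ∀ x y, T.cj v g (T.tm x y) = T.tm (a x) (t y) - T.tm x y := fun x y => by
    rw [← kron_tm, ← e, unip_apply, one_smul, add_sub_cancel_left]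
  by_cases h0 : ∀ y, t y = y
  · exact Or.inl ⟨(a : V₁ →ₗ[F] V₁) - LinearMap.id, fun x y => by simp [e1, h0]⟩
  push Not at h0
  obtain ⟨y, hy⟩ := h0
  have hy0 := sub_ne_zero.2 hy
  have e2 : ∀ x, a (a x - x) = a x - x := fun x => by
    have := cj_cj (T := T) (v := v) g (T.tm x (t y - y))
    rw [e1, h2, ← LinearMap.sub_apply, ← map_sub, e1, h2, ← LinearMap.sub_apply, ← map_sub] at this
    exact sub_eq_zero.1 ((T.tm_eq_zero this).resolve_right hy0)
  have e3 : ∀ x, a x = x := fun x => by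
    have := cj_cj (T := T) (v := v) g (T.tm x y)
    have h4 : t (t y) = t y + (t y - y) := by rw [← h2, map_sub]; abel
    have h5 : a (a x) = a x + (a x - x) := by rw [← e2, map_sub]; abel
    rw [e1, map_sub, e1, e1, h4, h5] at this
    have h6 : (2 : F) • T.tm (a x - x) (t y - y) = 0 := by
      simp only [map_sub, map_add, LinearMap.sub_apply, LinearMap.add_apply] at this ⊢
      linear_combination (norm := module) this
    exact sub_eq_zero.1 ((T.tm_eq_zero ((smul_eq_zero.1 h6).resolve_left two)).resolve_right hy0)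
  exact Or.inr ⟨(t : V₂ →ₗ[F] V₂) - LinearMap.id, fun x y => by simp [e1, e3]⟩

theorem not_stab (O : T.Ov X) (N : T.ND X) (h3 : 3 ≤ finrank F V₂) (hex : finrank F V₁ = 2 → finrank F V₂ ≠ 4)
    (hv : v ≠ 0) {g : V ≃ₗ[F] V} (hg : g ∈ X) (hne : T.W v g ≠ T.W v 1) (h0 : T.W v g ⊓ T.W v 1 ≠ ⊥)
    (hM : MM T X v (finrank F (T.W v g ⊓ T.W v 1 : Submodule F V))) (h : ∀ y, T.cj v g (T.tm v y) ∈ T.W v 1) :
    False := by
  obtain ⟨v', hv'⟩ := T.exists_β hv
  obtain ⟨_, ⟨hy, hy'⟩, hy0⟩ := Submodule.exists_mem_ne_zero_of_ne_bot h0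
  obtain ⟨y₀, rfl⟩ := (mem_W_one hv).1 hy'
  have hy₀ : y₀ ≠ 0 := fun e => hy0 (by simp [e])
  rcases cj_cases O N h3 hv hv hg h with ⟨a, ha⟩ | ⟨t, ht⟩
  · obtain ⟨u, hu⟩ := T.exists_s hy₀
    obtain ⟨x, hx⟩ := hy
    have e := T.ext_tm (f := T.ψ u ∘ₗ T.cj v g) (g := a ∘ₗ T.ψ u) (fun x y => by simp [ha, ψ_tm]) x
    rw [LinearMap.comp_apply, hx, ψ_tm, T.sym.symm, hu, one_smul, LinearMap.comp_apply] at e
    refine hne (Submodule.eq_of_le_of_finrank_le (fun m hm => ?_) (by rw [finrank_W hv, finrank_W hv])).symm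
    obtain ⟨y, rfl⟩ := (mem_W_one hv).1 hm
    exact ⟨T.tm (T.ψ u x) y, by rw [ha, ← e]⟩
  · set E := LinearMap.range t
    have hW : T.W v g = T.LT E := le_antisymm
      (by
        rintro _ ⟨x, rfl⟩
        refine mem_LT.2 fun b => ⟨T.φ b x, ?_⟩
        exact (T.ext_tm (f := T.φ b ∘ₗ T.cj v g) (g := t ∘ₗ T.φ b) (fun x y => by simp [ht, φ_tm]) x).symm)
      ((LT_spec E).2 _ (by rintro a _ ⟨y, rfl⟩; exact ⟨_, ht a y⟩))
    have h1 := (LT_spec (T := T) E).1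
    rw [← hW, finrank_W hv] at h1
    have hE : ∀ y, T.tm v y ∈ T.W v g → y ∈ E := fun y hy => by
      have := mem_LT.1 (hW ▸ hy) v'
      rwa [φ_tm, alt_neg T.altβ, hv', neg_smul, one_smul, neg_mem_iff] at this
    have h2 : finrank F (T.W v g ⊓ T.W v 1 : Submodule F V) ≤ finrank F E := by
      refine (Submodule.finrank_mono (t := E.map (T.tm v)) fun x hx => ?_).trans (Submodule.finrank_map_le _ _)
      obtain ⟨y, rfl⟩ := (mem_W_one hv).1 hx.2
      exact ⟨y, hE y hx.1, rfl⟩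
    have hiso : ∀ y ∈ E, ∀ y' ∈ E, s y y' = 0 := fun y hy y' hy' => by
      have := W_iso (O.le hg) (hW ▸ tm_mem_LT v' hy) (hW ▸ tm_mem_LT v hy')
      rwa [B_tm_tm, hv', one_mul] at this
    have hy₁ := hE y₀ hy
    obtain ⟨u, hu, hu'⟩ : ∃ u, s u u ≠ 0 ∧ s y₀ u ≠ 0 := by
      by_contra hc
      push Not at hc
      exact hy₀ (T.sym.nondeg.1 _ fun u =>
        T.sym.mem_of_nonsing (R := LinearMap.ker (s y₀)) T.sym.ndOn_top (fun u _ hu => hc u hu) trivial)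
    have h4 := hM g hg _ (mul_mem (O.mem 1 (one_mem _) _ (orefl_mem T.sym hu)) hg) fun e => by
      have k : ∀ a, (s y₀ u) • T.tm a u ∈ T.W v g := fun a => by
        have := refl_mem O hv hu e (hW ▸ tm_mem_LT a hy₁)
        rwa [ψ_tm, map_smul, LinearMap.smul_apply] at this
      have := W_iso (O.le hg) (k v') (k v)
      simp [B_tm_tm, hv', hu, hu'] at this
    have h5 : T.LT (E ⊓ LinearMap.ker (s u)) ≤ T.W v g ⊓ T.W v (T.kron 1 (orefl T.sym hu) * g) :=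
      (LT_spec _).2 _ fun a y hy => ⟨hW ▸ tm_mem_LT a hy.1, ker_ψ_le hv g hu ⟨hW ▸ tm_mem_LT a hy.1, by
        change T.ψ u (T.tm a y) = 0
        rw [ψ_tm, T.sym.symm, LinearMap.mem_ker.1 hy.2, zero_smul]⟩⟩
    have h6 := Submodule.finrank_mono h5
    rw [(LT_spec _).1] at h6
    have h7 := SymD.finrank_inf_ker E (s u)
    have h8 := T.two_le_finrank hv
    by_cases h9 : finrank F E ≤ 1
    · obtain ⟨z, hz⟩ := finrank_le_one_iff.1 h9
      have h10 : ∀ y ∈ E, ∃ c : F, c • y₀ = y := fun y hy => by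
        obtain ⟨c, hc⟩ := hz ⟨y, hy⟩
        obtain ⟨c', hc'⟩ := hz ⟨y₀, hy₁⟩
        have hc0 : c' ≠ 0 := fun e => hy₀ (by simpa [e] using (congrArg Subtype.val hc').symm)
        refine ⟨c / c', ?_⟩
        rw [show y₀ = c' • (z : V₂) from (congrArg Subtype.val hc').symm, smul_smul, div_mul_cancel₀ _ hc0]
        exact congrArg Subtype.val hc
      have := eq_one_of_ψ O N h3 hy₀ (hiso _ hy₁ _ hy₁) (O.unip_cj_mem (v := v) hg 1) fun x hx => by
        rw [unip_apply, cj_eq_zero (O.le hg) fun w hw => ?_, smul_zero, add_zero]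
        refine (LT_spec (T := T) E).2 (LinearMap.ker (B.flip x)) (fun a y hy => ?_) (hW ▸ hw)
        obtain ⟨c, rfl⟩ := h10 y hy
        rw [LinearMap.mem_ker, LinearMap.BilinForm.flip_apply, map_smul, map_smul, LinearMap.smul_apply,
          alt_neg T.alt, B_ψ, hx]
        simp
      obtain ⟨x, hx⟩ := hy
      have e := LinearEquiv.congr_fun this x
      rw [unip_apply, hx] at e
      exact hy0 (by simpa using e)
    · have h11 : finrank F V₁ * finrank F (E ⊓ LinearMap.ker (s u) : Submodule F V₂) ≤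
          finrank F (E ⊓ LinearMap.ker (s u) : Submodule F V₂) + 1 := by omega
      have h12 : 1 ≤ finrank F (E ⊓ LinearMap.ker (s u) : Submodule F V₂) := by omega
      have h13 : finrank F V₁ = 2 := by nlinarith
      rw [h13] at h1 h11
      exact hex h13 (by omega)

theorem pp_of (O : T.Ov X) (hv : v ≠ 0) {g g' : V ≃ₗ[F] V} (hg : g ∈ X) (hg' : g' ∈ X)
    (hM : MM T X v (finrank F (T.W v g ⊓ T.W v g' : Submodule F V)))
    (h : ¬ ∀ w ∈ T.W v g', T.cj v g w ∈ T.W v g') {w : V} (hw : w ∈ T.W v g') (h' : T.cj v g w ∈ T.W v g') :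
    w ∈ T.W v g := by
  have hk := O.unip_cj_mem (v := v) hg (-1)
  have hm : ∀ x, x ∈ T.W v (unip (T.cj v g) (cj_cj g) (-1) * g') ↔ x + T.cj v g x ∈ T.W v g' := fun x => by
    rw [mem_W_mul hv, unip_inv, neg_neg, unip_apply, one_smul]
  have h1 := hM g' hg' _ (mul_mem hk hg') fun e => h fun x hx => by
    simpa using sub_mem ((hm x).1 (e ▸ hx)) hx
  have h2 : T.W v g ⊓ T.W v g' ≤ T.W v g' ⊓ T.W v (unip (T.cj v g) (cj_cj g) (-1) * g') := by
    rintro _ ⟨⟨x, rfl⟩, hx⟩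
    exact ⟨hx, (hm _).2 (by rwa [cj_cj, add_zero])⟩
  have h3 := Submodule.eq_of_le_of_finrank_le h2 h1
  exact (h3.ge ⟨hw, (hm w).2 (add_mem hw h')⟩).1

theorem rootPair₀ (O : T.Ov X) (N : T.ND X) (hv : v ≠ 0) {g : V ≃ₗ[F] V} (hg : g ∈ X)
    (h1 : ∀ m ∈ T.W v 1, T.cj v g m ∈ T.W v 1 → m ∈ T.W v g) (h2 : ∀ w ∈ T.W v g, T.τ v w ∈ T.W v g → w ∈ T.W v 1) :
    RootPair₀ B X (T.τ v) (T.cj v g) where
  τ2 := T.τ_τ v
  σ2 := cj_cj g
  τa := T.τ_adj v
  σa := cj_adj (O.le hg)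
  τm := O.unip_mem v
  σm := O.unip_cj_mem hg
  cen k hk h := N v hv k hk fun x hx => h x ((T.τ_eq_zero hv).2 hx)
  rk := ((finrank_W hv g).trans (finrank_W hv 1).symm).le
  pp := h1
  pp' := h2

theorem rootPair₀_of_ne_bot (O : T.Ov X) (N : T.ND X) (h3 : 3 ≤ finrank F V₂)
    (hex : finrank F V₁ = 2 → finrank F V₂ ≠ 4) (hv : v ≠ 0) {g : V ≃ₗ[F] V} (hg : g ∈ X)
    (hne : T.W v g ≠ T.W v 1) (h0 : T.W v g ⊓ T.W v 1 ≠ ⊥)
    (hM : MM T X v (finrank F (T.W v g ⊓ T.W v 1 : Submodule F V))) : RootPair₀ B X (T.τ v) (T.cj v g) := by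
  refine rootPair₀ O N hv hg (fun m hm h => pp_of O hv hg (one_mem _) hM (fun hc => ?_) hm h)
    fun w hw h => pp_of O hv (one_mem _) hg (by rwa [inf_comm]) (fun hc => ?_) hw h
  · exact not_stab O N h3 hex hv hg hne h0 hM fun y => hc _ ((mem_W_one hv).2 ⟨y, rfl⟩)
  · have e := finrank_inf_mul (T := T) hv g g⁻¹ 1
    rw [mul_inv_cancel, mul_one, inf_comm] at e
    refine not_stab O N h3 hex hv (inv_mem hg) (fun e' => hne ?_) (fun e' => h0 ?_) (e ▸ hM) fun y => ?_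
    · have := congrArg (Submodule.map (g : V →ₗ[F] V)) e'
      rw [← W_mul hv, ← W_mul hv, mul_inv_cancel, mul_one] at this
      exact this.symm
    · rw [e', finrank_bot] at e
      exact Submodule.finrank_eq_zero.1 e
    · have := hc (g (T.tm v y)) ((mem_W hv).2 ⟨y, rfl⟩)
      rw [cj_apply, inv_inv, ← mem_W_mul hv, mul_one]
      exact this

end TD

end CL.Sp
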