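import Cfsg.Agent.Cls.SpTen3

set_option autoImplicit false

/-!
Overgroups `X` of `Sp(V₁) ⊗ O(V₂)`: two distinct conjugates of `v ⊗ V₂` meet trivially.
-/

namespace CL.Sp

open Module TensorProduct

variable {F V₁ V₂ V : Type*} [Field F] [AddCommGroup V₁] [Module F V₁] [AddCommGroup V₂] [Module F V₂]
  [AddCommGroup V] [Module F V]

namespace TD

variable {β : LinearMap.BilinForm F V₁} {s : LinearMap.BilinForm F V₂} {B : LinearMap.BilinForm F V} {T : TD β s B}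
  {X : Subgroup (V ≃ₗ[F] V)} {v : V₁}
  [FiniteDimensional F V₁] [FiniteDimensional F V₂] [FiniteDimensional F V]

omit [FiniteDimensional F V₁] [FiniteDimensional F V] in
/-- An element of `X` fixing `V₁ ⊗ z` pointwise, `z` singular. -/
theorem B_eq_zero_of_fix (O : T.Ov X) (N : T.ND X) (h3 : 3 ≤ finrank F V₂) {z : V₂} (hz0 : z ≠ 0) (hz : s z z = 0)
    {k : V ≃ₗ[F] V} (hk : k ∈ X) (h : ∀ a, k (T.tm a z) = T.tm a z) (a : V₁) {e e' : V₂} (he : s z e = 0)
    (he' : s z e' = 0) : B (k (T.tm a e)) (T.tm a e') = 0 := by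
  obtain ⟨z', hz'⟩ := T.exists_s hz0
  let L := LinearMap.range (T.tm.flip z)
  have hL : ∀ x, x ∈ B.orthogonal L ↔ T.ψ z x = 0 := fun x => by
    rw [mem_orth' T.alt]
    exact ⟨fun h => T.ndβ.1 _ fun b => by rw [← B_ψ]; exact h _ ⟨b, rfl⟩,
      fun h => by rintro _ ⟨b, rfl⟩; rw [LinearMap.flip_apply, B_ψ, h, map_zero, LinearMap.zero_apply]⟩
  have ei : ∀ e, s z e = 0 → ∃ t ∈ X, ∀ x, t x =
      x + T.tm (T.ψ e x) z - T.tm (T.ψ z x) e - (s e e / 2) • T.tm (T.ψ z x) z := fun e he => by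
    obtain ⟨t, ht, et⟩ := T.sym.exists_eich hz he
    refine ⟨_, O.mem 1 (one_mem _) t ht, T.ext_tm (f := T.kron 1 t) (g := LinearMap.id + T.tm.flip z ∘ₗ T.ψ e -
      T.tm.flip e ∘ₗ T.ψ z - (s e e / 2) • T.tm.flip z ∘ₗ T.ψ z) fun a y => ?_⟩
    simp [kron_tm, et, ψ_tm, mul_smul]
  obtain ⟨t, ht, et⟩ := ei e he
  obtain ⟨t', ht', et'⟩ := ei e' he'
  have hk' : ∀ a, k⁻¹ (T.tm a z) = T.tm a z := fun a => by rw [← h, inv_apply_apply, h]
  have hψ : ∀ x, T.ψ z (k⁻¹ x) = T.ψ z x := fun x => sub_eq_zero.1 (T.ndβ.1 _ fun b => by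
    rw [map_sub, LinearMap.sub_apply, ← B_ψ, ← B_ψ, ← isom_right (O.le hk), h, sub_self])
  have eg : ∀ x, (k * t * k⁻¹) x = x + T.tm (T.ψ e (k⁻¹ x)) z - k (T.tm (T.ψ z x) e) -
      (s e e / 2) • T.tm (T.ψ z x) z := fun x => by
    simp only [LinearEquiv.mul_apply, et, map_add, map_sub, map_smul, apply_inv_apply, h, hψ]
  have hg := mul_mem (mul_mem hk ht) (inv_mem hk)
  have f1 : ∀ x ∈ L, (k * t * k⁻¹) x = x := by
    rintro _ ⟨b, rfl⟩; simp [eg, hk', ψ_tm, hz, he]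
  have f2 : ∀ x ∈ L, t' x = x := by rintro _ ⟨b, rfl⟩; simp [et', ψ_tm, hz, he']
  have f3 : ∀ x ∈ B.orthogonal L, (k * t * k⁻¹) x - x ∈ L := fun x hx =>
    ⟨T.ψ e (k⁻¹ x), by simp [eg, (hL x).1 hx]⟩
  have f4 : ∀ x ∈ B.orthogonal L, t' x - x ∈ L := fun x hx => ⟨T.ψ e' x, by simp [et', (hL x).1 hx]⟩
  have hc := eq_one_of_ψ O N h3 hz0 hz (mul_mem (inv_mem (mul_mem ht' hg)) (mul_mem hg ht')) fun x hx => by
    have a1 := f1 _ (f4 x ((hL x).2 hx))
    have a2 := f2 _ (f3 x ((hL x).2 hx))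
    rw [map_sub] at a1 a2
    have : (k * t * k⁻¹ * t') x = (t' * (k * t * k⁻¹)) x := by
      rw [LinearEquiv.mul_apply, LinearEquiv.mul_apply t']
      linear_combination (norm := module) a1 - a2
    rw [LinearEquiv.mul_apply, this, inv_apply_apply]
  have := eq_zero_of_radical_comm T.alt T.sym.two (O.le hg) (O.le ht') f1 f2 f3 f4
    (inv_mul_eq_one.1 hc).symm (T.tm a z')
  have b1 : ∀ c, B (k (T.tm a e)) (T.tm c z) = 0 := fun c => by
    rw [← h, O.le hk, B_tm_tm, T.sym.symm, he, mul_zero]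
  rw [eg, et', T.ψ_tm z, hz', one_smul] at this
  simpa [b1, B_tm_tm, hz, he', T.sym.symm e' z] using this

variable [Finite F]

theorem false_of_meet (O : T.Ov X) (N : T.ND X) (h3 : 3 ≤ finrank F V₂) (h4 : 4 ≤ finrank F V₂ ∨ 5 ≤ Nat.card F)
    (hex : finrank F V₁ = 2 → finrank F V₂ ≠ 4) (hv : v ≠ 0) {g : V ≃ₗ[F] V} (hg : g ∈ X)
    (hne : T.W v g ≠ T.W v 1) (h0 : T.W v g ⊓ T.W v 1 ≠ ⊥)
    (hM : MM T X v (finrank F (T.W v g ⊓ T.W v 1 : Submodule F V))) : False := by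
  have R₀ := rootPair₀_of_ne_bot O N h3 hex hv hg hne h0 hM
  obtain ⟨v', hv'⟩ := T.exists_β hv
  have hM1 : ∀ y, T.tm v y ∈ LinearMap.range (T.τ v) := fun y => (mem_W_one hv).2 ⟨y, rfl⟩
  set σ := T.cj v g with hσ
  let D := (T.W v g).comap (T.tm v)
  have hD : ∀ y, y ∈ D ↔ T.tm v y ∈ T.W v g := fun y => Iff.rfl
  have refl : s.IsRefl := fun x y h => by rw [T.sym.symm]; exact h
  have f2 : ∀ w ∈ T.W v g, T.φ v w ∈ s.orthogonal D := fun w hw => mem_orth.2 fun y hy => by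
    rw [T.sym.symm, ← B_φ]; exact W_iso (O.le hg) hw hy
  have f1 : ∀ y ∈ s.orthogonal D, ∃ w ∈ T.W v g, T.φ v w = y := fun y hy => by
    have : s.orthogonal ((T.W v g).map (T.φ v)) ≤ D := fun u hu => R₀.pp _ (hM1 u) (by
      rw [cj_eq_zero (O.le hg) fun w hw => by rw [B_φ]; exact mem_orth.1 hu _ ⟨w, hw, rfl⟩]
      exact zero_mem _)
    have h1 := LinearMap.BilinForm.orthogonal_le this hy
    rwa [LinearMap.BilinForm.orthogonal_orthogonal T.sym.nondeg refl] at h1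
  have f3 : ∀ y ∈ D, y ∈ s.orthogonal D → y = 0 := fun y hy hy' => by
    obtain ⟨w, hw, rfl⟩ := f1 y hy'
    obtain ⟨u, rfl⟩ := (mem_W_one hv).1 (R₀.pp' w hw hy)
    simp [φ_tm, alt_self T.altβ]
  have hE : NdOn s (s.orthogonal D) := fun n hn h => f3 n (by
    rw [← LinearMap.BilinForm.orthogonal_orthogonal T.sym.nondeg refl D]; exact mem_orth.2 h) hn
  obtain ⟨_, ⟨hy, hy'⟩, hy0⟩ := Submodule.exists_mem_ne_zero_of_ne_bot h0
  obtain ⟨y₀, rfl⟩ := (mem_W_one hv).1 hy'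
  have hy₀ : y₀ ≠ 0 := fun e => hy0 (by simp [e])
  have f4 : ∀ k ∈ X, (∀ x, T.τ v x = 0 → σ x = 0 → k x = x) → ∀ t : V₂ ≃ₗ[F] V₂,
      (∀ y, k (T.tm v y) = T.tm v (t y)) → (∀ y ∈ D, t y = y) ∧ (∀ x, k (T.τ v x) = T.τ v (k x)) ∧ t ∈ Isom s :=
    fun k hk h t ht => by
      have a1 : ∀ y ∈ D, t y = y := fun y hy => T.tm_injective hv (by
        obtain ⟨x, hx⟩ := (hD y).1 hy
        rw [← ht, h _ (by simp [τ_apply, φ_tm, alt_self T.altβ]) (by rw [← hx]; exact cj_cj g x)])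
      obtain ⟨μ, h1, h2⟩ := exists_mult O N hv hk ht
      have : μ = 1 := by
        by_contra hμ
        refine hy₀ (f3 y₀ hy (mem_orth.2 fun y hy1 => ?_))
        have := h2 y y₀
        rw [a1 y hy1, a1 y₀ hy] at this
        exact mul_left_cancel₀ (sub_ne_zero.2 hμ) (by linear_combination -this)
      exact ⟨a1, by simpa [this] using h1, fun y y' => by rw [h2, this, one_mul]⟩
  have R : RootPair B X (T.τ v) σ := ⟨R₀, fun k hk h1 h2 => by
    obtain ⟨t, ht⟩ := exists_stab (T := T) hv (k := k) fun y => (mem_W_one hv).1 (h2 _ (hM1 y))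
    exact (f4 k hk h1 t ht).2.1⟩
  have hnle : ¬ T.W v 1 ≤ T.W v g := fun e =>
    hne (Submodule.eq_of_le_of_finrank_le e (by rw [finrank_W hv, finrank_W hv])).symm
  obtain ⟨h5, h33, ε, hε, hrel, ι, hι, eι⟩ := R.exists_inv T.alt T.nd T.sym.two O.le hnle
  have hτM : ∀ y, T.τ v (T.tm v y) = 0 := fun y => by simp [τ_apply, φ_tm, alt_self T.altβ]
  obtain ⟨t, ht⟩ := exists_stab (T := T) hv (k := ι) fun y =>
    ⟨y - ε • T.φ v (σ (T.tm v y)), by rw [eι, hτM, map_zero, add_zero, map_sub, map_smul, τ_apply]⟩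
  obtain ⟨t1, -, t2⟩ := f4 ι hι (fun x h1 h2 => by simp [eι, h1, h2]) t ht
  obtain ⟨a, ha, hav, e⟩ := eq_kron_of_stab O N h3 hv hι t2 ht
  have hY : ∀ x, T.φ v (T.τ v (σ x) + σ (T.τ v x)) = 0 → σ (T.τ v x) = 0 := fun x hx => by
    rw [map_add, (T.τ_eq_zero hv).1 (T.τ_τ v _), zero_add, ← T.τ_eq_zero hv] at hx
    exact R₀.σ_eq_zero ⟨x, rfl⟩ (R₀.pp' _ ⟨_, rfl⟩ (by rw [hx]; exact zero_mem _))
  have ha1 : ∀ b, a b = b := fun b => by
    have e1 := eι (T.tm b y₀)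
    rw [e, kron_tm, t1 y₀ hy] at e1
    have e2 : T.tm (a b - b) y₀ = -ε • (T.τ v (σ (T.tm b y₀)) + σ (T.τ v (T.tm b y₀))) := by
      rw [map_sub, LinearMap.sub_apply, e1]; module
    have e3 := congrArg (T.φ v) e2
    rw [φ_tm, map_sub, LinearMap.sub_apply, ← ha b v, hav, sub_self, zero_smul, map_smul, eq_comm, smul_eq_zero,
      neg_eq_zero] at e3
    rw [hY _ (e3.resolve_left hε), add_zero, τ_apply, ← map_smul] at e2
    have e4 := congrArg (T.φ v') e2
    rw [φ_tm, φ_tm, alt_neg T.altβ v, hv', neg_smul, one_smul] at e4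
    have e5 := f3 _ (D.smul_mem _ hy) (e4 ▸ neg_mem (Submodule.smul_mem _ _ (f2 _ ⟨_, rfl⟩)))
    rw [e5, eq_comm, neg_eq_zero] at e4
    rw [e4, map_zero] at e2
    exact sub_eq_zero.1 ((T.tm_eq_zero e2).resolve_right hy₀)
  have ht2 : ∀ y ∈ s.orthogonal D, t y = -y := fun y hy => by
    have e1 := hrel (T.tm v y)
    simp only [hτM, map_zero, zero_add, add_zero, τ_τ] at e1
    have e2 : T.tm v (y + ε • T.φ v (σ (T.tm v y))) ∈ T.W v g := by
      by_contra hc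
      refine R₀.τσ_notMem (hM1 _) hc ?_
      rw [map_add, map_smul, ← τ_apply, map_add, map_add, map_smul, map_smul, ← neg_neg ε, neg_smul, ← e1,
        add_neg_cancel]
      exact zero_mem _
    have e3 := f3 _ e2 (add_mem hy (Submodule.smul_mem _ _ (f2 _ ⟨_, rfl⟩)))
    refine T.tm_injective hv ?_
    have e4 := congrArg (T.tm v) e3
    rw [map_add, map_smul, map_zero, ← τ_apply] at e4
    rw [← ht, eι, hτM, map_zero, add_zero, map_neg]
    have : (3 : F) • T.tm v y = 0 := by rw [h33, zero_smul]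
    linear_combination (norm := module) this - e4
  have hDtop : D ≠ ⊤ := fun e => hnle fun x hx => by
    obtain ⟨y, rfl⟩ := (mem_W_one hv).1 hx
    exact (hD y).1 (e ▸ trivial)
  have hrk := LinearMap.BilinForm.finrank_orthogonal T.sym.nondeg D
  have hlt := Submodule.finrank_lt hDtop
  obtain ⟨y₁, hy₁, hy₁0⟩ := Submodule.exists_mem_ne_zero_of_ne_bot (p := s.orthogonal D)
    (fun e => by rw [e, finrank_bot] at hrk; omega)
  have hline : ∀ b, β b v = 0 → ∃ c : F, b = c • v := fun b hb => by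
    have e1 := eι (T.tm b y₁)
    rw [e, kron_tm, ht2 y₁ hy₁, ha1, map_neg] at e1
    have e2 : T.tm b y₁ = -ε • (T.τ v (σ (T.tm b y₁)) + σ (T.τ v (T.tm b y₁))) := by
      have : (3 : F) • T.tm b y₁ = 0 := by rw [h33, zero_smul]
      linear_combination (norm := module) this + e1
    rw [τ_apply (x := T.tm b y₁), φ_tm, hb, zero_smul, map_zero, map_zero, add_zero, τ_apply, ← map_smul] at e2
    obtain ⟨u, hu⟩ := T.exists_s hy₁0
    have e3 := congrArg (T.ψ u) e2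
    rw [ψ_tm, ψ_tm, T.sym.symm, hu, one_smul] at e3
    exact ⟨_, e3⟩
  have hn1 : finrank F V₁ = 2 := by
    refine le_antisymm ?_ (T.two_le_finrank hv)
    have h1 := SymD.finrank_inf_ker (⊤ : Submodule F V₁) (β.flip v)
    have h2 : finrank F (⊤ ⊓ LinearMap.ker (β.flip v) : Submodule F V₁) ≤ finrank F (F ∙ v) :=
      Submodule.finrank_mono fun b hb => by
        obtain ⟨c, rfl⟩ := hline b hb.2
        exact Submodule.smul_mem _ _ (Submodule.mem_span_singleton_self v)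
    rw [finrank_span_singleton hv] at h2
    rw [finrank_top] at h1
    omega
  have hn2 : 5 ≤ finrank F V₂ := by have := hex hn1; omega
  have hd : finrank F (T.W v g ⊓ T.W v 1 : Submodule F V) = finrank F D := by
    have : T.W v g ⊓ T.W v 1 = D.map (T.tm v) := by
      ext x
      exact ⟨fun ⟨h1, h2⟩ => by obtain ⟨y, rfl⟩ := (mem_W_one hv).1 h2; exact ⟨y, h1, rfl⟩,
        fun ⟨y, h1, h2⟩ => h2 ▸ ⟨h1, hM1 y⟩⟩
    rw [this, (Submodule.equivMapOfInjective _ (T.tm_injective hv) D).finrank_eq]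
  rw [hd] at hM
  by_cases hd3 : 3 ≤ finrank F D
  · obtain ⟨z, hz, hz0, hzz⟩ := SymD.exists_sing (s := s) D hd3
    have hx := O.unip_mem v
    have hy := O.unip_cj_mem (v := v) hg
    have hk := mul_mem (mul_mem (mul_mem (hx 1) (hy 1)) (hx (-1))) (hy (-1))
    have key := fun e' => B_eq_zero_of_fix O N h3 hz0 hzz hk (e' := e') (fun b => by
      have e1 := eι (T.tm b z)
      rw [e, kron_tm, t1 z hz, ha1, eq_comm, sub_eq_self, smul_eq_zero] at e1
      have e2 := e1.resolve_left hε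
      have e3 := hY _ (by rw [e2, map_zero])
      rw [e3, add_zero] at e2
      simp only [LinearEquiv.mul_apply, unip_apply, map_add, map_smul, ← hσ, e2, e3, τ_τ, R₀.σ2, map_zero]
      module) v (mem_orth.1 hy₁ z hz)
    simp only [LinearEquiv.mul_apply, unip_apply, map_add, map_smul, ← hσ, hτM, τ_τ, R₀.σ2, LinearMap.add_apply,
      LinearMap.smul_apply, B_φ, (T.τ_eq_zero hv).1 (T.τ_τ v _), (T.τ_eq_zero hv).1 (hτM _), map_zero,
      LinearMap.zero_apply, smul_eq_mul] at key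
    have e1 : T.φ v (σ (T.τ v (σ (T.tm v y₁)))) = 0 := hE _ (f2 _ ⟨_, rfl⟩) fun u hu => by
      rw [T.sym.symm]
      linear_combination key u (mem_orth.1 hu z hz)
    refine R₀.τσ_notMem ⟨_, rfl⟩ (R₀.τσ_notMem (hM1 y₁) fun e => hy₁0 (f3 _ e hy₁)) ?_
    rw [(T.τ_eq_zero hv).2 e1]
    exact zero_mem _
  · obtain ⟨c, hc⟩ := T.sym.exists_le_of_cover hE (by omega) (fun c : F => (T.W v g).comap (T.tm (v' + c • v)))
      (fun c c' hc x hx y hy => by
        have := W_iso (O.le hg) hx hy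
        simp only [B_tm_tm, map_add, map_smul, LinearMap.add_apply, LinearMap.smul_apply, alt_self T.altβ, hv',
          alt_neg T.altβ v v', smul_eq_mul] at this
        exact mul_left_cancel₀ (sub_ne_zero.2 hc) (by linear_combination -this))
      (fun u hu qu => by
        have h1 := finrank_inf_ker_ψ (T := T) hv g u
        have h2 := hM.eq_of_lt hg (mul_mem (O.mem 1 (one_mem _) _ (orefl_mem T.sym qu)) hg) inf_le_left
          (ker_ψ_le hv g qu) (by omega)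
        obtain ⟨w, hw, e⟩ := f1 u hu
        have h6 := Submodule.smul_mem _ (s u u)⁻¹ (refl_mem O hv qu h2 hw)
        obtain ⟨c, hc⟩ := hline ((s u u)⁻¹ • T.ψ u w - v') (by
          simp only [map_sub, map_smul, LinearMap.sub_apply, LinearMap.smul_apply, ← B_ψ, B_φ, e, hv', smul_eq_mul,
            inv_mul_cancel₀ qu, sub_self])
        refine ⟨c, ?_⟩
        rw [Submodule.mem_comap, ← hc, add_sub_cancel, map_smul, LinearMap.smul_apply]
        exact h6)
    have hb : v' + c • v ≠ 0 := fun e => by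
      have := congrArg (β · v) e
      simp [hv', alt_self T.altβ] at this
    obtain ⟨k, hk, ek⟩ := exists_W_eq O hv hb
    have h1 := hM.eq_of_lt hg hk (S := (s.orthogonal D).map (T.tm (v' + c • v)))
      (by rintro _ ⟨y, hy, rfl⟩; exact hc hy) (by rintro _ ⟨y, hy, rfl⟩; exact ek ▸ (mem_W_one hb).2 ⟨y, rfl⟩)
      (by rw [← (Submodule.equivMapOfInjective _ (T.tm_injective hb) _).finrank_eq]; omega)
    obtain ⟨y, hy2⟩ := (mem_W_one hb).1 (ek ▸ h1 ▸ hy)
    have e1 := congrArg (T.φ v) hy2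
    simp only [φ_tm, alt_self T.altβ, zero_smul, map_add, map_smul, LinearMap.add_apply, LinearMap.smul_apply, hv',
      smul_zero, add_zero, one_smul] at e1
    exact hy0 (by rw [hy2, ← e1, map_zero])

theorem exists_W_eq_of_disjoint (O : T.Ov X) (N : T.ND X) (h3 : 3 ≤ finrank F V₂) (hv : v ≠ 0) (hM : MM T X v 0)
    {g : V ≃ₗ[F] V} (hg : g ∈ X) : ∃ b ≠ 0, T.W v g = T.W b 1 := by
  by_contra hc
  push Not at hc
  obtain ⟨v', hv'⟩ := T.exists_β hv
  have : Nontrivial V₂ := Module.nontrivial_of_finrank_pos (R := F) (by omega)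
  have hM1 : ∀ y, T.tm v y ∈ LinearMap.range (T.τ v) := fun y => (mem_W_one hv).2 ⟨y, rfl⟩
  have heq : ∀ k ∈ X, ∀ k' ∈ X, ∀ x ∈ T.W v k, x ∈ T.W v k' → x ≠ 0 → T.W v k = T.W v k' :=
    fun k hk k' hk' x h1 h2 h0 => hM.eq_of_lt hk hk' (S := F ∙ x) ((Submodule.span_singleton_le_iff_mem _ _).2 h1)
      ((Submodule.span_singleton_le_iff_mem _ _).2 h2) (by rw [finrank_span_singleton h0]; exact one_pos)
  have pure : ∀ b y, T.tm b y ∈ T.W v g → T.tm b y = 0 := fun b y h => by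
    by_contra h0
    have hb : b ≠ 0 := fun e => h0 (by simp [e])
    obtain ⟨k, hk, ek⟩ := exists_W_eq O hv hb
    exact hc b hb ((heq g hg k hk _ h (ek ▸ (mem_W_one hb).2 ⟨y, rfl⟩) h0).trans ek)
  obtain ⟨w₀, hw₀, hw0⟩ := Submodule.exists_mem_ne_zero_of_ne_bot (p := T.W v g) fun e => by
    have := finrank_W (T := T) hv g
    rw [e, finrank_bot] at this
    omega
  have inj : ∀ b ≠ 0, ∀ w ∈ T.W v g, T.φ b w = 0 → w = 0 := fun b hb w hw h => by
    by_contra h0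
    have h1 := heq g hg _ (mul_mem (O.unip_mem b (-1)) hg) w hw (by
      rw [mem_W_mul hv, unip_inv, unip_apply, τ_apply, h]; simpa using hw) h0
    have h2 : ∀ w ∈ T.W v g, T.φ b w = 0 := fun w hw => by
      have h4 : w ∈ T.W v (unip (T.τ b) (T.τ_τ b) (-1) * g) := h1 ▸ hw
      rw [mem_W_mul hv, unip_inv, unip_apply, neg_neg, one_smul] at h4
      exact (T.τ_eq_zero hb).1 (pure _ _ (by simpa [τ_apply] using sub_mem h4 hw))
    obtain ⟨a, -, -, e⟩ := eq_kron_of_fix O N h3 hb (O.unip_cj_mem (v := v) hg 1) fun y => by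
      rw [unip_apply, cj_eq_zero (O.le hg) fun w hw => by rw [B_φ, h2 w hw]; simp]; simp
    obtain ⟨x, rfl⟩ := hw₀
    refine hw0 (T.ext_tm (f := T.cj v g) (g := 0) (fun a₀ y => ?_) x)
    have e1 := LinearEquiv.congr_fun e (T.tm a₀ y)
    rw [unip_apply, one_smul, kron_tm] at e1
    have e2 : T.cj v g (T.tm a₀ y) = T.tm (a a₀ - a₀) y := by
      rw [map_sub, LinearMap.sub_apply, ← sub_eq_of_eq_add' e1.symm]; rfl
    rw [LinearMap.zero_apply, e2]
    exact pure _ _ ⟨_, e2⟩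
  have hn1 : 3 ≤ finrank F V₁ := by
    by_contra hlt
    have h1 : (⊤ : Submodule F V₂) ≤ LinearMap.ker (T.ψ.flip w₀) :=
      T.sym.mem_of_nonsing T.sym.ndOn_top fun u _ hu => by
        have h1 := finrank_inf_ker_ψ (T := T) hv g u
        have h2 := hM.eq_of_lt hg (mul_mem (O.mem 1 (one_mem _) _ (orefl_mem T.sym hu)) hg) inf_le_left
          (ker_ψ_le hv g hu) (by omega)
        exact (T.tm_eq_zero (pure _ _ (refl_mem O hv hu h2 hw₀))).resolve_right fun e => hu (by simp [e])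
    exact hw0 (T.eq_zero_of_ψ fun u => h1 trivial)
  have surj : ∀ y, ∃ w ∈ T.W v g, T.φ v w = y := fun y => by
    obtain ⟨w, hw⟩ := (LinearMap.injective_iff_surjective_of_finrank_eq_finrank
      (f := (T.φ v).domRestrict (T.W v g)) (finrank_W hv g)).1 (by
        rw [← LinearMap.ker_eq_bot, eq_bot_iff]
        exact fun w hw => Subtype.ext (inj v hv w w.2 hw)) y
    exact ⟨w, w.2, hw⟩
  have R₀ := rootPair₀ O N hv hg (fun m hm h => by
      obtain ⟨y, rfl⟩ := (mem_W_one hv).1 hm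
      obtain ⟨y', e⟩ := (mem_W_one hv).1 h
      rw [pure v y' ⟨_, e⟩] at e
      have : y = 0 := T.sym.nondeg.2 _ fun u => by
        obtain ⟨_, ⟨x, rfl⟩, rfl⟩ := surj u
        rw [← B_φ, cj_adj (O.le hg), e, map_zero, neg_zero]
      simp [this])
    fun w hw h => by
      rw [inj v hv w hw ((T.τ_eq_zero hv).1 (pure _ _ h))]
      exact zero_mem _
  set σ := T.cj v g with hσ
  have f4 : ∀ k ∈ X, (∀ x, T.τ v x = 0 → σ x = 0 → k x = x) → (∀ m ∈ LinearMap.range (T.τ v),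
      k m ∈ LinearMap.range (T.τ v)) → ∀ y, k (T.tm v y) = T.tm v y := fun k hk h1 h2 => by
    obtain ⟨t, ht⟩ := exists_stab (T := T) hv (k := k) fun y => (mem_W_one hv).1 (h2 _ (hM1 y))
    obtain ⟨a, -, a0, ha⟩ := exists_ne_zero_orth (B := β) ⊤ ![v, v'] (by simp; omega)
    have a1 : β a v = 0 := ha 0
    have a2 : β a v' = 0 := ha 1
    obtain ⟨b₀, hb₀⟩ := T.exists_β a0
    have b1 : β v (b₀ - β b₀ v • v') = 0 := by simp [alt_neg T.altβ v, hv']
    have b2 : β a (b₀ - β b₀ v • v') = -1 := by simp [alt_neg T.altβ a b₀, hb₀, a2]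
    generalize b₀ - β b₀ v • v' = b at b1 b2
    obtain ⟨c, hc⟩ := ((qEl_sr O b1).conj O hk ht).scalar O N h3 hv ((alt_eq_zero_comm T.altβ).1 a1)
    have ht1 : ∀ y, t y = -c • y := fun y => by
      obtain ⟨m, hm, w, w1, w2, e⟩ := R₀.exists_add T.alt T.nd (v := T.tm a y) (by simp [τ_apply, φ_tm, a1])
      obtain ⟨u, rfl⟩ := (mem_W_one hv).1 hm
      have e1 : k⁻¹ (T.tm a y) = T.tm a y + T.tm v (t⁻¹ u - u) := by
        rw [e, map_add, stab_inv ht, ← h1 w w1 w2, inv_apply_apply, h1 w w1 w2, map_sub]; abel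
      have e2 := hc y
      rw [LinearEquiv.mul_apply, LinearEquiv.mul_apply, T.kron_sr b1, map_add, map_add, apply_inv_apply, ht, e1] at e2
      simp only [map_add, φ_tm, a1, b1, b2, alt_self T.altβ, zero_smul, add_zero, map_zero, map_smul,
        LinearMap.add_apply, LinearMap.smul_apply, add_right_inj] at e2
      refine T.tm_injective hv ?_
      rw [map_smul]
      linear_combination (norm := module) -e2
    obtain ⟨y₀, hy₀⟩ := exists_ne (0 : V₂)
    have hc0 : -c ≠ 0 := fun e => hy₀ (t.map_eq_zero_iff.1 (by rw [ht1, e, zero_smul]))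
    generalize -c = l at ht1 hc0
    by_cases hl : l = 1
    · intro y; rw [ht, ht1, hl, one_smul]
    exfalso
    obtain ⟨a₀, ha₀, e₀⟩ := exists_isom_apply_eq T.altβ T.ndβ (smul_ne_zero hc0 hv) hv
    obtain ⟨a₁, ha₁, ea₁, e₁⟩ := eq_kron_of_fix O N h3 hv (mul_mem (O.mem a₀ ha₀ 1 (one_mem _)) hk) fun y => by
      rw [LinearEquiv.mul_apply, ht, ht1, map_smul, ← LinearMap.smul_apply, ← map_smul, kron_tm, e₀]; rfl
    rw [← eq_inv_mul_iff_mul_eq, kron_inv, kron_mul, inv_one, mul_one] at e₁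
    have hI := mul_mem (inv_mem ha₀) ha₁
    have hv1 : (a₀⁻¹ * a₁) v = l • v := by rw [LinearEquiv.mul_apply, ea₁, ← e₀, inv_apply_apply, e₀]
    generalize a₀⁻¹ * a₁ = a₂ at e₁ hI hv1
    have hβ : β (a₂ v' - v') v ≠ 0 := fun e => hl (by
      have := hI v' v
      rw [hv1, map_smul, hv', smul_eq_mul] at this
      rw [map_sub, LinearMap.sub_apply, hv'] at e
      linear_combination this - l * e)
    obtain ⟨c₀, -, c0, hc₀⟩ := exists_ne_zero_orth (B := β) ⊤ ![v, a₂ v' - v'] (by simp; omega)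
    have c1 : β v c₀ = 0 := (alt_eq_zero_comm T.altβ).1 (hc₀ 0)
    have c2 : β (a₂ v' - v') c₀ = 0 := (alt_eq_zero_comm T.altβ).1 (hc₀ 1)
    have hmem : ∀ x, k x - x ∈ T.W v 1 ⊔ T.W v g := fun x => by
      rw [← orth_orth T.alt T.nd (T.W v 1 ⊔ T.W v g)]
      refine mem_orth.2 fun n hn => ?_
      have := h1 n (cj_eq_zero (g := 1) (one_mem _) fun w hw => mem_orth.1 hn w (Submodule.mem_sup_left hw))
        (cj_eq_zero (O.le hg) fun w hw => mem_orth.1 hn w (Submodule.mem_sup_right hw))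
      rw [map_sub, ← this, O.le hk, this, sub_self]
    obtain ⟨m, hm, w, hw, e⟩ := Submodule.mem_sup.1 (hmem (T.tm v' ((β (a₂ v' - v') v)⁻¹ • T.φ v w₀)))
    obtain ⟨u, rfl⟩ := (mem_W_one hv).1 hm
    rw [e₁, kron_tm, LinearEquiv.coe_one, id, ← LinearMap.sub_apply, ← map_sub] at e
    have e1 := congrArg (T.φ v) e
    have e2 := congrArg (T.φ c₀) e
    rw [map_add, φ_tm, φ_tm, alt_self T.altβ, zero_smul, zero_add, smul_smul, mul_inv_cancel₀ hβ, one_smul] at e1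
    rw [map_add, φ_tm, φ_tm, c1, c2, zero_smul, zero_smul, zero_add] at e2
    rw [inj c₀ c0 w hw e2, map_zero] at e1
    exact hw0 (inj v hv w₀ hw₀ e1.symm)
  have R : RootPair B X (T.τ v) σ := ⟨R₀, fun k hk h1 h2 => by
    have h4 := f4 k hk h1 h2
    intro x
    rw [τ_apply, τ_apply, h4, φ_of_fix (O.le hk) h4]⟩
  obtain ⟨y₀, hy₀⟩ := exists_ne (0 : V₂)
  have hy₁ : T.tm v y₀ ∉ T.W v g := fun e => hy₀ ((T.tm_eq_zero (pure _ _ e)).resolve_left hv)
  obtain ⟨-, -, ε, hε, -, ι, hι, eι⟩ := R.exists_inv T.alt T.nd T.sym.two O.le fun e => hy₁ (e (hM1 y₀))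
  have hτM : ∀ y, T.τ v (T.tm v y) = 0 := fun y => by simp [τ_apply, φ_tm, alt_self T.altβ]
  have := f4 ι hι (fun x h1 h2 => by simp [eι, h1, h2]) (fun m hm => by
    obtain ⟨y, rfl⟩ := (mem_W_one hv).1 hm
    rw [eι, hτM, map_zero, add_zero]
    exact sub_mem hm (Submodule.smul_mem _ _ ⟨_, rfl⟩)) y₀
  rw [eι, hτM, map_zero, add_zero, sub_eq_self, smul_eq_zero] at this
  exact R₀.τσ_notMem (hM1 y₀) hy₁ (by rw [this.resolve_left hε]; exact zero_mem _)

/-- The overgroups of `Sp(V₁) ⊗ O(V₂)` in `Sp(V₁ ⊗ V₂)`. -/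
theorem Ov.isom_le_or (O : T.Ov X) (h3 : 3 ≤ finrank F V₂) (h4 : 4 ≤ finrank F V₂ ∨ 5 ≤ Nat.card F)
    (hex : finrank F V₁ = 2 → finrank F V₂ ≠ 4) (hv : v ≠ 0) :
    Isom B ≤ X ∨ ∀ g ∈ X, ∃ a t, g = T.kron a t := by
  classical
  refine (em (T.ND X)).symm.imp (O.isom_le h3 h4) fun N g hg => ?_
  have hM : ∀ v ≠ 0, MM T X v 0 := fun v hv => by
    by_contra hc
    have hex' : ∃ d, MM T X v d := ⟨finrank F V, fun _ _ _ _ _ => Submodule.finrank_le _⟩
    have h1 := Nat.find_spec hex'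
    obtain ⟨d, hd⟩ := Nat.exists_eq_succ_of_ne_zero (n := Nat.find hex') fun e => hc (e ▸ h1)
    have h2 := Nat.find_min hex' (m := d) (by omega)
    simp only [MM, not_forall, not_le] at h2
    obtain ⟨k, hk, k', hk', hne, hlt⟩ := h2
    have e := finrank_inf_mul (T := T) hv k'⁻¹ k k'
    have h5 := h1 k hk k' hk' hne
    rw [inv_mul_cancel] at e
    refine false_of_meet O N h3 h4 hex hv (mul_mem (inv_mem hk') hk) (fun e' => hne ?_) (fun e' => ?_) ?_
    · have := congrArg (Submodule.map (k' : V →ₗ[F] V)) e'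
      rwa [← W_mul hv, ← W_mul hv, mul_inv_cancel_left, mul_one] at this
    · rw [e', finrank_bot] at e
      omega
    · rwa [e, show finrank F (T.W v k ⊓ T.W v k' : Submodule F V) = Nat.find hex' by omega]
  have key : ∀ a ≠ 0, ∃ b ≠ 0, ∀ y, ∃ y', g (T.tm a y) = T.tm b y' := fun a ha => by
    obtain ⟨b, hb, e⟩ := exists_W_eq_of_disjoint O N h3 ha (hM a ha) hg
    exact ⟨b, hb, fun y => (mem_W_one hb).1 (e ▸ (mem_W ha).2 ⟨y, rfl⟩)⟩
  obtain ⟨b, hb, h⟩ := key v hv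
  obtain ⟨a₀, ha₀, e₀⟩ := exists_isom_apply_eq T.altβ T.ndβ hb hv
  obtain ⟨t, ht⟩ := exists_stab (T := T) hv (k := T.kron a₀ 1 * g) fun y => by
    obtain ⟨y', e⟩ := h y
    exact ⟨y', by rw [LinearEquiv.mul_apply, e, kron_tm, e₀]; rfl⟩
  have ht' : ∀ y, g (T.tm v y) = T.tm b (t y) := fun y => (T.kron a₀ 1).injective (by
    rw [← LinearEquiv.mul_apply, ht, kron_tm, e₀]; rfl)
  have : Nontrivial V₂ := Module.nontrivial_of_finrank_pos (R := F) (by omega)
  obtain ⟨y₁, hy₁⟩ := exists_ne (0 : V₂)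
  obtain ⟨y₂, hy₂⟩ := T.exists_s hy₁
  let A : V₁ →ₗ[F] V₁ := T.ψ y₁ ∘ₗ (g : V →ₗ[F] V) ∘ₗ T.tm.flip (t⁻¹ y₂)
  have hA : ∀ a y, g (T.tm a y) = T.tm (A a) (t y) := fun a => by
    suffices h : ∃ a', ∀ y, g (T.tm a y) = T.tm a' (t y) by
      obtain ⟨a', h⟩ := h
      intro y
      simp [A, h, apply_inv_apply, ψ_tm, hy₂]
    by_cases hav : ∃ c : F, a = c • v
    · obtain ⟨c, rfl⟩ := hav
      exact ⟨c • b, fun y => by simp [ht']⟩
    push Not at hav
    obtain ⟨b', hb', h'⟩ := key a (by simpa using hav 0)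
    obtain ⟨b'', -, h''⟩ := key (a + v) fun e => hav (-1) (by linear_combination (norm := module) e)
    obtain ⟨p, hp, hp'⟩ := exists_orth_ne_zero T.altβ T.ndβ (W := F ∙ b') (x := b) fun e => by
      obtain ⟨c, rfl⟩ := Submodule.mem_span_singleton.1 e
      obtain ⟨y', e'⟩ := h' y₁
      have hc : c ≠ 0 := fun e => hb (by simp [e])
      have e1 : T.tm a y₁ = T.tm v (t⁻¹ (c⁻¹ • y')) := g.injective (by
        rw [e', ht', apply_inv_apply]; simp [smul_smul, hc])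
      have := congrArg (T.ψ y₂) e1
      rw [ψ_tm, ψ_tm, T.sym.symm, hy₂, one_smul] at this
      exact hav _ this
    have hp1 : β b' p = 0 := mem_orth.1 hp _ (Submodule.mem_span_singleton_self b')
    have k : ∀ y, ∃ y'', g (T.tm (a + v) y) = T.tm b'' y'' ∧ β b p • t y = β b'' p • y'' := fun y => by
      obtain ⟨y', e'⟩ := h' y
      obtain ⟨y'', e''⟩ := h'' y
      refine ⟨y'', e'', ?_⟩
      rw [map_add, LinearMap.add_apply, map_add, e', ht'] at e''
      simpa [φ_tm, hp1] using congrArg (T.φ p) e''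
    have hb'' : β b'' p ≠ 0 := fun e => by
      obtain ⟨y'', -, e''⟩ := k y₁
      rw [e, zero_smul, smul_eq_zero, t.map_eq_zero_iff] at e''
      exact e''.elim hp' hy₁
    refine ⟨(β b p / β b'' p) • b'' - b, fun y => ?_⟩
    obtain ⟨y'', e, e''⟩ := k y
    have e1 : y'' = (β b p / β b'' p) • t y := by
      rw [div_eq_inv_mul, mul_smul, e'', smul_smul, inv_mul_cancel₀ hb'', one_smul]
    rw [map_add, LinearMap.add_apply, map_add, ht', e1] at e
    simp only [map_sub, map_smul, LinearMap.sub_apply, LinearMap.smul_apply] at e ⊢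
    exact eq_sub_of_add_eq e
  refine ⟨LinearEquiv.ofInjectiveEndo A fun a a' e => ?_, t, T.equiv_ext fun a y => by rw [kron_tm, hA]; rfl⟩
  have : g (T.tm (a - a') y₁) = 0 := by rw [hA, map_sub, e, sub_self]; simp
  exact sub_eq_zero.1 ((T.tm_eq_zero (g.map_eq_zero_iff.1 this)).resolve_right hy₁)

end TD

end CL.Sp
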