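import Cfsg.Agent.Cls.WS1

set_option autoImplicit false
set_option linter.unusedSectionVars false

/-!
Subspaces of `End V` invariant under the symplectic groups of the factors of a frame.
-/

namespace CL.Sp

open Module CL.SLn CL.TW

variable {F U W V : Type*} [Field F] [AddCommGroup U] [Module F U] [AddCommGroup W] [Module F W]
  [AddCommGroup V] [Module F V] {β : LinearMap.BilinForm F U}

/-- The symplectic group as a set of units. -/
def SpU (β : LinearMap.BilinForm F U) : Set (End F U)ˣ := {g | ∀ x y, β (g.1 x) (g.1 y) = β x y}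

theorem spU_inv {g : (End F U)ˣ} (h : g ∈ SpU β) : g⁻¹ ∈ SpU β := fun x y => by rw [← h, val_inv_apply, val_inv_apply]

/-- The alternating tensor of two vectors. -/
abbrev wg (β : LinearMap.BilinForm F U) (a b : U) : End F U := rk a (β b) - rk b (β a)

/-- The span of the alternating tensors of orthogonal vectors. -/
def X2 (β : LinearMap.BilinForm F U) : Submodule F (End F U) := Submodule.span F {x | ∃ a b, β a b = 0 ∧ x = wg β a b}

theorem io_mem (u : U) : io β u ∈ X1 β := Submodule.subset_span ⟨u, rfl⟩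

theorem wg_mem {a b : U} (h : β a b = 0) : wg β a b ∈ X2 β := Submodule.subset_span ⟨a, b, h, rfl⟩

section Red

variable {T : TP F U W V} {𝒟 : Submodule F (End F V)}

theorem sl_eq [Nontrivial U] {x x' : End F U} {m m' : End F V} (hm : T.Cm m) (hm' : T.Cm m') (α : Dual F U) (v : U) :
    T.C (T.sl α v (T.A x * m + T.A x' * m')) = α (x v) • m + α (x' v) • m' := by
  obtain ⟨c, rfl⟩ := T.exists_C hm
  obtain ⟨c', rfl⟩ := T.exists_C hm'
  rw [T.sl_add, T.sl_AC, T.sl_AC, map_add, map_smul, map_smul]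

theorem sl_scalar [Nontrivial U] {x x' : End F U} {m m' : End F V} (hm : T.Cm m) (hm' : T.Cm m') {c : F}
    (h : T.A x * m + T.A x' * m' = c • 1) (α : Dual F U) (v : U) : α (x v) • m + α (x' v) • m' = (c * α v) • 1 := by
  rw [← sl_eq hm hm', h, show T.sl α v (c • 1) = (c * α v) • 1 by ext; simp [T.sl_apply, T.φ_tm, mul_smul], map_smul,
    map_one]

variable (hD : T.Inv (SpU β) 𝒟)
include hD

theorem conj_mem {t : U ≃ₗ[F] U} (ht : t ∈ Isom β) {d : End F V} (hd : d ∈ 𝒟) :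
    T.A (t : End F U) * d * T.A ((t⁻¹ : U ≃ₗ[F] U) : End F U) ∈ 𝒟 :=
  hD (LinearMap.GeneralLinearGroup.ofLinearEquiv t) ht d hd

theorem conj_rk {t : U ≃ₗ[F] U} (ht : t ∈ Isom β) {d d' : End F V} (hd : T.Cm d) (hd' : T.Cm d') {a b a' b' : U}
    (h : T.A (rk a (β b)) * d + T.A (rk a' (β b')) * d' ∈ 𝒟) :
    T.A (rk (t a) (β (t b))) * d + T.A (rk (t a') (β (t b'))) * d' ∈ 𝒟 := by
  have e : ∀ a b d, T.Cm d → T.A (t : End F U) * (T.A (rk a (β b)) * d) * T.A ((t⁻¹ : U ≃ₗ[F] U) : End F U) =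
      T.A (rk (t a) (β (t b))) * d := fun a b d hd => by
    rw [mul_assoc, mul_assoc, ← (hd _).eq, ← mul_assoc, ← mul_assoc, ← map_mul, ← map_mul]
    congr 2
    ext y
    simp [isom_left ht]
  simpa only [mul_add, add_mul, e _ _ _ hd, e _ _ _ hd'] using conj_mem hD ht h

variable (hβ : β.IsAlt)
include hβ

theorem sub_mem_io {s : End F V} (hs : s ∈ 𝒟) (x : U) (c : F) :
    c • (T.A (io β x) * s - s * T.A (io β x)) - (c * c) • (T.A (io β x) * s * T.A (io β x)) ∈ 𝒟 := by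
  have e : ∀ c : F, ((tv hβ x c : U ≃ₗ[F] U) : End F U) = 1 - c • io β x := fun c => by
    ext y; simp [tv_apply, alt_neg hβ y x, mul_smul, sub_eq_add_neg]
  convert sub_mem (conj_mem hD (tv_mem_isom hβ x (-c)) hs) hs using 1
  simp only [tv_inv, e, map_sub, map_smul, map_one, sub_mul, mul_sub, smul_mul_assoc, mul_smul_comm, one_mul, mul_one]
  module

variable [FiniteDimensional F U] (R : RF (RingHom.id F) (-1) β)
include R

theorem mem_cof_of_io {a : U} (ha : a ≠ 0) {d : End F V} (hd : T.Cm d) (h : T.A (io β a) * d ∈ 𝒟) :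
    d ∈ T.cof (X1 β) 𝒟 := by
  refine ⟨hd, fun x hx => (Submodule.span_le (p := 𝒟.comap (LinearMap.mulRight F d ∘ₗ T.A.toLinearMap))).2 ?_ hx⟩
  rintro _ ⟨b, rfl⟩
  by_cases hb : b = 0
  · rw [show io β b = 0 by ext; simp [hb]]; exact zero_mem _
  obtain ⟨t, ht, rfl⟩ := exists_isom_apply_eq hβ R.nondegenerate ha hb
  simpa using conj_rk hD ht hd (fun a => Commute.zero_right _) (a' := 0) (b' := 0) (by simpa using h)

theorem sl_mem_cof (h2 : (2 : F) ≠ 0) {s : End F V} (hs : s ∈ 𝒟) (a : U) : T.C (T.sl (β a) a s) ∈ T.cof (X1 β) 𝒟 := by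
  by_cases ha : a = 0
  · rw [show T.sl (β a) a s = 0 by ext; simp [ha, T.sl_apply], map_zero]; exact zero_mem _
  refine mem_cof_of_io hD hβ R ha (T.cm_C _) ((𝒟.smul_mem_iff (neg_ne_zero.2 h2)).1 ?_)
  rw [← T.A_sandwich a a (β a) (β a)]
  convert add_mem (sub_mem_io hD hβ hs a 1) (sub_mem_io hD hβ hs a (-1)) using 1
  module

omit hD

theorem eq_zero_of_two (h2 : finrank F U = 2) {a b v : U} (h : β a b = 1) (ha : β a v = 0) (hb : β b v = 0) : v = 0 :=
  (injective_iff_map_eq_zero _).1 ((LinearMap.injective_iff_surjective_of_finrank_eq_finrank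
    (f := (β a).prod (β b)) (by simp [h2])).2 fun x => ⟨x.1 • b - x.2 • a, by
      simp [h, alt_self hβ, alt_neg hβ b a]⟩) v (by simp [ha, hb])

variable [Nontrivial U]

theorem red_two (h2 : (2 : F) ≠ 0) (hd : finrank F U = 2) : Red T (SpU β) (· = X1 β) := fun 𝒟 hD z hz hn =>
  ⟨_, rfl, fun h => hn (by
    obtain ⟨c, rfl⟩ := T.exists_C_of_sl (z := z) fun x α hα => by
      obtain ⟨y, rfl⟩ := R.repr α
      by_cases hx : x = 0
      · ext; simp [hx, T.sl_apply]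
      obtain ⟨b, hb⟩ := R.exists_one hx
      have h1 := eq_zero_of_two hβ R hd hb (v := y - β y b • x) (by simp [alt_self hβ, R.flip0 hα])
        (by simp [alt_neg hβ b, hb])
      have h3 := sl_mem_cof hD hβ R h2 hz x
      rw [h, Submodule.mem_bot, map_eq_zero_iff _ T.C_injective] at h3
      rw [sub_eq_zero.1 h1]
      ext v
      simpa [T.sl_apply] using congrArg (β y b • ·) (LinearMap.congr_fun h3 v)
    exact T.cm_C c)⟩

theorem red_big (h3 : 3 ≤ finrank F U) : Red T (SpU β) fun 𝒳 => 𝒳 = X1 β ∨ 𝒳 = X2 β := fun 𝒟 hD z hz hn => by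
  by_contra hc
  push Not at hc
  have key : ∀ x y, x ≠ 0 → (∀ c : F, c • x ≠ y) → β x y = 0 → T.sl (β y) x z = 0 := fun x y x0 hy h => by
    set d := T.C (T.sl (β y) x z)
    set d' := T.C (T.sl (β x) y z)
    have h1 : T.A (rk y (β x)) * d + T.A (rk x (β y)) * d' ∈ 𝒟 := by
      have e1 : T.A (io β x) * T.A (io β y) = 0 := by rw [← map_mul, rk_mul_rk, h, zero_smul, map_zero]
      have e2 : T.A (io β y) * T.A (io β x) = 0 := by rw [← map_mul, rk_mul_rk, R.flip0 h, zero_smul, map_zero]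
      rw [← T.A_sandwich y x (β y), ← T.A_sandwich x y (β x)]
      convert neg_mem (sub_mem_io hD hβ (sub_mem_io hD hβ hz x 1) y 1) using 1
      have e3 : ∀ m, m * T.A (io β x) * T.A (io β y) = 0 := fun m => by rw [mul_assoc, e1, mul_zero]
      simp only [one_smul, mul_one, mul_sub, sub_mul, ← mul_assoc, e2, zero_mul, e3]
      abel
    have h2 : ∀ a b, a ≠ 0 → (∀ c : F, c • a ≠ b) → β a b = 0 →
        T.A (rk b (β a)) * d + T.A (rk a (β b)) * d' ∈ 𝒟 := fun a b a0 hb hab => by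
      obtain ⟨t, ht, rfl, rfl⟩ := witt_pair hβ R x0 hy a0 hb (by rw [h, hab])
      exact conj_rk hD ht (T.cm_C _) (T.cm_C _) h1
    have h4 : d + d' ∈ T.cof (X1 β) 𝒟 := mem_cof_of_io hD hβ R x0 (fun a => (T.cm_C _ a).add_right (T.cm_C _ a)) (by
      convert sub_mem (h2 x (y + x) x0 (fun c e => hy (c - 1) (by rw [sub_smul, e]; simp))
        (by simp [h, alt_self hβ])) h1 using 1
      rw [show rk (y + x) (β x) = rk y (β x) + io β x by ext; simp, show rk x (β (y + x)) = rk x (β y) + io β x by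
        ext; simp [add_smul]]
      simp only [map_add, add_mul, mul_add]
      abel)
    rw [hc _ (Or.inl rfl), Submodule.mem_bot, add_eq_zero_iff_neg_eq] at h4
    have h5 : d ∈ T.cof (X2 β) 𝒟 := ⟨T.cm_C _, fun x hx =>
      (Submodule.span_le (p := 𝒟.comap (LinearMap.mulRight F d ∘ₗ T.A.toLinearMap))).2 (by
        rintro _ ⟨a, b, hab, rfl⟩
        by_cases h6 : b = 0 ∨ ∃ c : F, c • b = a
        · rw [show wg β a b = 0 by rcases h6 with rfl | ⟨c, rfl⟩ <;> ext <;> simp [smul_smul, mul_comm]]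
          exact zero_mem _
        push Not at h6
        simpa [← h4, sub_mul, sub_eq_add_neg, add_mul] using h2 b a h6.1 h6.2 (R.flip0 hab)) hx⟩
    rwa [hc _ (Or.inr rfl), Submodule.mem_bot, map_eq_zero_iff _ T.C_injective] at h5
  obtain ⟨c, rfl⟩ := T.exists_C_of_sl (z := z) fun x α hα => by
    obtain ⟨y, rfl⟩ := R.repr α
    by_cases hx : x = 0
    · ext; simp [hx, T.sl_apply]
    by_cases hy : ∃ c : F, c • x = y
    swap
    · exact key x y hx (by simpa using hy) (R.flip0 hα)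
    obtain ⟨c, rfl⟩ := hy
    obtain ⟨w, h4, h5⟩ := exists_perp_ne R h3 hx
    have e1 := key x w hx h5 h4
    have e2 := key x (c • x + w) hx (fun c' e => h5 (c' - c) (by rw [sub_smul, e]; simp)) (by simp [h4, alt_self hβ])
    ext v
    simpa [T.sl_apply, show T.φ (β w) (z (T.tm x v)) = 0 from LinearMap.congr_fun e1 v] using LinearMap.congr_fun e2 v
  exact hn (T.cm_C c)

theorem gen_X1 : Gen (X1 β) := ⟨1, by rw [pow_two, X1_sq R]⟩

theorem exists_wg (h3 : 3 ≤ finrank F U) {a : U} (ha : a ≠ 0) : ∃ b c, β a b = 0 ∧ β c a = 0 ∧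
    wg β a b * wg β c a = io β a ∧ wg β c a * wg β a b = -io β a := by
  obtain ⟨a', ha'⟩ := R.exists_one ha
  obtain ⟨b, c, h1, h2, h4⟩ := R.exists_pair_perp h3 (alt_self hβ a) ha'
  refine ⟨b, c, h1, R.flip0 h2, ?_, ?_⟩ <;> ext <;>
    simp [h1, h2, h4, alt_self hβ, R.flip0 h1, R.flip0 h2, alt_neg hβ c b]

theorem gen_X2 (h3 : 3 ≤ finrank F U) : Gen (X2 β) := by
  have h : X1 β ≤ X2 β * X2 β := Submodule.span_le.2 (by
    rintro _ ⟨a, rfl⟩
    by_cases ha : a = 0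
    · rw [show io β a = 0 by ext; simp [ha]]; exact zero_mem _
    obtain ⟨b, c, h1, h2, e, -⟩ := exists_wg hβ R h3 ha
    exact e ▸ Submodule.mul_mem_mul (wg_mem h1) (wg_mem h2))
  exact ⟨3, eq_top_iff.2 (by rw [← X1_sq R, show 3 + 1 = 2 + 2 from rfl, pow_add, pow_two]; exact mul_le_mul' h h)⟩

theorem red_gen (d : ((2 : F) ≠ 0 ∧ finrank F U = 2) ∨ 3 ≤ finrank F U) : Red T (SpU β) Gen := fun 𝒟 hD z hz hn => by
  rcases d with ⟨h2, d⟩ | d
  · obtain ⟨_, rfl, h⟩ := red_two hβ R h2 d 𝒟 hD z hz hn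
    exact ⟨_, gen_X1 hβ R, h⟩
  · obtain ⟨_, rfl | rfl, h⟩ := red_big hβ R d 𝒟 hD z hz hn
    exacts [⟨_, gen_X1 hβ R, h⟩, ⟨_, gen_X2 hβ R d, h⟩]

end Red

/-- The adjoint map compatible with a frame. -/
structure St {J : Type*} (T : J → TP F U W V) (β : LinearMap.BilinForm F U) (st : End F V →ₗ[F] End F V) : Prop where
  alt : β.IsAlt
  rf : RF (RingHom.id F) (-1) β
  fr : Fr T
  mul : ∀ x y, st (x * y) = st y * st x
  one : st 1 = 1
  adj : ∀ j x x', (∀ y y', β (x y) y' = β y (x' y')) → st ((T j).A x) = (T j).A x'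

namespace St

variable {J : Type*} {T : J → TP F U W V} {st : End F V →ₗ[F] End F V} (S : St T β st)
  [FiniteDimensional F U] [Nontrivial U] [Nontrivial W]
include S

theorem st_X1 (j : J) {x : End F U} (hx : x ∈ X1 β) : st ((T j).A x) = -(T j).A x := by
  refine (Submodule.span_le (p := LinearMap.eqLocus (st ∘ₗ (T j).A.toLinearMap) (-(T j).A.toLinearMap))).2 ?_ hx
  rintro _ ⟨u, rfl⟩
  exact (S.adj j _ (-io β u) fun y y' => by simp [alt_neg S.alt y u, mul_comm]).trans (map_neg _ _)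

theorem st_wg (j : J) (a b : U) : st ((T j).A (wg β a b)) = (T j).A (wg β a b) :=
  S.adj j _ _ fun y y' => by simp [alt_neg S.alt y]; ring

theorem cm {j : J} {z : End F V} (h : (T j).Cm z) : (T j).Cm (st z) := fun a =>
  (mem_of_io S.rf ((Subalgebra.centralizer F {st z}).comap (T j).A) (fun u => by
    have := congrArg st (h (io β u)).eq
    rw [S.mul, S.mul, S.st_X1 j (io_mem u), mul_neg, neg_mul, neg_inj] at this
    simpa [Subalgebra.mem_centralizer_iff] using this) a _ rfl).symm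

theorem inv {j : J} {𝒟 : Submodule F (End F V)} (h : (T j).Inv (SpU β) 𝒟) : (T j).Inv (SpU β) (𝒟.map st) := by
  rintro g hg _ ⟨d, hd, rfl⟩
  refine ⟨_, h g hg d hd, ?_⟩
  rw [S.mul, S.mul, S.adj j (g⁻¹).1 g.1 fun y y' => by rw [← hg, val_inv_apply],
    S.adj j g.1 (g⁻¹).1 fun y y' => by rw [← (spU_inv hg), inv_val_apply], mul_assoc]

theorem st_mul {j : J} {d d' : End F V} (hd : (T j).Cm d) (hd' : (T j).Cm d') {x x' y : End F U}
    (e : st ((T j).A x') = (T j).A y) : (T j).A x * d * st ((T j).A x' * d') = (T j).A (x * y) * (d * st d') := by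
  rw [S.mul, e, ← (S.cm hd' y).eq, map_mul, mul_assoc, ← mul_assoc d, ← (hd y).eq, mul_assoc, mul_assoc]

theorem exists_not_cm {i : J} {z : End F V} (hz : (T i).Cm z) (h : ∀ c : F, z ≠ c • 1) :
    ∃ j, j ≠ i ∧ ¬ (T j).Cm z := by
  by_contra hc
  push Not at hc
  obtain ⟨c, e⟩ := S.fr.centre z fun j => by
    by_cases e : j = i
    exacts [e ▸ hz, hc j e]
  exact h c e

omit S in
theorem ne_smul_one {z : End F V} (h0 : z ≠ 0) (h : z * z = 0) (c : F) : z ≠ c • 1 := fun e => by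
  rw [e, smul_mul_smul_comm, mul_one] at h
  by_cases hc : c = 0
  · exact h0 (by rw [e, hc, zero_smul])
  · exact h0 (by rw [← mul_one z, (smul_eq_zero.1 h).resolve_left (mul_ne_zero hc hc), mul_zero])

variable [Fintype J] [DecidableEq J] {i : J} {𝒵 𝒜 : Submodule F (End F V)}

theorem exists_ne_smul (h3 : 3 ≤ finrank F U) (d : (2 : F) ≠ 0 ∨ 5 ≤ finrank F U) (hA : ∀ s ∈ 𝒜, (T i).Cm s)
    (iA : ∀ j, j ≠ i → (T j).Inv (SpU β) 𝒜) (h1 : 1 ∈ 𝒜) (hm : ∀ s ∈ 𝒜, ∀ s' ∈ 𝒜, s * st s' + s' * st s ∈ 𝒵)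
    (hst : ∀ x, st x = 0 → x = 0) {s : End F V} (hs : s ∈ 𝒜) (hn : ∀ c : F, s ≠ c • 1) :
    ∃ z ∈ 𝒵, ∀ c : F, z ≠ c • 1 := by
  by_contra hc
  push Not at hc
  have R := S.rf
  have hred := fun j => red_gen (T := T j) S.alt R (Or.inr h3)
  obtain ⟨j, hj, h2⟩ := S.exists_not_cm (hA s hs) hn
  obtain ⟨𝒳, h𝒳, h4⟩ := red_big S.alt R h3 𝒜 (iA j hj) s hs h2
  have hG : Gen 𝒳 := by rcases h𝒳 with rfl | rfl; exacts [gen_X1 S.alt R, gen_X2 S.alt R h3]
  set 𝒟 := (T j).cof 𝒳 𝒜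
  have c1 : ∀ l, l ∉ (Finset.univ.erase i).erase j → ∀ d ∈ 𝒟, (T l).Cm d := fun l hl => by
    by_cases e : l = j
    · exact e ▸ fun d hd => hd.1
    · obtain rfl : l = i := by simpa [e] using hl
      exact S.fr.cof_cm e hG.ne_bot hA
  have c2 : ∀ l ∈ (Finset.univ.erase i).erase j, (T l).Inv (SpU β) 𝒟 := fun l hl => by
    simp only [Finset.mem_erase, Finset.mem_univ, and_true] at hl
    exact S.fr.cof_inv hl.1 _ (iA l hl.2)
  obtain ⟨e, he, _, ⟨e', he', rfl⟩, h5⟩ := S.fr.exists_mul_ne_zero hred _ h4 (𝒟' := 𝒟.map st) (fun h => h4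
    (eq_bot_iff.2 fun x hx => hst x ((Submodule.mem_bot F).1 (h ▸ Submodule.mem_map_of_mem hx)))) c1
    (by rintro l hl _ ⟨d, hd, rfl⟩; exact S.cm (c1 l hl d hd)) c2 fun l hl => S.inv (c2 l hl)
  have key : ∀ x ∈ 𝒳, ∀ x' ∈ 𝒳, ∀ y y', st ((T j).A x) = (T j).A y → st ((T j).A x') = (T j).A y' → ∀ e ∈ 𝒟, ∀ e' ∈ 𝒟,
      ∀ v ≠ 0, x (y' v) = 0 → x' (y v) = 0 → ∀ α : Dual F U, ∀ v,
      α (x (y' v)) • (e * st e') + α (x' (y v)) • (e' * st e) = 0 := fun x hx x' hx' y y' hy hy' e he e' he' v v0 h6 h7 => by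
    obtain ⟨c, h8⟩ := hc _ (hm _ (he.2 x hx) _ (he'.2 x' hx'))
    rw [S.st_mul he.1 he'.1 hy', S.st_mul he'.1 he.1 hy] at h8
    have h9 := sl_scalar (fun a => (he.1 a).mul_right (S.cm he'.1 a)) (fun a => (he'.1 a).mul_right (S.cm he.1 a)) h8
    obtain ⟨α, hα⟩ := exists_dual_one (F := F) v0
    have h10 := h9 α v
    simp only [End.mul_apply, h6, h7, map_zero, zero_smul, add_zero, hα, mul_one] at h10
    intro α v
    rw [← zero_smul F (1 : End F V), ← zero_mul (α v), ← mul_one (0 : F), mul_smul, mul_smul, one_smul, zero_smul]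
    simpa [mul_comm c, mul_smul, ← h10] using h9 α v
  obtain ⟨a, ha⟩ := exists_ne (0 : U)
  obtain ⟨b, hb⟩ := R.exists_one ha
  rcases h𝒳 with rfl | rfl
  · obtain ⟨z, -, z0, hz⟩ := R.exists_perp ⊤ ![a, b] (by simp; omega)
    have := key _ (io_mem a) _ (io_mem b) (-io β a) (-io β b) (by rw [S.st_X1 j (io_mem a), map_neg])
      (by rw [S.st_X1 j (io_mem b), map_neg]) e he e' he' z z0 (by simp [show β b z = 0 from hz 1])
      (by simp [show β a z = 0 from hz 0]) (β b) a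
    exact h5 (by simpa [hb, alt_self S.alt, alt_neg S.alt b a] using this)
  rcases d with h2 | d
  · obtain ⟨p, q, h6, h7, h8, h9⟩ := exists_wg S.alt R h3 ha
    have h10 : ∀ e ∈ 𝒟, st e = -e := fun e he => by
      obtain ⟨c, h⟩ := hc _ (hm _ (he.2 _ (wg_mem h6)) 1 h1)
      rw [S.one, mul_one, one_mul, S.mul, S.st_wg, ← (S.cm he.1 _).eq] at h
      have e1 := sl_scalar he.1 (S.cm he.1) h (β b) a
      have e2 := sl_scalar he.1 (S.cm he.1) h (β b) (wg β q a b)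
      rw [← End.mul_apply, h8] at e2
      simp only [LinearMap.sub_apply, rk_apply, R.flip0 h6, alt_self S.alt, zero_smul, sub_self, map_zero, add_zero,
        alt_neg S.alt b a, hb, mul_neg, mul_one, neg_smul, zero_eq_neg, one_smul, map_sub, map_smul, smul_eq_mul] at e1 e2
      rw [mul_comm c, mul_smul, e1, smul_zero] at e2
      linear_combination (norm := module) -e2
    have h11 : ∀ e ∈ 𝒟, ∀ e' ∈ 𝒟, e * e' = e' * e := fun e he e' he' => by
      have := key _ (wg_mem h6) _ (wg_mem h7) _ _ (S.st_wg _ _ _) (S.st_wg _ _ _) e he e' he' a ha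
        (by rw [← End.mul_apply, h8]; simp [alt_self S.alt]) (by rw [← End.mul_apply, h9]; simp [alt_self S.alt]) (β b) b
      rw [← End.mul_apply, ← End.mul_apply, h8, h9, h10 e he, h10 e' he'] at this
      simpa [hb, alt_neg S.alt b a, add_neg_eq_zero] using this
    obtain ⟨l, hl, h12⟩ := S.exists_not_cm he.1 fun c h => h5 (by
      have := h10 e he
      rw [h, map_smul, S.one, eq_neg_iff_add_eq_zero, ← two_smul F, smul_eq_zero] at this
      rw [h, this.resolve_left h2, zero_mul])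
    let 𝒞 : Subalgebra F (End F V) := Subalgebra.centralizer F 𝒟 ⊓ ((T i).cmAlg ⊓ (T j).cmAlg)
    refine h12 fun x => ((S.fr.A_mem hred ((Finset.univ.erase i).erase j) 𝒞 (fun m hm d hd => ?_)
      (fun m hm g hg d hd => ⟨fun x hx => ?_, ?_⟩) (j := l) (by_contra fun h => h12 (c1 l h e he)) (z := e)
      ⟨fun x hx => h11 x hx e he, c1 i (by simp) e he, he.1⟩ h12 x).1 e he).symm
    · by_cases e : m = j
      · exact e ▸ hd.2.2
      · obtain rfl : m = i := by simpa [e] using hm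
        exact hd.2.1
    · have := congrArg (fun y => (T m).A g.1 * y * (T m).A (g⁻¹).1) (hd.1 _ (c2 m hm _ (spU_inv hg) x hx))
      simpa only [inv_inv, mul_assoc, ← map_mul, Units.mul_inv, map_one, mul_one, ← mul_assoc ((T m).A g.1) ((T m).A _),
        one_mul] using this
    · simp only [Finset.mem_erase, Finset.mem_univ, and_true] at hm
      exact ⟨mul_mem (mul_mem (S.fr.comm i m hm.2.symm _) hd.2.1) (S.fr.comm i m hm.2.symm _),
        mul_mem (mul_mem (S.fr.comm j m hm.1.symm _) hd.2.2) (S.fr.comm j m hm.1.symm _)⟩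
  obtain ⟨p, -, p0, hp⟩ := R.exists_perp ⊤ ![a, b] (by simp; omega)
  obtain ⟨p', hp'⟩ := R.exists_one' p0
  obtain ⟨q, -, q0, hq⟩ := R.exists_perp ⊤ ![a, b, p, p'] (by simp; omega)
  obtain ⟨v, v0, v1⟩ := R.exists_dual (a := p) (b := q) fun c h => q0 (by
    have : β p' q = 0 := hq 3
    simp only [← h, map_smul, hp', smul_eq_mul, mul_one] at this
    rw [← h, this, zero_smul])
  have e1 : β a p = 0 := hp 0
  have e2 : β b p = 0 := hp 1
  have e3 : β a q = 0 := hq 0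
  have e4 : β b q = 0 := hq 1
  have e5 : β p q = 0 := hq 2
  have := key _ (wg_mem (R.flip0 e1)) _ (wg_mem e4) _ _ (S.st_wg _ _ _) (S.st_wg _ _ _) e he e' he' p p0
    (by simp [e2, R.flip0 e5]) (by simp [e1, alt_self S.alt]) (β p') v
  exact h5 (by simpa [hb, e1, e2, e3, e4, e5, R.flip0 e1, R.flip0 e2, R.flip0 e5, R.flip0 v0, hp', alt_neg S.alt q v,
    v1] using this)

/-- Factors of dimension at least four. -/
theorem mem_of_big (h3 : 3 ≤ finrank F U) (hZ : 𝒵 ≤ 𝒜) (hA : ∀ s ∈ 𝒜, (T i).Cm s)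
    (iA : ∀ j, j ≠ i → (T j).Inv (SpU β) 𝒜) (iZ : ∀ j, j ≠ i → (T j).Inv (SpU β) 𝒵) (h1 : 1 ∈ 𝒜)
    (hsq : ∀ z ∈ 𝒵, z * z = 0 → ∀ s ∈ 𝒜, z * s ∈ 𝒜)
    (hp : ∀ j l, j ≠ i → l ≠ i → ∃ τ : (End F V)ˣ, (T i).Cm τ.1 ∧ (T i).Cm (τ⁻¹).1 ∧
      (∀ a, τ.1 * (T j).A a * (τ⁻¹).1 = (T l).A a) ∧ ∀ s ∈ 𝒜, τ.1 * s * (τ⁻¹).1 ∈ 𝒜 ∧ (τ⁻¹).1 * s * τ.1 ∈ 𝒜)
    {z : End F V} (hz : z ∈ 𝒵) (hn : ∀ c : F, z ≠ c • 1) {s : End F V} (hs : (T i).Cm s) : s ∈ 𝒜 := by
  have R := S.rf
  obtain ⟨j, hj, h2⟩ := S.exists_not_cm (hA z (hZ hz)) hn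
  obtain ⟨𝒳, h𝒳, h4⟩ := red_big S.alt R h3 𝒵 (iZ j hj) z hz h2
  obtain ⟨d, hd, d0⟩ := Submodule.exists_mem_ne_zero_of_ne_bot h4
  obtain ⟨x, hx, x0, x2⟩ : ∃ x ∈ 𝒳, x ≠ 0 ∧ x * x = 0 := by
    obtain ⟨a, ha⟩ := exists_ne (0 : U)
    obtain ⟨a', ha'⟩ := R.exists_one ha
    have h5 : io β a ≠ 0 := fun e => ha (by simpa [ha'] using LinearMap.congr_fun e a')
    rcases h𝒳 with rfl | rfl
    · exact ⟨_, io_mem a, h5, by rw [rk_mul_rk, alt_self S.alt, zero_smul]⟩
    · obtain ⟨b, c, e1, -, e, -⟩ := exists_wg S.alt R h3 ha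
      exact ⟨_, wg_mem e1, fun h => h5 (by rw [← e, h, zero_mul]), by ext; simp [e1, R.flip0 e1, alt_self S.alt]⟩
  have h5 : (T j).A x * d * ((T j).A x * d) = 0 := by
    rw [mul_assoc, ← mul_assoc d, ← (hd.1 x).eq, ← mul_assoc, ← mul_assoc, ← map_mul, x2, map_zero, zero_mul, zero_mul]
  obtain ⟨l, hl, h6⟩ := S.exists_not_cm (hA _ (hZ (hd.2 x hx)))
    (ne_smul_one (fun e => d0 ((T j).eq_zero_of_A_mul x0 hd.1 e)) h5)
  let 𝒞 : Subalgebra F (End F V) :=
    { carrier := {c | (T i).Cm c ∧ ∀ s ∈ 𝒜, c * s ∈ 𝒜}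
      mul_mem' := fun h h' => ⟨fun a => (h.1 a).mul_right (h'.1 a), fun s hs => by
        rw [mul_assoc]; exact h.2 _ (h'.2 s hs)⟩
      add_mem' := fun h h' => ⟨fun a => (h.1 a).add_right (h'.1 a), fun s hs => by
        rw [add_mul]; exact add_mem (h.2 s hs) (h'.2 s hs)⟩
      algebraMap_mem' := fun c => ⟨fun _ => (Algebra.commutes c _).symm, fun s hs => by
        rw [← Algebra.smul_def]; exact 𝒜.smul_mem c hs⟩ }
  have c1 : ∀ m, m ∉ Finset.univ.erase i → ∀ d ∈ 𝒞, (T m).Cm d := fun m hm d hd => by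
    obtain rfl : m = i := by simpa using hm
    exact hd.1
  have c2 : ∀ m ∈ Finset.univ.erase i, (T m).Inv (SpU β) 𝒞.toSubmodule := fun m hm g hg c hc => by
    have hm' : m ≠ i := by simpa using hm
    refine ⟨fun a => ((S.fr.comm i m hm'.symm _ a).mul_right (hc.1 a)).mul_right (S.fr.comm i m hm'.symm _ a),
      fun s hs => ?_⟩
    simpa only [inv_inv, mul_assoc, ← map_mul, Units.mul_inv, map_one, mul_one] using
      iA m hm' g hg _ (hc.2 _ (iA m hm' _ (spU_inv hg) s hs))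
  have h7 := S.fr.A_mem (fun j => red_gen (T := T j) S.alt R (Or.inr h3)) _ 𝒞 c1 c2 (j := l) (by simpa using hl)
    (z := (T j).A x * d) ⟨hA _ (hZ (hd.2 x hx)), hsq _ (hd.2 x hx) h5⟩ h6
  rw [← mul_one s]
  refine (S.fr.mem_of_cm 𝒞 (Finset.univ.erase i) (fun m hm a => ?_) s fun m hm => ?_).2 1 h1
  · obtain ⟨τ, c1, c2, e, h⟩ := hp l m hl (by simpa using hm)
    rw [← e]
    refine ⟨fun b => ((c1 b).mul_right ((h7 a).1 b)).mul_right (c2 b), fun s hs => ?_⟩
    simpa only [mul_assoc, Units.mul_inv, mul_one] using (h _ ((h7 a).2 _ (h s hs).2)).1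
  · obtain rfl : m = i := by simpa using hm
    exact hs

end St

end CL.Sp
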