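import Cfsg.Agent.Cls.SpTen5
import Cfsg.Agent.Cls.WS5

set_option autoImplicit false

/-!
Overgroups of `Sp₂(q) ⊗ O₄⁻(q)` in `Sp₈(q)`.
-/

namespace CL.Sp

open Module TensorProduct

variable {F V₁ V₂ V : Type*} [Field F] [AddCommGroup V₁] [Module F V₁] [AddCommGroup V₂] [Module F V₂]
  [AddCommGroup V] [Module F V]

/-- There is no totally isotropic plane. -/
def NoPl (s : LinearMap.BilinForm F V₂) : Prop := ∀ E : Submodule F V₂, (∀ y ∈ E, ∀ y' ∈ E, s y y' = 0) → finrank F E ≠ 2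

namespace TD

variable {β : LinearMap.BilinForm F V₁} {s : LinearMap.BilinForm F V₂} {B : LinearMap.BilinForm F V} {T : TD β s B}
  {X : Subgroup (V ≃ₗ[F] V)} {v : V₁}
  [FiniteDimensional F V₁] [FiniteDimensional F V₂] [FiniteDimensional F V]

theorem not_stab' (O : T.Ov X) (N : T.ND X) (n₁ : finrank F V₁ = 2) (n₂ : finrank F V₂ = 4) (hex : NoPl s)
    (hv : v ≠ 0) {g : V ≃ₗ[F] V} (hg : g ∈ X) (hne : T.W v g ≠ T.W v 1) (h0 : T.W v g ⊓ T.W v 1 ≠ ⊥)
    (h : ∀ y, T.cj v g (T.tm v y) ∈ T.W v 1) : False := by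
  have h3 : 3 ≤ finrank F V₂ := by omega
  obtain ⟨v', hv'⟩ := T.exists_β hv
  obtain ⟨_, ⟨hy, hy'⟩, hy0⟩ := Submodule.exists_mem_ne_zero_of_ne_bot h0
  obtain ⟨y₀, rfl⟩ := (mem_W_one hv).1 hy'
  have hy₀ : y₀ ≠ 0 := fun e => hy0 (by simp [e])
  rcases cj_cases O N h3 hv hv hg h with ⟨a, ha⟩ | ⟨t, ht⟩
  · obtain ⟨u, hu⟩ := T.exists_s hy₀
    obtain ⟨x, hx⟩ := hy
    have e := T.ext_tm (f := T.ψ u ∘ₗ T.cj v g) (g := a ∘ₗ T.ψ u) (fun x y => by simp [ha, ψ_tm]) x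
    rw [LinearMap.comp_apply, hx, ψ_tm, T.sym.symm, hu, one_smul, LinearMap.comp_apply] at e
    refine hne (Submodule.eq_of_le_of_finrank_le (fun m hm => ?_) (by rw [finrank_W hv, finrank_W hv])).symm
    obtain ⟨y, rfl⟩ := (mem_W_one hv).1 hm
    exact ⟨T.tm (T.ψ u x) y, by rw [ha, ← e]⟩
  · set E := LinearMap.range t
    have hW : T.W v g = T.LT E := le_antisymm
      (by
        rintro _ ⟨x, rfl⟩
        refine mem_LT.2 fun b => ⟨T.φ b x, ?_⟩
        exact (T.ext_tm (f := T.φ b ∘ₗ T.cj v g) (g := t ∘ₗ T.φ b) (fun x y => by simp [ht, φ_tm]) x).symm)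
      ((LT_spec E).2 _ (by rintro a _ ⟨y, rfl⟩; exact ⟨_, ht a y⟩))
    have h1 := (LT_spec (T := T) E).1
    rw [← hW, finrank_W hv] at h1
    refine hex E (fun y hy y' hy' => ?_) (by rw [n₁] at h1; omega)
    have := W_iso (O.le hg) (hW ▸ tm_mem_LT v' hy) (hW ▸ tm_mem_LT v hy')
    rwa [B_tm_tm, hv', one_mul] at this

theorem rootPair₀_of_ne_bot' (O : T.Ov X) (N : T.ND X) (n₁ : finrank F V₁ = 2) (n₂ : finrank F V₂ = 4)
    (hex : NoPl s) (hv : v ≠ 0) {g : V ≃ₗ[F] V} (hg : g ∈ X)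
    (hne : T.W v g ≠ T.W v 1) (h0 : T.W v g ⊓ T.W v 1 ≠ ⊥)
    (hM : MM T X v (finrank F (T.W v g ⊓ T.W v 1 : Submodule F V))) : RootPair₀ B X (T.τ v) (T.cj v g) := by
  refine rootPair₀ O N hv hg (fun m hm h => pp_of O hv hg (one_mem _) hM (fun hc => ?_) hm h)
    fun w hw h => pp_of O hv (one_mem _) hg (by rwa [inf_comm]) (fun hc => ?_) hw h
  · exact not_stab' O N n₁ n₂ hex hv hg hne h0 fun y => hc _ ((mem_W_one hv).2 ⟨y, rfl⟩)
  · have e := finrank_inf_mul (T := T) hv g g⁻¹ 1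
    rw [mul_inv_cancel, mul_one, inf_comm] at e
    refine not_stab' O N n₁ n₂ hex hv (inv_mem hg) (fun e' => hne ?_) (fun e' => h0 ?_) fun y => ?_
    · have := congrArg (Submodule.map (g : V →ₗ[F] V)) e'
      rw [← W_mul hv, ← W_mul hv, mul_inv_cancel, mul_one] at this
      exact this.symm
    · rw [e', finrank_bot] at e
      exact Submodule.finrank_eq_zero.1 e
    · have := hc (g (T.tm v y)) ((mem_W hv).2 ⟨y, rfl⟩)
      rw [cj_apply, inv_inv, ← mem_W_mul hv, mul_one]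
      exact this

variable [Finite F]

theorem meet_data (O : T.Ov X) (N : T.ND X) (n₁ : finrank F V₁ = 2) (n₂ : finrank F V₂ = 4) (hex : NoPl s)
    (hv : v ≠ 0) {g : V ≃ₗ[F] V} (hg : g ∈ X) (hne : T.W v g ≠ T.W v 1) (h0 : T.W v g ⊓ T.W v 1 ≠ ⊥)
    (hM : MM T X v (finrank F (T.W v g ⊓ T.W v 1 : Submodule F V))) {D : Submodule F V₂}
    (hD' : D = (T.W v g).comap (T.tm v)) : ¬ 5 ≤ Nat.card F ∧ (3 : F) = 0 ∧ NdOn s (s.orthogonal D) ∧
      (∀ y ∈ s.orthogonal D, ∃ w ∈ T.W v g, T.φ v w = y) ∧ (∀ z ∈ D, s z z = 0 → z = 0) ∧ ∃ ε : F, ε ≠ 0 ∧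
      (∀ b, ∀ y ∈ D, T.τ v (T.cj v g (T.tm b y)) + T.cj v g (T.τ v (T.tm b y)) = 0) ∧
      ∀ y ∈ s.orthogonal D, T.φ v (T.cj v g (T.tm v y)) = ε • y := by
  subst hD'
  have h3 : 3 ≤ finrank F V₂ := by omega
  have R₀ := rootPair₀_of_ne_bot' O N n₁ n₂ hex hv hg hne h0 hM
  obtain ⟨v', hv'⟩ := T.exists_β hv
  have hM1 : ∀ y, T.tm v y ∈ LinearMap.range (T.τ v) := fun y => (mem_W_one hv).2 ⟨y, rfl⟩
  set σ := T.cj v g with hσ
  set D := (T.W v g).comap (T.tm v)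
  have hD : ∀ y, y ∈ D ↔ T.tm v y ∈ T.W v g := fun y => Iff.rfl
  have refl : s.IsRefl := fun x y h => by rw [T.sym.symm]; exact h
  have f2 : ∀ w ∈ T.W v g, T.φ v w ∈ s.orthogonal D := fun w hw => mem_orth.2 fun y hy => by
    rw [T.sym.symm, ← B_φ]; exact W_iso (O.le hg) hw hy
  have f1 : ∀ y ∈ s.orthogonal D, ∃ w ∈ T.W v g, T.φ v w = y := fun y hy => by
    have : s.orthogonal ((T.W v g).map (T.φ v)) ≤ D := fun u hu => R₀.pp _ (hM1 u) (by
      rw [cj_eq_zero (O.le hg) fun w hw => by rw [B_φ]; exact mem_orth.1 hu _ ⟨w, hw, rfl⟩]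
      exact zero_mem _)
    have h1 := LinearMap.BilinForm.orthogonal_le this hy
    rwa [LinearMap.BilinForm.orthogonal_orthogonal T.sym.nondeg refl] at h1
  have f3 : ∀ y ∈ D, y ∈ s.orthogonal D → y = 0 := fun y hy hy' => by
    obtain ⟨w, hw, rfl⟩ := f1 y hy'
    obtain ⟨u, rfl⟩ := (mem_W_one hv).1 (R₀.pp' w hw hy)
    simp [φ_tm, alt_self T.altβ]
  have hE : NdOn s (s.orthogonal D) := fun n hn h => f3 n (by
    rw [← LinearMap.BilinForm.orthogonal_orthogonal T.sym.nondeg refl D]; exact mem_orth.2 h) hn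
  obtain ⟨_, ⟨hy, hy'⟩, hy0⟩ := Submodule.exists_mem_ne_zero_of_ne_bot h0
  obtain ⟨y₀, rfl⟩ := (mem_W_one hv).1 hy'
  have hy₀ : y₀ ≠ 0 := fun e => hy0 (by simp [e])
  have f4 : ∀ k ∈ X, (∀ x, T.τ v x = 0 → σ x = 0 → k x = x) → ∀ t : V₂ ≃ₗ[F] V₂,
      (∀ y, k (T.tm v y) = T.tm v (t y)) → (∀ y ∈ D, t y = y) ∧ (∀ x, k (T.τ v x) = T.τ v (k x)) ∧ t ∈ Isom s :=
    fun k hk h t ht => by
      have a1 : ∀ y ∈ D, t y = y := fun y hy => T.tm_injective hv (by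
        obtain ⟨x, hx⟩ := (hD y).1 hy
        rw [← ht, h _ (by simp [τ_apply, φ_tm, alt_self T.altβ]) (by rw [← hx]; exact cj_cj g x)])
      obtain ⟨μ, h1, h2⟩ := exists_mult O N hv hk ht
      have : μ = 1 := by
        by_contra hμ
        refine hy₀ (f3 y₀ hy (mem_orth.2 fun y hy1 => ?_))
        have := h2 y y₀
        rw [a1 y hy1, a1 y₀ hy] at this
        exact mul_left_cancel₀ (sub_ne_zero.2 hμ) (by linear_combination -this)
      exact ⟨a1, by simpa [this] using h1, fun y y' => by rw [h2, this, one_mul]⟩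
  have R : RootPair B X (T.τ v) σ := ⟨R₀, fun k hk h1 h2 => by
    obtain ⟨t, ht⟩ := exists_stab (T := T) hv (k := k) fun y => (mem_W_one hv).1 (h2 _ (hM1 y))
    exact (f4 k hk h1 t ht).2.1⟩
  have hnle : ¬ T.W v 1 ≤ T.W v g := fun e =>
    hne (Submodule.eq_of_le_of_finrank_le e (by rw [finrank_W hv, finrank_W hv])).symm
  obtain ⟨h5, h33, ε, hε, hrel, ι, hι, eι⟩ := R.exists_inv T.alt T.nd T.sym.two O.le hnle
  have hτM : ∀ y, T.τ v (T.tm v y) = 0 := fun y => by simp [τ_apply, φ_tm, alt_self T.altβ]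
  obtain ⟨t, ht⟩ := exists_stab (T := T) hv (k := ι) fun y =>
    ⟨y - ε • T.φ v (σ (T.tm v y)), by rw [eι, hτM, map_zero, add_zero, map_sub, map_smul, τ_apply]⟩
  obtain ⟨t1, -, t2⟩ := f4 ι hι (fun x h1 h2 => by simp [eι, h1, h2]) t ht
  obtain ⟨a, ha, hav, e⟩ := eq_kron_of_stab O N h3 hv hι t2 ht
  have hY : ∀ x, T.φ v (T.τ v (σ x) + σ (T.τ v x)) = 0 → σ (T.τ v x) = 0 := fun x hx => by
    rw [map_add, (T.τ_eq_zero hv).1 (T.τ_τ v _), zero_add, ← T.τ_eq_zero hv] at hx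
    exact R₀.σ_eq_zero ⟨x, rfl⟩ (R₀.pp' _ ⟨_, rfl⟩ (by rw [hx]; exact zero_mem _))
  have ha1 : ∀ b, a b = b := fun b => by
    have e1 := eι (T.tm b y₀)
    rw [e, kron_tm, t1 y₀ hy] at e1
    have e2 : T.tm (a b - b) y₀ = -ε • (T.τ v (σ (T.tm b y₀)) + σ (T.τ v (T.tm b y₀))) := by
      rw [map_sub, LinearMap.sub_apply, e1]; module
    have e3 := congrArg (T.φ v) e2
    rw [φ_tm, map_sub, LinearMap.sub_apply, ← ha b v, hav, sub_self, zero_smul, map_smul, eq_comm, smul_eq_zero,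
      neg_eq_zero] at e3
    rw [hY _ (e3.resolve_left hε), add_zero, τ_apply, ← map_smul] at e2
    have e4 := congrArg (T.φ v') e2
    rw [φ_tm, φ_tm, alt_neg T.altβ v, hv', neg_smul, one_smul] at e4
    have e5 := f3 _ (D.smul_mem _ hy) (e4 ▸ neg_mem (Submodule.smul_mem _ _ (f2 _ ⟨_, rfl⟩)))
    rw [e5, eq_comm, neg_eq_zero] at e4
    rw [e4, map_zero] at e2
    exact sub_eq_zero.1 ((T.tm_eq_zero e2).resolve_right hy₀)
  have ht2 : ∀ y ∈ s.orthogonal D, t y = -y := fun y hy => by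
    have e1 := hrel (T.tm v y)
    simp only [hτM, map_zero, zero_add, add_zero, τ_τ] at e1
    have e2 : T.tm v (y + ε • T.φ v (σ (T.tm v y))) ∈ T.W v g := by
      by_contra hc
      refine R₀.τσ_notMem (hM1 _) hc ?_
      rw [map_add, map_smul, ← τ_apply, map_add, map_add, map_smul, map_smul, ← neg_neg ε, neg_smul, ← e1,
        add_neg_cancel]
      exact zero_mem _
    have e3 := f3 _ e2 (add_mem hy (Submodule.smul_mem _ _ (f2 _ ⟨_, rfl⟩)))
    refine T.tm_injective hv ?_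
    have e4 := congrArg (T.tm v) e3
    rw [map_add, map_smul, map_zero, ← τ_apply] at e4
    rw [← ht, eι, hτM, map_zero, add_zero, map_neg]
    have : (3 : F) • T.tm v y = 0 := by rw [h33, zero_smul]
    linear_combination (norm := module) this - e4
  have h6 : ∀ b, ∀ y ∈ D, T.τ v (σ (T.tm b y)) + σ (T.τ v (T.tm b y)) = 0 := fun b y hy => by
    have e1 := eι (T.tm b y)
    rw [e, kron_tm, t1 y hy, ha1, eq_comm, sub_eq_self, smul_eq_zero] at e1
    exact e1.resolve_left hε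
  refine ⟨h5, h33, hE, f1, fun z hz hzz => by_contra fun hz0 => ?_, -ε⁻¹, by simpa using hε, h6, fun y hy => ?_⟩
  · obtain ⟨y₁, hy₁, hy₁0⟩ := Submodule.exists_mem_ne_zero_of_ne_bot (p := s.orthogonal D) fun e => hnle fun x hx => by
      obtain ⟨y, rfl⟩ := (mem_W_one hv).1 hx
      rw [← hD, ← LinearMap.BilinForm.orthogonal_orthogonal T.sym.nondeg refl D, e]
      simp
    have hx := O.unip_mem v
    have hy := O.unip_cj_mem (v := v) hg
    have hk := mul_mem (mul_mem (mul_mem (hx 1) (hy 1)) (hx (-1))) (hy (-1))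
    have key := fun e' => B_eq_zero_of_fix O N h3 hz0 hzz hk (e' := e') (fun b => by
      have e2 := h6 b z hz
      have e3 := hY _ (by rw [e2, map_zero])
      rw [e3, add_zero] at e2
      simp only [LinearEquiv.mul_apply, unip_apply, map_add, map_smul, ← hσ, e2, e3, τ_τ, R₀.σ2, map_zero]
      module) v (mem_orth.1 hy₁ z hz)
    simp only [LinearEquiv.mul_apply, unip_apply, map_add, map_smul, ← hσ, hτM, τ_τ, R₀.σ2, LinearMap.add_apply,
      LinearMap.smul_apply, B_φ, (T.τ_eq_zero hv).1 (T.τ_τ v _), (T.τ_eq_zero hv).1 (hτM _), map_zero,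
      LinearMap.zero_apply, smul_eq_mul] at key
    have e1 : T.φ v (σ (T.τ v (σ (T.tm v y₁)))) = 0 := hE _ (f2 _ ⟨_, rfl⟩) fun u hu => by
      rw [T.sym.symm]
      linear_combination key u (mem_orth.1 hu z hz)
    refine R₀.τσ_notMem ⟨_, rfl⟩ (R₀.τσ_notMem (hM1 y₁) fun e => hy₁0 (f3 _ e hy₁)) ?_
    rw [(T.τ_eq_zero hv).2 e1]
    exact zero_mem _
  · have e1 := eι (T.tm v y)
    rw [ht, ht2 y hy, hτM, map_zero, add_zero, τ_apply, ← map_smul, ← map_sub] at e1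
    have e2 := T.tm_injective hv e1
    have : (3 : F) • y = 0 := by rw [h33, zero_smul]
    rw [neg_smul, ← smul_neg, eq_inv_smul_iff₀ hε]
    linear_combination (norm := module) e2 + this

omit [FiniteDimensional F V₁] [FiniteDimensional F V₂] [FiniteDimensional F V] in
theorem sq_eq_one (h5 : ¬ 5 ≤ Nat.card F) (h3 : (3 : F) = 0) {x : F} (hx : x ≠ 0) : x * x = 1 := by
  have := Fintype.ofFinite F
  have : Fact (Nat.Prime 3) := ⟨Nat.prime_three⟩
  have : CharP F 3 := (CharP.charP_iff_prime_eq_zero Nat.prime_three).2 (by exact_mod_cast h3)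
  obtain ⟨n, -, hn⟩ := FiniteField.card F 3
  have h : Fintype.card F = 3 := by
    obtain ⟨_ | _ | n, h⟩ := n
    · omega
    · simpa using hn
    · rw [Nat.card_eq_fintype_card, hn] at h5
      have := Nat.one_le_pow n 3 (by omega)
      simp only [PNat.mk_coe, pow_succ] at h5
      omega
  simpa [h, sq] using FiniteField.pow_card_sub_one_eq_one x hx

theorem false_of_meet' (O : T.Ov X) (N : T.ND X) (n₁ : finrank F V₁ = 2) (n₂ : finrank F V₂ = 4) (hex : NoPl s)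
    (hv : v ≠ 0) {g : V ≃ₗ[F] V} (hg : g ∈ X) (hne : T.W v g ≠ T.W v 1) (h0 : T.W v g ⊓ T.W v 1 ≠ ⊥)
    (hM : MM T X v (finrank F (T.W v g ⊓ T.W v 1 : Submodule F V))) : False := by
  obtain ⟨D, hD'⟩ : ∃ D, D = (T.W v g).comap (T.tm v) := ⟨_, rfl⟩
  obtain ⟨h5, h33, hE, f1, an, ε, hε, h6, h7⟩ := meet_data O N n₁ n₂ hex hv hg hne h0 hM hD'
  have hD : ∀ y, y ∈ D ↔ T.tm v y ∈ T.W v g := fun y => by rw [hD']; rfl
  obtain ⟨v', hv'⟩ := T.exists_β hv
  have two := T.sym.two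
  have hM1 : ∀ y, T.tm v y ∈ LinearMap.range (T.τ v) := fun y => (mem_W_one hv).2 ⟨y, rfl⟩
  obtain ⟨_, ⟨hy, hy'⟩, hy0⟩ := Submodule.exists_mem_ne_zero_of_ne_bot h0
  obtain ⟨y₀, rfl⟩ := (mem_W_one hv).1 hy'
  have hy₀ : y₀ ≠ 0 := fun e => hy0 (by simp [e])
  have hrk := LinearMap.BilinForm.finrank_orthogonal T.sym.nondeg D
  have dec₀ : ∀ a, a = β a v • v' - β a v' • v := fun a => sub_eq_zero.1 (eq_zero_of_two T.altβ
    ⟨fun _ => rfl, by simp, fun x y => by rw [alt_neg T.altβ]; simp, T.ndβ.1⟩ n₁ hv'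
    (by simp [hv', alt_self T.altβ, alt_neg T.altβ v' a]) (by simp [hv', alt_self T.altβ, alt_neg T.altβ v]))
  have hline : ∀ b, β b v = 0 → ∃ c : F, b = c • v := fun b hb => ⟨-β b v', by simpa [hb] using dec₀ b⟩
  have hd : finrank F (T.W v g ⊓ T.W v 1 : Submodule F V) = finrank F D := by
    have : T.W v g ⊓ T.W v 1 = D.map (T.tm v) := by
      ext x
      exact ⟨fun ⟨h1, h2⟩ => by obtain ⟨y, rfl⟩ := (mem_W_one hv).1 h2; exact ⟨y, (hD y).2 h1, rfl⟩,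
        fun ⟨y, h1, h2⟩ => h2 ▸ ⟨(hD y).1 h1, hM1 y⟩⟩
    rw [this, (Submodule.equivMapOfInjective _ (T.tm_injective hv) D).finrank_eq]
  rw [hd] at hM
  have hd3 : ¬ 3 ≤ finrank F D := fun h => by
    obtain ⟨z, hz, hz0, hzz⟩ := SymD.exists_sing (s := s) D h
    exact hz0 (an z hz hzz)
  by_cases hd2 : finrank F D = 2
  swap
  · obtain ⟨c, hc⟩ := T.sym.exists_le_of_cover hE (by omega) (fun c : F => (T.W v g).comap (T.tm (v' + c • v)))
      (fun c c' hc x hx y hy => by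
        have := W_iso (O.le hg) hx hy
        simp only [B_tm_tm, map_add, map_smul, LinearMap.add_apply, LinearMap.smul_apply, alt_self T.altβ, hv',
          alt_neg T.altβ v v', smul_eq_mul] at this
        exact mul_left_cancel₀ (sub_ne_zero.2 hc) (by linear_combination -this))
      (fun u hu qu => by
        have h1 := finrank_inf_ker_ψ (T := T) hv g u
        have h2 := hM.eq_of_lt hg (mul_mem (O.mem 1 (one_mem _) _ (orefl_mem T.sym qu)) hg) inf_le_left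
          (ker_ψ_le hv g qu) (by omega)
        obtain ⟨w, hw, e⟩ := f1 u hu
        have h6 := Submodule.smul_mem _ (s u u)⁻¹ (refl_mem O hv qu h2 hw)
        obtain ⟨c, hc⟩ := hline ((s u u)⁻¹ • T.ψ u w - v') (by
          simp only [map_sub, map_smul, LinearMap.sub_apply, LinearMap.smul_apply, ← B_ψ, B_φ, e, hv', smul_eq_mul,
            inv_mul_cancel₀ qu, sub_self])
        refine ⟨c, ?_⟩
        rw [Submodule.mem_comap, ← hc, add_sub_cancel, map_smul, LinearMap.smul_apply]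
        exact h6)
    have hb : v' + c • v ≠ 0 := fun e => by
      have := congrArg (β · v) e
      simp [hv', alt_self T.altβ] at this
    obtain ⟨k, hk, ek⟩ := exists_W_eq O hv hb
    have h1 := hM.eq_of_lt hg hk (S := (s.orthogonal D).map (T.tm (v' + c • v)))
      (by rintro _ ⟨y, hy, rfl⟩; exact hc hy) (by rintro _ ⟨y, hy, rfl⟩; exact ek ▸ (mem_W_one hb).2 ⟨y, rfl⟩)
      (by rw [← (Submodule.equivMapOfInjective _ (T.tm_injective hb) _).finrank_eq]; omega)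
    obtain ⟨y, hy2⟩ := (mem_W_one hb).1 (ek ▸ h1 ▸ hy)
    have e1 := congrArg (T.φ v) hy2
    simp only [φ_tm, alt_self T.altβ, zero_smul, map_add, map_smul, LinearMap.add_apply, LinearMap.smul_apply, hv',
      smul_zero, add_zero, one_smul] at e1
    exact hy0 (by rw [hy2, ← e1, map_zero])

  set σ := T.cj v g with hσ
  have sq := fun x => sq_eq_one h5 h33 (x := x)
  have sy := T.sym.symm
  have dec : ∀ x, x = T.tm v' (T.φ v x) - T.tm v (T.φ v' x) := T.ext_tm (f := LinearMap.id)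
    (g := T.tm v' ∘ₗ T.φ v - T.tm v ∘ₗ T.φ v') fun a y => by
      conv_lhs => rw [dec₀ a]
      simp [φ_tm]
  obtain ⟨u₁, m₁, q₁⟩ := T.sym.exists_nonsing hE fun e => by rw [e, finrank_bot] at hrk; omega
  obtain ⟨u₂, ⟨m₂, o₁₂⟩, q₂⟩ := T.sym.exists_nonsing (T.sym.ndOn_perp hE m₁ q₁) fun e => by
    have := SymD.finrank_inf_ker (s.orthogonal D) (s u₁)
    rw [e, finrank_bot] at this; omega
  replace o₁₂ : s u₁ u₂ = 0 := o₁₂
  obtain ⟨d₁, k₁, d₂, k₂, o, p₁, p₂⟩ : ∃ d₁ ∈ D, ∃ d₂ ∈ D, s d₁ d₂ = 0 ∧ s d₁ d₁ = s u₁ u₁ ∧ s d₂ d₂ = s u₁ u₁ := by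
    obtain ⟨d, ⟨k, o⟩, d0⟩ := Submodule.exists_mem_ne_zero_of_ne_bot (p := D ⊓ LinearMap.ker (s y₀)) fun e => by
      have := SymD.finrank_inf_ker D (s y₀)
      rw [e, finrank_bot] at this; omega
    replace o : s y₀ d = 0 := o
    have k₀ := (hD y₀).2 hy
    have a₀ := sq _ (mt (an _ k₀) hy₀)
    have e : s d d = s y₀ y₀ := (mul_self_eq_mul_self_iff.1 ((sq _ (mt (an _ k) d0)).trans a₀.symm)).resolve_right
      fun e => mt (an _ k₀) hy₀ (by
        have := congrArg (s y₀) (an _ (add_mem k₀ k) (by simp [o, sy d y₀, e]))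
        simpa [o] using this)
    rcases mul_self_eq_mul_self_iff.1 (a₀.trans (sq _ q₁).symm) with h | h
    · exact ⟨_, k₀, _, k, o, h, e.trans h⟩
    · refine ⟨_, add_mem k₀ k, _, sub_mem k₀ k, by simp [o, sy d y₀, e], ?_, ?_⟩ <;>
        simp only [map_add, map_sub, LinearMap.add_apply, LinearMap.sub_apply, o, sy d y₀, e, h] <;>
        linear_combination -s u₁ u₁ * h33
  have de : ∀ d ∈ D, ∀ y ∈ s.orthogonal D, s d y = 0 := fun d hd y hy => mem_orth.1 hy d hd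
  have a₁₁ := de _ k₁ _ m₁
  have a₁₂ := de _ k₁ _ m₂
  have a₂₁ := de _ k₂ _ m₁
  have a₂₂ := de _ k₂ _ m₂
  have p₃ : s u₂ u₂ = -s u₁ u₁ := (mul_self_eq_mul_self_iff.1 ((sq _ q₂).trans (sq _ q₁).symm)).resolve_left fun e => by
    refine hex (Submodule.span F (Set.range ![d₁ + d₂ + u₁, d₁ - d₂ + u₂])) (fun y hy y' hy' => ?_)
      ((finrank_span_eq_card (LinearIndependent.pair_iff.2 fun a b h => ?_)).trans (Fintype.card_fin 2))
    · obtain ⟨c, rfl⟩ := (Submodule.mem_span_range_iff_exists_fun F).1 hy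
      obtain ⟨c', rfl⟩ := (Submodule.mem_span_range_iff_exists_fun F).1 hy'
      simp only [Fin.sum_univ_two, Matrix.cons_val_zero, Matrix.cons_val_one, map_add, map_sub, map_smul,
        LinearMap.add_apply, LinearMap.sub_apply, LinearMap.smul_apply, smul_eq_mul, sy d₂ d₁, sy u₁ d₁, sy u₁ d₂,
        sy u₂ d₁, sy u₂ d₂, sy u₂ u₁, o, p₁, p₂, e, a₁₁, a₁₂, a₂₁, a₂₂, o₁₂]
      linear_combination (c 0 * c' 0 + c 1 * c' 1) * s u₁ u₁ * h33
    · have e1 := congrArg (s · u₁) h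
      have e2 := congrArg (s · u₂) h
      simp [a₁₁, a₁₂, a₂₁, a₂₂, o₁₂, sy u₂ u₁, q₁, q₂] at e1 e2
      exact ⟨e1, e2⟩
  have bas : ∀ y, s d₁ y = 0 → s d₂ y = 0 → s u₁ y = 0 → s u₂ y = 0 → y = 0 := fun y b₁ b₂ b₃ b₄ => by
    have li : LinearIndependent F ![d₁, d₂, u₁, u₂] := Fintype.linearIndependent_iff.2 fun c h i => by
      have e := fun x => congrArg (s x) h
      have e1 := e d₁
      have e2 := e d₂
      have e3 := e u₁
      have e4 := e u₂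
      simp [Fin.sum_univ_four, sy d₂ d₁, sy u₁ d₁, sy u₁ d₂, sy u₂ d₁, sy u₂ d₂, sy u₂ u₁, o, p₁, p₂, a₁₁, a₁₂, a₂₁, a₂₂,
        o₁₂, q₁, q₂] at e1 e2 e3 e4
      fin_cases i <;> assumption
    refine T.sym.nondeg.2 y fun x => (Submodule.span_le (p := LinearMap.ker (s.flip y))).2 ?_
      (li.span_eq_top_of_card_eq_finrank' (by simp [n₂]) ▸ Submodule.mem_top : x ∈ _)
    rintro _ ⟨i, rfl⟩
    fin_cases i <;> assumption
  have adj : ∀ x y, B (σ x) y = B (σ y) x := fun x y => by rw [cj_adj (O.le hg), alt_neg T.alt, neg_neg]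
  have s0 : ∀ d ∈ D, σ (T.tm v d) = 0 := fun d hd => by
    obtain ⟨x, hx⟩ := (hD d).1 hd
    rw [← hx]; exact cj_cj g x
  have s1 : ∀ b, ∀ d ∈ D, ∃ d' ∈ D, σ (T.tm b d) = T.tm v d' := fun b d hd => by
    have e := h6 b d hd
    rw [τ_apply (x := T.tm b d), φ_tm, map_smul, map_smul, s0 d hd, smul_zero, add_zero, T.τ_eq_zero hv] at e
    have e' := dec (σ (T.tm b d))
    rw [e, map_zero, zero_sub, ← map_neg] at e'
    exact ⟨_, (hD _).2 (e' ▸ ⟨_, rfl⟩), e'⟩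
  have s2 : ∀ b, ∀ y ∈ s.orthogonal D, ∀ d ∈ D, T.ψ d (σ (T.tm b y)) = 0 := fun b y hy d hd => T.ndβ.1 _ fun a => by
    obtain ⟨d', h, e⟩ := s1 a d hd
    rw [← B_ψ, adj, e, B_tm_tm, de d' h y hy, mul_zero]
  have u2 : ∀ x, σ (σ x) = 0 := cj_cj g
  have s3 : ∀ d ∈ D, d ≠ 0 → ∃ c : F, σ (T.tm v' d) = c • T.tm v d := fun d hd d0 => by
    have q := mt (an d hd) d0
    have hρ := O.mem 1 (one_mem _) _ (orefl_mem T.sym q)
    have e1 : ∀ b, ∀ y ∈ s.orthogonal D, (unip σ u2 1 * (T.kron 1 (orefl T.sym q) * unip σ u2 (-1) *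
        (T.kron 1 (orefl T.sym q))⁻¹)) (T.tm b y) = T.tm b y := fun b y hy => by
      simp [kron_inv, orefl_inv, kron_orefl, unip_apply, ψ_tm, sy y d, de d hd y hy, s2 b y hy d hd, u2]
    obtain ⟨c, hc⟩ := N v hv _ (mul_mem (O.unip_cj_mem hg 1) (mul_mem (mul_mem hρ (O.unip_cj_mem hg (-1)))
      (inv_mem hρ))) fun x hx => by
        have e := dec x
        rw [hx, map_zero, zero_sub, ← map_neg] at e
        generalize -T.φ v' x = y at e
        have e2 := e1 v (y - (s u₁ u₁ * s d₁ y) • d₁ - (s u₁ u₁ * s d₂ y) • d₂) (mem_orth.2 fun d hd => by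
          have := bas (d - (s u₁ u₁ * s d₁ d) • d₁ - (s u₁ u₁ * s d₂ d) • d₂)
            (by simp [o, p₁]; linear_combination -s d₁ d * sq _ q₁)
            (by simp [o, p₂, sy d₂ d₁]; linear_combination -s d₂ d * sq _ q₁)
            (by simp [sy u₁, de _ hd _ m₁, a₁₁, a₂₁]) (by simp [sy u₂, de _ hd _ m₂, a₁₂, a₂₂])
          rw [show d = (s u₁ u₁ * s d₁ d) • d₁ + (s u₁ u₁ * s d₂ d) • d₂ by linear_combination (norm := module) this]
          simp only [map_add, map_sub, map_smul, LinearMap.add_apply, LinearMap.smul_apply, smul_eq_mul, o, p₁, p₂,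
            sy d₂ d₁]
          linear_combination -(s u₁ u₁ * (s d₁ d * s d₁ y + s d₂ d * s d₂ y)) * sq _ q₁)
        have e3 : ∀ d' ∈ D, (unip σ u2 1 * (T.kron 1 (orefl T.sym q) * unip σ u2 (-1) *
            (T.kron 1 (orefl T.sym q))⁻¹)) (T.tm v d') = T.tm v d' := fun d' hd' => by
          have : orefl T.sym q d' ∈ D := by rw [orefl_apply]; exact sub_mem hd' (D.smul_mem _ hd)
          simp [kron_inv, orefl_inv, kron_tm, unip_apply, s0 _ this, s0 _ hd', orefl_orefl]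
        simp only [map_sub, map_smul, e3 _ k₁, e3 _ k₂, sub_left_inj] at e2
        exact e ▸ e2
    have c0 : c = 0 := by
      have := e1 v' u₁ m₁
      erw [hc] at this
      rw [unip_apply, τ_apply, φ_tm, hv', one_smul, add_eq_left, smul_eq_zero] at this
      exact this.resolve_right fun e => q₁ (by simp [(T.tm_eq_zero e).resolve_left hv])
    obtain ⟨d', h, e⟩ := s1 v' d hd
    have e4 := LinearEquiv.congr_fun hc (T.tm v' d)
    have e5 : orefl T.sym q d = -d := by rw [orefl_apply, div_mul_cancel₀ _ q]; module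
    simp only [c0, unip_apply, zero_smul, add_zero, LinearEquiv.mul_apply, kron_inv, orefl_inv, kron_tm, inv_one,
      LinearEquiv.coe_one, id, e5, map_neg, map_add, map_smul, ← hσ, e, orefl_apply T.sym q d', map_sub, s0 _ h,
      s0 _ hd] at e4
    refine ⟨s d' d / s d d, smul_right_injective V two ?_⟩
    dsimp only
    rw [e, show (2 : F) • (s d' d / s d d) • T.tm v d = (2 / s d d * s d' d) • T.tm v d by rw [smul_smul]; congr 1; ring]
    linear_combination (norm := module) e4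
  have n₁₀ : d₁ ≠ 0 := fun e => q₁ (by simp [← p₁, e])
  have n₂₀ : d₂ ≠ 0 := fun e => q₁ (by simp [← p₂, e])
  obtain ⟨κ, e₁⟩ := s3 d₁ k₁ n₁₀
  have κ0 : κ ≠ 0 := fun e => q₁ (by
    obtain ⟨x, hx⟩ := (hD d₁).1 k₁
    have := adj x (T.tm v' d₁)
    rw [show σ x = _ from hx] at this
    simpa [e₁, e, B_tm_tm, p₁, alt_neg T.altβ v v', hv'] using this)
  have e₂ : σ (T.tm v' d₂) = κ • T.tm v d₂ := by
    obtain ⟨c, e⟩ := s3 d₂ k₂ n₂₀
    obtain ⟨c', e'⟩ := s3 _ (add_mem k₁ k₂) fun h => q₁ (by simpa [o, p₁] using congrArg (s d₁) h)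
    rw [map_add, map_add, e₁, e] at e'
    have b₁ := congrArg (B (T.tm v' d₁)) e'
    have b₂ := congrArg (B (T.tm v' d₂)) e'
    simp [B_tm_tm, hv', o, sy d₂ d₁, p₁, p₂, q₁] at b₁ b₂
    rw [e, b₁, b₂]
  have qu : s (d₁ - u₁) (d₁ - u₁) = 2 * s u₁ u₁ := by simp [p₁, a₁₁, sy u₁ d₁, two_mul]
  have qu' : s (d₁ - u₁) (d₁ - u₁) ≠ 0 := qu ▸ mul_ne_zero two q₁
  have hr := O.mem 1 (one_mem _) _ (orefl_mem T.sym qu')
  obtain ⟨w, s4, z₁, z₂⟩ : ∃ w, σ (T.tm v u₂) = ε • T.tm v' u₂ - T.tm v w ∧ s w d₁ = 0 ∧ s w d₂ = 0 :=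
    ⟨T.φ v' (σ (T.tm v u₂)), by rw [← map_smul, ← h7 _ m₂, ← dec], by rw [← B_φ, B_ψ, s2 _ _ m₂ _ k₁]; simp,
      by rw [← B_φ, B_ψ, s2 _ _ m₂ _ k₂]; simp⟩
  by_cases hl : s w u₁ = 0
  · have l1 : ∀ b, B (σ (T.tm v u₂)) (T.tm b u₁) = 0 := fun b => by rw [s4]; simp [B_tm_tm, hl, sy u₂ u₁, o₁₂]
    have l2 : w = -(s u₁ u₁ * s u₂ w) • u₂ := sub_eq_zero.1 (bas _ (by simp [a₁₂, sy d₁ w, z₁])
      (by simp [a₂₂, sy d₂ w, z₂]) (by simp [o₁₂, sy u₁ w, hl]) (by simp [p₃]; linear_combination -s u₂ w * sq _ q₁))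
    generalize -(s u₁ u₁ * s u₂ w) = c at l2
    have l3 : σ (T.tm v' u₂) = (ε⁻¹ * c) • σ (T.tm v u₂) := by
      have := u2 (T.tm v u₂)
      rw [s4, l2, map_sub, map_smul, map_smul, map_smul, sub_eq_zero] at this
      rw [mul_smul, ← this, smul_smul, inv_mul_cancel₀ hε, one_smul]
    have l4 : ∀ b, T.ψ (d₁ - u₁) (σ (T.tm b (d₂ + u₂))) = 0 := fun b => T.ndβ.1 _ fun a => by
      have l5 : B (σ (T.tm v u₂)) (T.tm a d₁) = 0 := by rw [B_ψ, s2 _ _ m₂ _ k₁]; simp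
      rw [← B_ψ, dec₀ b]
      simp [e₂, s0 _ k₂, l3, l1, B_tm_tm, sy d₂ d₁, o, a₂₁, l5]
    have := B_eq_zero_of_fix O N (by omega) (z := d₂ + u₂) (fun e => q₁ (by simpa [p₂, a₂₂] using congrArg (s d₂) e))
      (by simp [p₂, p₃, a₂₂, sy u₂ d₂]) (mul_mem (O.unip_cj_mem (v := v) hg 1) (mul_mem (mul_mem hr
        (O.unip_cj_mem (v := v) hg (-1))) (inv_mem hr))) (fun b => by
        have : s (d₂ + u₂) (d₁ - u₁) = 0 := by simp [sy d₂ d₁, o, a₂₁, sy u₂ d₁, a₁₂, sy u₂ u₁, o₁₂]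
        simp only [LinearEquiv.mul_apply, kron_inv, inv_one, orefl_inv, kron_orefl, unip_apply, ψ_tm, this, zero_smul,
          map_zero, LinearMap.zero_apply, smul_zero, sub_zero, ← hσ, map_add (T.ψ _), map_smul, l4, add_zero,
          map_add σ (T.tm b _), u2]
        module) v (e := u₁) (e' := u₁) (by simp [a₂₁, sy u₂ u₁, o₁₂]) (by simp [a₂₁, sy u₂ u₁, o₁₂])
    have e5 : orefl T.sym qu' u₁ = d₁ := by
      rw [orefl_apply, qu, map_sub, sy u₁ d₁, a₁₁, zero_sub, show 2 / (2 * s u₁ u₁) * -s u₁ u₁ = -1 by field_simp]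
      module
    have e6 : orefl T.sym qu' d₁ = u₁ := (congrArg _ e5.symm).trans (orefl_orefl _ _ _)
    simp only [LinearEquiv.mul_apply, kron_inv, inv_one, orefl_inv, kron_tm, LinearEquiv.coe_one, id, e5, unip_apply,
      ← hσ, s0 _ k₁, smul_zero, add_zero, e6, one_smul, map_add, LinearMap.add_apply, B_φ, h7 _ m₁, φ_tm,
      alt_self T.altβ] at this
    simp [hε, q₁] at this
  have hne' : T.W v g ≠ T.W v (T.kron 1 (orefl T.sym qu') * g) := fun e => by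
    have b₁ := refl_mem O hv qu' e ((hD _).1 k₁)
    have b₂ := refl_mem O hv qu' e (w := σ (T.tm v u₁)) ⟨_, rfl⟩
    have := W_iso (O.le hg) b₂ b₁
    rw [B_tm_tm, ψ_tm, map_smul, ← B_ψ, B_φ, h7 _ m₁, qu] at this
    simp [two, hε, p₁, a₁₁, sy u₁ d₁, q₁] at this
  have hd' : finrank F (T.W v (g⁻¹ * (T.kron 1 (orefl T.sym qu') * g)) ⊓ T.W v 1 : Submodule F V) = finrank F D := by
    rw [← finrank_inf_mul hv g, mul_inv_cancel_left, mul_one, inf_comm]
    have b₁ := finrank_inf_ker_ψ (T := T) hv g (d₁ - u₁)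
    have b₂ := Submodule.finrank_mono (le_inf inf_le_left (ker_ψ_le (T := T) hv g qu'))
    have b₃ := hM _ hg _ (mul_mem hr hg) hne'
    omega
  obtain ⟨-, -, -, -, an', -⟩ := meet_data O N n₁ n₂ hex hv (mul_mem (inv_mem hg) (mul_mem hr hg)) (fun e => hne' (by
      have := congrArg (Submodule.map (g : V →ₗ[F] V)) e
      rw [← W_mul hv, ← W_mul hv, mul_inv_cancel_left, mul_one] at this
      exact this.symm)) (fun e => by rw [e, finrank_bot] at hd'; omega) (hd' ▸ hM) rfl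
  have key : ∀ x, T.ψ (d₁ - u₁) (σ x) = 0 → B x (σ x) = 0 → σ x = 0 := fun x h h' => by
    rw [hσ, cj_apply, τ_apply, an' (T.φ v (g⁻¹ x)) (by
      rw [Submodule.mem_comap, mem_W_mul hv, inv_inv]; exact ker_ψ_le hv g qu' ⟨⟨x, rfl⟩, h⟩)
      (by rw [← B_φ, ← isom_right (O.le hg)]; exact h'), map_zero, map_zero]
  obtain ⟨γ, hγ⟩ : ∃ γ : F, ε + κ + γ * γ * κ = 0 := by
    rcases mul_self_eq_mul_self_iff.1 ((sq _ hε).trans (sq _ κ0).symm) with h | h
    · exact ⟨1, by linear_combination h + κ * h33⟩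
    · exact ⟨0, by linear_combination h⟩
  have := key (T.tm v u₂ - (κ * s u₁ u₁ * s w u₁) • T.tm v' d₁ + γ • T.tm v' d₂) (by
      rw [map_add σ, map_sub σ, map_smul σ, map_smul σ, e₁, e₂, s4]
      simp only [map_add, map_sub, map_smul, ψ_tm, z₁, sy u₂ d₁, a₁₂, sy u₂ u₁, o₁₂, p₁, a₁₁, sy d₂ d₁, o, a₂₁,
        LinearMap.sub_apply]
      match_scalars
      · ring
      · linear_combination -(s w u₁) * (s u₁ u₁ * s u₁ u₁ * sq _ κ0 + sq _ q₁)) (by
      rw [map_add σ, map_sub σ, map_smul σ, map_smul σ, e₁, e₂, s4]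
      simp only [map_add, map_sub, map_smul, LinearMap.add_apply, LinearMap.sub_apply, LinearMap.smul_apply, B_tm_tm,
        alt_self T.altβ, hv', alt_neg T.altβ v v', sy d₁ w, sy d₂ w, z₁, z₂, a₁₂, a₂₂, p₁, p₂, p₃, o,
        sy d₂ d₁, smul_eq_mul]
      linear_combination s u₁ u₁ * hγ + κ * s u₁ u₁ * (s u₁ u₁ * s u₁ u₁ * s w u₁ * s w u₁ * sq _ κ0 +
        s w u₁ * s w u₁ * sq _ q₁ + sq _ hl))
  have := congrArg (T.φ v) this
  simp [e₁, e₂, h7 _ m₂, φ_tm, alt_self T.altβ, hε] at this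
  exact q₂ (by simp [this])

/-- The overgroups of `Sp(V₁) ⊗ O(V₂)` in `Sp(V₁ ⊗ V₂)`. -/
theorem Ov.isom_le_or' (O : T.Ov X) (n₁ : finrank F V₁ = 2) (n₂ : finrank F V₂ = 4) (hex : NoPl s) (hv : v ≠ 0) :
    Isom B ≤ X ∨ ∀ g ∈ X, ∃ a t, g = T.kron a t := by
  classical
  have h3 : 3 ≤ finrank F V₂ := by omega
  refine (em (T.ND X)).symm.imp (O.isom_le h3 (Or.inl n₂.ge)) fun N g hg => ?_
  have hM : ∀ v ≠ 0, MM T X v 0 := fun v hv => by
    by_contra hc
    have hex' : ∃ d, MM T X v d := ⟨finrank F V, fun _ _ _ _ _ => Submodule.finrank_le _⟩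
    have h1 := Nat.find_spec hex'
    obtain ⟨d, hd⟩ := Nat.exists_eq_succ_of_ne_zero (n := Nat.find hex') fun e => hc (e ▸ h1)
    have h2 := Nat.find_min hex' (m := d) (by omega)
    simp only [MM, not_forall, not_le] at h2
    obtain ⟨k, hk, k', hk', hne, hlt⟩ := h2
    have e := finrank_inf_mul (T := T) hv k'⁻¹ k k'
    have h5 := h1 k hk k' hk' hne
    rw [inv_mul_cancel] at e
    refine false_of_meet' O N n₁ n₂ hex hv (mul_mem (inv_mem hk') hk) (fun e' => hne ?_) (fun e' => ?_) ?_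
    · have := congrArg (Submodule.map (k' : V →ₗ[F] V)) e'
      rwa [← W_mul hv, ← W_mul hv, mul_inv_cancel_left, mul_one] at this
    · rw [e', finrank_bot] at e
      omega
    · rwa [e, show finrank F (T.W v k ⊓ T.W v k' : Submodule F V) = Nat.find hex' by omega]
  have key : ∀ a ≠ 0, ∃ b ≠ 0, ∀ y, ∃ y', g (T.tm a y) = T.tm b y' := fun a ha => by
    obtain ⟨b, hb, e⟩ := exists_W_eq_of_disjoint O N h3 ha (hM a ha) hg
    exact ⟨b, hb, fun y => (mem_W_one hb).1 (e ▸ (mem_W ha).2 ⟨y, rfl⟩)⟩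
  obtain ⟨b, hb, h⟩ := key v hv
  obtain ⟨a₀, ha₀, e₀⟩ := exists_isom_apply_eq T.altβ T.ndβ hb hv
  obtain ⟨t, ht⟩ := exists_stab (T := T) hv (k := T.kron a₀ 1 * g) fun y => by
    obtain ⟨y', e⟩ := h y
    exact ⟨y', by rw [LinearEquiv.mul_apply, e, kron_tm, e₀]; rfl⟩
  have ht' : ∀ y, g (T.tm v y) = T.tm b (t y) := fun y => (T.kron a₀ 1).injective (by
    rw [← LinearEquiv.mul_apply, ht, kron_tm, e₀]; rfl)
  have : Nontrivial V₂ := Module.nontrivial_of_finrank_pos (R := F) (by omega)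
  obtain ⟨y₁, hy₁⟩ := exists_ne (0 : V₂)
  obtain ⟨y₂, hy₂⟩ := T.exists_s hy₁
  let A : V₁ →ₗ[F] V₁ := T.ψ y₁ ∘ₗ (g : V →ₗ[F] V) ∘ₗ T.tm.flip (t⁻¹ y₂)
  have hA : ∀ a y, g (T.tm a y) = T.tm (A a) (t y) := fun a => by
    suffices h : ∃ a', ∀ y, g (T.tm a y) = T.tm a' (t y) by
      obtain ⟨a', h⟩ := h
      intro y
      simp [A, h, apply_inv_apply, ψ_tm, hy₂]
    by_cases hav : ∃ c : F, a = c • v
    · obtain ⟨c, rfl⟩ := hav
      exact ⟨c • b, fun y => by simp [ht']⟩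
    push Not at hav
    obtain ⟨b', hb', h'⟩ := key a (by simpa using hav 0)
    obtain ⟨b'', -, h''⟩ := key (a + v) fun e => hav (-1) (by linear_combination (norm := module) e)
    obtain ⟨p, hp, hp'⟩ := exists_orth_ne_zero T.altβ T.ndβ (W := F ∙ b') (x := b) fun e => by
      obtain ⟨c, rfl⟩ := Submodule.mem_span_singleton.1 e
      obtain ⟨y', e'⟩ := h' y₁
      have hc : c ≠ 0 := fun e => hb (by simp [e])
      have e1 : T.tm a y₁ = T.tm v (t⁻¹ (c⁻¹ • y')) := g.injective (by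
        rw [e', ht', apply_inv_apply]; simp [smul_smul, hc])
      have := congrArg (T.ψ y₂) e1
      rw [ψ_tm, ψ_tm, T.sym.symm, hy₂, one_smul] at this
      exact hav _ this
    have hp1 : β b' p = 0 := mem_orth.1 hp _ (Submodule.mem_span_singleton_self b')
    have k : ∀ y, ∃ y'', g (T.tm (a + v) y) = T.tm b'' y'' ∧ β b p • t y = β b'' p • y'' := fun y => by
      obtain ⟨y', e'⟩ := h' y
      obtain ⟨y'', e''⟩ := h'' y
      refine ⟨y'', e'', ?_⟩
      rw [map_add, LinearMap.add_apply, map_add, e', ht'] at e''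
      simpa [φ_tm, hp1] using congrArg (T.φ p) e''
    have hb'' : β b'' p ≠ 0 := fun e => by
      obtain ⟨y'', -, e''⟩ := k y₁
      rw [e, zero_smul, smul_eq_zero, t.map_eq_zero_iff] at e''
      exact e''.elim hp' hy₁
    refine ⟨(β b p / β b'' p) • b'' - b, fun y => ?_⟩
    obtain ⟨y'', e, e''⟩ := k y
    have e1 : y'' = (β b p / β b'' p) • t y := by
      rw [div_eq_inv_mul, mul_smul, e'', smul_smul, inv_mul_cancel₀ hb'', one_smul]
    rw [map_add, LinearMap.add_apply, map_add, ht', e1] at e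
    simp only [map_sub, map_smul, LinearMap.sub_apply, LinearMap.smul_apply] at e ⊢
    exact eq_sub_of_add_eq e
  refine ⟨LinearEquiv.ofInjectiveEndo A fun a a' e => ?_, t, T.equiv_ext fun a y => by rw [kron_tm, hA]; rfl⟩
  have : g (T.tm (a - a') y₁) = 0 := by rw [hA, map_sub, e, sub_self]; simp
  exact sub_eq_zero.1 ((T.tm_eq_zero (g.map_eq_zero_iff.1 this)).resolve_right hy₁)

end TD

theorem isMaximalIn_tensor_minus {F : Type*} [Field F] [Fintype F] {m : ℕ} (hm : 1 ≤ m) (hodd : Odd (Fintype.card F))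
    (e : (Fin m ⊕ Fin m) ≃ Fin 2 × Fin 4) (P : GL (Fin m ⊕ Fin m) F) (f₁ : (Fin 2 → F) → (Fin 2 → F) → F)
    (f₂ : (Fin 4 → F) → (Fin 4 → F) → F) (hf₁ : Cfsg.Geo.IsSymplecticForm f₁) (hf₂ : Cfsg.Geo.IsSymmetricForm f₂)
    (hex : ¬ Cfsg.Geo.IsPlusTypeOn (fun v : Fin 4 → F => f₂ v v) ⊤)
    (hT : Cfsg.Geo.IsTensorFormStructure id (Cfsg.sympForm m F) f₁ f₂ e P) :
    Cfsg.Geo.IsMaximalIn (Cfsg.spGL m F) (Cfsg.Geo.tensorProductSubgroup 2 4 e P ⊓ Cfsg.spGL m F) := by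
  obtain ⟨c, hc, h⟩ := exists_form_tenE hf₁.bilinear hf₂.bilinear hT
  have hN := CL.SLn.bilinOf_nondegenerate hf₂.bilinear hf₂.nondegenerate
  let T : TD (CL.SLn.bilinOf hf₁.bilinear) (c • CL.SLn.bilinOf hf₂.bilinear) (stdForm (Fin m) F) :=
    { E := tenE e P
      altβ := hf₁.alternating
      ndβ := CL.SLn.bilinOf_nondegenerate hf₁.bilinear hf₁.nondegenerate
      sym := ⟨fun x y => by simp [hf₂.symm x y],
        ⟨fun x hx => hN.1 x fun y => by simpa [hc] using hx y, fun x hx => hN.2 x fun y => by simpa [hc] using hx y⟩,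
        two_ne_zero_of_odd_card hodd⟩
      alt := stdForm_isAlt _ _
      nd := stdForm_nondegenerate _ _
      form := fun a y a' y' => by rw [stdForm_eq_sympForm, h]; simp }
  have key : ∀ g, (glEquiv _ F).symm g ∈ Cfsg.Geo.tensorProductSubgroup 2 4 e P ↔ ∃ a t, g = T.kron a t := fun g => by
    rw [mem_tensorProductSubgroup_symm_iff]
    exact exists₂_congr fun a t => ⟨fun h => T.equiv_ext fun x y => by rw [T.kron_tm]; exact h x y,
      fun h x y => h ▸ T.kron_tm a t x y⟩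
  obtain ⟨v, hv⟩ := exists_ne (0 : Fin 2 → F)
  refine isMaximalIn_spGL _ ?_ fun M hM hS g hg hgD => ?_
  · obtain ⟨g, hg, h⟩ := T.exists_ne_kron (by simp) hv
    exact ⟨g, hg, fun hc => by obtain ⟨a, t, e⟩ := (key g).1 hc; exact h a t e⟩
  · have O : T.Ov M := ⟨hM, fun a ha t ht => hS _ (T.kron_mem ha ht) ((key _).2 ⟨a, t, rfl⟩)⟩
    exact (O.isom_le_or' (by simp) (by simp) (fun E hE h2 => hex ⟨E, le_top, fun y hy => by
      simpa [hc] using hE y hy y hy, by simp [h2]⟩) hv).resolve_right fun h => hgD ((key g).2 (h g hg))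

end CL.Sp
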