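/-
Tensor decompositions, part 7: the trace trick.  A group meeting the unipotent radicals in the factors only permutes
the factors.
-/
import Cfsg.Agent.Cls.TW6

set_option autoImplicit false
set_option linter.unusedSectionVars false

namespace CL.TW

open Module CL.Sp CL.TrTr

variable {F U W V : Type*} [Field F] [AddCommGroup U] [Module F U] [AddCommGroup W] [Module F W]
  [AddCommGroup V] [Module F V] {β : LinearMap.BilinForm F U} {γ : LinearMap.BilinForm F W}
  {B : LinearMap.BilinForm F V} {H : Subgroup (End F V)ˣ}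

/-- The action on the linear maps `End V → End V`. -/
def rho : (End F V)ˣ →* End F (End F (End F V)) where
  toFun g := LinearMap.mulLeftRight F (LinearMap.mulLeftRight F (g.1, (g⁻¹).1), LinearMap.mulLeftRight F ((g⁻¹).1, g.1))
  map_one' := by ext; simp
  map_mul' g h := by ext; simp [mul_assoc]

theorem rho_apply (g : (End F V)ˣ) (Y : End F (End F V)) (z : End F V) :
    rho g Y z = g.1 * Y ((g⁻¹).1 * z * g.1) * (g⁻¹).1 := rfl

theorem exists_trace_one [FiniteDimensional F W] [Nontrivial W] : ∃ c : End F W, LinearMap.trace F W c = 1 := by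
  obtain ⟨y, hy⟩ := exists_ne (0 : W)
  obtain ⟨χ, hχ⟩ := exists_dual_one (F := F) hy
  exact ⟨rk y χ, by rw [LinearMap.trace_smulRight, hχ]⟩

/-- The flag of a singular vector. -/
def Uf (β : LinearMap.BilinForm F U) (u : U) : ℕ → Submodule F U
  | 0 => ⊤
  | 1 => LinearMap.ker (β u)
  | 2 => Submodule.span F {u}
  | _ + 3 => ⊥

theorem Uf_step (D : SymD β) {u w : U} (hu : β u u = 0) (hw : β u w = 0) :
    ∀ j, ∀ x ∈ Uf β u j, ex (wg β u w) x - x ∈ Uf β u (j + 1)
  | 0, x, _ => by simp [Uf, ex_wg_apply D hu hw, hu, hw]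
  | 1, x, (hx : β u x = 0) => by
    simpa [Uf, ex_wg_apply D hu hw, hx] using Submodule.smul_mem _ _ (Submodule.mem_span_singleton_self u)
  | 2, x, hx => by
    obtain ⟨c, rfl⟩ := Submodule.mem_span_singleton.1 hx
    simp [ex_wg_apply D hu hw, hu, D.symm w u, hw]
  | _ + 3, x, (hx : x = 0) => by simp [hx]

theorem span_Uf {u u' : U} (h : Hyp β u u') :
    Submodule.span F {v | ∃ a a', 2 ≤ a + a' ∧ v ∈ Uf β u a ∧ v ∈ Uf β u' a'} = ⊤ := eq_top_iff.2 fun x _ => by
  rw [show x = x - β u' x • u - β u x • u' + β u' x • u + β u x • u' by module]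
  exact add_mem (add_mem (Submodule.subset_span ⟨1, 1, le_rfl, h.proj x⟩) (Submodule.subset_span
    ⟨2, 0, le_rfl, Submodule.smul_mem _ _ (Submodule.mem_span_singleton_self _), trivial⟩))
    (Submodule.subset_span ⟨0, 2, le_rfl, trivial, Submodule.smul_mem _ _ (Submodule.mem_span_singleton_self _)⟩)

theorem tU_inv (D : SymD β) {u w : U} (hu : β u u = 0) (hw : β u w = 0) :
    ((tU D hu hw 1)⁻¹).1 = ex (wg β u (-w)) := congrArg ex (by simp [wg, sub_eq_neg_add])

theorem OD.exists_index [FiniteDimensional F U] [Finite F] (D : OD β) (p : ℕ) [Fact p.Prime] [CharP F p] {u u' : U}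
    (h : Hyp β u u') (A : AddSubgroup (P2 β u u')) (hA : ∀ a ∈ A, β a.1 a.1 = 0) :
    ∃ c, p ^ c ≤ A.index ∧ 4 ≤ c * (p - 1) := by
  have := Module.finite_of_finite F (M := P2 β u u')
  have hp : 3 ≤ p := by
    have := (Fact.out : p.Prime).two_le
    have : p ≠ 2 := fun e => D.two (by subst e; exact CharP.cast_eq_zero F 2)
    omega
  let S := Submodule.span F (A : Set (P2 β u u'))
  have h0 : ∀ a ∈ A, ∀ b ∈ A, β a.1 b.1 = 0 := fun a ha b hb => by
    have := hA _ (add_mem ha hb)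
    rw [Submodule.coe_add, D.q_add, hA a ha, hA b hb] at this
    simpa [D.two] using this
  have h1 : ∀ a ∈ S, ∀ b ∈ S, β a.1 b.1 = 0 := fun a ha b hb =>
    (Submodule.span_le (p := LinearMap.ker (β a.1 ∘ₗ (P2 β u u').subtype))).2 (fun c hc => (D.symm _ _).trans
      ((Submodule.span_le (p := LinearMap.ker (β c.1 ∘ₗ (P2 β u u').subtype))).2 (h0 c hc) ha)) hb
  have h5 := Submodule.finrank_quotient_add_finrank S
  have h6 : Nat.card F ^ finrank F (P2 β u u' ⧸ S) ≤ A.index := by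
    rw [← Module.natCard_eq_pow_finrank]
    exact Nat.le_of_dvd (Nat.pos_of_ne_zero A.index_ne_zero_of_finite)
      (AddSubgroup.index_dvd_of_le (K := S.toAddSubgroup) fun a ha => Submodule.subset_span ha)
  have := Fintype.ofFinite F
  obtain ⟨n, -, hn⟩ := FiniteField.card F p
  rw [← Nat.card_eq_fintype_card] at hn
  have h7 := finrank_P2 (β := β) u u'
  rcases D.hq with h4 | h4
  · refine ⟨2, le_trans ?_ h6, by omega⟩
    rw [hn, ← pow_mul]
    refine Nat.pow_le_pow_right (by omega) (le_trans ?_ (Nat.le_mul_of_pos_left _ n.2))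
    by_contra hc
    obtain ⟨s, hs, s0⟩ := Submodule.exists_mem_ne_zero_of_ne_bot (p := S) fun e => by
      have : finrank F S = 0 := by rw [e, finrank_bot]
      omega
    obtain ⟨x, hx⟩ : ∃ x : P2 β u u', β x.1 s.1 ≠ 0 := by
      by_contra hc
      push Not at hc
      exact s0 (Subtype.ext (h.ndOn D.toSymD s.1 s.2 fun a ha => hc ⟨a, ha⟩))
    have h8 := D.h5 u s.1 h.l s.2.1 (h1 s hs s hs) (LinearIndependent.pair_iff.2 fun a b e => by
      have e1 := congrArg (β u') e
      have e2 := congrArg (β x.1) e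
      simp only [map_add, map_smul, h.rl, show β u' s.1 = 0 from s.2.2, D.symm x.1 u, show β u x.1 = 0 from x.2.1,
        map_zero] at e1 e2
      exact ⟨by simpa using e1, by simpa [hx] using e2⟩)
    have h9 : S ⊔ Submodule.span F {x} = ⊤ := Submodule.eq_top_of_finrank_eq (le_antisymm (Submodule.finrank_le _) (by
      have := Submodule.finrank_lt_finrank_of_lt (left_lt_sup.2 fun h => hx (h1 x
        (h (Submodule.mem_span_singleton_self x)) s hs) : S < S ⊔ Submodule.span F {x})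
      omega))
    have h10 := SymD.finrank_inf_ker S (β x.1 ∘ₗ (P2 β u u').subtype)
    obtain ⟨m, hm, m0⟩ := Submodule.exists_mem_ne_zero_of_ne_bot
      (p := S ⊓ LinearMap.ker (β x.1 ∘ₗ (P2 β u u').subtype)) fun e => by rw [e, finrank_bot] at h10; omega
    refine m0 (Subtype.ext (h.ndOn D.toSymD m.1 m.2 fun a ha => ?_))
    obtain ⟨s', hs', _, hc, e⟩ := Submodule.mem_sup.1 (h9.ge (Submodule.mem_top (x := ⟨a, ha⟩)))
    obtain ⟨c, rfl⟩ := Submodule.mem_span_singleton.1 hc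
    have h11 : β x.1 m.1 = 0 := hm.2
    simp [← show s'.1 + c • x.1 = a from congrArg Subtype.val e, h1 s' hs' m hm.1, h11]
  · refine ⟨n, hn ▸ le_trans (Nat.le_self_pow (fun e => ?_) _) h6, ?_⟩
    · obtain ⟨w, hw, qw⟩ := exists_nonsing_P2 D.toSymD D.h3 h
      have : S = ⊤ := Submodule.eq_top_of_finrank_eq (by omega)
      exact qw (h1 ⟨w, hw⟩ (this ▸ trivial) ⟨w, hw⟩ (this ▸ trivial))
    · rcases n with ⟨_ | _ | n, h2⟩
      · omega
      · simp only [PNat.mk_coe, zero_add, pow_one] at hn ⊢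
        obtain ⟨r, hr⟩ := (Fact.out : p.Prime).odd_of_ne_two (by omega)
        omega
      · simp only [PNat.mk_coe]
        nlinarith [show 2 ≤ p - 1 by omega]

namespace TP

variable (T : TP F U W V) [FiniteDimensional F U] [FiniteDimensional F W]

/-- The partial trace. -/
noncomputable def ptr : End F V →ₗ[F] End F U where
  toFun z := ∑ i, T.flip.sl ((finBasis F W).coord i) (finBasis F W i) z
  map_add' _ _ := by simp [sl_add, Finset.sum_add_distrib]
  map_smul' _ _ := by ext; simp [sl_apply, Finset.smul_sum]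

theorem ptr_AC (a : End F U) (c : End F W) : T.ptr (T.A a * T.C c) = LinearMap.trace F W c • a := by
  rw [(T.commute a c).eq, ← T.flip_C, LinearMap.trace_eq_matrix_trace F (finBasis F W)]
  change ∑ i, T.flip.sl ((finBasis F W).coord i) (finBasis F W i) (T.flip.A c * _) = _
  simp [sl_AC, Matrix.trace, LinearMap.toMatrix_apply, Finset.sum_smul]

theorem ext_AC {X : Type*} [AddCommGroup X] [Module F X] {f g : End F V →ₗ[F] X}
    (h : ∀ a c, f (T.A a * T.C c) = g (T.A a * T.C c)) : f = g := LinearMap.ext fun z => by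
  rw [← T.sum_sl (finBasis F U) z]
  simp only [map_sum, h]

/-- The partial trace as a map onto the first factor. -/
noncomputable def Y : End F (End F V) := T.A.toLinearMap ∘ₗ T.ptr

theorem Y_apply (z : End F V) : T.Y z = T.A (T.ptr z) := rfl

theorem Y_mv (g : (End F V)ˣ) : (T.mv g).Y = rho g T.Y := (T.mv g).ext_AC fun a c => by
  rw [Y_apply, ptr_AC, rho_apply, mv_A, mv_A, mv_C]
  simp only [mul_assoc, Units.inv_mul_cancel_left, Units.inv_mul, mul_one, Y_apply, ptr_AC]

variable {T} [Nontrivial U] [Nontrivial W]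

theorem Cm.ptr_comm {z : End F V} (h : T.Cm z) (x : End F V) : T.ptr (z * x) = T.ptr (x * z) := by
  obtain ⟨c, rfl⟩ := T.exists_C h
  refine LinearMap.congr_fun (T.ext_AC (f := T.ptr ∘ₗ LinearMap.mulLeft F (T.C c))
    (g := T.ptr ∘ₗ LinearMap.mulRight F (T.C c)) fun a d => ?_) x
  simp only [LinearMap.comp_apply, LinearMap.mulLeft_apply, LinearMap.mulRight_apply]
  rw [← mul_assoc, ← (T.commute a c).eq, mul_assoc, mul_assoc, ← map_mul, ← map_mul, ptr_AC, ptr_AC,
    LinearMap.trace_mul_comm]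

theorem Kron.rho_Y {g : (End F V)ˣ} (h : T.Kron g.1) : rho g T.Y = T.Y := T.ext_AC fun a c => by
  obtain ⟨b, s, e, e'⟩ := h.units
  rw [rho_apply, e, e', AC_mul, AC_mul, Y_apply, Y_apply, ptr_AC, ptr_AC, ← mul_one (T.A (_ • _)), ← map_one T.C, AC_mul,
    AC_mul, LinearMap.trace_mul_cycle]
  simp [mul_assoc]

theorem Same.Y_eq {T' : TP F U W V} (h : T.Same T') : T'.Y = T.Y := by
  obtain ⟨g, rfl⟩ := T.exists_mv T'
  rw [Y_mv, (T.kron_of_normalizes (g := g) fun a => by simpa only [mv_A] using h a).rho_Y]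

theorem kron_of_rho {g : (End F V)ˣ} (h : rho g T.Y = T.Y) : T.Kron g.1 := T.kron_of_normalizes fun a => by
  obtain ⟨c, hc⟩ := exists_trace_one (F := F) (W := W)
  have := LinearMap.congr_fun h (g.1 * (T.A a * T.C c) * (g⁻¹).1)
  simp only [rho_apply, mul_assoc, Units.inv_mul_cancel_left, Units.inv_mul, mul_one, Y_apply, ptr_AC, hc, one_smul] at this
  exact ⟨_, (mul_assoc _ _ _).trans this⟩

variable (T) in
/-- The restriction to the first factor, antisymmetrised in the first two arguments. -/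
noncomputable def res (B : LinearMap.BilinForm F V) (y : Fin 4 → W) :
    End F (End F V) →ₗ[F] MultilinearMap F (fun _ : Fin 4 => U) F where
  toFun Y := MultilinearMap.mk' (fun x =>
    B (Y (ee B (T.tm (x 2) (y 2)) (T.tm (x 3) (y 3))) (T.tm (x 0) (y 0))) (T.tm (x 1) (y 1)) -
      B (Y (ee B (T.tm (x 2) (y 2)) (T.tm (x 3) (y 3))) (T.tm (x 1) (y 0))) (T.tm (x 0) (y 1)))
    (fun v i x y => by fin_cases i <;> simp <;> ring) (fun v i c x => by fin_cases i <;> simp [mul_sub])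
  map_add' _ _ := by ext; simp; ring
  map_smul' _ _ := by ext; simp [mul_sub]

theorem res_apply (y : Fin 4 → W) (Y : End F (End F V)) (x : Fin 4 → U) : T.res B y Y x =
    B (Y (ee B (T.tm (x 2) (y 2)) (T.tm (x 3) (y 3))) (T.tm (x 0) (y 0))) (T.tm (x 1) (y 1)) -
      B (Y (ee B (T.tm (x 2) (y 2)) (T.tm (x 3) (y 3))) (T.tm (x 1) (y 0))) (T.tm (x 0) (y 1)) := rfl

theorem res_mem (u : U) (y : Fin 4 → W) (Y : End F (End F V)) : T.res B y Y ∈ mfil (Fin 4) (Uf β u) 8 := by
  intro a x h1 h2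
  by_cases h : ∃ i, 3 ≤ a i
  · obtain ⟨i, hi⟩ := h
    obtain ⟨k, hk⟩ := Nat.exists_eq_add_of_le' hi
    exact MultilinearMap.map_coord_zero _ i (by have := h1 i; rwa [hk] at this)
  push Not at h
  have := h 0
  have := h 1
  have := h 2
  have := h 3
  rw [Fin.sum_univ_four] at h2
  obtain ⟨c, e⟩ := Submodule.mem_span_singleton.1 (show a 0 = 2 by omega ▸ h1 0 : x 0 ∈ Uf β u 2)
  obtain ⟨d, e'⟩ := Submodule.mem_span_singleton.1 (show a 1 = 2 by omega ▸ h1 1 : x 1 ∈ Uf β u 2)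
  simp [res_apply, ← e, ← e']
  ring

end TP

variable [FiniteDimensional F U] [FiniteDimensional F W] [Nontrivial W] [Finite F] [FiniteDimensional F V]

theorem FT.res_rho {T : TP F U W V} (M : FT T β γ B) {b : (End F U)ˣ} (hb : b ∈ IsoG β) (y : Fin 4 → W)
    (Y : End F (End F V)) : T.res B y (rho (T.Au b) Y) = (T.res B y Y).compLinearMap fun _ => (b⁻¹).1 := by
  ext x
  have h := conj_ee (inv_mem (M.Au_mem hb))
  simp only [inv_inv, T.Au_inv] at h
  simp only [TP.res, LinearMap.coe_mk, AddHom.coe_mk, MultilinearMap.compLinearMap_apply, MultilinearMap.mk'_apply,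
    rho_apply, h, End.mul_apply, IsoG.adj (M.Au_mem hb) _ _, T.Au_inv, T.A_tm]

theorem FT.mem_symS_of_res {T : TP F U W V} (M : FT T β γ B) {Y : End F (End F V)} (h : ∀ y, T.res B y Y = 0)
    (z : End F V) : Y z ∈ T.symS β := by
  refine (eq_top_of_ee M.v (𝒳 := (T.symS β).comap Y) fun v v' => ?_).ge (Submodule.mem_top (x := z))
  refine T.induction (P := fun v => ee B v v' ∈ (T.symS β).comap Y) v (by simp) (fun x₂ y₂ => ?_)
    fun a b ha hb => by rw [map_add]; exact add_mem ha hb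
  refine T.induction (P := fun v' => ee B _ v' ∈ (T.symS β).comap Y) v' (by simp) (fun x₃ y₃ x₁ x₀ => ?_)
    fun a b ha hb => by rw [map_add]; exact add_mem ha hb
  refine LinearMap.ext fun y₀ => ext_β M.c fun y₁ => ?_
  rw [TP.sb_apply, TP.sb_apply, ← M.B_tm, ← M.B_tm, M.v.symm, M.v.symm (T.tm x₀ y₁), ← sub_eq_zero]
  exact DFunLike.congr_fun (h ![y₀, y₁, y₂, y₃]) ![x₀, x₁, x₂, x₃]

variable {J : Type*} [Fintype J] {T : J → TP F U W V} (S : OS T β γ B H) (I : RI T β H)
include S I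

theorem OS.res_sum_mem (O : Finset (End F (End F V))) (hO : ∀ Y, Y ∈ O ↔ ∃ i, ∃ h ∈ H, Y = ((T i).mv h).Y) (j : J)
    {u u' : U} (h : Hyp β u u') (y : Fin 4 → W) : (T j).res B y (∑ Y ∈ O, Y - (T j).Y) ∈ mfil (Fin 4) (Uf β u) 4 := by
  classical
  have D := S.d
  have := D.nontrivial
  obtain ⟨p, hp⟩ := CharP.exists F
  have := Fact.mk (CharP.char_is_prime F p)
  have := Module.finite_of_finite F (M := P2 β u u')
  let E : P2 β u u' → (End F V)ˣ := fun w => (T j).Au (tU D.toSymD h.l w.2.1 1)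
  have hE : ∀ w, (E w).1 = (T j).A (ex (wg β u w.1)) := fun w => Au_tU _ _ _
  have hEH : ∀ w, E w ∈ H := fun w => tU_mem_of_sq (S.sq j) _ _ _ _
  have Un : Unip (fun w => rho (E w)) fun n => ⨅ y, (mfil (Fin 4) (Uf β u) (8 - n)).comap ((T j).res B y) :=
    ⟨by rw [show E 0 = 1 from Units.ext (by simp [hE, wg, ex_zero]), map_one], fun a b => by
      rw [← map_mul]
      exact congrArg _ (Units.ext (by rw [Units.val_mul, hE, hE, hE, ← map_mul, ex_wg_mul D.toSymD h.l a.2.1 b.2.1]; rfl)),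
      fun a n Y hY => (Submodule.mem_iInf _).2 fun y => by
        rw [Submodule.mem_comap, map_sub, (S.ft j).res_rho (tU_mem D.toSymD h.l a.2.1 1), tU_inv D.toSymD h.l a.2.1]
        exact comp_sub_mem_mfil (Uf_step D.toSymD h.l (by rw [map_neg, a.2.1, neg_zero])) ((Submodule.mem_iInf _).1 hY y),
      fun _ _ h => iInf_mono fun y => Submodule.comap_mono (mfil_mono _ (Nat.sub_le_sub_left h 8))⟩
  rw [← Finset.sum_erase_eq_sub (f := fun Y => Y) ((hO (T j).Y).2 ⟨j, 1, one_mem H, rfl⟩)]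
  refine (Submodule.mem_iInf _).1 (Un.sum_invariant_mem p (fun a => by
    rw [← Nat.cast_smul_eq_nsmul F, CharP.cast_eq_zero, zero_smul]) 4 _ (fun a Y hY => ?_) fun Y hY => ?_) y <;>
    obtain ⟨h1, h2⟩ := Finset.mem_erase.1 hY <;> obtain ⟨i, g, hg, rfl⟩ := (hO _).1 h2
  · refine Finset.mem_erase.2 ⟨fun e => h1 ?_, (hO _).2 ⟨i, _, mul_mem (hEH a) hg, by rw [← TP.mv_mv, TP.Y_mv _ (E a)]⟩⟩
    rw [← TP.Kron.rho_Y (T := T j) (g := E a) (hE a ▸ (T j).kron_A _)] at e
    simpa only [← End.mul_apply, ← map_mul, inv_mul_cancel, map_one, End.one_apply] using congrArg (rho (E a)⁻¹) e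
  · by_cases hc : (T j).Comm ((T i).mv g)
    · refine ⟨4, 0, (Submodule.mem_iInf _).2 fun y => ?_, Nat.pos_of_ne_zero AddSubgroup.index_ne_zero_of_finite, by omega⟩
      suffices (T j).res B y ((T i).mv g).Y = 0 by rw [Submodule.mem_comap, this]; exact zero_mem _
      ext x
      obtain ⟨c, e⟩ := (T j).exists_C (hc (((T i).mv g).ptr (ee B ((T j).tm (x 2) (y 2)) ((T j).tm (x 3) (y 3)))))
      simp [TP.res_apply, TP.Y_apply, e, TP.C_tm, (S.ft j).form, D.symm (x 0)]
    · obtain ⟨c, h3, h4⟩ := D.exists_index p h (Un.stab ((T i).mv g).Y) fun a ha => by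
        by_contra qa
        exact (S.dich I (S.mv hg) (I.mv hg) h.l h.ne a.2.1 qa (hE a ▸ TP.kron_of_rho ha)).elim (fun e => h1 e.Y_eq) hc
      exact ⟨0, c, (Submodule.mem_iInf _).2 fun y => TP.res_mem u y _, h3, by omega⟩

theorem OS.skew_sum [Nonempty J] (O : Finset (End F (End F V))) (hO : ∀ Y, Y ∈ O ↔ ∃ i, ∃ h ∈ H, Y = ((T i).mv h).Y)
    {z z' : End F V} (h : Adj B ((∑ Y ∈ O, Y) z) z') {a' : J → End F U} (ha : ∀ j, Adj β ((T j).ptr z) (a' j)) :
    (∑ Y ∈ O, Y) z - z' = ∑ j, (T j).A ((T j).ptr z - a' j) := by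
  have D := S.d
  have := D.nontrivial
  obtain ⟨u, -, u0, hu⟩ := SymD.exists_sing (s := β) ⊤ (by rw [finrank_top]; exact D.h3)
  obtain ⟨u', h'⟩ := exists_hyp' D.toSymD hu u0
  exact S.fr.skew_eq_sum S.ft Finset.univ _ _ _ _ h ha (by simp) fun j _ => (S.ft j).mem_symS_of_res
    (Y := ∑ Y ∈ O, Y - (T j).Y) (fun y => eq_zero_of_mfil (span_Uf h') (by simp) (S.res_sum_mem I O hO j h' y)
      (S.res_sum_mem I O hO j h'.symm y)) z

theorem OS.wg_mem {g : (End F V)ˣ} (hg : g ∈ H) (j i : J) (x y : U) :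
    ∃ a c, ((T j).mv g).A (wg β x y) = (T i).A a + (T i).C c := by
  classical
  have D := S.d
  have := D.nontrivial
  have : Nonempty J := ⟨j⟩
  have : Finite V := Module.finite_of_finite F
  have : Finite (End F V) := Module.finite_of_finite F
  have : Finite (End F (End F V)) := Module.finite_of_finite F
  have := Fintype.ofFinite (End F (End F V))
  let O : Finset (End F (End F V)) := Finset.univ.filter fun Y => ∃ i, ∃ h ∈ H, Y = ((T i).mv h).Y
  have hO : ∀ Y, Y ∈ O ↔ ∃ i, ∃ h ∈ H, Y = ((T i).mv h).Y := fun Y => by simp [O]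
  obtain ⟨c, hc⟩ := exists_trace_one (F := F) (W := W)
  let z := ((T j).mv g).A (wg β x y) * ((T j).mv g).C c
  obtain ⟨z', hz⟩ := exists_adj (S.ft j).v ((∑ Y ∈ O, Y) z)
  choose a' ha' using fun i => exists_adj D.toSymD ((T i).ptr z)
  have h1 := S.skew_sum I O hO hz ha'
  have h2 : ∀ i, ((T i).mv g).ptr z = if i = j then wg β x y else 0 := fun i => by
    split_ifs with e
    · rw [e, TP.ptr_AC, hc, one_smul]
    · obtain ⟨x₀, hx₀⟩ := exists_ne (0 : U)
      obtain ⟨α, hα⟩ := exists_dual_one (F := F) hx₀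
      have h3 : ∀ x y, ((T i).mv g).ptr (((T j).mv g).A (ee β x y) * ((T j).mv g).C c) =
          β y x • ((T i).mv g).ptr (((T j).mv g).A (rk x₀ α) * ((T j).mv g).C c) := fun x y => by
        rw [show ee β x y = rk x α * rk x₀ (β y) by rw [rk_mul_rk, hα, one_smul]; rfl, map_mul (TP.A _), mul_assoc,
          ((S.mv hg).fr.comm i j e _).ptr_comm, mul_assoc, ← (TP.commute _ _ c).eq, ← mul_assoc, ← map_mul (TP.A _), rk_mul_rk,
          map_smul, smul_mul_assoc, map_smul]
      simp only [z, wg, map_sub, sub_mul, h3, D.symm x, sub_self]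
  have h3 := (S.mv hg).skew_sum (I.mv hg) O (fun Y => (hO Y).trans ⟨fun ⟨i, h, hh, e⟩ =>
    ⟨i, h * g⁻¹, mul_mem hh (inv_mem hg), by rw [TP.mv_mv, inv_mul_cancel_right, e]⟩, fun ⟨i, h, hh, e⟩ =>
      ⟨i, h * g, mul_mem hh hg, e⟩⟩) hz (a' := fun i => -((T i).mv g).ptr z) fun i => by
        rw [h2]
        split_ifs
        exacts [wg_adj D.toSymD x y, fun _ _ => by simp]
  rw [Finset.sum_eq_single j (fun i _ e => by simp [h2, e]) (by simp), h2, if_pos rfl, h1,
    ← Finset.add_sum_erase _ _ (Finset.mem_univ i)] at h3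
  obtain ⟨c', e⟩ := (T i).exists_C (z := ∑ m ∈ Finset.univ.erase i, (T m).A ((T m).ptr z - a' m)) fun b =>
    Commute.sum_right _ _ _ fun m hm => S.fr.comm i m (Finset.ne_of_mem_erase hm).symm _ b
  refine ⟨(2 : F)⁻¹ • ((T i).ptr z - a' i), (2 : F)⁻¹ • c', ?_⟩
  rw [map_smul, map_smul, ← smul_add, ← e, h3, eq_inv_smul_iff₀ D.two, sub_neg_eq_add, map_add, two_smul]

/-- The trace trick: the group permutes the factors. -/
theorem OS.exists_same {g : (End F V)ˣ} (hg : g ∈ H) (j : J) : ∃ i, (T i).Same ((T j).mv g) := by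
  have D := S.d
  have := D.nontrivial
  obtain ⟨u, -, u0, hu⟩ := SymD.exists_sing (s := β) ⊤ (by rw [finrank_top]; exact D.h3)
  obtain ⟨w, hw, qw⟩ := exists_nonsing_perp D.toSymD D.h3 hu
  have S' := S.mv hg
  have h3 := wg_cube D.toSymD hu hw hw hw
  have key : ∀ i, (∃ a, ((T j).mv g).A (ee β u u) = (T i).A a) ∨ (T i).Cm (((T j).mv g).A (ee β u u)) := fun i =>
    FT.iota_of_sq D hu hw qw rfl ((S.ft i).lie_dich D (S.wg_mem I hg j i u w)
      (map_neg ((T j).mv g).A _ ▸ (S'.ft j).adj_A (wg_adj D.toSymD u w)) (by rw [← map_mul, ← map_mul, h3, map_zero])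
      (D.h3.eq_or_lt.symm.imp (fun h => ⟨h, (FT.rank_ex D hu hw).2⟩) fun h => ⟨h.symm, fun x y => by
        obtain ⟨a, ⟨a, rfl⟩, c, ⟨c, rfl⟩, e⟩ := Submodule.mem_sup.1 (vandermonde D.two (D.hq.resolve_left (by omega))
          (𝒮 := LinearMap.range (T i).A.toLinearMap ⊔ LinearMap.range (T i).C.toLinearMap)
          (N := ((T j).mv g).A (wg β u w)) (x := (T i).A (wg β x y)) fun c => by
            obtain ⟨a, c', e⟩ := S.wg_mem I (tU_mem_of_sq (S'.sq j) D.toSymD hu hw c) i i x y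
            rw [TP.mv_A] at e
            rw [← map_smul, ← map_smul, ← map_ex, ← map_ex]
            exact Submodule.mem_sup.2 ⟨_, ⟨a, rfl⟩, _, ⟨c', rfl⟩, e.symm⟩).2
        exact ⟨a, c, e.symm⟩⟩))
  by_cases h : ∃ i, ∃ a, ((T j).mv g).A (ee β u u) = (T i).A a
  · obtain ⟨i, a, e⟩ := h
    exact ⟨i, (S'.same_of_iota S I hu u0 e).symm⟩
  obtain ⟨l, e⟩ := S.fr.centre _ fun i => (key i).resolve_left fun h' => h ⟨i, h'⟩
  exact absurd ⟨j, l • 1, by rw [e, map_smul, map_one]⟩ h

end CL.TW
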