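/-
Tensor decompositions, part 8: the elements of the tensor-wreath subgroup of `Ω`, and the part of the unipotent radical
of the stabiliser of `u ⊗ W` lying in an overgroup.
-/
import Cfsg.Agent.Cls.TW7
import Cfsg.Agent.Cls.TWMat

set_option autoImplicit false
set_option linter.unusedSectionVars false

namespace CL.TW

open Module CL.Sp

variable {F U W V : Type*} [Field F] [AddCommGroup U] [Module F U] [AddCommGroup W] [Module F W]
  [AddCommGroup V] [Module F V] {β : LinearMap.BilinForm F U} {γ : LinearMap.BilinForm F W}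
  {B : LinearMap.BilinForm F V} {H : Subgroup (End F V)ˣ}

theorem Adj.add {a a' b b' : End F U} (h : Adj β a a') (h' : Adj β b b') : Adj β (a + b) (a' + b') := fun x y => by
  simp [h x y, h' x y]

theorem Adj.sub {a a' b b' : End F U} (h : Adj β a a') (h' : Adj β b b') : Adj β (a - b) (a' - b') := fun x y => by
  simp [h x y, h' x y]

theorem Adj.smul {a a' : End F U} (h : Adj β a a') (c : F) : Adj β (c • a) (c • a') := fun x y => by simp [h x y]

theorem Adj.one : Adj β 1 1 := fun _ _ => rfl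

theorem Adj.unique (D : SymD β) {a a' a'' : End F U} (h : Adj β a a') (h' : Adj β a a'') : a' = a'' :=
  LinearMap.ext fun y => ext_β D fun x => (h x y).symm.trans (h' x y)

/-- A complex structure on the tensor square of a four-dimensional space. -/
theorem exists_J [FiniteDimensional F U] (D : SymD β) (h4 : finrank F U = 4) (f g : End F U →ₐ[F] End F V)
    (hfg : ∀ a b, Commute (f a) (g b)) (hf : ∀ {a a'}, Adj β a a' → Adj B (f a) (f a'))
    (hg : ∀ {a a'}, Adj β a a' → Adj B (g a) (g a')) :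
    ∃ J : End F V, J * J = -1 ∧ Adj B J (-J) ∧ ∀ z, (∀ a, Commute z (f a)) → (∀ a, Commute z (g a)) → Commute z J := by
  have := invertibleOfNonzero D.two
  obtain ⟨x₀, hx₀⟩ := LinearMap.BilinForm.exists_orthogonal_basis (B := β) ⟨D.symm⟩
  let x := x₀.reindex (finCongr h4)
  have hx : ∀ i j, β (x i) (x j) = if i = j then β (x i) (x i) else 0 := fun i j => by
    split_ifs with e
    · rw [e]
    · simpa [x] using hx₀ (fun e' => e ((finCongr h4).symm.injective e'))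
  have hb : ∀ i, β (x i) (x i) ≠ 0 := fun i e => x.ne_zero i (D.nondeg.1 _ fun y => by
    rw [← x.sum_repr y, map_sum]
    exact Finset.sum_eq_zero fun j _ => by rw [map_smul, hx, e, ite_self, smul_zero])
  have h1 : ∑ i, (β (x i) (x i))⁻¹ • ee β (x i) (x i) = 1 := x.ext fun j => by
    rw [LinearMap.sum_apply, Finset.sum_eq_single j (fun i _ h => by
      rw [LinearMap.smul_apply, ee_apply, hx i j, if_neg h, zero_smul, smul_zero]) (by simp)]
    simp [ee_apply, smul_smul, hb]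
  generalize hbb : (fun i => β (x i) (x i)) = b
  have hb' : ∀ i, β (x i) (x i) = b i := fun i => congrFun hbb i
  simp only [hb'] at hx hb h1
  let E : Fin 4 × Fin 4 → Fin 4 × Fin 4 → End F V := fun p q => f (ee β (x p.1) (x q.1)) * g (ee β (x p.2) (x q.2))
  have hE : ∀ p q p' q', E p q * E p' q' = (if q = p' then b q.1 * b q.2 else 0) • E p q' := fun p q p' q' => by
    simp only [E]
    rw [mul_assoc, ← mul_assoc (g _), ← (hfg _ _).eq, mul_assoc, ← mul_assoc, ← map_mul, ← map_mul, ee_mul, ee_mul,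
      map_smul, map_smul, smul_mul_smul_comm, hx, hx]
    congr 1
    by_cases e1 : q.1 = p'.1 <;> by_cases e2 : q.2 = p'.2 <;> simp [e1, e2, Prod.ext_iff]
  let σ : Fin 4 × Fin 4 → Fin 4 × Fin 4 := fun p => if p.1 = p.2 then (![1, 0, 3, 2] p.1, ![1, 0, 3, 2] p.1) else (p.2, p.1)
  have hσ : ∀ p, σ (σ p) = p := by decide
  have hσ' : ∀ p, p.1 < (σ p).1 ↔ ¬ (σ p).1 < p.1 := by decide
  let κ : Fin 4 × Fin 4 → F := fun p => (if p.1 < (σ p).1 then 1 else -1) * (b p.1 * b (σ p).1)⁻¹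
  have hκ : ∀ p, κ (σ p) = -κ p := fun p => by
    simp only [κ, hσ, hσ' p, mul_comm (b p.1)]
    split_ifs <;> simp
  have hn : ∀ p, κ p * κ p * (b (σ p).1 * b (σ p).2) = (b p.1)⁻¹ * (b p.2)⁻¹ := fun p => by
    have := hb p.1
    have := hb p.2
    have := hb (σ p).1
    have h2 : b (σ p).2 * b p.2 = b p.1 * b (σ p).1 := by
      simp only [σ]
      split_ifs with e
      · rw [e, mul_comm]
      · rfl
    simp only [κ]
    split_ifs <;> field_simp <;> linear_combination h2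
  refine ⟨∑ p, κ p • E (σ p) p, ?_, fun v w => ?_, fun z h2 h3 => Commute.sum_right _ _ _ fun p _ =>
    ((h2 _).mul_right (h3 _)).smul_right _⟩
  · conv_rhs => rw [show (1 : End F V) = f 1 * g 1 by simp, ← h1, map_sum, map_sum, Finset.sum_mul_sum,
      ← Fintype.sum_prod_type', ← Finset.sum_neg_distrib]
    rw [Finset.sum_mul_sum, Finset.sum_comm]
    refine Finset.sum_congr rfl fun q _ => ?_
    rw [Finset.sum_eq_single (σ q) (fun p _ h => by rw [smul_mul_smul_comm, hE, if_neg h, zero_smul, smul_zero])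
      (by simp), smul_mul_smul_comm, hE, if_pos rfl, hσ, hκ, smul_smul, neg_mul, neg_mul, hn, map_smul, map_smul,
      smul_mul_smul_comm, neg_smul]
  · have h2 : ∀ p q, Adj B (E p q) (E q p) := fun p q v w =>
      ((hf (ee_adj D _ _)).mul (hg (ee_adj D _ _)) v w).trans (by rw [← (hfg _ _).eq])
    conv_lhs => rw [← Equiv.sum_comp ⟨σ, σ, hσ, hσ⟩]
    simp [LinearMap.sum_apply, hκ, hσ, h2 _ _ v w]

variable [FiniteDimensional F U] [FiniteDimensional F W] [Nontrivial W] [Finite F] [FiniteDimensional F V]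

/-- The overgroups of the tensor-wreath subgroup of `Ω`. -/
structure OW {J : Type*} [Nontrivial U] (T : J → TP F U W V) (β : LinearMap.BilinForm F U) (γ : LinearMap.BilinForm F W)
    (B : LinearMap.BilinForm F V) (H : Subgroup (End F V)ˣ) : Prop where
  d : OD β
  ft : ∀ j, FT (T j) β γ B
  fr : Fr T
  le : H ≤ IsoG B
  sq : ∀ g ∈ IsoG B, g * g ∈ PermG T → g * g ∈ H
  pm : ∀ π : Equiv.Perm J, ∃ τ ∈ IsoG B, ∀ i a, τ.1 * (T i).A a * (τ⁻¹).1 = (T (π i)).A a

namespace OW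

variable {J : Type*} [Nontrivial U] {T : J → TP F U W V} (S : OW T β γ B H)
include S

theorem os : OS T β γ B H :=
  ⟨S.d, S.ft, S.fr, S.le, fun j b hb => map_mul (T j).Au b b ▸
    S.sq _ ((S.ft j).Au_mem hb) (mul_mem (S.fr.Au_mem_permG j b) (S.fr.Au_mem_permG j b))⟩

theorem sq' {g : (End F V)ˣ} (h : g ∈ IsoG B) (h' : g ∈ PermG T) : g * g ∈ H := S.sq g h (mul_mem h' h')

theorem diff [DecidableEq J] (i j : J) {b : (End F U)ˣ} (hb : b ∈ IsoG β) : (T i).Au b * ((T j).Au b)⁻¹ ∈ H := by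
  obtain ⟨τ, h1, h2⟩ := S.pm (Equiv.swap i j)
  have h3 : τ ∈ PermG T := mem_permG _ fun l a => ⟨a, h2 l a⟩
  have h4 := (S.ft i).Au_mem hb
  have h5 := S.fr.Au_mem_permG i b
  have h6 : (T j).Au b = τ * (T i).Au b * τ⁻¹ := Units.ext (by simpa [TP.Au_val] using (h2 i b.1).symm)
  convert mul_mem (mul_mem (S.sq' h4 h5) (S.sq' (mul_mem (inv_mem h4) h1) (mul_mem (inv_mem h5) h3)))
    (inv_mem (S.sq' h1 h3)) using 1
  rw [h6]
  group

theorem cyc [DecidableEq J] {i j l : J} (h1 : i ≠ j) (h2 : i ≠ l) (h3 : j ≠ l) :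
    ∃ c ∈ H, (∀ a, c.1 * (T i).A a * (c⁻¹).1 = (T j).A a) ∧ ∀ a, c.1 * (T j).A a * (c⁻¹).1 = (T l).A a := by
  obtain ⟨τ, h4, h5⟩ := S.pm (Equiv.swap i j * Equiv.swap i l)
  have h6 : ∀ m a, (τ * τ).1 * (T m).A a * ((τ * τ)⁻¹).1 =
      (T ((Equiv.swap i j * Equiv.swap i l) ((Equiv.swap i j * Equiv.swap i l) m))).A a := fun m a => by
    rw [← h5, ← h5]; simp [mul_assoc]
  refine ⟨τ * τ, S.sq' h4 (mem_permG _ fun l a => ⟨a, h5 l a⟩), fun a => ?_, fun a => ?_⟩ <;> rw [h6] <;>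
    simp [Equiv.swap_apply_def, h3, h1.symm, h2.symm, h3.symm]

theorem refl4 (h4 : finrank F U = 4) {i j l : J} (h1 : i ≠ j) (h2 : i ≠ l) (h3 : j ≠ l) {x : U} (hx : β x x ≠ 0) :
    (T i).Au (rU hx) ∈ H := by
  obtain ⟨c, e1, e2, e3⟩ := exists_J S.d.toSymD h4 (T j).A (T l).A (fun a b => S.fr.comm j l h3 b a)
    (S.ft j).adj_A (S.ft l).adj_A
  set P := (T i).A ((β x x)⁻¹ • ee β x x) with hP
  have e4 : P * P = P := by
    rw [hP, ← map_mul, smul_mul_smul_comm, ee_mul, smul_smul, inv_mul_cancel_right₀ hx]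
  have e5 : c * P = P * c := (e3 P (S.fr.comm i j h1 · _) (S.fr.comm i l h2 · _)).eq.symm
  have e6 : ∀ z, P * (P * z) = P * z := fun z => by rw [← mul_assoc, e4]
  have e7 : ∀ z, c * (P * z) = P * (c * z) := fun z => by rw [← mul_assoc, e5, mul_assoc]
  have e8 : ∀ ε : F, (1 - P + P * c) * (1 - P + ε • (P * c)) = 1 - P - ε • P := fun ε => by
    simp only [mul_add, add_mul, mul_sub, sub_mul, mul_one, one_mul, mul_smul_comm, mul_assoc, e4, e5, e6, e7, e1]
    simp [← sub_eq_add_neg]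
  have e9 := e8 (-1)
  rw [neg_smul, neg_smul, one_smul, one_smul, sub_neg_eq_add, sub_add_cancel] at e9
  have e10 : Adj B P P := (S.ft i).adj_A ((ee_adj S.d.toSymD x x).smul _)
  have e11 : Adj B (1 - P + -(P * c)) (1 - P + P * c) := by
    simpa [e5, ← sub_eq_add_neg] using (Adj.one.sub e10).sub (e10.mul e2)
  obtain ⟨g, hg⟩ := exists_unit (S.ft i).v one_ne_zero (a := 1 - P + -(P * c)) fun v w => by
    rw [e11, ← End.mul_apply, e9, one_mul, End.one_apply]
  have e12 : (g⁻¹).1 = 1 - P + P * c := Units.inv_eq_of_mul_eq_one_left (hg ▸ e9)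
  have e13 : g⁻¹ * g⁻¹ = (T i).Au (rU hx) := Units.ext (by
    have := e8 1
    rw [one_smul] at this
    rw [Units.val_mul, e12, this, hP, TP.Au_val]
    simp only [rU, map_sub, map_one, map_smul]
    module)
  exact e13 ▸ S.sq _ (inv_mem fun v w => by rw [hg, e11, ← End.mul_apply, e9, End.one_apply])
    (e13 ▸ S.fr.Au_mem_permG i _)

end OW

/-- A non-zero common fixed point of commuting `p`-elements. -/
theorem exists_fixed_ne_zero {M ι : Type*} [AddCommGroup M] [Module F M] [Finite M] [Finite ι] (p : ℕ) [Fact p.Prime]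
    [CharP F p] (X : AddSubgroup M) {x : M} (hx : x ∈ X) (h0 : x ≠ 0) (π : ι → M → M) {n : ℕ}
    (h1 : ∀ i, ∀ a ∈ X, π i a ∈ X) (h2 : ∀ i a, (π i)^[p ^ n] a = a) (h3 : ∀ i j a, π i (π j a) = π j (π i a))
    (h4 : ∀ i, π i 0 = 0) : ∃ y ∈ X, y ≠ 0 ∧ ∀ i, π i y = y := by
  classical
  by_contra h
  push Not at h
  have := Fintype.ofFinite M
  have h5 := card_fixed_eq (F := F) p (Finset.univ.filter (· ∈ X)) π (fun i a ha => by simpa using h1 i a (by simpa using ha))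
    h2 h3 {0} fun a => by
      simp only [Finset.mem_singleton, Finset.mem_filter, Finset.mem_univ, true_and]
      exact ⟨fun e => e ▸ ⟨zero_mem X, h4⟩, fun ⟨h5, h6⟩ => by_contra fun e => (h a h5 e).elim fun i hi => hi (h6 i)⟩
  have h6 := card_fixed_eq (F := F) p (Finset.univ.filter (· ∈ X)) (fun (_ : Unit) a => x + a) (n := 1)
    (fun _ a ha => by simpa using add_mem hx (show a ∈ X by simpa using ha))
    (fun _ a => by rw [add_left_iterate_apply, pow_one, ← Nat.cast_smul_eq_nsmul F, CharP.cast_eq_zero, zero_smul, zero_add])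
    (fun _ _ _ => rfl) ∅ (by simp [h0])
  simpa using h5.trans h6.symm

section Rad

variable (T : TP F U W V) (β H)

/-- The element `1 + ι_u d` lies in `H`. -/
def Zp (u : U) (d : End F V) : Prop := T.Cm d ∧ ∃ g ∈ H, g.1 = 1 + T.A (ee β u u) * d

/-- The actions on `u^⊥ ⊗ W` of the elements of `H` in the unipotent radical. -/
def RR (u : U) : AddSubgroup (U →ₗ[F] End F V) where
  carrier := {ρ | ∃ g ∈ H, (∀ z, g.1 * T.A (ee β u z) = T.A (ee β u z)) ∧
    ∀ x, β u x = 0 → ∀ z, g.1 * T.A (ee β x z) = T.A (ee β x z) + T.A (ee β u z) * ρ x}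
  add_mem' := by
    rintro ρ ρ' ⟨g, hg, h1, h2⟩ ⟨g', hg', h1', h2'⟩
    exact ⟨g * g', mul_mem hg hg', fun z => by rw [Units.val_mul, mul_assoc, h1', h1], fun x hx z => by
      rw [Units.val_mul, mul_assoc, h2' x hx, mul_add, h2 x hx, ← mul_assoc, h1, LinearMap.add_apply, mul_add, add_assoc]⟩
  zero_mem' := ⟨1, one_mem H, by simp, by simp⟩
  neg_mem' := by
    rintro ρ ⟨g, hg, h1, h2⟩
    have h3 : ∀ z, (g⁻¹).1 * T.A (ee β u z) = T.A (ee β u z) := fun z => by
      conv_lhs => rw [← h1, Units.inv_mul_cancel_left]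
    refine ⟨g⁻¹, inv_mem hg, h3, fun x hx z => ?_⟩
    have := congrArg ((g⁻¹).1 * ·) (h2 x hx z)
    simp only [mul_add, ← mul_assoc, h3] at this
    rw [LinearMap.neg_apply, mul_neg, ← sub_eq_add_neg, eq_sub_iff_add_eq, ← this, Units.inv_mul, one_mul]

variable {T β H}

theorem TP.Cm.iota_mul {u : U} (hu : β u u = 0) {d : End F V} (h : T.Cm d) (d' : End F V) :
    T.A (ee β u u) * d * (T.A (ee β u u) * d') = 0 := by
  rw [(h _).eq, mul_assoc, ← mul_assoc (T.A _), ← map_mul, ee_mul, hu]; simp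

theorem Zp.add {u : U} (hu : β u u = 0) {d d' : End F V} (h : Zp β H T u d) (h' : Zp β H T u d') : Zp β H T u (d + d') := by
  obtain ⟨h1, g, hg, e⟩ := h
  obtain ⟨h1', g', hg', e'⟩ := h'
  refine ⟨fun a => (h1 a).add_right (h1' a), g * g', mul_mem hg hg', ?_⟩
  rw [Units.val_mul, e, e', mul_add, add_mul, add_mul, h1.iota_mul hu]
  simp [mul_add, add_assoc]

theorem Zp.zero (u : U) : Zp β H T u 0 := ⟨fun _ => Commute.zero_right _, 1, one_mem H, by simp⟩

theorem Zp.neg {u : U} (hu : β u u = 0) {d : End F V} (h : Zp β H T u d) : Zp β H T u (-d) := by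
  obtain ⟨h1, g, hg, e⟩ := h
  refine ⟨fun a => (h1 a).neg_right, g⁻¹, inv_mem hg, Units.inv_eq_of_mul_eq_one_right ?_⟩
  rw [e, mul_add, add_mul, add_mul, h1.iota_mul hu]
  simp

theorem TP.Cm.inv {c : (End F V)ˣ} (hc : T.Cm c.1) : T.Cm (c⁻¹).1 := fun a => (hc a).units_inv_right

theorem TP.Cm.mul {c d : End F V} (hc : T.Cm c) (hd : T.Cm d) : T.Cm (c * d) := fun a => (hc a).mul_right (hd a)

theorem Zp.conj {u : U} {d : End F V} (h : Zp β H T u d) {a : (End F U)ˣ} (ha : a ∈ IsoG β) {c : (End F V)ˣ}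
    (hc : T.Cm c.1) (hg : T.Au a * c ∈ H) : Zp β H T (a.1 u) (c.1 * d * (c⁻¹).1) := by
  obtain ⟨h1, g, hg', e⟩ := h
  refine ⟨(hc.mul h1).mul hc.inv, _, mul_mem (mul_mem hg hg') (inv_mem hg), ?_⟩
  rw [← conj_ee ha, map_mul, map_mul, mul_assoc _ (T.A _), (((hc.mul h1).mul hc.inv) _).eq, Units.val_mul, Units.val_mul, e,
    mul_add, add_mul, mul_one, Units.mul_inv, mul_inv_rev]
  simp only [Units.val_mul, TP.Au_val, TP.Au_inv, mul_assoc]
  rw [← mul_assoc c.1, ← (hc _).eq, mul_assoc]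

theorem Zp.smul_iff {u : U} {d : End F V} {c : F} (h0 : c ≠ 0) : Zp β H T (c • u) d ↔ Zp β H T u ((c * c) • d) :=
  and_congr (forall_congr' fun _ => (Commute.smul_right_iff₀ (mul_ne_zero h0 h0)).symm) (by simp [smul_smul])

theorem RR.conj {u : U} {ρ : U →ₗ[F] End F V} (h : ρ ∈ RR β H T u) {a : (End F U)ˣ} (ha : a ∈ IsoG β) {c : (End F V)ˣ}
    (hc : T.Cm c.1) (hg : T.Au a * c ∈ H) {ρ' : U →ₗ[F] End F V} (e : ∀ x, ρ' (a.1 x) = c.1 * ρ x * (c⁻¹).1) :
    ρ' ∈ RR β H T (a.1 u) := by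
  obtain ⟨g, hg', h1, h2⟩ := h
  have h3 : ∀ x z, (T.Au a * c * g * (T.Au a * c)⁻¹).1 * T.A (ee β (a.1 x) z) =
      T.A a.1 * c.1 * (g.1 * T.A (ee β x z)) * (c⁻¹).1 := fun x z => by
    simp only [mul_inv_rev, Units.val_mul, TP.Au_val, TP.Au_inv, mul_assoc]
    rw [← map_mul, mul_ee, inv_val_apply, (hc.inv _).eq]
  have h4 : ∀ x z, T.A a.1 * c.1 * T.A (ee β x z) = T.A (ee β (a.1 x) z) * c.1 := fun x z => by
    rw [mul_assoc, ← (hc _).eq, ← mul_assoc, ← map_mul, mul_ee]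
  refine ⟨_, mul_mem (mul_mem hg hg') (inv_mem hg), fun z => by rw [h3, h1, h4, Units.mul_inv_cancel_right],
    fun x hx z => ?_⟩
  obtain ⟨x, rfl⟩ := unit_surjective a x
  rw [h3, h2 x ((ha _ _).symm.trans hx), mul_add, add_mul, ← mul_assoc, h4, h4, Units.mul_inv_cancel_right, e]
  simp only [mul_assoc]

theorem RR.congr {u : U} {ρ ρ' : U →ₗ[F] End F V} (h : ρ ∈ RR β H T u) (e : ∀ x, β u x = 0 → ρ' x = ρ x) :
    ρ' ∈ RR β H T u := by
  obtain ⟨g, hg, h1, h2⟩ := h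
  exact ⟨g, hg, h1, fun x hx z => by rw [e x hx, h2 x hx]⟩

theorem RR.smul {u : U} {ρ : U →ₗ[F] End F V} {c : F} (h0 : c ≠ 0) (h : ρ ∈ RR β H T (c • u)) : c • ρ ∈ RR β H T u := by
  obtain ⟨g, hg, h1, h2⟩ := h
  exact ⟨g, hg, fun z => smul_right_injective _ h0 (by simpa using h1 z), fun x hx z => by simpa using h2 x (by simp [hx]) z⟩

/-- Pure maps. -/
abbrev pr (β : LinearMap.BilinForm F U) (v : U) (s : End F V) : U →ₗ[F] End F V := (β v).smulRight s

theorem RR.one (D : SymD β) {u w : U} (hu : β u u = 0) (hw : β u w = 0) (h : T.Au (tU D hu hw 1) ∈ H) :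
    pr β w 1 ∈ RR β H T u :=
  ⟨_, h, fun z => by rw [Au_tU, ← map_mul, mul_ee, ex_wg_apply D hu hw]; simp [hu, D.symm w u, hw], fun x hx z => by
    rw [Au_tU, ← map_mul, mul_ee, ex_wg_apply D hu hw]; simp [hx]⟩

theorem RR.of_rad {u u' : U} (h : Hyp β u u') {r : (End F V)ˣ} (hr : r ∈ H) (R : T.Rad β u r.1) :
    T.C.toLinearMap ∘ₗ T.sb β (r.1 - 1) u' ∈ RR β H T u :=
  ⟨r, hr, fun z => T.ext_tm fun x y => by simp [T.A_tm, ee_apply, R.fix], fun x hx z => T.ext_tm fun x' y => by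
    simp [T.A_tm, T.C_tm, ee_apply, R.tm h hx]⟩

theorem TP.ext_perp {u u' : U} (h : Hyp β u u') {f g : End F V} (e : ∀ x, β u x = 0 → ∀ z,
    f * T.A (ee β x z) = g * T.A (ee β x z)) {v : V} (hv : T.φ (β u) v = 0) : f v = g v := by
  rw [show v = T.A (1 - ee β u' u) v by simp [T.A_ee, hv]]
  refine LinearMap.congr_fun (T.ext_tm (f := f * T.A _) (g := g * T.A _) fun x y => ?_) v
  have := LinearMap.congr_fun (e ((1 - ee β u' u) x) (by simp [ee_apply, h.lr]) u) (T.tm u' y)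
  simpa only [End.mul_apply, T.A_tm, ee_apply, h.lr, one_smul] using this

variable (M : FT T β γ B)
include M

theorem FT.pure_form {u u' w : U} (h : Hyp β u u') (hw : β u w = 0) {g : (End F V)ˣ} (hg : g ∈ IsoG B) {s s' : End F W}
    (hs : Adj γ s s') (e : ∀ x, β u x = 0 → ∀ z,
      g.1 * T.A (ee β x z) = T.A (ee β x z) + T.A (ee β u z) * pr β w (T.C s) x) :
    ∃ c, g.1 = 1 + T.A (ee β u w) * T.C s - T.A (ee β w u) * T.C s' + T.A (ee β u u) * T.C c := by
  have h1 : ∀ v, T.φ (β u) v = 0 → g.1 v = v + (T.A (ee β u w) * T.C s) v := fun v hv =>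
    TP.ext_perp h (g := 1 + T.A (ee β u w) * T.C s) (fun x hx z => by
      rw [e x hx, add_mul, one_mul, mul_assoc, ← (T.commute _ s).eq, ← mul_assoc, ← map_mul, ee_mul]; simp) hv
  have h2 : ∀ v v', T.φ (β u) v' = 0 → B v' ((T.A (ee β u w) * T.C s) v) = 0 := fun v v' hv => by
    rw [End.mul_apply, T.A_ee, M.v.symm, M.B_tm, hv, map_zero]
  refine ⟨_, eq_add_of_sub_eq' (M.eq_iota_C h (fun v hv => ?_) fun v v' hv => ?_)⟩
  · simp [h1 v hv, T.A_ee, T.φ_C, hv]
  · have h3 : T.φ (β u) ((T.A (ee β u w) * T.C s) v') = 0 := by rw [End.mul_apply, T.A_ee, T.φ_tm, h.l, zero_smul]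
    have h4 : g.1 (v' - (T.A (ee β u w) * T.C s) v') = v' := by
      rw [map_sub, h1 _ hv, h1 _ h3, ← End.mul_apply, T.AC_mul, ee_mul, M.b.symm, hw]; simp
    rw [LinearMap.sub_apply, map_sub, ← h4, hg, h4]
    simp only [LinearMap.sub_apply, LinearMap.add_apply, map_sub, map_add, h2 v v' hv, End.one_apply,
      M.adj_AC (ee_adj M.b u w) hs v' v]
    ring

variable [Nontrivial U]

theorem FT.exists_adj {s : End F V} (hs : T.Cm s) : ∃ t, T.Cm t ∧ Adj B s t := by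
  obtain ⟨s, rfl⟩ := T.exists_C hs
  obtain ⟨t, ht⟩ := TW.exists_adj M.c s
  exact ⟨_, T.cm_C t, M.adj_C ht⟩

/-- Commutators of pure elements of the radical. -/
theorem FT.comm_pure (hH : H ≤ IsoG B) {u u' w w' : U} (h : Hyp β u u') (hw : β u w = 0) (hw' : β u w' = 0)
    {s s' t t' : End F V} (hs : T.Cm s) (hs' : T.Cm s') (ht : Adj B s t) (ht' : Adj B s' t')
    (h1 : pr β w s ∈ RR β H T u) (h2 : pr β w' s' ∈ RR β H T u) : Zp β H T u (β w w' • (s' * t - s * t')) := by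
  obtain ⟨s, rfl⟩ := T.exists_C hs
  obtain ⟨s', rfl⟩ := T.exists_C hs'
  obtain ⟨t₀, h3⟩ := TW.exists_adj M.c s
  obtain ⟨t₀', h3'⟩ := TW.exists_adj M.c s'
  obtain rfl := ht.unique M.v (M.adj_C h3)
  obtain rfl := ht'.unique M.v (M.adj_C h3')
  obtain ⟨g, hg, -, e⟩ := h1
  obtain ⟨g', hg', -, e'⟩ := h2
  obtain ⟨c, e⟩ := M.pure_form h hw (hH hg) h3 e
  obtain ⟨c', e'⟩ := M.pure_form h hw' (hH hg') h3' e'
  rw [← map_mul, ← map_mul, ← map_sub, ← map_smul]
  refine ⟨T.cm_C _, g * g' * (g' * g)⁻¹, mul_mem (mul_mem hg hg') (inv_mem (mul_mem hg' hg)),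
    (Units.mul_inv_eq_iff_eq_mul _).2 ?_⟩
  simp only [Units.val_mul, e, e', mul_add, add_mul, mul_sub, sub_mul, mul_one, one_mul, T.AC_mul, ee_mul, h.l, hw, hw',
    M.b.symm w u, M.b.symm w' u, M.b.symm w' w, zero_smul, map_zero, zero_mul, mul_zero, mul_smul_comm, smul_zero]
  simp only [map_smul, map_sub, smul_mul_assoc, mul_smul_comm, mul_sub, smul_sub]
  abel

/-- An isometry acting on `u^⊥ ⊗ W` like an element of `H`. -/
theorem FT.exists_zp {u u' : U} (h : Hyp β u u') {r g : (End F V)ˣ} (hr : r ∈ IsoG B) (hg : g ∈ IsoG B)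
    (e : ∀ x, β u x = 0 → ∀ z, r.1 * T.A (ee β x z) = g.1 * T.A (ee β x z)) :
    ∃ d, T.Cm d ∧ Adj B d (-d) ∧ (g⁻¹ * r).1 = 1 + T.A (ee β u u) * d := by
  obtain ⟨σ, h1, h2⟩ := M.exists_z h (mul_mem (inv_mem hg) hr) fun v hv => by
    rw [Units.val_mul, End.mul_apply, TP.ext_perp h e hv, inv_val_apply]
  exact ⟨_, T.cm_C σ, map_neg T.C σ ▸ M.adj_C h1, h2⟩

end Rad

end CL.TW
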