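/-
Tensor decompositions, part 9: an overgroup of the tensor-wreath subgroup of `Ω` meeting a unipotent radical outside
the first factor contains a non-trivial element of the centre of such a radical.
-/
import Cfsg.Agent.Cls.TW8

set_option autoImplicit false
set_option linter.unusedSectionVars false

namespace CL.TW

open Module CL.Sp

variable {F U W V : Type*} [Field F] [AddCommGroup U] [Module F U] [AddCommGroup W] [Module F W]
  [AddCommGroup V] [Module F V] {β : LinearMap.BilinForm F U} {γ : LinearMap.BilinForm F W}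
  {B : LinearMap.BilinForm F V} {H : Subgroup (End F V)ˣ}
  [FiniteDimensional F U] [FiniteDimensional F W] [Nontrivial W] [Finite F] [FiniteDimensional F V]

theorem exists_move' (D : SymD β) {E : Submodule F U} (hE : NdOn β E) (h3 : 3 ≤ finrank F E) {a b : U} (ha : a ∈ E)
    (hb : b ∈ E) (a0 : a ≠ 0) (b0 : b ≠ 0) (qa : β a a = 0) (qb : β b b = 0) :
    ∃ v ∈ E, ∃ w ∈ E, ∃ c : F, β v v = 0 ∧ β v w = 0 ∧ c ≠ 0 ∧ ex (wg β v w) a = c • b := by
  obtain ⟨v, hv, qv, h1, h2⟩ := exists_sing_ne D hE h3 ha hb a0 b0 qa qb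
  have two := D.two
  rw [D.symm] at h1 h2
  have hw : β v ((β v a)⁻¹ • a - (β v b)⁻¹ • b) = 0 := by simp [h1, h2]
  refine ⟨v, hv, _, sub_mem (E.smul_mem _ ha) (E.smul_mem _ hb), β v a / β v b, qv, hw, div_ne_zero h1 h2, ?_⟩
  rw [ex_wg_apply D qv hw]
  simp only [map_sub, map_smul, LinearMap.sub_apply, LinearMap.smul_apply, smul_eq_mul, qa, qb, D.symm a b]
  match_scalars <;> field_simp <;> ring

theorem exists_nonsing_perp' (D : SymD β) {E : Submodule F U} (hE : NdOn β E) (h3 : 3 ≤ finrank F E) {a : U} (ha : a ∈ E)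
    (a0 : a ≠ 0) (qa : β a a = 0) : ∃ w ∈ E, β a w = 0 ∧ β w w ≠ 0 := by
  obtain ⟨b, hb, qb, hab, -⟩ := exists_sing_ne D hE h3 ha ha a0 a0 qa qa
  have h1 := SymD.finrank_inf_ker E (β a)
  have h2 := SymD.finrank_inf_ker (E ⊓ LinearMap.ker (β a)) (β b)
  obtain ⟨w, hw, qw⟩ := D.exists_nonsing (E := E ⊓ LinearMap.ker (β a) ⊓ LinearMap.ker (β b)) (fun n hn h => hE n hn.1.1
    fun x hx => by
      have := h (x - (β b x / β a b) • a - (β a x / β a b) • b) ⟨⟨sub_mem (sub_mem hx (E.smul_mem _ ha)) (E.smul_mem _ hb),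
        by simp [qa, div_mul_cancel₀ _ hab]⟩, by simp [qb, D.symm b a, div_mul_cancel₀ _ hab]⟩
      have h4 : β a n = 0 := hn.1.2
      have h5 : β b n = 0 := hn.2
      simpa [h4, h5] using this) (fun e => by rw [e, finrank_bot] at h2; omega)
  exact ⟨w, hw.1.1, hw.1.2, qw⟩

theorem Hyp.four_le {u u' x y : U} (h : Hyp β u u') (hx : x ∈ P2 β u u') (hy : y ∈ P2 β u u')
    (qx : β x x ≠ 0) (hxy : β x y = 0) (y0 : y ≠ 0) : 4 ≤ finrank F U := by
  have : LinearIndependent F ![u, u', x, y] := Fintype.linearIndependent_iff.2 fun c hc => by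
    simp only [Fin.sum_univ_four, Matrix.cons_val] at hc
    have h1 : β u x = 0 := hx.1
    have h2 : β u' x = 0 := hx.2
    have e1 : c 0 = 0 := by simpa [h.r, h.rl, h2, show β u' y = 0 from hy.2] using congrArg (β u') hc
    have e2 : c 1 = 0 := by simpa [h.l, h.lr, h1, show β u y = 0 from hy.1] using congrArg (β u) hc
    have e3 : c 2 = 0 := by simpa [e1, e2, hxy, qx] using congrArg (β x) hc
    have e4 : c 3 = 0 := by simpa [e1, e2, e3, y0] using hc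
    intro i
    fin_cases i
    exacts [e1, e2, e3, e4]
  simpa using this.fintype_card_le_finrank

theorem OD.five_le (D : OD β) {u u' x : U} (h : Hyp β u u') (hx : x ∈ P2 β u u') (x0 : x ≠ 0) (qx : β x x = 0) :
    5 ≤ finrank F U := D.h5 u x h.l hx.1 qx (LinearIndependent.pair_iff.2 fun s t e => by
  have e1 : s = 0 := by simpa [h.rl, show β u' x = 0 from hx.2] using congrArg (β u') e
  exact ⟨e1, by simpa [e1, x0] using e⟩)

theorem Hyp.map {u u' : U} (h : Hyp β u u') {b : (End F U)ˣ} (hb : b ∈ IsoG β) : Hyp β (b.1 u) (b.1 u') :=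
  ⟨(hb _ _).trans h.l, (hb _ _).trans h.r, (hb _ _).trans h.lr, (hb _ _).trans h.rl⟩

theorem OD.eq_of_comm (D : OD β) (T : TP F U W V) {u u' : U} (h : Hyp β u u') {a : End F U} (ha : Adj β a a)
    (hc : ∀ w, β u w = 0 → Commute (ex (wg β u w)) a) : ∃ c e : F, a = c • 1 + e • ee β u u := by
  obtain ⟨c, e, d, -, -, -, hs⟩ := TP.sb_of_comm (T := T) D h (σ := T.A a) fun w hw =>
    (commute_of_ex T.A (wg_cube D.toSymD h.l hw hw hw) ((hc w hw).map _)).2
  obtain ⟨y₀, hy₀⟩ := exists_ne (0 : W)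
  obtain ⟨χ, hχ⟩ := exists_dual_one (F := F) hy₀
  refine ⟨χ (c y₀), χ (e y₀), LinearMap.ext fun x => ext_β D.toSymD fun y => mul_left_cancel₀ D.two ?_⟩
  have h1 := fun y x => congrArg χ (LinearMap.congr_fun (hs y x) y₀)
  have h2 := h1 y x
  have h3 := h1 x y
  simp only [TP.sb_apply, T.A_tm, T.φ_tm, map_smul, hχ, smul_eq_mul, LinearMap.add_apply, LinearMap.sub_apply,
    LinearMap.smul_apply, map_add, map_sub, End.one_apply, ee_apply, ← ha x y, D.symm (a x), D.symm x y,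
    D.symm y u] at h2 h3 ⊢
  linear_combination h2 + h3

theorem RR.pr_conj {T : TP F U W V} {u v : U} {s : End F V} (h : pr β v s ∈ RR β H T u) {a : (End F U)ˣ} (ha : a ∈ IsoG β)
    {c : (End F V)ˣ} (hc : T.Cm c.1) (hg : T.Au a * c ∈ H) :
    pr β (a.1 v) (c.1 * s * (c⁻¹).1) ∈ RR β H T (a.1 u) := RR.conj h ha hc hg fun x => by simp [ha v x]

theorem TP.cm_one (T : TP F U W V) : T.Cm 1 := fun _ => Commute.one_right _

theorem RR.pr_move {T : TP F U W V} {u v : U} {s : End F V} (h : pr β v s ∈ RR β H T u) {a : (End F U)ˣ} (ha : a ∈ IsoG β)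
    (hg : T.Au a ∈ H) : pr β (a.1 v) s ∈ RR β H T (a.1 u) := by
  simpa using RR.pr_conj h ha (c := 1) T.cm_one (by simpa using hg)

theorem RR.comp {T : TP F U W V} {u : U} {ρ : U →ₗ[F] End F V} (h : ρ ∈ RR β H T u) {a : (End F U)ˣ} (ha : a ∈ IsoG β)
    (hg : T.Au a ∈ H) (e : a.1 u = u) : ρ ∘ₗ a.1 ∈ RR β H T u := by
  have e' : (a⁻¹).1 u = u := by conv_lhs => rw [← e, inv_val_apply]
  exact e' ▸ RR.conj h (inv_mem ha) (c := 1) T.cm_one (by simpa using hg) fun x => by simp [val_inv_apply]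

variable {J : Type*} [Nontrivial U] {T : J → TP F U W V} [Fintype J] [DecidableEq J]

theorem OW.diff' (S : OW T β γ B H) (i j : J) {b : (End F U)ˣ} (hb : b ∈ IsoG β) : (T i).Au b⁻¹ * (T j).Au b ∈ H := by
  simpa using S.diff i j (inv_mem hb)

theorem OW.tU_H (S : OW T β γ B H) (i : J) {u w : U} (hu : β u u = 0) (hw : β u w = 0) (c : F) :
    (T i).Au (tU S.d.toSymD hu hw c) ∈ H := tU_mem_of_sq (S.os.sq i) _ hu hw c

theorem OW.pr_one (S : OW T β γ B H) (i : J) {u w : U} (hu : β u u = 0) (hw : β u w = 0) : pr β w 1 ∈ RR β H (T i) u :=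
  RR.one S.d.toSymD hu hw (S.tU_H i hu hw 1)

section Z0

variable (S : OW T β γ B H) {i : J} (Z0 : ∀ u, β u u = 0 → u ≠ 0 → ∀ d, Zp β H (T i) u d → d = 0)
include S Z0

theorem OW.commute_pure {u u' w w' : U} (h : Hyp β u u') (hw : β u w = 0) (hw' : β u w' = 0) (h0 : β w w' ≠ 0)
    {s s' : End F V} (hs : (T i).Cm s) (hs' : (T i).Cm s') (h1 : pr β w s ∈ RR β H (T i) u)
    (h2 : pr β w' s' ∈ RR β H (T i) u) : Commute s s' := by
  have key : ∀ {w w' s}, β u w = 0 → β u w' = 0 → β w w' ≠ 0 → (T i).Cm s → pr β w s ∈ RR β H (T i) u → Adj B s s :=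
    fun {w w' s} hw hw' h0 hs h1 => by
      obtain ⟨t, -, ht⟩ := (S.ft i).exists_adj hs
      have := Z0 u h.l h.ne _ ((S.ft i).comm_pure S.le h hw hw' hs (T i).cm_one ht Adj.one h1 (S.pr_one i h.l hw'))
      rw [smul_eq_zero, one_mul, mul_one, sub_eq_zero] at this
      exact this.resolve_left h0 ▸ ht
  have := Z0 u h.l h.ne _ ((S.ft i).comm_pure S.le h hw hw' hs hs' (key hw hw' h0 hs h1)
    (key hw' hw (by rwa [S.d.symm]) hs' h2) h1 h2)
  exact (sub_eq_zero.1 ((smul_eq_zero.1 this).resolve_left h0)).symm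

theorem OW.adj_of_RR {u u' w : U} (h : Hyp β u u') (hw : w ∈ P2 β u u') {ρ : U →ₗ[F] End F V} (hρ : ρ ∈ RR β H (T i) u)
    (hs : (T i).Cm (ρ w)) : Adj B (ρ w) (ρ w) := by
  have M := S.ft i
  have hw1 : β u w = 0 := hw.1
  have hw2 : β u' w = 0 := hw.2
  obtain ⟨g, hg, h1, h2⟩ := hρ
  obtain ⟨s, hs⟩ := (T i).exists_C hs
  have ht := S.tU_H i h.l hw1 1
  have h3 : ∀ x, β u x = 0 → ∀ z, ((T i).Au (tU S.d.toSymD h.l hw1 1)).1 * (T i).A (ee β x z) =
      (T i).A (ee β x z) + β w x • (T i).A (ee β u z) := fun x hx z => by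
    rw [Au_tU, ← map_mul, mul_ee, ex_wg_apply S.d.toSymD h.l hw1]; simp [hx]
  have h4 : β w u = 0 := (S.d.symm _ _).trans hw1
  obtain ⟨d, h5, -, h6⟩ := M.exists_zp h (S.le (mul_mem hg ht)) (S.le (mul_mem ht hg)) fun x hx z => by
    rw [Units.val_mul, Units.val_mul, mul_assoc, mul_assoc, h3 x hx, h2 x hx, mul_add, mul_add, h2 x hx, h3 x hx,
      ← mul_assoc, h3 u h.l, mul_smul_comm, h1, h4, zero_smul, add_zero, add_right_comm]
  rw [Z0 u h.l h.ne d ⟨h5, _, mul_mem (inv_mem (mul_mem ht hg)) (mul_mem hg ht), h6⟩, mul_zero, add_zero,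
    Units.val_eq_one, inv_mul_eq_one] at h6
  have h7 := (commute_of_ex (T i).A (wg_cube S.d.toSymD h.l hw1 hw1 hw1) (z := g.1)
    (Au_tU (T := T i) S.d.toSymD h.l hw1 ▸ congrArg Units.val h6)).2
  have h8 : ∀ y, g.1 ((T i).tm w y) = (T i).tm w y + (T i).tm u (s y) := fun y => by
    simpa [hs, TP.A_tm, TP.C_tm, ee_apply, h.lr] using LinearMap.congr_fun (h2 w hw1 u) ((T i).tm u' y)
  have h9 : ∀ y, g.1 ((T i).tm u y) = (T i).tm u y := fun y => by
    simpa [TP.A_tm, ee_apply, h.lr] using LinearMap.congr_fun (h1 u) ((T i).tm u' y)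
  have h10 : ∀ y, (T i).A (wg β u w) ((T i).tm u' y) = -(T i).tm w y := fun y => by
    simp [wg, TP.A_tm, ee_apply, h.lr, S.d.symm w u', hw2]
  refine hs ▸ M.adj_C fun y y' => ?_
  have e1 := M.adj_A (wg_adj S.d.toSymD u w) (g.1 ((T i).tm u' y)) ((T i).tm u' y')
  rw [← End.mul_apply, h7.eq, End.mul_apply, h10, map_neg (T i).A, LinearMap.neg_apply, h10, neg_neg,
    show (T i).tm w y' = g.1 ((T i).tm w y' - (T i).tm u (s y')) by rw [map_sub, h8, h9, add_sub_cancel_right],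
    S.le hg, map_neg, h8] at e1
  simpa [M.form, h.lr, h.rl, S.d.symm w u', hw2] using e1

theorem OW.exists_nonscalar {u u' : U} (h : Hyp β u u') {r : (End F V)ˣ} (hr : r ∈ H) (R : (T i).Rad β u r.1)
    (h0 : ¬ ∃ w, β u w = 0 ∧ r.1 = (T i).A (ex (wg β u w))) : ∃ ρ ∈ RR β H (T i) u, (∀ x, (T i).Cm (ρ x)) ∧ ρ u = 0 ∧
      ∃ x ∈ P2 β u u', ∀ c : F, ρ x ≠ c • 1 := by
  have h1 : (T i).sb β (r.1 - 1) u' u = 0 := by ext y; simp [TP.sb_apply, R.fix]
  refine ⟨_, RR.of_rad h hr R, fun x => (T i).cm_C _, by simp [h1], by_contra fun hc => h0 ?_⟩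
  push Not at hc
  obtain ⟨y₀, hy₀⟩ := exists_ne (0 : W)
  obtain ⟨χ, hχ⟩ := exists_dual_one (F := F) hy₀
  obtain ⟨w, hw⟩ := exists_repr S.d.toSymD (χ ∘ₗ ((T i).sb β (r.1 - 1) u').flip y₀)
  have hw' : β u w = 0 := by rw [S.d.symm, hw]; simp [h1]
  have h2 : ∀ x, β u x = 0 → (T i).sb β (r.1 - 1) u' x = β w x • 1 := fun x hx => by
    obtain ⟨c, hc⟩ := hc _ (h.proj x)
    have : (T i).sb β (r.1 - 1) u' x = c • 1 := (T i).C_injective (by simpa [h1, hx] using hc)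
    simp [hw, this, hχ]
  have ht := S.tU_H i h.l hw' 1
  obtain ⟨d, h5, -, h6⟩ := (S.ft i).exists_zp h (S.le hr) (S.le ht) fun x hx z => (T i).ext_tm fun x' y => by
    simp [Au_tU, TP.A_tm, ee_apply, R.tm h hx, h2 x hx, ex_wg_apply S.d.toSymD h.l hw', hx]
  rw [Z0 u h.l h.ne d ⟨h5, _, mul_mem (inv_mem ht) hr, h6⟩, mul_zero, add_zero, Units.val_eq_one, inv_mul_eq_one] at h6
  exact ⟨w, hw', by rw [← h6, Au_tU]⟩

omit Z0 in
theorem OW.pure_move {u u' u₁ u₁' v : U} (h : Hyp β u u') (h₁ : Hyp β u₁ u₁') (hv : v ∈ P2 β u u') (v0 : v ≠ 0)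
    {s : End F V} (hs : pr β v s ∈ RR β H (T i) u) :
    ∃ v₁ ∈ P2 β u₁ u₁', v₁ ≠ 0 ∧ (β v₁ v₁ = 0 ↔ β v v = 0) ∧ pr β v₁ s ∈ RR β H (T i) u₁ := by
  have D := S.d.toSymD
  obtain ⟨a, w, c, qa, hw, c0, e⟩ := exists_move D S.d.h3 h.ne h₁.ne h.l h₁.l
  have hm := tU_mem D qa hw 1
  have h2 := RR.pr_move hs hm (S.tU_H i qa hw 1)
  rw [← tU_val D qa hw] at e
  generalize tU D qa hw 1 = m at *
  have h3 : β u₁ (m.1 v) = 0 := by simpa [e, c0] using (hm u v).trans hv.1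
  have h4 := h₁.proj (c • m.1 v)
  rw [map_smul (β u₁), h3, smul_zero, zero_smul, sub_zero] at h4
  refine ⟨_, h4, fun e' => v0 ?_, by simp [h3, D.symm _ u₁, h₁.l, hm v v, c0], RR.congr (RR.smul c0 (e ▸ h2)) fun x hx => by
    simp [hx, smul_smul]⟩
  have h5 : (c * c) • v = β u₁' (c • m.1 v) • u := unit_injective m (by
    rw [map_smul, map_smul m.1, e, smul_comm, ← sub_eq_zero.1 e', smul_smul])
  have h6 := congrArg (β u') h5
  rw [map_smul, map_smul, show β u' v = 0 from hv.2, h.rl, smul_zero, smul_eq_mul, mul_one] at h6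
  rw [← h6, zero_smul] at h5
  exact (smul_eq_zero.1 h5).resolve_left (mul_ne_zero c0 c0)

theorem OW.false_of_pure (h4 : finrank F U = 4 → ∀ x (hx : β x x ≠ 0), (T i).Au (rU hx) ∈ H) {u u' v : U}
    (h : Hyp β u u') (hv : v ∈ P2 β u u') (v0 : v ≠ 0) (qv : β v v = 0 ↔ 5 ≤ finrank F U) {s : End F V}
    (hs : (T i).Cm s) (h1 : pr β v s ∈ RR β H (T i) u) : ∃ c : F, s = c • 1 := by
  have D := S.d.toSymD
  let X : Set (End F V) := {s | (T i).Cm s ∧ ∃ u u' v, Hyp β u u' ∧ v ∈ P2 β u u' ∧ v ≠ 0 ∧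
    (β v v = 0 ↔ 5 ≤ finrank F U) ∧ pr β v s ∈ RR β H (T i) u}
  have hX : ∀ s ∈ X, ∀ s' ∈ X, Commute s s' := by
    rintro s ⟨hs, u, u', v, h, hv, v0, qv, h1⟩ s' ⟨hs', u₁, u₁', v₁, h₁, hv₁, v0₁, qv₁, h1'⟩
    obtain ⟨v', hv', v0', qv', h2⟩ := S.pure_move h₁ h hv₁ v0₁ h1'
    rw [qv₁] at qv'
    have hv1 : β u v = 0 := hv.1
    have hv1' : β u v' = 0 := hv'.1
    suffices ∃ m ∈ IsoG β, (T i).Au m ∈ H ∧ m.1 u = u ∧ β v (m.1 v') ≠ 0 by
      obtain ⟨m, h3, h5, h6, h7⟩ := this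
      exact S.commute_pure Z0 h hv1 (by rw [← h6, h3, hv1']) h7 hs hs' h1 (h6 ▸ RR.pr_move h2 h3 h5)
    by_cases h3 : β v v' = 0
    swap
    · exact ⟨1, one_mem _, by simp, rfl, h3⟩
    by_cases h5 : 5 ≤ finrank F U
    · have h6 : 3 ≤ finrank F (P2 β u u') := by have := finrank_P2 (β := β) u u'; omega
      obtain ⟨c, hc, qc, h7, -⟩ := exists_sing_ne D (h.ndOn D) h6 hv hv v0 v0 (qv.2 h5) (qv.2 h5)
      obtain ⟨a, ha, w, hw, d, qa, h8, d0, e⟩ := exists_move' D (h.ndOn D) h6 hv' hc v0' (fun e => h7 (by simp [e]))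
        (qv'.2 h5) qc
      refine ⟨_, tU_mem D qa h8 1, S.tU_H i qa h8 1, ?_, by simp [tU_val, e, d0, h7]⟩
      rw [tU_val, ex_wg_apply D qa h8]
      simp [D.symm w u, D.symm a u, show β u w = 0 from hw.1, show β u a = 0 from ha.1]
    have q := mt qv.1 h5
    have q' := mt qv'.1 h5
    have h6 : β (v + v') (v + v') ≠ 0 := fun e => h5 (S.d.five_le h (add_mem hv hv') (fun e' => q (by
      simpa [h3] using congrArg (β v) e')) e)
    have := h.four_le hv hv' q h3 v0'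
    refine ⟨_, rU_mem D h6, h4 (by omega) _ h6, by simp [rU_apply, D.symm _ u, hv1, hv1'], ?_⟩
    rw [rU_apply, map_sub, map_smul, h3, zero_sub, neg_ne_zero, smul_eq_mul]
    exact mul_ne_zero (mul_ne_zero (div_ne_zero D.two h6) (by simpa [h3] using q')) (by simpa [h3] using q)
  have hs' : s ∈ X := ⟨hs, u, u', v, h, hv, v0, qv, h1⟩
  refine S.fr.centre s fun j => by_contra fun hj => hj fun a => ?_
  have := S.fr.A_mem (fun j => red_gen S.d (T j)) (Finset.univ.erase i) (Subalgebra.centralizer F X ⊓ (T i).cmAlg)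
    (fun l hl d hd => by rw [show l = i by simpa using hl]; exact hd.2) (fun l hl b hb d hd => ?_)
    (j := j) (by simpa using fun e : j = i => hj (e ▸ hs)) ⟨fun s' h' => (hX s' h' s hs').eq, hs⟩ hj a
  · exact (this.1 s hs').symm
  have hl' : i ≠ l := (Finset.ne_of_mem_erase hl).symm
  refine ⟨fun s' ⟨h2, u, u', v, h, hv, v0, qv, h1⟩ => ?_, ((S.fr.comm i l hl' _).mul hd.2).mul (S.fr.comm i l hl' _)⟩
  have h3 := hd.1 _ ⟨((S.fr.comm i l hl' (b⁻¹).1).mul h2).mul (S.fr.comm i l hl' b.1), _, _, _, h.map hb,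
    ⟨(hb _ _).trans hv.1, (hb _ _).trans hv.2⟩, fun e => v0 (unit_injective b (by rw [e, map_zero])), by rw [hb, qv],
    RR.pr_conj h1 hb (c := ((T l).Au b)⁻¹) (S.fr.comm i l hl' _) (S.diff i l hb)⟩
  have h5 := congrArg (fun z => ((T l).Au b).1 * z * (((T l).Au b)⁻¹).1) h3
  simpa only [← TP.Au_val, map_inv, mul_assoc, Units.mul_inv_cancel_left, Units.mul_inv, mul_one] using h5

omit Z0 in
theorem OW.exists_fixed_two (h4 : finrank F U = 4) {j : J} (hj : j ≠ i) (hJ : ∀ l, l ≠ j → l = i) {u u' x : U}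
    (h : Hyp β u u') {ρ : U →ₗ[F] End F V} (hρ : ρ ∈ RR β H (T i) u) (h1 : ∀ x, (T i).Cm (ρ x)) (h2 : ρ u = 0)
    (hx : x ∈ P2 β u u') (h0 : ∀ c : F, ρ x ≠ c • 1) : ∃ ρ : U →ₗ[F] End F U, (ρ u = 0 ∧ ρ u' = 0 ∧
      (∀ x, LinearMap.trace F U (ρ x) = 0) ∧ (T j).A.toLinearMap ∘ₗ ρ ∈ RR β H (T i) u) ∧ ρ ≠ 0 ∧
      ∀ w, β u w = 0 → ∀ x, Commute (ex (wg β u w)) (ρ x) := by
  have D := S.d.toSymD
  have four : (4 : F) ≠ 0 := by simpa [show (2 : F) * 2 = 4 by norm_num] using mul_ne_zero D.two D.two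
  obtain ⟨θ, hθ⟩ := (T j).A.toLinearMap.exists_leftInverse_of_injective (LinearMap.ker_eq_bot.2 (T j).A_injective)
  have hθ' : ∀ x, (T j).A (θ (ρ x)) = ρ x := fun x => by
    obtain ⟨a, e⟩ := S.fr.exists_A (j := j) fun l hl => hJ l hl ▸ h1 x
    rw [e]
    exact congrArg _ (LinearMap.congr_fun hθ a)
  let X : AddSubgroup (U →ₗ[F] End F U) :=
    { carrier := {ρ | ρ u = 0 ∧ ρ u' = 0 ∧ (∀ x, LinearMap.trace F U (ρ x) = 0) ∧
        (T j).A.toLinearMap ∘ₗ ρ ∈ RR β H (T i) u}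
      add_mem' := fun h h' => ⟨by simp [h.1, h'.1], by simp [h.2.1, h'.2.1], fun x => by simp [h.2.2.1, h'.2.2.1],
        by simpa [LinearMap.comp_add] using add_mem h.2.2.2 h'.2.2.2⟩
      zero_mem' := ⟨rfl, rfl, by simp, by simp⟩
      neg_mem' := fun h => ⟨by simp [h.1], by simp [h.2.1], fun x => by simp [h.2.2.1],
        by simpa [LinearMap.comp_neg] using h.2.2.2⟩ }
  obtain ⟨w, hw⟩ := exists_repr D ((4 : F)⁻¹ • LinearMap.trace F U ∘ₗ θ ∘ₗ ρ ∘ₗ (1 - ee β u' u))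
  have hw' : β u w = 0 := by rw [D.symm, hw]; simp [ee_apply, h.l, h2]
  have h3 : θ ∘ₗ ρ ∘ₗ (1 - ee β u' u) - (β w).smulRight 1 ∈ X := ⟨by simp [ee_apply, h.l, h2, hw],
    by simp [ee_apply, h.lr, hw], fun x => by simp [hw, h4, mul_right_comm, four],
    RR.congr (sub_mem hρ (S.pr_one i h.l hw')) fun x hx => by simp [ee_apply, hx, hθ']⟩
  obtain ⟨p, hp⟩ := CharP.exists F
  have := Fact.mk (CharP.char_is_prime F p)
  have : Finite U := Module.finite_of_finite F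
  have : Finite (U →ₗ[F] End F U) := Module.finite_of_finite F
  let π : {w // β u w = 0} → (U →ₗ[F] End F U) → U →ₗ[F] End F U := fun w ρ =>
    LinearMap.mulLeftRight F ((tU D h.l w.2 1).1, ((tU D h.l w.2 1)⁻¹).1) ∘ₗ ρ
  have hπ : ∀ w ρ x, π w ρ x = (tU D h.l w.2 1).1 * ρ x * ((tU D h.l w.2 1)⁻¹).1 := fun _ _ _ => rfl
  clear_value π
  obtain ⟨ρ', h5, h9, h10⟩ := exists_fixed_ne_zero (F := F) p X h3 (fun e => h0 (β w x) (by
      have := congrArg (T j).A (LinearMap.congr_fun e x)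
      simpa [ee_apply, show β u x = 0 from hx.1, hθ', sub_eq_zero] using this)) π (n := 2)
    (fun w ρ ⟨h5, h6, h7, h8⟩ => ⟨by simp [hπ, h5], by simp [hπ, h6], fun x => by
      rw [hπ, LinearMap.trace_mul_comm, Units.inv_mul_cancel_left, h7],
      RR.conj h8 (one_mem _) (c := (T j).Au (tU D h.l w.2 1)) (S.fr.comm i j hj.symm _)
        (by simpa using S.tU_H j h.l w.2 1) fun x => by simp [hπ, TP.Au_val, TP.Au_inv, -map_inv]⟩)
    (fun w ρ => LinearMap.ext fun x => by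
      have := iterate_conj (tU D h.l w.2 1) (ρ x) (p ^ 2)
      rw [tU_pow p S.d, inv_one, Units.val_one, one_mul, mul_one] at this
      exact (Function.Semiconj.iterate_right (f := fun ρ : U →ₗ[F] End F U => ρ x) (hπ w · x) _ ρ).trans this)
    (fun w w' ρ => LinearMap.ext fun x => by
      rw [hπ, hπ, hπ, hπ]
      refine conj_comm (Units.ext ?_) _
      rw [Units.val_mul, Units.val_mul, tU_val, tU_val, ex_wg_mul D h.l w.2 w'.2, ex_wg_mul D h.l w'.2 w.2, add_comm])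
    fun _ => LinearMap.ext fun x => by simp [hπ]
  exact ⟨ρ', h5, h9, fun w hw x => tU_val D h.l hw ▸ (Units.mul_inv_eq_iff_eq_mul _).1
    ((hπ ⟨w, hw⟩ ρ' x).symm.trans (LinearMap.congr_fun (h10 ⟨w, hw⟩) x))⟩

theorem OW.false_of_two (h4 : finrank F U = 4) {j : J} (hj : j ≠ i) {u u' : U} (h : Hyp β u u') {ρ : U →ₗ[F] End F U}
    (h5 : ρ u = 0) (h6 : ρ u' = 0) (h7 : ∀ x, LinearMap.trace F U (ρ x) = 0)
    (h8 : (T j).A.toLinearMap ∘ₗ ρ ∈ RR β H (T i) u) (h10 : ∀ w, β u w = 0 → ∀ x, Commute (ex (wg β u w)) (ρ x)) :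
    ρ = 0 := by
  have D := S.d.toSymD
  have four : (4 : F) ≠ 0 := by simpa [show (2 : F) * 2 = 4 by norm_num] using mul_ne_zero D.two D.two
  by_contra h9
  have h11 : ∀ x ∈ P2 β u u', ρ x = β u' (ρ x u') • ee β u u := fun x hx => by
    obtain ⟨c, e, h11⟩ := S.d.eq_of_comm (T j) h (a := ρ x) ((S.ft j).flip.adj_of_C (by
      simpa [TP.flip_C] using S.adj_of_RR Z0 h hx h8 (S.fr.comm i j hj.symm _))) fun w hw => h10 w hw x
    have := h7 x
    rw [h11] at this ⊢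
    simp only [map_add, map_smul, LinearMap.trace_one, h4, ee, LinearMap.mk₂_apply, LinearMap.trace_smulRight, h.l] at this
    simp [show c = 0 by simpa [four] using this, ee_apply, h.lr, h.rl]
  obtain ⟨v, hv⟩ := exists_repr D (β u' ∘ₗ ρ.flip u')
  have hv' : v ∈ P2 β u u' := ⟨(D.symm _ _).trans (by simp [hv, h5]), (D.symm _ _).trans (by simp [hv, h6])⟩
  have h12 : ∀ x, ρ x = β v x • ee β u u := fun x => by simpa [h5, h6, hv] using h11 _ (h.proj x)
  have h13 : pr β v ((T j).A (ee β u u)) ∈ RR β H (T i) u := RR.congr h8 fun x _ => by simp [h12]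
  have qv : β v v ≠ 0 := fun e => by
    have := S.d.five_le h hv' (fun e => h9 (LinearMap.ext fun x => by simp [h12, e])) e
    omega
  obtain ⟨a, w, c, qa, hw, c0, e⟩ := exists_move D S.d.h3 h.ne h.symm.ne h.l h.r
  have h14 := RR.pr_conj h13 (one_mem _) (c := (T j).Au (tU D qa hw 1)) (S.fr.comm i j hj.symm _)
    (by simpa using S.tU_H j qa hw 1)
  rw [TP.Au_val, TP.Au_inv, ← map_mul, ← map_mul, conj_ee (tU_mem D qa hw 1), tU_val, e] at h14
  have h15 := (S.commute_pure Z0 h hv'.1 hv'.1 qv (S.fr.comm i j hj.symm _) (S.fr.comm i j hj.symm _) h13 h14).eq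
  rw [← map_mul, ← map_mul] at h15
  simpa [ee_apply, h.l, h.r, h.lr, h.rl, c0, h.ne] using LinearMap.congr_fun ((T j).A_injective h15) u

end Z0

theorem OW.exists_zp (S : OW T β γ B H) (I : ¬ RI T β H) (hJ : ∀ i : J, ∃ j, j ≠ i) :
    ∃ i u, β u u = 0 ∧ u ≠ 0 ∧ ∃ d ≠ 0, Zp β H (T i) u d := by
  have D := S.d.toSymD
  simp only [RI, not_forall] at I
  obtain ⟨i, u, hu, u0, r, hr, R, h0⟩ := I
  by_contra hc
  have Z0 : ∀ u, β u u = 0 → u ≠ 0 → ∀ d, Zp β H (T i) u d → d = 0 := fun u hu u0 d hd =>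
    by_contra fun e => hc ⟨i, u, hu, u0, d, e, hd⟩
  obtain ⟨u', h⟩ := exists_hyp' D hu u0
  obtain ⟨ρ, hρ, h1, h2, x, hx, h3⟩ := S.exists_nonscalar Z0 h hr R h0
  obtain ⟨j, hj⟩ := hJ i
  by_cases h4 : finrank F U = 4 ∧ ∀ l, l ≠ j → l = i
  · obtain ⟨ρ', ⟨h5, h6, h7, h8⟩, h9, h10⟩ := S.exists_fixed_two h4.1 hj h4.2 h hρ h1 h2 hx h3
    exact h9 (S.false_of_two Z0 h4.1 hj h h5 h6 h7 h8 h10)
  have h5 : finrank F U = 4 → ∀ x (hx : β x x ≠ 0), (T i).Au (rU hx) ∈ H := fun e x hx => by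
    obtain ⟨l, h6, h7⟩ : ∃ l, l ≠ j ∧ l ≠ i := by simpa [e] using h4
    exact S.refl4 e hj.symm h7.symm h6.symm hx
  suffices ∃ v ∈ P2 β u u', (∀ c : F, ρ v ≠ c • 1) ∧ (β v v = 0 ↔ 5 ≤ finrank F U) ∧
      ∃ c : F, c ≠ 0 ∧ pr β v (c • ρ v) ∈ RR β H (T i) u by
    obtain ⟨v, hv, h6, qv, c, c0, h7⟩ := this
    obtain ⟨d, e⟩ := S.false_of_pure Z0 h5 h hv (fun e => h6 0 (by simp [e])) qv (fun a => (h1 v a).smul_right c) h7
    exact h6 (c⁻¹ * d) (by rw [mul_smul, ← e, inv_smul_smul₀ c0])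
  by_cases h6 : 5 ≤ finrank F U
  · have h7 : 3 ≤ finrank F (P2 β u u') := by have := finrank_P2 (β := β) u u'; omega
    obtain ⟨v, hv, qv, h8⟩ : ∃ v ∈ P2 β u u', β v v = 0 ∧ ∀ c : F, ρ v ≠ c • 1 := by
      by_contra hc
      push Not at hc
      obtain ⟨c, e⟩ := Submodule.mem_span_singleton.1 (le_of_sing D (R := (Submodule.span F {1}).comap ρ) (h.ndOn D) h7
        (fun v hv qv => (hc v hv qv).elim fun c e => Submodule.mem_span_singleton.2 ⟨c, e.symm⟩) hx)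
      exact h3 c e.symm
    obtain ⟨w, hw, h9, qw⟩ := exists_nonsing_perp' D (h.ndOn D) h7 hv (fun e => h8 0 (by simp [e])) qv
    have h10 : ∀ ρ ∈ RR β H (T i) u, ρ ∘ₗ (ex (wg β v w) - 1) ∈ RR β H (T i) u := fun ρ hρ => by
      have := sub_mem (RR.comp hρ (tU_mem D qv h9 1) (S.tU_H i qv h9 1) (by
        rw [tU_val, ex_wg_apply D qv h9]
        simp [D.symm w u, D.symm v u, show β u w = 0 from hw.1, show β u v = 0 from hv.1])) hρ
      rwa [tU_val, ← LinearMap.comp_id ρ, LinearMap.comp_assoc, ← LinearMap.comp_sub, LinearMap.id_comp] at this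
    refine ⟨v, hv, h8, iff_of_true qv h6, -β w w, neg_ne_zero.2 qw, RR.congr (h10 _ (h10 _ hρ)) fun y _ => ?_⟩
    rw [LinearMap.comp_assoc, ← End.mul_eq_comp, (log_ex (wg_cube D qv h9 h9 h9)).1, wg_sq D qv h9 h9]
    simp [ee_apply, smul_smul, mul_comm]
  have qx : β x x ≠ 0 := fun e => h6 (S.d.five_le h hx (fun e => h3 0 (by simp [e])) e)
  refine ⟨x, hx, h3, iff_of_false qx h6, ?_⟩
  by_cases h7 : finrank F U = 4
  · refine ⟨2 / β x x, div_ne_zero D.two qx, RR.congr (sub_mem hρ (RR.comp hρ (rU_mem D qx) (h5 h7 x qx)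
      (by simp [rU_apply, D.symm x u, show β u x = 0 from hx.1]))) fun y _ => ?_⟩
    simp [rU_apply, smul_smul, mul_comm]
  · refine ⟨(β x x)⁻¹, inv_ne_zero qx, RR.congr hρ fun y hy => ?_⟩
    have h8 : y - β u' y • u - (β x y / β x x) • x = 0 := by_contra fun e => by
      have := h.four_le hx (sub_mem (by simpa [hy] using h.proj y) (Submodule.smul_mem _ _ hx)) qx
        (by simp [D.symm x u, show β u x = 0 from hx.1, qx]) e
      omega
    simpa [h2, sub_eq_zero, smul_smul, div_eq_mul_inv, eq_comm (b := ρ y)] using congrArg ρ h8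

end CL.TW
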