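/-
Tensor decompositions, part 10: an overgroup of the tensor-wreath subgroup of `Ω` meeting a unipotent radical outside
the first factor contains all these radicals.
-/
import Cfsg.Agent.Cls.TW9

set_option autoImplicit false
set_option linter.unusedSectionVars false

namespace CL.TW

open Module CL.Sp

variable {F U W V : Type*} [Field F] [AddCommGroup U] [Module F U] [AddCommGroup W] [Module F W]
  [AddCommGroup V] [Module F V] {β : LinearMap.BilinForm F U} {γ : LinearMap.BilinForm F W}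
  {B : LinearMap.BilinForm F V} {H : Subgroup (End F V)ˣ}
  [FiniteDimensional F U] [FiniteDimensional F W] [Nontrivial W] [Finite F] [FiniteDimensional F V] [Nontrivial U]

section One

variable (β H) (T : TP F U W V)

/-- The maps `d` with all `1 + ι_u μ d` in `H`. -/
def ZF : Submodule F (End F V) where
  carrier := {d | T.Cm d ∧ ∀ u, β u u = 0 → u ≠ 0 → ∀ μ : F, Zp β H T u (μ • d)}
  add_mem' h h' := ⟨fun a => (h.1 a).add_right (h'.1 a), fun u hu h0 μ =>
    by rw [smul_add]; exact (h.2 u hu h0 μ).add hu (h'.2 u hu h0 μ)⟩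
  zero_mem' := ⟨fun _ => Commute.zero_right _, fun u _ _ μ => by rw [smul_zero]; exact Zp.zero u⟩
  smul_mem' c _ h := ⟨fun a => (h.1 a).smul_right c, fun u hu h0 μ => by rw [smul_smul]; exact h.2 u hu h0 _⟩

/-- The maps giving pure elements of all radicals. -/
def AA : Submodule F (End F V) where
  carrier := {s | T.Cm s ∧ ∀ u v, β u u = 0 → u ≠ 0 → β u v = 0 → pr β v s ∈ RR β H T u}
  add_mem' h h' := ⟨fun a => (h.1 a).add_right (h'.1 a), fun u v hu h0 hv =>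
    RR.congr (add_mem (h.2 u v hu h0 hv) (h'.2 u v hu h0 hv)) fun x _ => by simp⟩
  zero_mem' := ⟨fun _ => Commute.zero_right _, fun u v _ _ _ => RR.congr (zero_mem _) fun x _ => by simp⟩
  smul_mem' c _ h := ⟨fun a => (h.1 a).smul_right c, fun u v hu h0 hv =>
    RR.congr (h.2 u (c • v) hu h0 (by simp [hv])) fun x _ => by simp [smul_smul, mul_comm]⟩

/-- The multipliers. -/
def CC : Subalgebra F (End F V) where
  carrier := {c | T.Cm c ∧ ∀ s ∈ AA β H T, c * s ∈ AA β H T}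
  mul_mem' h h' := ⟨h.1.mul h'.1, fun s hs => mul_assoc _ _ s ▸ h.2 _ (h'.2 s hs)⟩
  add_mem' h h' := ⟨fun a => (h.1 a).add_right (h'.1 a), fun s hs => add_mul _ _ s ▸ add_mem (h.2 s hs) (h'.2 s hs)⟩
  algebraMap_mem' c := ⟨T.cmAlg.algebraMap_mem c, fun s hs => Algebra.smul_def c s ▸ Submodule.smul_mem _ c hs⟩

/-- Antisymmetry in the first factor. -/
def TP.antiS : Submodule F (End F V) where
  carrier := {z | ∀ x y, T.sb β z x y = -T.sb β z y x}
  add_mem' h h' x y := by simp [TP.sb_add, h x y, h' x y, add_comm]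
  zero_mem' x y := by ext; simp [TP.sb_apply]
  smul_mem' c _ h x y := by simp [TP.sb_smul, h x y]

variable {β H T}

theorem TP.sb_conj {b : (End F U)ˣ} (hb : b ∈ IsoG β) (z : End F V) (y x : U) :
    T.sb β (T.A (b⁻¹).1 * z * T.A b.1) y x = T.sb β z (b.1 y) (b.1 x) := by
  rw [TP.sb_mul_A, T.sb_A_mul (IsoG.adj hb)]

theorem TP.eq_zero_of_antiS (D : SymD β) {z : End F V} (h : z ∈ T.antiS β) (h' : z ∈ T.symS β) : z = 0 :=
  T.ext_sb D fun y x => smul_right_injective _ D.two (by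
    have := h y x
    rw [← h' y x] at this
    simp only [two_smul]
    rw [add_eq_zero_iff_eq_neg.2 this]
    ext; simp [TP.sb_apply])

theorem TP.commute_of_cm {a : End F U} {d : End F V} (hd : T.Cm d) (h0 : d ≠ 0) (h : T.Cm (T.A a * d)) (b : End F U) :
    b * a = a * b := sub_eq_zero.1 (by_contra fun e => h0 (T.eq_zero_of_A_mul e hd (by
  rw [map_sub, map_mul, map_mul, sub_mul, mul_assoc, (h b).eq, mul_assoc, mul_assoc, (hd b).eq, sub_self])))

variable {a : (End F U)ˣ} (ha : a ∈ IsoG β) {c : (End F V)ˣ} (hc : T.Cm c.1) (hg : T.Au a * c ∈ H)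
include ha hc hg

theorem ZF.conj {d : End F V} (h : d ∈ ZF β H T) : c.1 * d * (c⁻¹).1 ∈ ZF β H T :=
  ⟨(hc.mul h.1).mul hc.inv, fun u hu h0 μ => by
    simpa [val_inv_apply] using (h.2 ((a⁻¹).1 u) ((inv_mem ha _ _).trans hu)
      (fun e => h0 (unit_injective a⁻¹ (by rw [e, map_zero]))) μ).conj ha hc hg⟩

theorem AA.conj {s : End F V} (h : s ∈ AA β H T) : c.1 * s * (c⁻¹).1 ∈ AA β H T :=
  ⟨(hc.mul h.1).mul hc.inv, fun u v hu h0 hv => by
    simpa only [val_inv_apply] using RR.pr_conj (h.2 ((a⁻¹).1 u) ((a⁻¹).1 v) ((inv_mem ha _ _).trans hu)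
      (fun e => h0 (unit_injective a⁻¹ (by rw [e, map_zero]))) ((inv_mem ha _ _).trans hv)) ha hc hg⟩

theorem CC.conj {s : End F V} (h : s ∈ CC β H T) : c.1 * s * (c⁻¹).1 ∈ CC β H T :=
  ⟨(hc.mul h.1).mul hc.inv, fun s' hs => by
    have : T.Au a⁻¹ * c⁻¹ ∈ H := by
      rw [map_inv, ← mul_inv_rev, ← show T.Au a * c = c * T.Au a from Units.ext (hc _)]; exact inv_mem hg
    simpa [mul_assoc] using AA.conj ha hc hg (h.2 _ (AA.conj (inv_mem ha) hc.inv this hs))⟩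

omit ha hc hg

theorem RR.levi (D : SymD β) {u u' v : U} (h : Hyp β u u') {g : (End F V)ˣ} (hg : g ∈ H) {m m' s : End F V}
    (h1 : ∀ x ∈ P2 β u u', ∀ z, g.1 * T.A (ee β x z) = T.A (ee β x z))
    (h2 : ∀ z, g.1 * T.A (ee β u z) = T.A (ee β u z) * m) (hm : m * m' = 1) (hv : β u v = 0)
    (hs : pr β v s ∈ RR β H T u) : pr β v (m * s) ∈ RR β H T u := by
  obtain ⟨r, hr, h3, h4⟩ := hs
  have h5 : ∀ z, (g * r * g⁻¹).1 * T.A (ee β u z) = T.A (ee β u z) := fun z => by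
    conv_lhs => rw [← mul_one (T.A _), ← hm, ← mul_assoc (T.A _), ← h2]
    simp only [Units.val_mul, mul_assoc, Units.inv_mul_cancel_left]
    rw [← mul_assoc r.1, h3, ← mul_assoc, h2, mul_assoc, hm, mul_one]
  refine ⟨g * r * g⁻¹, mul_mem (mul_mem hg hr) (inv_mem hg), h5, fun x hx z => ?_⟩
  have h6 := h.proj x
  rw [hx, zero_smul, sub_zero] at h6
  have h7 : (g * r * g⁻¹).1 * T.A (ee β (x - β u' x • u) z) =
      T.A (ee β (x - β u' x • u) z) + T.A (ee β u z) * pr β v (m * s) x := by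
    conv_lhs => rw [← h1 _ h6]
    simp only [Units.val_mul, mul_assoc, Units.inv_mul_cancel_left]
    rw [h4 _ h6.1, mul_add, h1 _ h6, ← mul_assoc, h2]
    simp [D.symm v u, hv, mul_assoc]
  simp only [map_sub, map_smul, LinearMap.sub_apply, LinearMap.smul_apply, mul_sub, mul_smul_comm, h5] at h7
  linear_combination (norm := module) h7

theorem mul_mem_CC (D : SymD β) {σ τ : End F V} (hσ : σ ∈ ZF β H T) (hτ : τ ∈ ZF β H T) (h : τ * σ * τ = 0) :
    σ * τ ∈ CC β H T := by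
  refine (add_mem_cancel_left (CC β H T).one_mem).1 ⟨fun a => (Commute.one_right _).add_right (hσ.1.mul hτ.1 a),
    fun s hs => ⟨fun a => ((Commute.one_right _).add_right (hσ.1.mul hτ.1 a)).mul_right (hs.1 a), fun u v hu h0 hv => ?_⟩⟩
  obtain ⟨u', h'⟩ := exists_hyp' D hu h0
  obtain ⟨-, g₁, h1, e₁⟩ := hτ.2 u' h'.r h'.symm.ne (-1)
  obtain ⟨-, g₂, h2, e₂⟩ := hσ.2 u hu h0 1
  obtain ⟨-, g₃, h3, e₃⟩ := hτ.2 u' h'.r h'.symm.ne 1
  obtain ⟨σ, rfl⟩ := T.exists_C hσ.1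
  obtain ⟨τ, rfl⟩ := T.exists_C hτ.1
  have h4 : τ * (σ * τ) = 0 := T.C_injective (by rw [← mul_assoc, map_mul, map_mul, h, map_zero])
  have h5 : ∀ a b c, T.A a * T.C c * T.A b = T.A (a * b) * T.C c := fun a b c => by
    rw [mul_assoc, ← (T.commute b c).eq, ← mul_assoc, map_mul]
  refine RR.levi D h' (mul_mem h1 (mul_mem h2 h3)) (m' := 1 - T.C σ * T.C τ) (fun x hx z => ?_) (fun z => ?_) ?_ hv
    (hs.2 u v hu h0 hv)
  · simp only [Units.val_mul, e₁, e₂, e₃, mul_assoc, add_mul, mul_add, one_mul, mul_smul_comm, smul_mul_assoc]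
    simp [← mul_assoc _ (T.C _) (T.A _), h5, ee_mul, show β u x = 0 from hx.1, show β u' x = 0 from hx.2]
  · simp only [Units.val_mul, e₁, e₂, e₃, mul_assoc, one_smul, neg_smul]
    simp only [add_mul, mul_add, one_mul, mul_one, h5, ee_mul, T.AC_mul, h'.l, h'.r, h'.lr, h'.rl, zero_smul, one_smul,
      map_zero, zero_mul, add_zero, mul_neg, neg_mul, h4, mul_zero, neg_zero, ← map_mul T.C]
    abel
  · rw [mul_sub, mul_one, add_mul, one_mul, mul_assoc, ← mul_assoc (T.C τ), h]; simp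

variable (M : FT T β γ B)
include M

theorem Zp.skew (hH : H ≤ IsoG B) {u u' : U} (h : Hyp β u u') {d : End F V} (hd : Zp β H T u d) : Adj B d (-d) := by
  obtain ⟨h1, g, hg, e⟩ := hd
  obtain ⟨d', h2, h3, e'⟩ := M.exists_zp h (hH hg) (one_mem _) fun x hx z => by
    rw [e, add_mul, (h1 _).eq, mul_assoc, ← map_mul, ee_mul, hx]; simp
  rw [inv_one, one_mul, e, add_right_inj, ← sub_eq_zero, ← mul_sub] at e'
  rwa [sub_eq_zero.1 (T.eq_zero_of_A_mul (fun e => h.ne (by simpa [ee_apply, h.lr] using LinearMap.congr_fun e u'))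
    (fun a => (h1 a).sub_right (h2 a)) e')]

end One

variable {J : Type*} {T : J → TP F U W V} [Fintype J] [DecidableEq J] (S : OW T β γ B H) {i : J}
include S

theorem OW.exists_anti {u : U} (hu : β u u = 0) (u0 : u ≠ 0) {d : End F V} (d0 : d ≠ 0) (hd : Zp β H (T i) u d) :
    ∃ j, j ≠ i ∧ ∃ δ ∈ ZF β H (T i) ⊓ (T j).antiS β, δ ≠ 0 := by
  have D := S.d.toSymD
  obtain ⟨u', h⟩ := exists_hyp' D hu u0
  obtain ⟨p, hp⟩ := CharP.exists F
  have := Fact.mk (CharP.char_is_prime F p)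
  have : Finite U := Module.finite_of_finite F
  have : Finite (End F V) := Module.finite_of_finite F
  let t : {j // j ≠ i} × {w // β u w = 0} → (End F V)ˣ := fun a => (T a.1.1).Au (tU D hu a.2.2 1)
  obtain ⟨σ, h1, h2, h3⟩ := exists_fixed_ne_zero (F := F) p
    ⟨⟨⟨{d | Zp β H (T i) u d}, Zp.add hu⟩, Zp.zero u⟩, Zp.neg hu⟩ hd d0 (fun a d => (t a).1 * d * ((t a)⁻¹).1) (n := 2)
    (fun a d hd => Zp.conj hd (one_mem _) (S.fr.comm i _ a.1.2.symm _) (by simpa using S.tU_H _ hu a.2.2 1))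
    (fun a d => by rw [iterate_conj, ← map_pow, tU_pow p S.d]; simp)
    (fun a b => conj_comm (Units.ext (by
      simp only [t, Units.val_mul, Au_tU]
      by_cases e : a.1.1 = b.1.1
      · rw [e, ← map_mul, ← map_mul, ex_wg_mul D hu a.2.2 b.2.2, ex_wg_mul D hu b.2.2 a.2.2, add_comm]
      · exact S.fr.comm _ _ e _ _))) (by simp)
  replace h1 : Zp β H (T i) u σ := h1
  obtain ⟨j, hj, h4⟩ : ∃ j, j ≠ i ∧ σ ∉ (T j).symS β := by
    by_contra hc
    push Not at hc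
    obtain ⟨σ, rfl⟩ := (T i).exists_C h1.1
    exact h2 (by rw [S.os.eq_zero_of_symS (i := i) ((S.ft i).adj_of_C (map_neg (T i).C σ ▸ h1.skew (S.ft i) S.le h)) hc,
      map_zero])
  obtain ⟨c, e, d, d1, d2, -, h5⟩ := TP.sb_of_comm (T := T j) S.d h (σ := σ) fun w hw =>
    (commute_of_ex (T j).A (wg_cube D hu hw hw hw)
      (Au_tU (T := T j) D hu hw ▸ (Units.mul_inv_eq_iff_eq_mul _).1 (h3 (⟨j, hj⟩, ⟨w, hw⟩)))).2
  have h6 : ∀ μ : F, μ ≠ 0 → ∃ τ, Zp β H (T i) u τ ∧ ∀ y x, (T j).sb β τ y x = (μ * μ * β y x) • c +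
      μ • (β u y • d x - β u x • d y) + (β u y * β u x) • e := fun μ h0 => by
    have h6 := h1.conj (hU_mem D h h0) (c := ((T j).Au (hU h h0))⁻¹) (S.fr.comm i j hj.symm _) (S.diff i j (hU_mem D h h0))
    rw [show (hU h h0).1 u = μ • u by simp [hU, hm_apply, h.l, h.rl, sub_smul], Zp.smul_iff h0, inv_inv] at h6
    refine ⟨_, h6, fun y x => ?_⟩
    rw [TP.sb_smul, LinearMap.smul_apply, LinearMap.smul_apply, TP.Au_val, TP.Au_inv, TP.sb_conj (hU_mem D h h0), h5,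
      hU_mem D h h0]
    simp only [hU, hm_apply, map_add, map_smul, d1, d2, h.l, h.lr, smul_eq_mul]
    match_scalars <;> field_simp <;> ring
  obtain ⟨τ, h7, h8⟩ := h6 (-1) (by simp)
  have h9 : ∀ y x, (T j).sb β (σ - τ) y x = (2 : F) • (β u y • d x - β u x • d y) := fun y x => by
    rw [TP.sb_sub, LinearMap.sub_apply, LinearMap.sub_apply, h5, h8]
    module
  have h10 : ∀ μ : F, Zp β H (T i) u (μ • (σ - τ)) := fun μ => by
    by_cases h0 : μ = 0
    · simpa [h0] using Zp.zero u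
    obtain ⟨τ₁, h10, h11⟩ := h6 μ h0
    obtain ⟨τ₂, h12, h13⟩ := h6 (-μ) (neg_ne_zero.2 h0)
    convert h10.add hu (h12.neg hu) using 1
    refine (T j).ext_sb D fun y x => ?_
    rw [← sub_eq_add_neg, TP.sb_smul, TP.sb_sub _ τ₁, LinearMap.smul_apply, LinearMap.smul_apply, h9, LinearMap.sub_apply,
      LinearMap.sub_apply, h11, h13]
    module
  refine ⟨j, hj, σ - τ, ⟨⟨fun a => (h1.1 a).sub_right (h7.1 a), fun v hv v0 μ => ?_⟩, fun x y => by rw [h9, h9]; module⟩,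
    fun e => h4 fun x y => ?_⟩
  · obtain ⟨a, w, c, qa, hw, c0, e⟩ := exists_move D S.d.h3 u0 v0 hu hv
    have := (h10 ((c * c)⁻¹ * μ)).conj (tU_mem D qa hw 1) (c := 1) (T i).cm_one (by simpa using S.tU_H i qa hw 1)
    rw [tU_val, e, Zp.smul_iff c0] at this
    simpa [smul_smul, c0, mul_assoc] using this
  · have := h9 x y
    rw [e] at this
    have h11 : β u x • d y - β u y • d x = 0 :=
      (smul_eq_zero.1 (this.symm.trans (by ext; simp [TP.sb_apply]))).resolve_left D.two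
    rw [h5, h5, D.symm x y]
    linear_combination (norm := module) h11 + h11

theorem OW.A_mem_CC {j : J} (hj : j ≠ i) {z : End F V} (hz : z ∈ CC β H (T i)) (h : ¬ (T j).Cm z) (a : End F U) :
    (T j).A a ∈ CC β H (T i) :=
  S.fr.A_mem (fun j => red_gen S.d (T j)) (Finset.univ.erase i) _
    (fun l hl d hd => by rw [show l = i by simpa using hl]; exact hd.1)
    (fun l hl _ hb _ hd => CC.conj (inv_mem hb) (c := (T l).Au _) (S.fr.comm i l (Finset.ne_of_mem_erase hl).symm _)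
      (S.diff' i l hb) hd) (by simpa using hj) hz h a

theorem OW.exists_A_mem {u : U} (hu : β u u = 0) (u0 : u ≠ 0) {d : End F V} (d0 : d ≠ 0) (hd : Zp β H (T i) u d) :
    ∃ j, j ≠ i ∧ ∀ a, (T j).A a ∈ CC β H (T i) := by
  have D := S.d.toSymD
  obtain ⟨u', h⟩ := exists_hyp' D hu u0
  obtain ⟨j, hj, δ, hδ, δ0⟩ := S.exists_anti hu u0 d0 hd
  have hZ : ∀ l, l ≠ i → (T l).Inv (IsoG β) (ZF β H (T i)) := fun l hl b hb d hd =>
    ZF.conj (inv_mem hb) (c := (T l).Au _) (S.fr.comm i l hl.symm _) (S.diff' i l hb) hd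
  have hι : ee β u u ≠ 0 := fun e => h.ne (by simpa [ee_apply, h.lr] using LinearMap.congr_fun e u')
  have h1 : (T j).cof (Lam β) (ZF β H (T i)) ≠ ⊥ := by
    obtain ⟨𝒳, h1, h2⟩ := red S.d (T j) (ZF β H (T i) ⊓ (T j).antiS β) (fun b hb d hd => ⟨hZ j hj b hb d hd.1, fun x y => by
      simpa only [inv_inv] using ((T j).sb_conj (inv_mem hb) d x y).trans ((hd.2 _ _).trans
        (congrArg _ ((T j).sb_conj (inv_mem hb) d y x).symm))⟩) δ hδ
      fun e => δ0 (TP.eq_zero_of_antiS D hδ.2 (e.mem_symS D))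
    obtain ⟨d, hd, d0⟩ := Submodule.exists_mem_ne_zero_of_ne_bot h2
    rcases h1 with rfl | rfl
    · refine (d0 ((T j).eq_zero_of_A_mul hι hd.1 (TP.eq_zero_of_antiS D
        (hd.2 _ (Submodule.subset_span ⟨u, hu, rfl⟩)).2 (hd.1.mul_mem_symS' fun x y => ?_)))).elim
      rw [← mul_one ((T j).A _), ← map_one (T j).C, TP.sb_AC, TP.sb_AC]
      simp [ee_apply, D.symm _ u, mul_comm]
    · exact fun e => d0 (e.le ⟨hd.1, fun x hx => (hd.2 x hx).1⟩)
  have h2 : ∀ l, l ∉ (Finset.univ.erase i).erase j → ∀ d ∈ (T j).cof (Lam β) (ZF β H (T i)), (T l).Cm d :=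
    fun l hl d hd => by
      by_cases e : l = j
      · exact e ▸ hd.1
      · rw [show l = i by simpa [e] using hl]
        exact S.fr.cof_cm hj.symm (gen_Lam D S.d.h3).ne_bot (𝒟 := ZF β H (T i)) (fun _ h => h.1) d hd
  have h3 : ∀ l ∈ (Finset.univ.erase i).erase j, (T l).Inv (IsoG β) ((T j).cof (Lam β) (ZF β H (T i))) := fun l hl =>
    S.fr.cof_inv (Finset.ne_of_mem_erase hl) _ (hZ l (Finset.ne_of_mem_erase (Finset.mem_of_mem_erase hl)))
  obtain ⟨d, hd, d', hd', h4⟩ := S.fr.exists_mul_ne_zero (fun j => red_gen S.d (T j)) _ h1 h1 h2 h2 h3 h3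
  obtain ⟨w, hw, qw⟩ := exists_nonsing_perp D S.d.h3 hu
  have hm : wg β u w ∈ Lam β := Submodule.subset_span ⟨u, w, rfl⟩
  have h5 : ∀ {d}, (T j).Cm d → ∀ a b d', (T j).A a * d * ((T j).A b * d') = (T j).A (a * b) * (d * d') :=
    fun hd a b d' => by rw [mul_assoc, ← mul_assoc _ _ d', ← (hd b).eq, map_mul, mul_assoc, mul_assoc]
  refine ⟨j, hj, S.A_mem_CC hj (mul_mem_CC D (hd.2 _ hm) (hd'.2 _ hm) (by
    rw [h5 hd'.1, h5 (hd'.1.mul hd.1), wg_cube D hu hw hw hw, map_zero, zero_mul])) fun e => ?_⟩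
  rw [h5 hd.1, wg_sq D hu hw hw] at e
  simpa [ee_apply, h.l, h.lr, h.rl, qw, h.ne] using
    LinearMap.congr_fun (TP.commute_of_cm (hd.1.mul hd'.1) h4 e (ee β u' u')) u

theorem OW.one_mem_AA : 1 ∈ AA β H (T i) := ⟨(T i).cm_one, fun _ _ hu _ hv => S.pr_one i hu hv⟩

theorem OW.zp_of_AA {u u' : U} (h : Hyp β u u') {s t : End F V} (hs : s ∈ AA β H (T i)) (ht : Adj B s t) :
    Zp β H (T i) u (t - s) := by
  obtain ⟨w, hw, qw⟩ := exists_nonsing_perp S.d.toSymD S.d.h3 h.l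
  have h1 := (AA β H (T i)).smul_mem (β w w)⁻¹ hs
  simpa [← smul_sub, qw] using (S.ft i).comm_pure S.le h hw hw h1.1 (T i).cm_one (ht.smul _) Adj.one
    (h1.2 u w h.l h.ne hw) (S.pr_one i h.l hw)

theorem OW.mem_AA {u : U} (hu : β u u = 0) (u0 : u ≠ 0) {d : End F V} (d0 : d ≠ 0) (hd : Zp β H (T i) u d) {z : End F V}
    (hz : (T i).Cm z) : z ∈ AA β H (T i) := by
  have D := S.d.toSymD
  obtain ⟨u', h⟩ := exists_hyp' D hu u0
  obtain ⟨j, hj, h1⟩ := S.exists_A_mem hu u0 d0 hd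
  refine mul_one z ▸ (S.fr.mem_of_cm (CC β H (T i)) (Finset.univ.erase i) (fun l hl => ?_) z
    fun l hl => by rwa [show l = i by simpa using hl]).2 1 S.one_mem_AA
  have hl := Finset.ne_of_mem_erase hl
  by_cases e : l = j
  · exact e ▸ h1
  obtain ⟨c, hc, h2, h3⟩ := S.cyc hj.symm hl.symm (Ne.symm e)
  obtain ⟨-, g, hg, h4⟩ := S.zp_of_AA h (mul_one ((T j).A _) ▸ (h1 (ee β u' u)).2 1 S.one_mem_AA)
    ((S.ft j).adj_A (ee_adj D u' u))
  have h5 : (c * g * c⁻¹).1 = 1 + (T j).A (ee β u u) * (T l).A (wg β u u') := by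
    rw [← h2, ← h3, Units.val_mul, Units.val_mul, h4, wg, map_sub]
    simp [mul_add, add_mul, mul_assoc]
  have h6 := S.fr.comm j l (Ne.symm e) (wg β u u')
  have h7 : ((c * g * c⁻¹)⁻¹).1 = 1 - (T j).A (ee β u u) * (T l).A (wg β u u') := Units.inv_eq_of_mul_eq_one_right (by
    rw [h5, mul_sub, add_mul, add_mul, h6.iota_mul hu]; simp)
  have h8 := CC.conj (one_mem _) (c := c * g * c⁻¹) (fun a => h5 ▸ (Commute.one_right _).add_right
    ((S.fr.comm i j hj.symm _ a).mul_right (S.fr.comm i l hl.symm _ a)))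
    (by simpa only [map_one, one_mul] using mul_mem (mul_mem hc hg) (inv_mem hc)) (h1 (ee β u u'))
  rw [h7, h5, add_mul, mul_assoc, ← (h6 _).eq, ← mul_assoc, ← map_mul, ee_mul, hu, zero_smul, map_zero, zero_mul, add_zero,
    one_mul, mul_sub, mul_one, ← mul_assoc, ← map_mul, ee_mul, h.rl, one_smul, (h6 _).eq] at h8
  refine S.A_mem_CC hl (by simpa using sub_mem (h1 (ee β u u')) h8) fun e' => ?_
  have := LinearMap.congr_fun (TP.commute_of_cm (S.fr.comm l j e _) (fun e => h.ne (by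
    simpa [ee_apply, h.lr] using LinearMap.congr_fun ((T j).A_injective (e.trans (map_zero _).symm)) u')) e' (ee β u u)) u'
  simp only [wg, End.mul_apply, LinearMap.sub_apply, ee_apply, h.l, h.r, h.lr, h.rl, one_smul, zero_smul, map_sub,
    map_zero] at this
  exact h.ne ((smul_eq_zero.1 (show (2 : F) • u = 0 by linear_combination (norm := module) -this)).resolve_left D.two)

/-- The pure elements of the radicals lie in `H`. -/
theorem OW.mem_of_pure (I : ¬ RI T β H) (hJ : ∀ i : J, ∃ j, j ≠ i) : ∃ i, ∀ u u', Hyp β u u' → ∀ w, β u w = 0 →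
    ∀ (s : End F W), ∀ r ∈ IsoG B, (∀ x, β u x = 0 → ∀ y, r.1 ((T i).tm x y) = (T i).tm x y + β w x • (T i).tm u (s y)) →
      r ∈ H := by
  obtain ⟨i, u₀, hu₀, u0, d₀, d0, hd₀⟩ := S.exists_zp I hJ
  refine ⟨i, fun u u' h w hw s r hr e => ?_⟩
  obtain ⟨g, hg, -, h1⟩ := (S.mem_AA hu₀ u0 d0 hd₀ ((T i).cm_C s)).2 u w h.l h.ne hw
  obtain ⟨d, h2, h3, h4⟩ := (S.ft i).exists_zp h hr (S.le hg) fun x hx z => h1 x hx z ▸ (T i).ext_tm fun x' y => by
    simp [TP.A_tm, TP.C_tm, ee_apply, e x hx, smul_smul, mul_comm]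
  obtain ⟨-, g', hg', h5⟩ := S.zp_of_AA h (S.mem_AA hu₀ u0 d0 hd₀ fun a => (h2 a).smul_right (-(2 : F)⁻¹)) (h3.smul _)
  rw [show -(2 : F)⁻¹ • -d - -(2 : F)⁻¹ • d = d by have := S.d.two; match_scalars; field_simp; ring, ← h4] at h5
  simpa [Units.ext h5] using mul_mem hg hg'

end CL.TW
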