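/-
Tensor decompositions, part 11: the tensor-wreath subgroup of `Ω` for a tensor power of an orthogonal space is maximal.
-/
import Cfsg.Agent.Cls.TW10
import Cfsg.Agent.Cls.OO3

set_option autoImplicit false
set_option linter.unusedSectionVars false

namespace CL.TW

open Module CL.Sp CL.Cls QuadraticMap Matrix

section Abstract

variable {F U W V : Type*} [Field F] [AddCommGroup U] [Module F U] [AddCommGroup W] [Module F W]
  [AddCommGroup V] [Module F V] {β : LinearMap.BilinForm F U} {γ : LinearMap.BilinForm F W}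
  {B : LinearMap.BilinForm F V} {Q : QuadraticForm F V}
  [FiniteDimensional F U] [FiniteDimensional F W] [Nontrivial W] [Finite F] [FiniteDimensional F V] [Nontrivial U]

theorem FT.of_form {T : TP F U W V} (D : SymD β) (D' : SymD B)
    (h : ∀ x y x' y', B (T.tm x y) (T.tm x' y') = β x x' * γ y y') : FT T β γ B := by
  obtain ⟨x, hx⟩ := exists_ne (0 : U)
  obtain ⟨x', hx'⟩ := exists_β_one D hx
  have h1 : ∀ y y', γ y y' = γ y' y := fun y y' => by
    simpa [h, hx', D.symm x] using D'.symm (T.tm x y) (T.tm x' y')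
  have h2 : ∀ y, (∀ y', γ y y' = 0) → y = 0 := fun y hy => (T.tm_eq_zero (D'.nondeg.1 _ fun v =>
    LinearMap.congr_fun (T.ext_tm (f := B (T.tm x y)) (g := 0) fun x' y' => by simp [h, hy]) v)).resolve_left hx
  exact ⟨D, ⟨h1, ⟨h2, fun y hy => h2 y fun y' => h1 y y' ▸ hy y'⟩, D.two⟩, D', h⟩

variable (Q) in
/-- Isometries as units of the endomorphism algebra. -/
noncomputable def ogU : OG Q →* (End F V)ˣ :=
  (LinearMap.GeneralLinearGroup.generalLinearEquiv F V).symm.toMonoidHom.comp (OG Q).subtype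

theorem ogU_apply (g : OG Q) (v : V) : (ogU Q g).1 v = g.1 v := rfl

theorem ogU_injective : Function.Injective (ogU Q) := fun _ _ e => OG.ext' fun v => by rw [← ogU_apply, e, ogU_apply]

theorem ogU_mem (g : OG Q) : ogU Q g ∈ IsoG (polarBilin Q) := fun v w => OG.polar_app g v w

theorem exists_ogU (two : (2 : F) ≠ 0) {g : (End F V)ˣ} (hg : g ∈ IsoG (polarBilin Q)) : ∃ h, ogU Q h = g :=
  ⟨⟨LinearMap.GeneralLinearGroup.toLinearEquiv g, fun v => mul_left_cancel₀ two (by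
    rw [← polar_self', ← polar_self']; exact hg v v)⟩, Units.ext rfl⟩

theorem commutator_le_of_pure {T : TP F U W V} (M : FT T β γ (polarBilin Q)) (D : OD β) (h4 : 4 ≤ finrank F V)
    {H : Subgroup (OG Q)} (h : ∀ u u', Hyp β u u' → ∀ w, β u w = 0 → ∀ (s : End F W) (r : OG Q),
      (∀ x, β u x = 0 → ∀ y, r.1 (T.tm x y) = T.tm x y + β w x • T.tm u (s y)) → r ∈ H) : commutator (OG Q) ≤ H := by
  have hB : ∀ x y x' y', polar Q (T.tm x y) (T.tm x' y') = β x x' * γ y y' := M.form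
  have hq : ∀ {u u'}, Hyp β u u' → ∀ y, Q (T.tm u y) = 0 := fun h y => mul_left_cancel₀ D.two (by
    rw [← polar_self', hB, h.l, zero_mul, mul_zero])
  have k1 : ∀ {u u'} (hu : Hyp β u u') y x, β u x = 0 → ∀ z, T.tm x z ∈ eichAdd H (hq hu y) := fun hu y x hx z =>
    ⟨by rw [hB, hx, zero_mul], h _ _ hu x hx (rk y (γ z)) _ fun x' hx' y' => by
      rw [eich_app_of_perp (hq hu y) (by rw [hB, hx, zero_mul]) (by rw [hB, hx', zero_mul]), hB, rk_apply, map_smul,
        mul_smul]⟩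
  have k2 : ∀ {u u'} (hu : Hyp β u u') y v, polar Q (T.tm u y) v = 0 → v ∈ eichAdd H (hq hu y) := fun {u u'} hu y v hv => by
    obtain ⟨x, hx, qx⟩ := exists_nonsing_P2 D.toSymD D.h3 hu
    obtain ⟨z, hz⟩ := exists_ne (0 : W)
    obtain ⟨z', hz'⟩ := exists_β_one M.c hz
    have h1 : β u x = 0 := hx.1
    have h2 : β u' x = 0 := hx.2
    have h3 : γ y (T.φ (β u) v) = 0 := (M.B_tm u y v).symm.trans hv
    have h5 := sub_mem (app_mem_eichAdd (k1 hu.symm (T.φ (β u) v) ((β x x)⁻¹ • x) (by simp [h2]) z').2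
      (eich_app_of_polar (by rw [hB, M.c.symm, h3, mul_zero]) (by rw [hB]; simp [D.symm x u, h1])) (k1 hu y x h1 z))
      (k1 hu y x h1 z)
    rw [eich_app_of_perp (hq hu.symm _) (by rw [hB]; simp [h2]) (by rw [hB]; simp [h2]), hB, add_sub_cancel_left,
      map_smul, LinearMap.smul_apply, smul_eq_mul, inv_mul_cancel₀ qx, hz', mul_one, one_smul, ← T.A_ee] at h5
    have h6 : T.A (1 - ee β u' u) v ∈ eichAdd H (hq hu y) :=
      T.induction (P := fun v => T.A (1 - ee β u' u) v ∈ eichAdd H (hq hu y)) v (by simp) (fun x z => by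
        rw [T.A_tm]; exact k1 hu y _ (by simp [ee_apply, hu.lr]) z) fun a b ha hb => by rw [map_add]; exact add_mem ha hb
    simpa using add_mem h6 h5
  obtain ⟨u, -, u0, hu⟩ := SymD.exists_sing (s := β) ⊤ (by rw [finrank_top]; exact D.h3)
  obtain ⟨u', h'⟩ := exists_hyp' D.toSymD hu u0
  obtain ⟨z, hz⟩ := exists_ne (0 : W)
  obtain ⟨z', hz'⟩ := exists_β_one M.c hz
  exact commutator_le_of_eichAdd M.v.nondeg h4 ⟨hq h' z', hq h'.symm z, by rw [hB, h'.lr, hz', mul_one]⟩ (k2 h' z')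
    (k2 h'.symm z)

variable {J : Type*} {T : J → TP F U W V} [Fintype J] [DecidableEq J]

theorem exists_sq_not_mem (D : OD β) (M : ∀ j, FT (T j) β γ B) (R : Fr T) {i j : J} (hij : i ≠ j) :
    ∃ g ∈ IsoG B, g * g ∉ PermG T := by
  obtain ⟨u, -, u0, hu⟩ := SymD.exists_sing (s := β) ⊤ (by rw [finrank_top]; exact D.h3)
  obtain ⟨u', h⟩ := exists_hyp' D.toSymD hu u0
  obtain ⟨σ, hσ⟩ := (T i).exists_C (R.comm i j hij (wg β u u'))
  have h1 : Adj γ σ (-σ) := (M i).adj_of_C (by rw [map_neg, ← hσ, ← map_neg]; exact (M j).adj_A (wg_adj D.toSymD u u'))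
  refine ⟨zU (T i) hu ((2 : F)⁻¹ • σ), (M i).zU_mem hu (smul_neg (2 : F)⁻¹ σ ▸ h1.smul _), fun ⟨π, hπ⟩ => ?_⟩
  rw [← zU_add, ← add_smul, ← two_mul, mul_inv_cancel₀ D.two, one_smul] at hπ
  have h2 : ∀ x, ((T i).mv (zU (T i) hu σ)).A (ee β u x) = (T i).A (ee β u x) - β x u • ((T i).A (ee β u u) * (T i).C σ) :=
    fun x => by
      rw [TP.mv_A]
      change (1 + _) * _ * (1 - _) = _
      rw [add_mul, mul_assoc, ← ((T i).commute _ σ).eq, ← mul_assoc, ← map_mul, ee_mul, hu, zero_smul, map_zero, zero_mul,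
        add_zero, one_mul, mul_sub, mul_one, ← mul_assoc, ← map_mul, ee_mul, map_smul, smul_mul_assoc]
  by_cases e : π i = i
  · obtain ⟨a, ha⟩ := hπ i (ee β u u')
    rw [h2, e, h.rl, one_smul, (T i).commute, ← hσ, sub_eq_iff_eq_add, ← sub_eq_iff_eq_add', ← map_sub] at ha
    have := LinearMap.congr_fun (TP.commute_of_cm (R.comm j i hij.symm _) (fun e => h.ne (by
      simpa [ee_apply, h.lr] using LinearMap.congr_fun ((T i).A_injective (e.trans (map_zero _).symm)) u'))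
      (ha ▸ R.comm j i hij.symm _) (ee β u u)) u'
    simp only [wg, End.mul_apply, LinearMap.sub_apply, ee_apply, h.l, h.r, h.lr, h.rl, one_smul, zero_smul, map_sub,
      map_zero] at this
    exact h.ne ((smul_eq_zero.1 (show (2 : F) • u = 0 by linear_combination (norm := module) -this)).resolve_left D.two)
  · obtain ⟨a, ha⟩ := hπ i (ee β u u)
    rw [h2, hu, zero_smul, sub_zero] at ha
    have := (R.comm i _ (Ne.symm e) a (ee β u' u')).eq
    rw [← ha, ← map_mul, ← map_mul] at this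
    simpa [ee_apply, h.l, h.lr, h.rl, h.ne.symm] using LinearMap.congr_fun ((T i).A_injective this) u

theorem commutator_le_of_not_mem (D : OD β) (M : ∀ j, FT (T j) β γ (polarBilin Q)) (R : Fr T) (h4 : 4 ≤ finrank F V)
    (pm : ∀ π : Equiv.Perm J, ∃ τ ∈ IsoG (polarBilin Q), ∀ i a, τ.1 * (T i).A a * (τ⁻¹).1 = (T (π i)).A a)
    (hJ : ∀ i : J, ∃ j, j ≠ i) {H : Subgroup (OG Q)} (hH : (PermG T).comap (ogU Q) ⊓ commutator (OG Q) ≤ H)
    {g : OG Q} (hg : g ∈ H) (hg' : g ∉ (PermG T).comap (ogU Q)) : commutator (OG Q) ≤ H := by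
  obtain ⟨i⟩ : Nonempty J := by
    by_contra h
    exact hg' ⟨1, fun j => (h ⟨j⟩).elim⟩
  have S : OW T β γ (polarBilin Q) (H.map (ogU Q)) := ⟨D, M, R, by rintro _ ⟨g, -, rfl⟩; exact ogU_mem g, fun g h1 h2 => by
    obtain ⟨g, rfl⟩ := exists_ogU D.two h1
    rw [← map_mul] at h2 ⊢
    exact ⟨_, hH ⟨h2, mul_self_mem_commutator (M i).v.nondeg D.two g⟩, rfl⟩, pm⟩
  by_cases I : RI T β (H.map (ogU Q))
  · exact (hg' (R.mem_permG (by have := D.h3; omega) (S.os.exists_same I ⟨g, hg, rfl⟩))).elim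
  obtain ⟨i, h⟩ := S.mem_of_pure I hJ
  exact commutator_le_of_pure (M i) D h4 fun u u' hu w hw s r e =>
    (Subgroup.mem_map_iff_mem ogU_injective).1 (h u u' hu w hw s _ (ogU_mem r) e)

end Abstract

open Cfsg Cfsg.Geo CL.SLn in
/-- The stabiliser of a tensor power decomposition into orthogonal spaces is maximal in `Ω`. -/
theorem isMaximalIn_omega_wreath {F : Type*} [Field F] [Fintype F] (hodd : Odd (Fintype.card F)) {ι : Type} [Fintype ι]
    [DecidableEq ι] {Q : QuadraticForm F (ι → F)} (hQ : (polarBilin Q).Nondegenerate) (h4 : 4 ≤ Fintype.card ι)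
    {k t : ℕ} (hk : 3 ≤ k) (ht : 2 ≤ t) (hex : ¬ (Fintype.card F = 3 ∧ k = 3)) (e : ι ≃ (Fin t → Fin k)) (P : GL ι F)
    {f₁ : (Fin k → F) → (Fin k → F) → F} (hf₁ : IsSymmetricForm f₁) (p₁ : k = 4 → ¬ IsPlusTypeOn (fun v => f₁ v v) ⊤)
    (hT : IsTensorPowerFormStructure id (polar Q) f₁ e P) :
    IsMaximalIn (omegaGL Q) (tensorWreathSubgroup k t e P ⊓ omegaGL Q) := by
  obtain ⟨t, rfl⟩ : ∃ s, t = s + 1 := ⟨t - 1, by omega⟩
  obtain ⟨c, -, h⟩ := hT
  have two := Cls.two_ne_zero_of_odd_card hodd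
  have : Nonempty (Fin k) := ⟨⟨0, by omega⟩⟩
  have D₀ : SymD (bilinOf hf₁.bilinear) := ⟨hf₁.symm, bilinOf_nondegenerate hf₁.bilinear hf₁.nondegenerate, two⟩
  obtain ⟨Q₁, e₁⟩ := exists_quad_of_symm two (B := bilinOf hf₁.bilinear) hf₁.symm
  have w₁ := W5_of (Q := Q₁) ⟨fun x hx => D₀.nondeg.1 x fun y => e₁ x y ▸ hx y,
    fun x hx => D₀.nondeg.2 x fun y => e₁ y x ▸ hx y⟩ (fun v hv => by simpa [hv, eq_comm] using e₁ v v) p₁
  have D : OD (bilinOf hf₁.bilinear) := ⟨D₀, by simpa, by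
    by_cases hq : Fintype.card F = 3
    · exact Or.inl (by simp; omega)
    · exact Or.inr (five_le_card hodd hq), fun x y hx hxy hy hl => w₁.resolve_right fun h => by
      have q : ∀ v, bilinOf hf₁.bilinear v v = 0 → Q₁ v = 0 := fun v hv =>
        mul_left_cancel₀ two (by rw [← polar_self', e₁, hv, mul_zero])
      obtain ⟨c, hc⟩ := h x y (hl.ne_zero 0) (q x hx) (q y hy) (e₁ x y ▸ hxy)
      simpa using (LinearIndependent.pair_iff.1 hl c (-1) (by simp [hc])).2⟩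
  have M : ∀ j, FT (wT e P j) (bilinOf hf₁.bilinear) (c • Matrix.toBilin' (Matrix.of fun a b : Fin t → Fin k =>
      ∏ i, gramMatrix f₁ (a i) (b i))) (polarBilin Q) := fun j =>
    FT.of_form D₀ ⟨fun x y => polar_comm Q x y, hQ, two⟩ fun x y x' y' =>
      (form_wT h (fun _ _ => rfl) j x x' y y').trans (by
        simp [bilin_eq_sum_gram hf₁.bilinear x x', Matrix.toBilin'_apply])
  refine isMaximalIn_omegaGL Q _ (P := (PermG (wT e P)).comap (ogU Q)) (Subgroup.ext fun g => ?_) ?_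
    fun H h1 _ g hg hg' => commutator_le_of_not_mem D M (wT_fr e P) (by simpa) (fun π =>
      ⟨pmU e P π, form_pmU h π, pmU_conj e P π⟩) (fun i => ?_) h1 hg hg'
  · rw [Subgroup.mem_comap, mem_tensorWreath_iff, Subgroup.mem_comap,
      show GeneralLinearGroup.toLin (ogGL Q g) = ogU Q g from Units.ext (ogGL_toLin' Q g)]
  · obtain ⟨g, h1, h2⟩ := exists_sq_not_mem D M (wT_fr e P) (i := 0) (j := ⟨1, by omega⟩) (by simp [Fin.ext_iff])
    obtain ⟨g, rfl⟩ := exists_ogU two h1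
    exact ⟨g * g, mul_self_mem_commutator hQ two g, fun h => h2 (map_mul (ogU Q) g g ▸ h)⟩
  · have : Nontrivial (Fin (t + 1)) := Fin.nontrivial_iff_two_le.2 ht
    exact exists_ne i

end CL.TW
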