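/-
Tensor-wreath subgroups of `SL`, part 1: decompositions whose first factor is determined by its root elements.
-/
import Cfsg.Agent.Cls.TW2
import Cfsg.Agent.Cls.TraceTrick
import Cfsg.Agent.Cls.GeoProper

set_option autoImplicit false
set_option linter.unusedSectionVars false

namespace CL.TWL

open Module CL.TW

variable {F U W V : Type*} [Field F] [AddCommGroup U] [Module F U] [AddCommGroup W] [Module F W]
  [AddCommGroup V] [Module F V]

/-- The unit `1 + n`. -/
def un (n : End F V) (h : n * n = 0) : (End F V)ˣ :=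
  ⟨1 + n, 1 - n, by rw [mul_sub, mul_one, add_mul, one_mul, h, add_zero, add_sub_cancel_right],
    by rw [sub_mul, one_mul, mul_add, mul_one, h, add_zero, add_sub_cancel_right]⟩

theorem un_val (n : End F V) (h : n * n = 0) : (un n h).1 = 1 + n := rfl

theorem un_inv (n : End F V) (h : n * n = 0) : ((un n h)⁻¹).1 = 1 - n := rfl

theorem rk_sq {x : U} {β : Dual F U} (h : β x = 0) : rk x β * rk x β = 0 := by rw [rk_mul_rk, h, zero_smul]

theorem rk_ne {x : U} {β : Dual F U} (hx : x ≠ 0) (hβ : β ≠ 0) : rk x β ≠ 0 := fun e => by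
  obtain ⟨y, hy⟩ := SLn.exists_apply_eq_one hβ
  have := LinearMap.congr_fun e y
  rw [rk_apply, hy, one_smul] at this
  exact hx this

theorem A_rk_sq (T : TP F U W V) {x : U} {β : Dual F U} (h : β x = 0) : T.A (rk x β) * T.A (rk x β) = 0 := by
  rw [← map_mul, rk_sq h, map_zero]

/-- The root elements of the first factor. -/
noncomputable def rt (T : TP F U W V) {x : U} {β : Dual F U} (h : β x = 0) : (End F V)ˣ := un _ (A_rk_sq T h)

theorem rt_val (T : TP F U W V) {x : U} {β : Dual F U} (h : β x = 0) : (rt T h).1 = 1 + T.A (rk x β) := rfl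

theorem rt_inv (T : TP F U W V) {x : U} {β : Dual F U} (h : β x = 0) : ((rt T h)⁻¹).1 = 1 - T.A (rk x β) := rfl

theorem rt_mv (T : TP F U W V) (g : (End F V)ˣ) {x : U} {β : Dual F U} (h : β x = 0) :
    rt (T.mv g) h = g * rt T h * g⁻¹ := Units.ext (by
  rw [rt_val, Units.val_mul, Units.val_mul, rt_val, TP.mv_A, mul_add, add_mul, mul_one, Units.mul_inv])

/-- Inclusion of the first factors. -/
def Sub (T T' : TP F U W V) : Prop := ∀ a, ∃ a', T.A a = T'.A a'

theorem Sub.refl (T : TP F U W V) : Sub T T := fun a => ⟨a, rfl⟩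

theorem Sub.trans {T T' T'' : TP F U W V} (h : Sub T T') (h' : Sub T' T'') : Sub T T'' := fun a => by
  obtain ⟨b, hb⟩ := h a
  obtain ⟨c, hc⟩ := h' b
  exact ⟨c, hb.trans hc⟩

theorem Sub.mv {T T' : TP F U W V} (h : Sub T T') (g : (End F V)ˣ) : Sub (T.mv g) (T'.mv g) := fun a => by
  obtain ⟨b, hb⟩ := h a
  exact ⟨b, by rw [TP.mv_A, TP.mv_A, hb]⟩

theorem Sub.cm {T T' : TP F U W V} (h : Sub T T') {z : End F V} (hz : T'.Cm z) : T.Cm z := fun a => by
  obtain ⟨b, hb⟩ := h a
  exact hb ▸ hz b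

theorem Sub.inv_mv {T T' : TP F U W V} {g : (End F V)ˣ} (h : Sub (T.mv g) T') : Sub T (T'.mv g⁻¹) := by
  simpa only [TP.mv_mv, inv_mul_cancel, TP.mv_one] using h.mv g⁻¹

theorem Sub.of_inv_mv {T T' : TP F U W V} {g : (End F V)ˣ} (h : Sub (T.mv g⁻¹) T') : Sub T (T'.mv g) := by
  simpa only [inv_inv] using h.inv_mv

theorem sub_mv_of_comm {T : TP F U W V} {g : (End F V)ˣ} (h : T.Cm g.1) : Sub (T.mv g) T := fun a =>
  ⟨a, by rw [TP.mv_A, ← (h a).eq, Units.mul_inv_cancel_right]⟩

theorem sub_mv_of_A {T : TP F U W V} {g : (End F V)ˣ} {a a' : End F U} (h : g.1 = T.A a) (h' : (g⁻¹).1 = T.A a') :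
    Sub (T.mv g) T := fun b => ⟨a * b * a', by rw [TP.mv_A, h, h', map_mul, map_mul]⟩

theorem sub_mv_rt (T : TP F U W V) {x : U} {β : Dual F U} (h : β x = 0) : Sub (T.mv (rt T h)) T :=
  sub_mv_of_A (a := 1 + rk x β) (a' := 1 - rk x β) (by rw [rt_val, map_add, map_one]) (by rw [rt_inv, map_sub, map_one])

/-- `H` contains the root elements of the first factor, and no other element of the unipotent radicals of the
stabilisers of the subspaces `u ⊗ W`. -/
structure Good (H : Subgroup (End F V)ˣ) (T : TP F U W V) : Prop where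
  root : ∀ (x : U) (β : Dual F U) (h : β x = 0), rt T h ∈ H
  rad : ∀ u, u ≠ 0 → ∀ g ∈ H, (∀ v, ∃ y, g.1 v = v + T.tm u y) → (∀ y, g.1 (T.tm u y) = T.tm u y) → ∃ a, g.1 = T.A a

variable {H : Subgroup (End F V)ˣ} {T T' : TP F U W V}

theorem Good.mv (G : Good H T) {h : (End F V)ˣ} (hh : h ∈ H) : Good H (T.mv h) where
  root x β e := rt_mv T h e ▸ mul_mem (mul_mem hh (G.root x β e)) (inv_mem hh)
  rad u hu g hg h1 h2 := by
    obtain ⟨a, ha⟩ := G.rad u hu (h⁻¹ * g * h) (mul_mem (mul_mem (inv_mem hh) hg) hh) (fun v => by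
      obtain ⟨y, e⟩ := h1 (h.1 v)
      exact ⟨y, by simp only [Units.val_mul, End.mul_apply, e, map_add, TP.mv_tm, inv_val_apply]⟩) fun y => by
        have := h2 y
        rw [TP.mv_tm] at this
        simp only [Units.val_mul, End.mul_apply, this, inv_val_apply]
    exact ⟨a, by rw [TP.mv_A, ← ha]; simp [mul_assoc]⟩

variable [FiniteDimensional F U] [FiniteDimensional F W] [FiniteDimensional F V] [Nontrivial W]

theorem Sub.symm (h : Sub T T') : Sub T' T := fun a => by
  have h1 : LinearMap.range T.A.toLinearMap = LinearMap.range T'.A.toLinearMap :=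
    Submodule.eq_of_le_of_finrank_eq (by rintro _ ⟨a, rfl⟩; exact (h a).imp fun _ e => e.symm) (by
      rw [LinearMap.finrank_range_of_inj T.A_injective, LinearMap.finrank_range_of_inj T'.A_injective])
  obtain ⟨b, hb⟩ : T'.A a ∈ LinearMap.range T.A.toLinearMap := h1 ▸ ⟨a, rfl⟩
  exact ⟨b, hb.symm⟩

omit [FiniteDimensional F U] [FiniteDimensional F W] [FiniteDimensional F V] in
theorem Good.corr (G : Good H T) (G' : Good H T') {u u' : U} (hu' : u' ≠ 0) (h : ∀ y, ∃ y', T.tm u y = T'.tm u' y')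
    (h' : ∀ y, ∃ y', T'.tm u' y = T.tm u y') {β : Dual F U} (hβ : β u = 0) :
    ∃ γ : Dual F U, γ u' = 0 ∧ ∀ v, T.tm u (T.φ β v) = T'.tm u' (T'.φ γ v) := by
  have h0 : ∀ y, T.A (rk u β) (T'.tm u' y) = 0 := fun y => by
    obtain ⟨y', e⟩ := h' y
    rw [e, T.A_rk, T.φ_tm, hβ, zero_smul, map_zero]
  obtain ⟨a, ha⟩ := G'.rad u' hu' _ (G.root u β hβ) (fun v => by
    obtain ⟨y, e⟩ := h (T.φ β v)
    exact ⟨y, by rw [rt_val, LinearMap.add_apply, T.A_rk, e, End.one_apply]⟩) fun y => by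
      rw [rt_val, LinearMap.add_apply, h0, add_zero, End.one_apply]
  have h1 : T.A (rk u β) = T'.A (a - 1) := by rw [map_sub, map_one, ← ha, rt_val, add_sub_cancel_left]
  obtain ⟨α, hα⟩ := exists_dual_one (F := F) hu'
  obtain ⟨y₀, hy₀⟩ := exists_ne (0 : W)
  obtain ⟨χ, hχ⟩ := exists_dual_one (F := F) hy₀
  have h2 : a - 1 = rk u' (α ∘ₗ (a - 1)) := LinearMap.ext fun x => by
    obtain ⟨y, e⟩ := h (T.φ β (T'.tm x y₀))
    rw [← T.A_rk, h1, T'.A_tm] at e
    have := congrArg (T'.ψ χ) e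
    rw [T'.ψ_tm, T'.ψ_tm, hχ, one_smul] at this
    rw [rk_apply, LinearMap.comp_apply, this, map_smul, hα, smul_eq_mul, mul_one]
  refine ⟨α ∘ₗ (a - 1), ?_, fun v => by rw [← T.A_rk, h1, ← T'.A_rk, ← h2]⟩
  have := h0 y₀
  rw [h1, T'.A_tm] at this
  rw [LinearMap.comp_apply, (T'.tm_eq_zero this).resolve_right hy₀, map_zero]

variable (hk : 3 ≤ finrank F U)
include hk

theorem nontriv : Nontrivial U := Module.nontrivial_of_finrank_pos (R := F) (by omega)

omit [FiniteDimensional F W] [FiniteDimensional F V] in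
/-- The subspace `u ⊗ W` determines the first factor. -/
theorem Good.sub_of_eq (G : Good H T) (G' : Good H T') {u u' : U} (hu : u ≠ 0) (hu' : u' ≠ 0)
    (h : ∀ y, ∃ y', T.tm u y = T'.tm u' y') (h' : ∀ y, ∃ y', T'.tm u' y = T.tm u y') : Sub T T' := by
  have := nontriv hk
  obtain ⟨α, hα⟩ := exists_dual_one (F := F) hu'
  let c : End F W := T'.φ α ∘ₗ T.tm u
  have hc : ∀ y, T.tm u y = T'.tm u' (c y) := fun y => by
    obtain ⟨y', e⟩ := h y
    simp only [c, LinearMap.comp_apply, e, T'.φ_tm, hα, one_smul]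
  obtain ⟨y₀, hy₀⟩ := exists_ne (0 : W)
  obtain ⟨χ, hχ⟩ := exists_dual_one (F := F) (x := c y₀) fun e =>
    (T.tm_eq_zero ((hc y₀).trans (by rw [e, map_zero]))).elim hu hy₀
  have key : ∀ x, ∃ β : Dual F U, β ≠ 0 ∧ ∃ a, T.A (rk x β) = T'.A a := fun x => by
    obtain ⟨β, hβ, h1, h2⟩ := SLn.exists_dual_ne_zero₂ hk u x
    let x' := T'.ψ χ (T.tm x y₀)
    have h3 : ∀ β γ : Dual F U, (∀ v, T.tm u (T.φ β v) = T'.tm u' (T'.φ γ v)) →
        (∀ v, T'.φ γ v = c (T.φ β v)) ∧ γ x' = β x := fun β γ e => by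
      have h4 : ∀ v, T'.φ γ v = c (T.φ β v) := fun v => T'.tm_injective hu' ((e v).symm.trans (hc _))
      exact ⟨h4, by rw [← T'.φ_ψ, h4, T.φ_tm, map_smul, map_smul, hχ, smul_eq_mul, mul_one]⟩
    have h4 : ∀ y, ∃ y', T.tm x y - T'.tm x' (c y) = T'.tm u' y' := fun y => T'.exists_tm hu' fun γ hγ => by
      obtain ⟨β, -, e⟩ := G'.corr G hu h' h hγ
      obtain ⟨e1, e2⟩ := h3 β γ fun v => (e v).symm
      rw [map_sub, T'.φ_tm, e1, e2, T.φ_tm, map_smul, sub_self]
    obtain ⟨γ, h5, e⟩ := G.corr G' hu' h h' h1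
    obtain ⟨e1, e2⟩ := h3 β γ e
    obtain ⟨a, ha⟩ := G'.rad u' hu' _ (mul_mem (G.root x β h2) (inv_mem (G'.root x' γ (e2.trans h2)))) (fun v => by
      obtain ⟨w, rfl⟩ := unit_surjective (rt T' (e2.trans h2)) v
      obtain ⟨y, hy⟩ := h4 (T.φ β w)
      refine ⟨y, ?_⟩
      rw [Units.val_mul, End.mul_apply, inv_val_apply, ← hy, rt_val, rt_val, LinearMap.add_apply, LinearMap.add_apply,
        T.A_rk, T'.A_rk, e1]
      abel) fun y => by
        rw [Units.val_mul, End.mul_apply, rt_inv, LinearMap.sub_apply, T'.A_rk, T'.φ_tm, h5, zero_smul, map_zero,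
          sub_zero, End.one_apply]
        obtain ⟨y', e⟩ := h' y
        rw [e, rt_val, LinearMap.add_apply, T.A_rk, T.φ_tm, h1, zero_smul, map_zero, add_zero, End.one_apply]
    refine ⟨β, hβ, a * (1 + rk x' γ) - 1, ?_⟩
    rw [map_sub, map_mul, ← ha, map_add, map_one, ← rt_val T' (e2.trans h2), Units.val_mul, Units.inv_mul_cancel_right,
      rt_val, add_sub_cancel_left]
  refine fun a => T'.exists_A fun d => ?_
  obtain ⟨d', e⟩ := T.exists_C_of_sl (z := T'.C d) fun x α hα => LinearMap.ext fun y => by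
    obtain ⟨β, hβ, m, hm⟩ := key x
    obtain ⟨x₁, h1⟩ := SLn.exists_apply_eq_one hβ
    have h2 : T.tm x y = T.A (rk x β) (T.tm x₁ y) := by rw [T.A_rk, T.φ_tm, h1, one_smul]
    rw [T.sl_apply, h2, hm, ← End.mul_apply, ← (T'.commute m d).eq, End.mul_apply, ← hm, T.A_rk, T.φ_tm, hα, zero_smul,
      LinearMap.zero_apply]
  exact e ▸ (T.commute a d').symm

/-- A root element determines its factor. -/
theorem Good.uniq (G : Good H T) (G' : Good H T') {x : U} {β : Dual F U} (hx : x ≠ 0) (hβ : β ≠ 0) {m : End F U}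
    (h : T.A (rk x β) = T'.A m) : Sub T T' := by
  obtain ⟨x₁, h1⟩ := DFunLike.ne_iff.1 (show m ≠ 0 from fun e => rk_ne hx hβ (T.A_injective (by
    rw [h, e, map_zero, map_zero])))
  have h2 : LinearMap.range (T'.tm (m x₁)) = LinearMap.range (T.tm x) :=
    Submodule.eq_of_le_of_finrank_eq (by rintro _ ⟨y, rfl⟩; exact ⟨_, by rw [← T.A_rk, h, T'.A_tm]⟩) (by
      rw [LinearMap.finrank_range_of_inj (T'.tm_injective h1), LinearMap.finrank_range_of_inj (T.tm_injective hx)])
  exact G.sub_of_eq hk G' hx h1 (fun y => (h2.ge ⟨y, rfl⟩).imp fun _ e => e.symm)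
    fun y => (h2.le ⟨y, rfl⟩).imp fun _ e => e.symm

/-- The centraliser of a root element normalises its factor. -/
theorem Good.norm (G : Good H T) {x : U} {β : Dual F U} (hx : x ≠ 0) (hβ : β ≠ 0) {g : (End F V)ˣ} (hg : g ∈ H)
    (h : Commute g.1 (T.A (rk x β))) : Sub (T.mv g) T :=
  (G.mv hg).uniq hk G hx hβ (m := rk x β) (by rw [TP.mv_A, h.eq, Units.mul_inv_cancel_right])

omit hk [FiniteDimensional F U] [FiniteDimensional F V] [Nontrivial W] in
theorem rank_rk (T : TP F U W V) (x : U) (β : Dual F U) : finrank F (LinearMap.range (T.A (rk x β))) ≤ finrank F W := by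
  simpa using T.finrank_range_A_le (fun _ : Unit => x) (n := rk x β) fun _ =>
    Submodule.smul_mem _ _ (Submodule.subset_span ⟨(), rfl⟩)

theorem dich_aux {n : End F V} (h2 : n * n = 0) (hr : finrank F (LinearMap.range n) ≤ finrank F W) {m : End F U}
    {b b' : End F W} (hb : Function.Injective b) (e : n = T.A m * T.C b + T.C b') {N : ℕ} (hN : b' ^ N = 0)
    (h1 : ∀ y, b' y = 0 → b y = y) : (∃ m, n = T.A m) ∨ T.Cm n := by
  by_cases hm : m = 0
  · exact Or.inr (by rw [e, hm, map_zero, zero_mul, zero_add]; exact T.cm_C _)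
  obtain ⟨y, hy, hy'⟩ := exists_ker_of_pow hN
  have h3 := T.rank_one hk hb (T.pow_eq_zero_of_tm (X := n) hy (fun x => by
    rw [e, LinearMap.add_apply, T.AC_tm, T.C_tm, hy', h1 y hy', map_zero, add_zero]) (by rw [pow_two, h2])) hm (e ▸ hr)
  rw [h3] at h1
  exact Or.inl ⟨m, by rw [e, h3, show b = 1 from LinearMap.ext fun y => h1 y rfl, map_one, map_zero, mul_one, add_zero]⟩

variable (p : ℕ) [Fact p.Prime] [CharP F p] [Finite F]
include p

/-- A root element normalising a factor lies in it or centralises it. -/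
theorem dich {n : End F V} (h2 : n * n = 0) (hr : finrank F (LinearMap.range n) ≤ finrank F W) {g : (End F V)ˣ}
    (hg : g.1 = 1 + n) (h : Sub (T.mv g) T) : (∃ m, n = T.A m) ∨ T.Cm n := by
  have := nontriv hk
  have : Nontrivial V := T.E.symm.surjective.nontrivial
  obtain ⟨a, c, e, h3, h4⟩ := T.exists_unip p (T.kron_of_normalizes (g := g) fun a => by simpa only [TP.mv_A] using h a)
    (n := 1) (pow_eq_one_of_sub p (r := 2) (by simpa using (Fact.out : p.Prime).two_le) (by
      rw [hg, add_sub_cancel_left, pow_two, h2]))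
  exact dich_aux hk h2 hr (m := a - 1) (b' := c - 1) ((End.isUnit_iff _).1 (IsUnit.of_pow_eq_one h4
    (pow_ne_zero _ (Fact.out : p.Prime).ne_zero))).1 (by rw [← T.AC_sub_one, ← e, hg, add_sub_cancel_left])
    (sub_one_pow_eq_zero p h4) fun y hy => sub_eq_zero.1 hy

/-- The additive version of the dichotomy. -/
theorem dich_lie {n : End F V} (h2 : n * n = 0) (hr : finrank F (LinearMap.range n) ≤ finrank F W) {m : End F U}
    {b : End F W} (e : n = T.A m + T.C b) : (∃ m, n = T.A m) ∨ T.Cm n := by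
  have := nontriv hk
  have : Nontrivial V := T.E.symm.surjective.nontrivial
  have : CharP (End F V) p := charP_of_injective_algebraMap (algebraMap F (End F V)).injective p
  have hp := (Fact.out : p.Prime).two_le
  have h0 : n ^ p = 0 := pow_eq_zero_of_le hp (by rw [pow_two, h2])
  obtain ⟨l, hl⟩ := T.scalar_of_A_eq_C (a := m ^ p) (c := -b ^ p) (by
    rw [e, add_pow_char_of_commute p (T.commute m b)] at h0
    rw [map_neg, map_pow, map_pow, eq_neg_of_add_eq_zero_left h0])
  obtain ⟨μ, rfl⟩ := Finite.surjective_of_injective (frobenius F p).injective l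
  have : CharP (End F U) p := charP_of_injective_algebraMap (algebraMap F (End F U)).injective p
  have h3 : (m - μ • 1) ^ p = 0 := by
    rw [sub_pow_char_of_commute p ((Commute.one_right m).smul_right μ), hl, smul_pow, one_pow, frobenius_def, sub_self]
  have h4 : n = T.A (m - μ • 1) * T.C 1 + T.C (b + μ • 1) := by simp [e]
  refine dich_aux hk h2 hr (b := 1) (fun _ _ e => e) h4 (N := p) (T.C_injective ?_) fun _ _ => rfl
  rw [h4, map_one, mul_one, add_pow_char_of_commute p (T.commute _ _), ← map_pow, h3, map_zero, zero_add] at h0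
  rw [map_pow, h0, map_zero]

end CL.TWL
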