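/-
Tensor-wreath subgroups of `SL`, part 2: root elements permuting a frame, and the trace trick for frames.
-/
import Cfsg.Agent.Cls.TWL1

set_option autoImplicit false
set_option linter.unusedSectionVars false

namespace CL.TWL

open Module CL.TW CL.TrTr

theorem ring_four {R : Type*} [Ring R] (two : ∀ z : R, z + z = 0) {d x y : R} (hd : d * d = 1) (hx : x * x = 1)
    (hy : y * y = 1) (h1 : Commute d x) (h2 : Commute d y) (h3 : Commute x y) :
    (1 + d) * ((1 + d * x) * ((1 + d * y) * (1 + d * (x * y)))) = 0 := by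
  have e1 : ∀ z, (1 + d) * (1 + d * z) = (1 + d) * (1 + z) := fun z => by
    rw [mul_add (1 + d), mul_add (1 + d), ← mul_assoc, add_mul 1 d d, one_mul, hd, add_comm d]
  have c1 : Commute (1 + d) (1 + x) := (Commute.one_left _).add_left ((Commute.one_right _).add_right h1)
  have c2 : Commute (1 + d) (1 + y) := (Commute.one_left _).add_left ((Commute.one_right _).add_right h2)
  have c3 : Commute x (1 + y) := (Commute.one_right _).add_right h3
  have e2 : (1 + x) * (1 + y) * (1 + x * y) = 0 := by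
    rw [mul_add _ 1, mul_one, ← mul_assoc, mul_assoc (1 + x), ← c3.eq, ← mul_assoc, mul_assoc _ _ y, add_mul 1 x x,
      add_mul 1 y y, one_mul, one_mul, hx, hy, add_comm x, add_comm y, two]
  rw [← mul_assoc, e1, c1.eq, mul_assoc, ← mul_assoc (1 + d), e1, c2.eq, mul_assoc, e1, ← mul_assoc (1 + y), ← c2.eq,
    mul_assoc, ← mul_assoc (1 + x), ← c1.eq, mul_assoc, ← mul_assoc (1 + x), e2, mul_zero]

variable {F U W V : Type*} [Field F] [AddCommGroup U] [Module F U] [AddCommGroup W] [Module F W]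
  [AddCommGroup V] [Module F V] {H : Subgroup (End F V)ˣ} {T T' : TP F U W V}

theorem eq_zero_of_scalar {n : End F V} (h : n * n = 0) {c : F} (e : n = c • 1) : n = 0 := by
  by_cases hc : c = 0
  · rw [e, hc, zero_smul]
  rw [e, smul_mul_smul_comm, one_mul, smul_eq_zero, mul_self_eq_zero] at h
  rw [e, h.resolve_left hc, smul_zero]

theorem rt_mul (T : TP F U W V) {x : U} {β γ : Dual F U} (h : β x = 0) (h' : γ x = 0) (h'' : (β + γ) x = 0) :
    rt T h * rt T h' = rt T h'' := Units.ext (by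
  rw [Units.val_mul, rt_val, rt_val, rt_val, mul_add, add_mul, add_mul, ← map_mul, rk_mul_rk, h, zero_smul, map_zero,
    show rk x (β + γ) = rk x β + rk x γ by ext; simp [add_smul], map_add]
  simp [add_assoc])

theorem conj_mul (g : (End F V)ˣ) (a b : End F V) :
    g.1 * a * (g⁻¹).1 * (g.1 * b * (g⁻¹).1) = g.1 * (a * b) * (g⁻¹).1 := by simp [mul_assoc]

theorem conj_eq_zero {g : (End F V)ˣ} {a : End F V} (h : g.1 * a * (g⁻¹).1 = 0) : a = 0 := by
  simpa [mul_assoc] using congrArg (fun z => (g⁻¹).1 * z * g.1) h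

variable [FiniteDimensional F U] [FiniteDimensional F W] [FiniteDimensional F V] [Nontrivial W]
  (hk : 3 ≤ finrank F U)
include hk

theorem eq_zero_of_cm {m : End F U} (h2 : T.A m * T.A m = 0) (h : T.Cm (T.A m)) : T.A m = 0 := by
  have := nontriv hk
  obtain ⟨c, hc⟩ := h.scalar
  exact eq_zero_of_scalar h2 (c := c) (by rw [hc, map_smul, map_one])

theorem exists_root : ∃ (x : U) (β : Dual F U), x ≠ 0 ∧ β ≠ 0 ∧ β x = 0 := by
  obtain ⟨x, hx, -⟩ := SLn.exists_ne_zero_ker₂ hk (0 : Dual F U) 0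
  obtain ⟨β, hβ, h, -⟩ := SLn.exists_dual_ne_zero₂ hk x x
  exact ⟨x, β, hx, hβ, h⟩

theorem swap_odd (two : (2 : F) ≠ 0) {n : End F V} (h2 : n * n = 0)
    (hr : finrank F (LinearMap.range n) ≤ finrank F W) (h : ∀ a, T.Cm ((1 + n) * T.A a * (1 - n)))
    (h' : ∀ a, T.Cm ((1 - n) * T.A a * (1 + n))) : False := by
  have := nontriv hk
  obtain ⟨x, β, hx, hβ, h0⟩ := exists_root hk
  obtain ⟨b, hb⟩ := T.exists_C fun a => (h (rk x β) a).add_right (h' (rk x β) a)
  have e : T.A (rk x β) * T.C ((-2 : F) • 1) + T.C b = n * ((-2 : F) • (T.A (rk x β) * n)) := by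
    rw [← hb]
    simp only [map_smul, map_one, mul_smul_comm, mul_one, mul_add, add_mul, mul_sub, sub_mul, one_mul, mul_assoc]
    module
  have h3 := T.rank_one hk (b := (-2 : F) • 1) (b' := b) (smul_right_injective W (neg_ne_zero.2 two))
    (by rw [pow_two, rk_sq h0]) (rk_ne hx hβ) (by
      rw [e]; exact (Submodule.finrank_mono (LinearMap.range_comp_le_range _ _)).trans hr)
  rw [h3, map_zero, add_zero, map_smul, map_one, mul_smul_comm, mul_one, mul_smul_comm] at e
  have h4 := smul_right_injective _ (neg_ne_zero.2 two) e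
  refine rk_ne hx hβ (T.A_injective ?_)
  rw [h4, h4, ← mul_assoc n (T.A _), ← mul_assoc, ← mul_assoc, ← mul_assoc, h2, map_zero]
  simp

variable (p : ℕ) [Fact p.Prime] [CharP F p] [Finite F]
include p

theorem swap_cm (two : (2 : F) = 0) (G : Good H T) (G' : Good H T') {x : U} {β : Dual F U} (hx : x ≠ 0) (hβ : β ≠ 0)
    (h0 : β x = 0) (h : ∀ a, T'.Cm ((rt T h0).1 * T'.A a * ((rt T h0)⁻¹).1)) {u : U} {γ : Dual F U} (hu : u ≠ 0)
    (hγ : γ ≠ 0) (h1 : γ u = 0) : T.Cm ((T.mv (rt T' h1)).A (rk x β)) := by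
  have neg : ∀ z : End F V, -z = z := fun z => by
    rw [neg_eq_iff_add_eq_zero, ← two_smul F, two, zero_smul]
  have inv : ∀ (T : TP F U W V) {x : U} {β : Dual F U} (h : β x = 0), (rt T h)⁻¹ = rt T h := fun T _ _ h =>
    Units.ext (by rw [rt_inv, rt_val, sub_eq_add_neg, neg])
  have hne : ∀ m, (rt T h0).1 * T'.A (rk u γ) * ((rt T h0)⁻¹).1 ≠ T'.A m := fun m e => by
    have := eq_zero_of_cm hk (m := m) (by rw [← e, conj_mul, A_rk_sq T' h1, mul_zero, zero_mul]) (e ▸ h _)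
    rw [← e] at this
    exact rk_ne hu hγ (T'.A_injective ((conj_eq_zero this).trans (map_zero _).symm))
  have h2 : Commute (rt (T.mv (rt T' h1)) h0).1 (T.A (rk x β)) := by
    have h3 : Commute (rt T' h1).1 ((rt T h0).1 * (rt T' h1).1 * (rt T h0).1) := by
      have := h (1 + rk u γ) (1 + rk u γ)
      rwa [map_add, map_one, inv] at this
    have h4 : Commute (rt (T.mv (rt T' h1)) h0).1 (rt T h0).1 := by
      rw [rt_mv, inv, Units.val_mul, Units.val_mul]
      change _ * _ = _ * _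
      simpa only [mul_assoc] using h3.eq
    exact (by simpa [rt_val] using h4.sub_right (Commute.one_right _))
  refine (dich hk p (A_rk_sq _ h0) (rank_rk _ x β) (rt_val _ h0) (G.norm hk hx hβ ((G.mv (G'.root _ _ h1)).root _ _ h0)
    h2)).resolve_left fun ⟨m, hm⟩ => ?_
  rcases dich hk p (A_rk_sq _ h1) (rank_rk _ u γ) (rt_val _ h1) ((G.mv (G'.root _ _ h1)).uniq hk G hx hβ hm) with
    ⟨m, hm⟩ | h3
  · obtain ⟨a, ha⟩ := (G'.uniq hk G hu hγ hm).symm (rk x β)
    exact hne ((1 + a) * rk u γ * (1 - a)) (by rw [rt_val, rt_inv, ha]; simp only [map_mul, map_add, map_sub, map_one])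
  · refine hne (rk u γ) ?_
    rw [show (rt T h0).1 = T.A (1 + rk x β) by rw [rt_val, map_add, map_one], (h3 _).eq, mul_assoc, map_add, map_one,
      ← rt_val T h0, Units.mul_inv, mul_one]

theorem swap_even (two : (2 : F) = 0) (G : Good H T) (G' : Good H T') {x : U} {β : Dual F U} (hx : x ≠ 0) (hβ : β ≠ 0)
    (h0 : β x = 0) (h : ∀ a, T'.Cm ((rt T h0).1 * T'.A a * ((rt T h0)⁻¹).1)) : False := by
  have := nontriv hk
  have add : ∀ z : End F V, z + z = 0 := fun z => by rw [← two_smul F, two, zero_smul]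
  have inv : ∀ (T : TP F U W V) {x : U} {β : Dual F U} (h : β x = 0), (rt T h)⁻¹ = rt T h := fun T _ _ h =>
    Units.ext (by rw [rt_inv, rt_val, sub_eq_add_neg, neg_eq_of_add_eq_zero_left (add _)])
  obtain ⟨u, γ, hu, hγ, h1⟩ := exists_root hk
  obtain ⟨α, hα⟩ := exists_dual_one (F := F) hu
  obtain ⟨w, hw, h2, h3⟩ := SLn.exists_ne_zero_ker₂ hk α γ
  obtain ⟨δ, h4, h5⟩ := SLn.exists_dual_pair (F := F) (u := u) (v := w) fun c hc => hw (by
    have : c = 0 := by simpa [hα, h2] using congrArg α hc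
    rw [← hc, this, zero_smul])
  have h6 : (γ + δ) u = 0 := by simp [h1, h5]
  have c1 := swap_cm hk p two G G' hx hβ h0 h hu hγ h1
  have c2 := swap_cm hk p two G G' hx hβ h0 h hu (fun e => by simp [e] at h4) h5
  have c3 := swap_cm hk p two G G' hx hβ h0 h hu (fun e => by simpa [h3, h4] using LinearMap.congr_fun e w) h6
  have cm : ∀ {γ δ : Dual F U} (h1 : γ u = 0) (h2 : δ u = 0),
      Commute (rt T' h1) (rt T h0 * rt T' h2 * rt T h0) := fun {γ δ} h1 h2 => Units.ext (by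
    have := (h (1 + rk u δ) (1 + rk u γ)).eq
    rwa [map_add, map_add, map_one, inv] at this)
  have cs : Commute (rt T' h1) (rt T' h5) := (rt_mul T' h1 h5 h6).trans (by
    rw [rt_mul T' h5 h1 (by rwa [add_comm])]; congr 1; exact add_comm _ _)
  rw [← rt_mul T' h1 h5 h6] at c3
  rw [TP.mv_A] at c1 c2 c3
  have i1 := inv T' h1
  have i2 := inv T' h5
  have i0 := inv T h0
  have a11 := cm h1 h1
  have a12 := cm h1 h5
  have a21 := cm h5 h1
  have a22 := cm h5 h5
  have hd := rt_val T h0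
  generalize rt T' h1 = s at *
  generalize rt T' h5 = t at *
  generalize rt T h0 = d at *
  have s2 : s * s = 1 := by nth_rw 1 [← i1]; exact inv_mul_cancel s
  have t2 : t * t = 1 := by nth_rw 1 [← i2]; exact inv_mul_cancel t
  have d2 : d * d = 1 := by nth_rw 1 [← i0]; exact inv_mul_cancel d
  have nz : ∀ z, T.Cm z → z ≠ 0 → T.A (rk x β) * z ≠ 0 := fun z hz h0 e => h0 (T.eq_zero_of_A_mul (rk_ne hx hβ) hz e)
  have n0 : T.A (rk x β) ≠ 0 := fun e => rk_ne hx hβ (T.A_injective (e.trans (map_zero _).symm))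
  have cmul : ∀ {z z' : End F V}, T.Cm z → T.Cm z' → T.Cm (z * z') := fun h h' a => (h a).mul_right (h' a)
  have s' : ∀ z, s * (s * z) = z := fun z => by rw [← mul_assoc, s2, one_mul]
  have t' : ∀ z, t * (t * z) = z := fun z => by rw [← mul_assoc, t2, one_mul]
  have d' : ∀ z, d * (d * z) = z := fun z => by rw [← mul_assoc, d2, one_mul]
  have ts : ∀ z, t * (s * z) = s * (t * z) := fun z => by rw [← mul_assoc, ← cs.eq, mul_assoc]
  let cj : (End F V)ˣ → End F V := fun g => g.1 * T.A (rk x β) * (g⁻¹).1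
  have cc : ∀ g g' : (End F V)ˣ, g.1 * cj g' * (g⁻¹).1 = cj (g * g') := fun g g' => by simp [cj, mul_assoc]
  have c0 : cj 1 = T.A (rk x β) := by simp [cj]
  have k1 : cj t * cj (s * t) ≠ 0 := fun e => nz _ c1 (fun e => n0 (conj_eq_zero e)) (by
    have := congrArg (fun z => t.1 * z * (t⁻¹).1) e
    simp only [← conj_mul, cc, t2, c0, ts, mul_one, mul_zero, zero_mul] at this
    exact this)
  have k2 : cj s * (cj t * cj (s * t)) ≠ 0 := fun e => nz _ (cmul c3 c2) (fun e : cj (s * t) * cj t = 0 => k1 (by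
    have := congrArg (fun z => s.1 * z * (s⁻¹).1) e
    simpa only [← conj_mul, cc, s', mul_zero, zero_mul] using this)) (by
    have := congrArg (fun z => s.1 * z * (s⁻¹).1) e
    simp only [← conj_mul, cc, s2, c0, s', mul_zero, zero_mul] at this
    exact this)
  refine nz _ (cmul c1 (cmul c2 c3)) k2 ?_
  have e1 : ∀ g : (End F V)ˣ, g.1 * T.A (rk x β) * (g⁻¹).1 = 1 + (g * d * g⁻¹).1 := fun g => by
    rw [Units.val_mul, Units.val_mul, hd, mul_add, add_mul, mul_one, Units.mul_inv, ← add_assoc, add, zero_add]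
  have e0 : T.A (rk x β) = 1 + d.1 := by rw [hd, ← add_assoc, add, zero_add]
  have f1 : s * d * s⁻¹ = d * (d * s * d * s) := by simp only [i1, mul_assoc, d']
  have f2 : t * d * t⁻¹ = d * (d * t * d * t) := by simp only [i2, mul_assoc, d']
  have f3 : s * t * d * (s * t)⁻¹ = d * (d * s * d * s * (d * t * d * t)) := by
    rw [mul_assoc (d * s * d) s, ← mul_assoc s, a12.eq, mul_inv_rev, i1, i2]
    simp only [mul_assoc, d', ts, cs.symm.eq]
  rw [e1, e1, e1, e0, f1, f2, f3]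
  simp only [Units.val_mul d, Units.val_mul (d * s * d * s)]
  refine ring_four add (congrArg Units.val d2) (congrArg Units.val (show d * s * d * s * (d * s * d * s) = 1 from ?_))
    (congrArg Units.val (show d * t * d * t * (d * t * d * t) = 1 from ?_))
    (congrArg Units.val (show d * (d * s * d * s) = d * s * d * s * d from ?_))
    (congrArg Units.val (show d * (d * t * d * t) = d * t * d * t * d from ?_))
    (congrArg Units.val (show d * s * d * s * (d * t * d * t) = d * t * d * t * (d * s * d * s) from ?_))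
  · rw [mul_assoc (d * s * d) s, ← mul_assoc s, a11.eq]; simp only [mul_assoc, d', s', s2, mul_one, d2]
  · rw [mul_assoc (d * t * d) t, ← mul_assoc t, a22.eq]; simp only [mul_assoc, d', t', t2, mul_one, d2]
  · conv_rhs => rw [← a11.eq]
    simp only [mul_assoc, d', d2, mul_one]
  · conv_rhs => rw [← a22.eq]
    simp only [mul_assoc, d', d2, mul_one]
  · rw [mul_assoc (d * s * d) s, ← mul_assoc s, a12.eq, mul_assoc (d * t * d) t (_ * _), ← mul_assoc t, a21.eq]
    simp only [mul_assoc, d', ts, cs.symm.eq]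

variable {J : Type*} {T : J → TP F U W V} (R : Fr T) (G : ∀ j, Good H (T j))

/-- `g` permutes the factors of the frame. -/
def Perm (T : J → TP F U W V) (g : (End F V)ˣ) : Prop := ∀ l, ∃ l', Sub ((T l).mv g) (T l')

include R G

theorem free {T' : TP F U W V} (G' : Good H T') {x : U} {β : Dual F U} (hx : x ≠ 0) (hβ : β ≠ 0) (h0 : β x = 0)
    (h1 : Perm T (rt T' h0)) (h2 : Perm T (rt T' h0)⁻¹) : ∃ l, Sub T' (T l) := by
  have := nontriv hk
  by_contra hc
  obtain ⟨c, e⟩ := R.centre (T'.A (rk x β)) fun l => by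
    by_cases h : Sub ((T l).mv (rt T' h0)) (T l)
    · exact (dich hk p (A_rk_sq _ h0) (rank_rk _ x β) (rt_val _ h0) h).resolve_left fun ⟨m, hm⟩ =>
        hc ⟨l, G'.uniq hk (G l) hx hβ hm⟩
    have k1 : ∀ a, (T l).Cm ((rt T' h0).1 * (T l).A a * ((rt T' h0)⁻¹).1) := fun a => by
      obtain ⟨l', e⟩ := h1 l
      obtain ⟨a', ha⟩ := e a
      rw [← TP.mv_A, ha]
      exact R.comm l l' (fun e' => h (e' ▸ e)) a'
    by_cases two : (2 : F) = 0
    · exact (swap_even hk p two G' (G l) hx hβ h0 k1).elim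
    refine (swap_odd hk two (A_rk_sq T' h0) (rank_rk _ x β) k1 fun a => ?_).elim
    obtain ⟨l', e⟩ := h2 l
    obtain ⟨a', ha⟩ := e a
    rw [TP.mv_A, inv_inv] at ha
    rw [← rt_inv T' h0, ← rt_val T' h0, ha]
    exact R.comm l l' (fun e' => h (Sub.symm (by subst e'; exact e.of_inv_mv))) a'
  exact rk_ne hx hβ (T'.A_injective ((eq_zero_of_scalar (A_rk_sq T' h0) e).trans (map_zero _).symm))

theorem perm_of_add {g : (End F V)ˣ} (hg : g ∈ H) {x : U} {β : Dual F U} (hx : x ≠ 0) (hβ : β ≠ 0) (h0 : β x = 0)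
    (h : ∀ j i, ∃ m b, g.1 * (T j).A (rk x β) * (g⁻¹).1 = (T i).A m + (T i).C b) : Perm T g := fun j => by
  have := nontriv hk
  by_contra hc
  obtain ⟨c, e⟩ := R.centre (((T j).mv g).A (rk x β)) fun i => by
    obtain ⟨m, b, e⟩ := h j i
    exact (dich_lie hk p (A_rk_sq _ h0) (rank_rk _ x β) ((TP.mv_A _ _ _).trans e)).resolve_left fun ⟨m, hm⟩ =>
      hc ⟨i, ((G j).mv hg).uniq hk (G i) hx hβ hm⟩
  exact rk_ne hx hβ (((T j).mv g).A_injective ((eq_zero_of_scalar (A_rk_sq _ h0) e).trans (map_zero _).symm))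

/-- The trace trick for frames. -/
theorem perm_of_trace {X : Type*} [AddCommGroup X] [Module F X] (ρ : Representation F (End F V)ˣ X) (x₀ : X)
    (hfix : ∀ g ∈ H, Perm T g → ρ g x₀ = x₀) (hdet : ∀ g ∈ H, ρ g x₀ = x₀ → Perm T g)
    (hdeep : ∀ (j : J) (O : Finset X), (∀ (x : U) (β : Dual F U) (h : β x = 0), ∀ y ∈ O, ρ (rt (T j) h) y ∈ O) →
      (∀ (x : U) (β : Dual F U) (h : β x = 0), x ≠ 0 → β ≠ 0 → ∀ y ∈ O, ρ (rt (T j) h) y ≠ y) → ∑ y ∈ O, y = 0) :
    ∀ g ∈ H, Perm T g := by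
  classical
  have : Finite V := Module.finite_of_finite F
  have : Finite (End F V) := DFunLike.finite _
  refine fun g hg => hdet g hg (fixed_of_sum_eq_zero ρ H x₀ (fun O hO => ?_) g hg)
  let S : X → Set J := fun y => {j | ∃ h ∈ H, ρ h x₀ = y ∧ ∃ l, Sub (T j) ((T l).mv h)}
  have hS : ∀ d ∈ H, (∀ i, Sub ((T i).mv d) (T i)) → ∀ y, S y ⊆ S (ρ d y) := by
    rintro d hd h1 y j ⟨h, hh, rfl, l, e⟩
    exact ⟨d * h, mul_mem hd hh, by rw [map_mul]; rfl, l, (h1 j).symm.trans (e.mv d)⟩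
  have hn : ∀ j (x : U) (β : Dual F U) (h : β x = 0) i, Sub ((T i).mv (rt (T j) h)) (T i) := fun j x β h i => by
    by_cases e : i = j
    · exact e ▸ sub_mv_rt _ h
    · exact sub_mv_of_comm fun a => (Commute.one_right _).add_right (R.comm i j e _ a)
  rw [← Finset.sum_fiberwise_of_maps_to (g := S) (t := O.image S) fun a ha => Finset.mem_image_of_mem S ha]
  refine Finset.sum_eq_zero fun s hs => ?_
  obtain ⟨y₀, hy₀, rfl⟩ := Finset.mem_image.1 hs
  obtain ⟨⟨h₀, hh₀, rfl⟩, hne⟩ := (hO y₀).1 hy₀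
  obtain ⟨j, hj⟩ : ∃ j, j ∉ S (ρ h₀ x₀) := by
    by_contra hc
    push Not at hc
    have := hfix h₀⁻¹ (inv_mem hh₀) fun j => by
      obtain ⟨h, hh, e, l, e'⟩ := hc j
      obtain ⟨l', e''⟩ := hdet (h₀⁻¹ * h) (mul_mem (inv_mem hh₀) hh) (by rw [map_mul, End.mul_apply, e]; simp) l
      exact ⟨l', (e'.mv h₀⁻¹).trans e''⟩
    exact hne (by simpa using (congrArg (ρ h₀) this).symm)
  refine hdeep j _ (fun x β h y hy => ?_) fun x β h hx hβ y hy e => ?_ <;> rw [Finset.mem_filter] at hy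
  · obtain ⟨⟨g, hg, rfl⟩, hne⟩ := (hO y).1 hy.1
    have h1 := (G j).root x β h
    have h2 : ∀ i, Sub ((T i).mv (rt (T j) h)⁻¹) (T i) := fun i => (hn j x β h i).inv_mv.symm
    refine Finset.mem_filter.2 ⟨(hO _).2 ⟨⟨_, mul_mem h1 hg, by rw [map_mul]; rfl⟩, fun e => hne ?_⟩,
      hy.2 ▸ Set.Subset.antisymm ?_ (hS _ h1 (hn j x β h) _)⟩
    · simpa using (congrArg (ρ (rt (T j) h)⁻¹) e).trans (hfix _ (inv_mem h1) fun i => ⟨i, h2 i⟩)
    · simpa using hS _ (inv_mem h1) h2 (ρ (rt (T j) h) (ρ g x₀))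
  · obtain ⟨⟨g, hg, rfl⟩, -⟩ := (hO y).1 hy.1
    have h1 := ((G j).mv (inv_mem hg)).root x β h
    have h2 : ρ (rt ((T j).mv g⁻¹) h) x₀ = x₀ := by
      rw [rt_mv, inv_inv, map_mul, map_mul, End.mul_apply, End.mul_apply, e]; simp
    obtain ⟨l, hl⟩ := free hk p R G ((G j).mv (inv_mem hg)) hx hβ h (hdet _ h1 h2) (hdet _ (inv_mem h1) (by
      simpa using (congrArg (ρ (rt ((T j).mv g⁻¹) h)⁻¹) h2).symm))
    exact hj (hy.2 ▸ ⟨g, hg, rfl, l, hl.of_inv_mv⟩)

end CL.TWL
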