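/-
Tensor-wreath subgroups of `SL`, part 3: depth of the orbit sums of root groups, and the sum of the partial traces.
-/
import Cfsg.Agent.Cls.TWL2

set_option autoImplicit false
set_option linter.unusedSectionVars false

namespace CL.TWL

open Module CL.TW CL.TrTr

variable {F U W V : Type*} [Field F] [AddCommGroup U] [Module F U] [AddCommGroup W] [Module F W]
  [AddCommGroup V] [Module F V]

section Depth

variable {ι Y : Type*} [Fintype ι] [AddCommGroup Y] [Module F Y]

theorem mem_mfil_top {Vf : ℕ → Submodule F Y} {M : ℕ} (h : ∀ j, M < j → Vf j = ⊥)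
    (φ : MultilinearMap F (fun _ : ι => Y) F) : φ ∈ mfil ι Vf (Fintype.card ι * M + 1) := fun a v h1 h2 => by
  obtain ⟨i, hi⟩ : ∃ i, M < a i := by
    by_contra hc
    push Not at hc
    have := Finset.sum_le_card_nsmul Finset.univ a M fun i _ => hc i
    exact absurd (h2.trans this) (Nat.not_succ_le_self _)
  classical
  exact φ.map_coord_zero i (by simpa [h _ hi] using h1 i)

/-- Filtrations attached to idempotents. -/
structure Fil (π : (End F V)ˣ →* (Y ≃ₗ[F] Y)) (Vf : End F V → ℕ → Submodule F Y) (M : ℕ) : Prop where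
  step : ∀ e n (h : n * n = 0), e * n = n → n * e = 0 → ∀ j, ∀ v ∈ Vf e j, π (un n h) v - v ∈ Vf e (j + 1)
  top : ∀ e j, M < j → Vf e j = ⊥
  span : ∀ e, e * e = e → Submodule.span F {v | ∃ a a', M ≤ a + a' ∧ v ∈ Vf e a ∧ v ∈ Vf (1 - e) a'} = ⊤

variable {π : (End F V)ˣ →* (Y ≃ₗ[F] Y)} {Vf : End F V → ℕ → Submodule F Y} {M : ℕ}
  (p : ℕ) [Fact p.Prime] [CharP F p] [Finite F]

theorem Fil.sum_mem (Φ : Fil π Vf M) {A : Type*} [AddCommGroup A] [Module F A] [FiniteDimensional F A]
    (ν : A →ₗ[F] End F V) {e : End F V} (h1 : ∀ a, e * ν a = ν a) (h2 : ∀ a, ν a * e = 0) {c k : ℕ}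
    (hc : p ^ c ≤ Nat.card F ^ k) (hk : k ≤ finrank F A) (E : A → (End F V)ˣ) (hE : ∀ a, (E a).1 = 1 + ν a)
    (O : Finset (MultilinearMap F (fun _ : ι => Y) F))
    (hO : ∀ a, ∀ y ∈ O, mrep ι π (E a) y ∈ O) (hf : ∀ a, a ≠ 0 → ∀ y ∈ O, mrep ι π (E a) y ≠ y) :
    ∑ y ∈ O, y ∈ mfil ι (Vf e) (Fintype.card ι * M + 1 - c * (p - 1)) := by
  have : Finite A := Module.finite_of_finite F
  have h3 : ∀ a b, ν a * ν b = 0 := fun a b => by rw [← h1 b, ← mul_assoc, h2, zero_mul]
  have h0 : E 0 = 1 := Units.ext (by simp [hE])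
  have hadd : ∀ a b, E (a + b) = E a * E b := fun a b => Units.ext (by
    simp [hE, mul_add, add_mul, h3, add_assoc])
  have 𝒰 := unip_mrep (ι := ι) π E h0 hadd (Vf := Vf e) (fun a => by
    rw [inv_eq_of_mul_eq_one_right (show E a * E (-a) = 1 by rw [← hadd, add_neg_cancel, h0]),
      show E (-a) = un _ (h3 _ _) from Units.ext (hE _)]
    exact Φ.step e _ _ (h1 _) (h2 _)) (Fintype.card ι * M + 1)
  refine 𝒰.sum_invariant_mem p (fun a => by rw [← Nat.cast_smul_eq_nsmul F, CharP.cast_eq_zero, zero_smul]) _ O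
    hO fun y hy => ⟨0, c, mem_mfil_top (Φ.top e) y, ?_, by omega⟩
  rw [(AddSubgroup.eq_bot_iff_forall (𝒰.stab y)).2 fun a ha => by_contra fun h0 => hf a h0 y hy ha,
    AddSubgroup.index_bot, Module.natCard_eq_pow_finrank (K := F)]
  exact hc.trans (Nat.pow_le_pow_right Nat.card_pos hk)

theorem finrank_ker {A : Type*} [AddCommGroup A] [Module F A] [FiniteDimensional F A] (f : Dual F A) :
    finrank F A - 1 ≤ finrank F (LinearMap.ker f) := by
  have h1 := f.finrank_range_add_finrank_ker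
  have h2 := (LinearMap.range f).finrank_le
  rw [finrank_self] at h2
  omega

theorem Fil.deep [FiniteDimensional F U] [Nontrivial U] (Φ : Fil π Vf M) {c : ℕ}
    (hc : p ^ c ≤ Nat.card F ^ (finrank F U - 1)) (hd : Fintype.card ι * M + 1 ≤ 2 * (c * (p - 1))) (T : TP F U W V)
    (O : Finset (MultilinearMap F (fun _ : ι => Y) F))
    (hO : ∀ (x : U) (β : Dual F U) (h : β x = 0), ∀ y ∈ O, mrep ι π (rt T h) y ∈ O)
    (hf : ∀ (x : U) (β : Dual F U) (h : β x = 0), x ≠ 0 → β ≠ 0 → ∀ y ∈ O, mrep ι π (rt T h) y ≠ y) :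
    ∑ y ∈ O, y = 0 := by
  obtain ⟨u, hu⟩ := exists_ne (0 : U)
  obtain ⟨α, hα⟩ := exists_dual_one (F := F) hu
  let ν : LinearMap.ker (Dual.eval F U u) →ₗ[F] End F V :=
    T.A.toLinearMap ∘ₗ (LinearMap.smulRightₗ.flip u) ∘ₗ Submodule.subtype _
  let ν' : LinearMap.ker α →ₗ[F] End F V := T.A.toLinearMap ∘ₗ LinearMap.smulRightₗ α ∘ₗ Submodule.subtype _
  have e1 : ∀ a, ν a = T.A (rk u a.1) := fun _ => rfl
  have e2 : ∀ a, ν' a = T.A (rk a.1 α) := fun _ => rfl
  have h1 := Φ.sum_mem p (A := LinearMap.ker (Dual.eval F U u)) ν (e := T.A (rk u α)) (fun a => by rw [e1, ← map_mul, rk_mul_rk, hα, one_smul])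
    (fun a => by rw [e1, ← map_mul, rk_mul_rk, show a.1 u = 0 from a.2, zero_smul, map_zero]) hc
    (by simpa using finrank_ker (Dual.eval F U u)) (fun a => rt T (show a.1 u = 0 from a.2))
    (fun a => by rw [e1, rt_val]) O (fun a => hO _ _ _) fun a ha => hf _ _ _ hu fun e => ha (Subtype.ext e)
  have h2 := Φ.sum_mem p (A := LinearMap.ker α) ν' (e := 1 - T.A (rk u α))
    (fun a => by rw [e2, sub_mul, one_mul, ← map_mul, rk_mul_rk, show α a.1 = 0 from a.2, zero_smul, map_zero, sub_zero])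
    (fun a => by rw [e2, mul_sub, mul_one, ← map_mul, rk_mul_rk, hα, one_smul, sub_self]) hc (finrank_ker α)
    (fun a => rt T (show α a.1 = 0 from a.2)) (fun a => by rw [e2, rt_val]) O
    (fun a => hO _ _ _) fun a ha => hf _ _ _ (fun e => ha (Subtype.ext e)) fun e => by simp [e] at hα
  exact eq_zero_of_mfil (Φ.span (T.A (rk u α)) (by rw [← map_mul, rk_mul_rk, hα, one_smul])) (by omega) h1 h2

end Depth

/-- The natural action. -/
noncomputable def πv (F V : Type*) [Field F] [AddCommGroup V] [Module F V] : (End F V)ˣ →* (V ≃ₗ[F] V) :=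
  (LinearMap.GeneralLinearGroup.generalLinearEquiv F V).toMonoidHom

theorem πv_apply (g : (End F V)ˣ) (v : V) : πv F V g v = g.1 v := rfl

/-- The action by conjugation. -/
def πc (F V : Type*) [Field F] [AddCommGroup V] [Module F V] : (End F V)ˣ →* (End F V ≃ₗ[F] End F V) where
  toFun g :=
    { toFun z := g.1 * z * (g⁻¹).1
      invFun z := (g⁻¹).1 * z * g.1
      map_add' _ _ := by rw [mul_add, add_mul]
      map_smul' _ _ := by simp
      left_inv _ := by simp [mul_assoc]
      right_inv _ := by simp [mul_assoc] }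
  map_one' := LinearEquiv.ext fun _ => by simp
  map_mul' _ _ := LinearEquiv.ext fun _ => by simp [mul_assoc]

theorem πc_apply (g : (End F V)ˣ) (z : End F V) : πc F V g z = g.1 * z * (g⁻¹).1 := rfl

/-- The flag in the space. -/
def flv (e : End F V) : ℕ → Submodule F V
  | 0 => ⊤
  | 1 => LinearMap.ker (1 - e)
  | _ + 2 => ⊥

/-- The flag in the endomorphism algebra. -/
def flc (e : End F V) : ℕ → Submodule F (End F V)
  | 0 => ⊤
  | 1 => LinearMap.ker (LinearMap.mulLeftRight F (1 - e, e))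
  | 2 => LinearMap.ker (LinearMap.mulLeft F (1 - e)) ⊓ LinearMap.ker (LinearMap.mulRight F e)
  | _ + 3 => ⊥

theorem fil_v : Fil (πv F V) flv 1 where
  step e n h h1 h2
    | 0, v, _ => by
      change (1 - e) ((1 + n) v - v) = 0
      rw [LinearMap.add_apply, End.one_apply, add_sub_cancel_left, ← End.mul_apply, sub_mul, one_mul, h1, sub_self,
        LinearMap.zero_apply]
    | 1, v, hv => by
      change (1 + n) v - v = 0
      rw [LinearMap.add_apply, End.one_apply, add_sub_cancel_left, show v = e v from sub_eq_zero.1 hv, ← End.mul_apply,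
        h2, LinearMap.zero_apply]
    | _ + 2, v, hv => by rw [show v = 0 from hv]; simp
  top e
    | _ + 2, _ => rfl
  span e he := eq_top_iff.2 fun v _ => by
    rw [← add_sub_cancel (e v) v]
    refine add_mem (Submodule.subset_span ⟨1, 0, le_rfl, ?_, trivial⟩) (Submodule.subset_span ⟨0, 1, le_rfl, trivial, ?_⟩)
    · change (1 - e) (e v) = 0
      rw [← End.mul_apply, sub_mul, one_mul, he, sub_self, LinearMap.zero_apply]
    · change (1 - (1 - e)) (v - e v) = 0
      rw [sub_sub_cancel, map_sub, ← End.mul_apply, he, sub_self]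

theorem fil_c : Fil (πc F V) flc 2 where
  step e n h h1 h2 := by
    have h3 : ∀ z, (1 - e) * (n * z) = 0 := fun z => by rw [← mul_assoc, sub_mul, one_mul, h1, sub_self, zero_mul]
    have h4 : ∀ z, (1 + n) * z * (1 - n) - z = n * z - z * n - n * (z * n) := fun z => by noncomm_ring
    exact fun
    | 0, z, _ => by
      change (1 - e) * ((1 + n) * z * (1 - n) - z) * e = 0
      rw [h4]
      simp only [mul_sub (1 - e), h3, sub_mul _ _ e, mul_assoc, h2, mul_zero, zero_mul, sub_self]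
    | 1, z, hz => by
      have hz' : (1 - e) * z * e = 0 := hz
      refine ⟨show (1 - e) * ((1 + n) * z * (1 - n) - z) = 0 from ?_, show ((1 + n) * z * (1 - n) - z) * e = 0 from ?_⟩
      · rw [h4, mul_sub, mul_sub, h3, h3, ← h1, ← mul_assoc z, ← mul_assoc, ← mul_assoc, hz']
        simp
      · have : n * z * e = n * ((1 - e) * z * e) := by
          rw [← mul_assoc, ← mul_assoc, mul_sub, h2, mul_one, sub_zero]
        rw [h4, sub_mul, sub_mul, this, hz']
        simp [mul_assoc, h2]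
    | 2, z, hz => by
      have h5 : n * z = 0 := by
        rw [show n * z = n * ((1 - e) * z) by rw [← mul_assoc, mul_sub, h2, mul_one, sub_zero],
          show (1 - e) * z = 0 from hz.1, mul_zero]
      have h6 : z * n = 0 := by rw [← h1, ← mul_assoc, show z * e = 0 from hz.2, zero_mul]
      change (1 + n) * z * (1 - n) - z = 0
      simp [h4, h5, h6]
    | _ + 3, z, hz => by rw [show z = 0 from hz]; simp
  top e
    | _ + 3, _ => rfl
  span e he := eq_top_iff.2 fun z _ => by
    have h1 : ∀ z, e * (e * z) = e * z := fun z => by rw [← mul_assoc, he]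
    rw [show z = e * z * (1 - e) + (1 - e) * z * e + (e * z * e + (1 - e) * z * (1 - e)) by noncomm_ring]
    refine add_mem (add_mem (Submodule.subset_span ⟨2, 0, le_rfl, ⟨?_, ?_⟩, trivial⟩)
      (Submodule.subset_span ⟨0, 2, le_rfl, trivial, ?_, ?_⟩)) (Submodule.subset_span ⟨1, 1, le_rfl, ?_, ?_⟩) <;>
    simp [flc, mul_sub, sub_mul, mul_add, add_mul, mul_assoc, he, h1]

/-- A bilinear form as a multilinear map. -/
def ml2 {Y : Type*} [AddCommGroup Y] [Module F Y] (B : Y →ₗ[F] Y →ₗ[F] F) : MultilinearMap F (fun _ : Fin 2 => Y) F :=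
  MultilinearMap.mk' (fun v => B (v 0) (v 1)) (fun v i x y => by fin_cases i <;> simp)
    (fun v i c x => by fin_cases i <;> simp)

variable [FiniteDimensional F U] [FiniteDimensional F W] [FiniteDimensional F V]

/-- The partial trace onto the first factor. -/
noncomputable def ptr (T : TP F U W V) : End F V →ₗ[F] End F V where
  toFun z := T.A (∑ i, T.flip.sl ((finBasis F W).coord i) (finBasis F W i) z)
  map_add' z z' := by simp only [TP.sl_add, Finset.sum_add_distrib, map_add]
  map_smul' c z := by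
    rw [← map_smul, Finset.smul_sum]
    exact congrArg _ (Finset.sum_congr rfl fun i _ => LinearMap.ext fun y => by simp [TP.sl_apply])

theorem ptr_mem (T : TP F U W V) (z : End F V) : ∃ a, ptr T z = T.A a := ⟨_, rfl⟩

theorem ptr_AC (T : TP F U W V) (a : End F U) (c : End F W) :
    ptr T (T.A a * T.C c) = LinearMap.trace F W c • T.A a := by
  have h : ∀ χ y, T.flip.sl χ y (T.A a * T.C c) = χ (c y) • a := fun χ y => by
    rw [(T.commute a c).eq, ← T.flip.sl_AC, T.flip_C]; rfl
  change T.A _ = _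
  rw [← map_smul, LinearMap.trace_eq_matrix_trace F (finBasis F W)]
  simp [h, Matrix.trace, LinearMap.toMatrix_apply, Finset.sum_smul]

theorem ext_AC (T : TP F U W V) {X : Type*} [AddCommGroup X] [Module F X] {f g : End F V →ₗ[F] X}
    (h : ∀ a c, f (T.A a * T.C c) = g (T.A a * T.C c)) : f = g := LinearMap.ext fun z => by
  rw [← T.sum_sl (finBasis F U) z]
  simp only [map_sum, h]

theorem ptr_mv (T : TP F U W V) (g : (End F V)ˣ) (z : End F V) :
    ptr (T.mv g) z = g.1 * ptr T ((g⁻¹).1 * z * g.1) * (g⁻¹).1 :=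
  LinearMap.congr_fun (ext_AC (T.mv g) (g := (πc F V g).toLinearMap ∘ₗ ptr T ∘ₗ (πc F V g).symm.toLinearMap)
    fun a c => by
      rw [ptr_AC, TP.mv_A, TP.mv_C, conj_mul]
      change _ = πc F V g (ptr T ((πc F V g).symm (πc F V g _)))
      rw [LinearEquiv.symm_apply_apply, ptr_AC, map_smul, πc_apply]) z

theorem ptr_eq [Nontrivial U] [Nontrivial W] {T T' : TP F U W V} (h : Sub T T') : ptr T = ptr T' := by
  obtain ⟨k, rfl⟩ : ∃ k, T = T'.mv k :=
    ⟨LinearMap.GeneralLinearGroup.ofLinearEquiv (T'.E.symm.trans T.E), by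
      cases T
      exact congrArg _ (LinearEquiv.ext fun x => by simp)⟩
  obtain ⟨a, c, e, e'⟩ := (T'.kron_of_normalizes (g := k) fun a => by simpa only [TP.mv_A] using h a).units
  refine ext_AC (T'.mv k) fun b d => ?_
  have h1 : (T'.mv k).A b = T'.A (a.1 * b * (a⁻¹).1) := by
    rw [TP.mv_A, e, e', ← mul_one (T'.A b), ← map_one T'.C, T'.AC_mul, T'.AC_mul]; simp
  have h2 : (T'.mv k).C d = T'.C (c.1 * d * (c⁻¹).1) := by
    rw [TP.mv_C, e, e', ← one_mul (T'.C d), ← map_one T'.A, T'.AC_mul, T'.AC_mul]; simp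
  rw [ptr_AC, h1, h2, ptr_AC, LinearMap.trace_conj]

theorem eq_of_trace {a b : End F V} (h : ∀ z, LinearMap.trace F V (a * z) = LinearMap.trace F V (b * z)) : a = b :=
  LinearMap.ext fun v => eq_of_dual (F := F) fun f => by
    have h1 : ∀ a : End F V, a * rk v f = rk (a v) f := fun a => by ext; simp
    simpa [h1] using h (rk v f)

variable {J : Type*} [Fintype J] {T : J → TP F U W V} [Nontrivial W] (hk : 3 ≤ finrank F U) (R : Fr T)
include hk R

theorem exists_perm {g : (End F V)ˣ} (h : Perm T g) : ∃ σ : Equiv.Perm J, ∀ l, Sub ((T l).mv g) (T (σ l)) := by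
  have := nontriv hk
  choose σ hσ using h
  refine ⟨Equiv.ofBijective σ (Finite.injective_iff_bijective.1 fun l l' e => by_contra fun hne => ?_), hσ⟩
  obtain ⟨x, β, hx, hβ, h0⟩ := exists_root hk
  obtain ⟨a, ha⟩ := ((hσ l).trans (e ▸ (hσ l').symm)) (rk x β)
  exact rk_ne hx hβ (((T l).mv g).A_injective ((eq_zero_of_cm hk (A_rk_sq _ h0)
    (ha ▸ (R.mv g).comm l l' hne a)).trans (map_zero _).symm))

theorem sum_ptr {j : J} {x : U} {β : Dual F U} (h0 : β x = 0) {c : End F W} (hc : LinearMap.trace F W c = 1) :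
    (∑ l, ptr (T l)) ((T j).A (rk x β) * (T j).C c) = (T j).A (rk x β) := by
  have := nontriv hk
  rw [LinearMap.sum_apply, Finset.sum_eq_single j (fun l _ h => ?_) (by simp), ptr_AC, hc, one_smul]
  obtain ⟨m, hm⟩ := (T l).exists_C (R.comm l j h (rk x β))
  rw [← (T l).sum_sl (finBasis F U) ((T j).C c)]
  simp only [Finset.mul_sum, map_sum]
  refine Finset.sum_eq_zero fun a _ => Finset.sum_eq_zero fun b _ => ?_
  have h1 := R.cm_sl h.symm ((T j).cm_C c) ((finBasis F U).coord a) (finBasis F U b) (rk x β)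
  generalize (T l).sl _ _ _ = s at h1
  rw [hm, ← mul_assoc, ← ((T l).commute _ m).eq, mul_assoc, ← map_mul, ptr_AC,
    (LinearMap.isNilpotent_trace_of_isNilpotent ⟨2, (T l).C_injective ?_⟩).eq_zero, zero_smul]
  rw [map_pow, map_mul, ← hm, h1.mul_pow, pow_two, A_rk_sq _ h0, zero_mul, map_zero]

/-- The case of large root groups. -/
theorem perm_of_large (p : ℕ) [Fact p.Prime] [CharP F p] [Finite F] {H : Subgroup (End F V)ˣ} (G : ∀ j, Good H (T j))
    {c : ℕ} (hc : p ^ c ≤ Nat.card F ^ (finrank F U - 1)) (hd : 3 ≤ c * (p - 1)) : ∀ g ∈ H, Perm T g := by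
  classical
  have := nontriv hk
  let Y := ∑ l, ptr (T l)
  let B : End F V →ₗ[F] End F V →ₗ[F] F := ((LinearMap.mul F (End F V)).compr₂ (LinearMap.trace F V)) ∘ₗ Y
  have key : ∀ (g : (End F V)ˣ) z z', B (πc F V g⁻¹ z) (πc F V g⁻¹ z') =
      LinearMap.trace F V ((∑ l, ptr ((T l).mv g)) z * z') := fun g z z' => by
    rw [← LinearMap.trace_conj (f := g⁻¹), πc_apply, πc_apply]
    simp [B, Y, ptr_mv, Finset.mul_sum, Finset.sum_mul, mul_assoc]
  refine perm_of_trace hk p R G (mrep (Fin 2) (πc F V)) (ml2 B) (fun g _ h => ?_) (fun g hg h => ?_)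
    fun j => fil_c.deep p hc (by simp; omega) (T j)
  · obtain ⟨σ, hσ⟩ := exists_perm hk R h
    refine MultilinearMap.ext fun v => (key g _ _).trans ?_
    rw [Finset.sum_congr rfl fun l _ => ptr_eq (hσ l), Equiv.sum_comp σ fun l => ptr (T l)]
    rfl
  · obtain ⟨x, β, hx, hβ, h0⟩ := exists_root hk
    obtain ⟨y, hy⟩ := exists_ne (0 : W)
    obtain ⟨χ, hχ⟩ := exists_dual_one (F := F) hy
    refine perm_of_add hk p R G hg hx hβ h0 fun j i => ?_
    have h1 := sum_ptr hk (R.mv g) (j := j) h0 (c := rk y χ) (by simpa using hχ)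
    rw [eq_of_trace (b := Y _) fun z' => (key g _ z').symm.trans (DFunLike.congr_fun h ![_, z']), TP.mv_A] at h1
    choose a ha using fun l => ptr_mem (T l) (g.1 * (T j).A (rk x β) * (g⁻¹).1 * ((T j).mv g).C (rk y χ))
    obtain ⟨b, hb⟩ := (T i).exists_C (z := ∑ l ∈ Finset.univ.erase i, (T l).A (a l)) fun d =>
      Commute.sum_right _ _ _ fun l hl => R.comm i l (Finset.ne_of_mem_erase hl).symm _ d
    exact ⟨a i, b, by rw [← h1, ← hb, Finset.add_sum_erase _ (fun l => (T l).A (a l)) (Finset.mem_univ i),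
      LinearMap.sum_apply, Finset.sum_congr rfl fun l _ => ha l]⟩

end CL.TWL
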