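/-
Tensor-wreath subgroups of `SL`, part 4: tensor powers of the determinant of a three-dimensional space.
-/
import Cfsg.Agent.Cls.TWL3

set_option autoImplicit false
set_option linter.unusedSectionVars false

namespace CL.TWL

open Module CL.TW CL.TrTr

variable {F U W V : Type*} [Field F] [AddCommGroup U] [Module F U] [AddCommGroup W] [Module F W]
  [AddCommGroup V] [Module F V]

theorem exists_add_of_sl [FiniteDimensional F U] [Nontrivial U] [Nontrivial W] (T : TP F U W V) {n : End F V}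
    (h : ∀ (u : U) (α : Dual F U), α u = 0 → ∃ c : F, T.sl α u n = c • 1) : ∃ m b, n = T.A m + T.C b := by
  obtain ⟨y, hy⟩ := exists_ne (0 : W)
  obtain ⟨χ, hχ⟩ := exists_dual_one (F := F) hy
  obtain ⟨b, hb⟩ := T.exists_C_of_sl (z := n - T.A (T.flip.sl χ y n) * T.C 1) fun u α hα => by
    obtain ⟨c, hc⟩ := h u α hα
    have := congrArg χ (LinearMap.congr_fun hc y)
    rw [T.sl_apply, T.φ_ψ, LinearMap.smul_apply, End.one_apply, map_smul, hχ, smul_eq_mul, mul_one] at this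
    rw [T.sl_sub, T.sl_AC, hc, ← this, sub_eq_zero]
    rfl
  exact ⟨T.flip.sl χ y n, b, by rw [← hb, map_one, mul_one, add_sub_cancel]⟩

/-- The determinant of three vectors. -/
def D3 (x y z : Fin 3 → F) : F :=
  x 0 * (y 1 * z 2 - y 2 * z 1) + x 1 * (y 2 * z 0 - y 0 * z 2) + x 2 * (y 0 * z 1 - y 1 * z 0)

theorem exists_coord (β : Dual F (Fin 3 → F)) : ∃ a b c : F, ∀ x, β x = x 0 * a + x 1 * b + x 2 * c :=
  ⟨_, _, _, fun x => by rw [β.pi_apply_eq_sum_univ, Fin.sum_univ_three]; rfl⟩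

theorem D3_rel (β : Dual F (Fin 3 → F)) (u x y z : Fin 3 → F) :
    β x * D3 u y z + β y * D3 x u z + β z * D3 x y u = β u * D3 x y z := by
  obtain ⟨a, b, c, h⟩ := exists_coord β
  simp only [h, D3]
  ring

theorem exists_D3 {u : Fin 3 → F} (hu : u ≠ 0) {α : Dual F (Fin 3 → F)} (h : α u = 0) : ∃ z, ∀ w, D3 w u z = α w := by
  obtain ⟨γ, hγ⟩ := exists_dual_one (F := F) hu
  obtain ⟨a, b, c, h1⟩ := exists_coord α
  obtain ⟨a', b', c', h2⟩ := exists_coord γ
  rw [h1] at h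
  rw [h2] at hγ
  refine ⟨![b * c' - c * b', c * a' - a * c', a * b' - b * a'], fun w => ?_⟩
  simp only [h1, D3, Matrix.cons_val_zero, Matrix.cons_val_one, Matrix.cons_val]
  linear_combination (w 0 * a + w 1 * b + w 2 * c) * hγ - (w 0 * a' + w 1 * b' + w 2 * c') * h

/-- A trilinear form as a multilinear map. -/
def ml3 (τ : V →ₗ[F] V →ₗ[F] V →ₗ[F] F) : MultilinearMap F (fun _ : Fin 3 => V) F :=
  MultilinearMap.mk' (fun v => τ (v 0) (v 1) (v 2)) (fun v i x y => by fin_cases i <;> simp)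
    (fun v i c x => by fin_cases i <;> simp)

theorem ext3 (T : TP F U W V) {f g : V →ₗ[F] V →ₗ[F] V →ₗ[F] F}
    (h : ∀ x y z a b c, f (T.tm x a) (T.tm y b) (T.tm z c) = g (T.tm x a) (T.tm y b) (T.tm z c)) (a b c : V) :
    f a b c = g a b c := by
  rw [T.ext_tm (f := f) (g := g) fun x a => T.ext_tm fun y b => T.ext_tm fun z c => h x y z a b c]

/-- Derivations and the centroid of a trilinear form. -/
def Der (τ : V →ₗ[F] V →ₗ[F] V →ₗ[F] F) (n : End F V) : Prop := ∀ a b c, τ (n a) b c + τ a (n b) c + τ a b (n c) = 0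

def Cen (τ : V →ₗ[F] V →ₗ[F] V →ₗ[F] F) (s : End F V) : Prop :=
  ∀ a b c, τ (s a) b c = τ a (s b) c ∧ τ (s a) b c = τ a b (s c)

/-- The form is the product of the determinant with a form on the second factor. -/
def Fac (T : TP F (Fin 3 → F) W V) (τ : V →ₗ[F] V →ₗ[F] V →ₗ[F] F) (τ' : W →ₗ[F] W →ₗ[F] W →ₗ[F] F) : Prop :=
  ∀ x y z a b c, τ (T.tm x a) (T.tm y b) (T.tm z c) = D3 x y z * τ' a b c

namespace Fac

variable {T : TP F (Fin 3 → F) W V} {τ : V →ₗ[F] V →ₗ[F] V →ₗ[F] F} {τ' : W →ₗ[F] W →ₗ[F] W →ₗ[F] F}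
  (h : Fac T τ τ')
include h

theorem slot1 {y z : Fin 3 → F} {α : Dual F (Fin 3 → F)} (hα : ∀ w, D3 w y z = α w) (v : V) (b c : W) :
    τ v (T.tm y b) (T.tm z c) = τ' (T.φ α v) b c :=
  T.induction (P := fun v => τ v (T.tm y b) (T.tm z c) = τ' (T.φ α v) b c) v (by simp)
    (fun x a => by simp [h x y z, hα, T.φ_tm]) fun _ _ h1 h2 => by simp [h1, h2]

theorem slot2 {x z : Fin 3 → F} {α : Dual F (Fin 3 → F)} (hα : ∀ w, D3 x w z = α w) (v : V) (a c : W) :
    τ (T.tm x a) v (T.tm z c) = τ' a (T.φ α v) c :=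
  T.induction (P := fun v => τ (T.tm x a) v (T.tm z c) = τ' a (T.φ α v) c) v (by simp)
    (fun y b => by simp [h x y z, hα, T.φ_tm]) fun _ _ h1 h2 => by simp [h1, h2]

theorem slot3 {x y : Fin 3 → F} {α : Dual F (Fin 3 → F)} (hα : ∀ w, D3 x y w = α w) (v : V) (a b : W) :
    τ (T.tm x a) (T.tm y b) v = τ' a b (T.φ α v) :=
  T.induction (P := fun v => τ (T.tm x a) (T.tm y b) v = τ' a b (T.φ α v)) v (by simp)
    (fun z c => by simp [h x y z, hα, T.φ_tm]) fun _ _ h1 h2 => by simp [h1, h2]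

theorem der_rk {u : Fin 3 → F} {β : Dual F (Fin 3 → F)} (h0 : β u = 0) : Der τ (T.A (rk u β)) := fun a b c =>
  ext3 T (f := τ ∘ₗ T.A (rk u β) + τ.compl₂ (T.A (rk u β)) + τ.compr₂ (LinearMap.lcomp F F (T.A (rk u β)))) (g := 0)
    (fun x y z a b c => by
      have := D3_rel β u x y z
      simp [T.A_tm, h _ _ _]
      linear_combination (τ' a b c) * this + D3 x y z * τ' a b c * h0) a b c

theorem cen_sl {n : End F V} (hn : Der τ n) {u : Fin 3 → F} {α : Dual F (Fin 3 → F)} (h0 : α u = 0) :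
    Cen τ (T.C (T.sl α u n)) := by
  have key : Cen τ' (T.sl α u n) := fun a b c => by
    by_cases hu : u = 0
    · simp [hu, T.sl_apply]
    obtain ⟨z, hz⟩ := exists_D3 hu h0
    have h1 := hn (T.tm u a) (T.tm u b) (T.tm z c)
    have h2 := hn (T.tm u a) (T.tm z b) (T.tm u c)
    rw [h.slot1 hz, h.slot2 (α := -α) (fun w => by simp only [LinearMap.neg_apply, ← hz, D3]; ring),
      h.slot3 (α := 0) (fun w => by simp only [LinearMap.zero_apply, D3]; ring)] at h1
    rw [h.slot1 (α := -α) (fun w => by simp only [LinearMap.neg_apply, ← hz, D3]; ring),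
      h.slot2 (α := 0) (fun w => by simp only [LinearMap.zero_apply, D3]; ring),
      h.slot3 (α := α) (fun w => by simp only [← hz, D3]; ring)] at h2
    simp only [map_neg, LinearMap.neg_apply, map_zero, LinearMap.zero_apply, add_zero] at h1 h2
    exact ⟨add_neg_eq_zero.1 h1, neg_add_eq_zero.1 h2⟩
  generalize T.sl α u n = s at key
  exact fun a b c => ⟨ext3 T (f := τ ∘ₗ T.C s) (g := τ.compl₂ (T.C s))
    (fun x y z a b c => by simp [T.C_tm, h _ _ _, (key a b c).1]) a b c,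
    ext3 T (f := τ ∘ₗ T.C s) (g := τ.compr₂ (LinearMap.lcomp F F (T.C s)))
    (fun x y z a b c => by simp [T.C_tm, h _ _ _, (key a b c).2]) a b c⟩

theorem cm_of_cen (nd : ∀ v, (∀ b c, τ v b c = 0) → v = 0) {s : End F V} (hs : Cen τ s) : T.Cm s := by
  obtain ⟨c, hc⟩ := T.exists_C_of_sl (z := s) fun u α h0 => LinearMap.ext fun a => by
    by_cases hu : u = 0
    · simp [hu, T.sl_apply]
    obtain ⟨z, hz⟩ := exists_D3 hu h0
    have key : ∀ b c, τ' (T.sl α u s a) b c = 0 := fun b c => (h.slot1 hz _ b c).symm.trans ((hs _ _ _).2.trans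
      ((h.slot3 (α := 0) (fun w => by simp only [LinearMap.zero_apply, D3]; ring) _ _ _).trans (by simp)))
    exact T.tm_injective hu ((nd _ (LinearMap.congr_fun₂ (T.ext_tm (g := 0) fun y b => T.ext_tm fun z c => by
      rw [h, key, mul_zero]; rfl))).trans (map_zero _).symm)
  exact hc ▸ T.cm_C c

end Fac

variable [FiniteDimensional F W] [FiniteDimensional F V] [Nontrivial W] {J : Type*} {T : J → TP F (Fin 3 → F) W V}

/-- The case of three-dimensional factors. -/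
theorem perm_of_tri (R : Fr T) (p : ℕ) [Fact p.Prime] [CharP F p] [Finite F] {H : Subgroup (End F V)ˣ}
    (G : ∀ j, Good H (T j)) {τ : V →ₗ[F] V →ₗ[F] V →ₗ[F] F} (fac : ∀ j, ∃ τ', Fac (T j) τ τ')
    (nd : ∀ v, (∀ b c, τ v b c = 0) → v = 0)
    (hfix : ∀ g ∈ H, Perm T g → ∀ a b c, τ (g.1 a) (g.1 b) (g.1 c) = τ a b c) : ∀ g ∈ H, Perm T g := by
  have hk : 3 ≤ finrank F (Fin 3 → F) := by simp
  refine perm_of_trace hk p R G (mrep (Fin 3) (πv F V)) (ml3 τ) (fun g hg h => ?_) (fun g hg h => ?_)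
    fun j => fil_v.deep p (c := 2) ?_ ?_ (T j)
  · refine MultilinearMap.ext fun v => ?_
    change τ ((g⁻¹).1 (v 0)) ((g⁻¹).1 (v 1)) ((g⁻¹).1 (v 2)) = τ (v 0) (v 1) (v 2)
    rw [← hfix g hg h, val_inv_apply, val_inv_apply, val_inv_apply]
  · obtain ⟨x, β, hx, hβ, h0⟩ := exists_root hk
    have h1 : ∀ a b c, τ ((g⁻¹).1 a) ((g⁻¹).1 b) ((g⁻¹).1 c) = τ a b c := fun a b c => DFunLike.congr_fun h ![a, b, c]
    refine perm_of_add hk p R G hg hx hβ h0 fun j i => exists_add_of_sl (T i) fun u α hα => ?_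
    obtain ⟨τ₁, f₁⟩ := fac j
    obtain ⟨τ₂, f₂⟩ := fac i
    have hd : Der τ (g.1 * (T j).A (rk x β) * (g⁻¹).1) := fun a b c => by
      rw [← h1, ← h1 a, ← h1 a b]
      simp only [End.mul_apply, inv_val_apply]
      exact f₁.der_rk h0 _ _ _
    obtain ⟨c, hc⟩ := R.centre _ fun l => (fac l).elim fun _ f => f.cm_of_cen nd (f₂.cen_sl hd hα)
    exact ⟨c, (T i).C_injective (by rw [hc, map_smul, map_one])⟩
  · have := Fintype.ofFinite F
    obtain ⟨n, -, hn⟩ := FiniteField.card F p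
    rw [Nat.card_eq_fintype_card, hn, ← pow_mul]
    exact Nat.pow_le_pow_right (Fact.out : p.Prime).pos (by have := n.pos; simp; omega)
  · have := (Fact.out : p.Prime).two_le
    simp
    omega

end CL.TWL
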