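/-
Tensor-wreath subgroups of `SL`, part 5: a new element in a unipotent radical yields transvections.
-/
import Cfsg.Agent.Cls.TWL4

set_option autoImplicit false
set_option linter.unusedSectionVars false

namespace CL.TWL

open Module CL.TW

variable {F U W V : Type*} [Field F] [AddCommGroup U] [Module F U] [AddCommGroup W] [Module F W]
  [AddCommGroup V] [Module F V] {H : Subgroup (End F V)ˣ}

theorem comm_mem {a b : End F V} (h : ∃ g ∈ H, g.1 = 1 + a) (h' : ∃ g ∈ H, g.1 = 1 + b) (h1 : b * b = 0)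
    (h2 : b * a = 0) : ∃ g ∈ H, g.1 = 1 + a * b := by
  obtain ⟨g, hg, e⟩ := h
  obtain ⟨g', hg', e'⟩ := h'
  refine ⟨g * g' * (g' * g)⁻¹, mul_mem (mul_mem hg hg') (inv_mem (mul_mem hg' hg)), ?_⟩
  rw [Units.val_mul, Units.mul_inv_eq_iff_eq_mul, Units.val_mul, Units.val_mul, e, e']
  simp only [mul_add, add_mul, mul_one, one_mul, mul_assoc, h1, h2, mul_zero, add_zero]
  abel

theorem rk_smul_left (c : F) (x : U) (β : Dual F U) : rk (c • x) β = c • rk x β := by ext; simp [smul_comm c]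

theorem rk_smul_right (c : F) (x : U) (β : Dual F U) : rk x (c • β) = c • rk x β := by ext; simp [mul_smul]

/-- The root elements of the factor. -/
def Γ (F U : Type*) [Field F] [AddCommGroup U] [Module F U] : Set (End F U)ˣ :=
  {g | ∃ x β, ∃ h : β x = 0, g = un (rk x β) (rk_sq h)}

theorem D_mem {T : TP F U W V} {𝒟 : Submodule F (End F V)} (hD : T.Inv (Γ F U) 𝒟) {z : End F V} (hz : z ∈ 𝒟) {x : U}
    {β : Dual F U} (h : β x = 0) :
    T.A (rk x β) * z - z * T.A (rk x β) - T.A (rk x β) * z * T.A (rk x β) ∈ 𝒟 := by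
  convert sub_mem (hD _ ⟨x, β, h, rfl⟩ z hz) hz using 1
  rw [un_val, un_inv, map_add, map_sub, map_one]
  noncomm_ring

variable [FiniteDimensional F U] (hk : 3 ≤ finrank F U)
include hk

theorem exists_pair {u : U} (hu : u ≠ 0) (β : Dual F U) :
    ∃ (x : U) (γ : Dual F U), β x = 0 ∧ γ x = 1 ∧ γ u = 0 := by
  obtain ⟨α, hα⟩ := exists_dual_one (F := F) hu
  obtain ⟨w, hw, h2, h3⟩ := SLn.exists_ne_zero_ker₂ hk α β
  obtain ⟨δ, h4, h5⟩ := SLn.exists_dual_pair (F := F) (u := u) (v := w) fun c hc => hw (by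
    have : c = 0 := by simpa [hα, h2] using congrArg α hc
    rw [← hc, this, zero_smul])
  exact ⟨w, δ, h3, h4, h5⟩

theorem flag_all {Q : End F U → Prop} (h0 : ∀ a (c : F), Q a → Q (c • a))
    (hl : ∀ a x (γ : Dual F U), γ x = 0 → Q a → a * a = 0 → a * rk x γ = 0 → Q (rk x γ * a))
    (hr : ∀ a x (γ : Dual F U), γ x = 0 → Q a → rk x γ * a = 0 → Q (a * rk x γ))
    {u : U} {β : Dual F U} (hu : u ≠ 0) (hβ : β ≠ 0) (h : β u = 0) (hQ : Q (rk u β)) (u' : U) (β' : Dual F U)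
    (h' : β' u' = 0) : Q (rk u' β') := by
  have m1 : ∀ u β x, u ≠ 0 → β u = 0 → β x = 0 → Q (rk u β) → Q (rk x β) := fun u β x hu h hx hQ => by
    by_cases hc : ∀ c : F, c • x ≠ u
    · obtain ⟨γ, h1, h2⟩ := SLn.exists_dual_pair hc
      simpa only [rk_mul_rk, h1, one_smul] using hl _ x γ h2 hQ (rk_sq h) (by rw [rk_mul_rk, hx, zero_smul])
    push Not at hc
    obtain ⟨c, rfl⟩ := hc
    simpa only [rk_smul_left, inv_smul_smul₀ (left_ne_zero_of_smul hu)] using h0 _ c⁻¹ hQ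
  have m2 : ∀ u β γ, β ≠ 0 → γ u = 0 → Q (rk u β) → Q (rk u γ) := fun u β γ hβ hγ hQ => by
    by_cases hc : ∀ x, γ x = 0 → β x = 0
    · obtain ⟨c, rfl⟩ := SLn.exists_smul_of_ker_le hc
      simpa only [rk_smul_right, inv_smul_smul₀ (left_ne_zero_of_smul hβ)] using h0 _ c⁻¹ hQ
    push Not at hc
    obtain ⟨x, h1, h2⟩ := hc
    simpa only [rk_mul_rk, inv_smul_smul₀ h2] using h0 _ (β x)⁻¹ (hr _ x γ h1 hQ (by rw [rk_mul_rk, hγ, zero_smul]))
  obtain ⟨x, hx, h1, h2⟩ := SLn.exists_ne_zero_ker₂ hk β β'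
  exact m1 x β' u' hx h2 h' (m2 x β β' hβ h2 (m1 u β x hu h h1 hQ))

theorem gen_of_rk {𝒳 : Submodule F (End F U)} (h : ∀ x (β : Dual F U), β x = 0 → rk x β ∈ 𝒳) : Gen 𝒳 :=
  ⟨1, eq_top_iff.2 fun a _ => by
    have : a = ∑ i, rk (a (finBasis F U i)) ((finBasis F U).coord i) := by
      ext x
      conv_lhs => rw [← (finBasis F U).sum_repr x, map_sum]
      simp
    rw [this]
    refine sum_mem fun i _ => ?_
    generalize a _ = x
    generalize (finBasis F U).coord i = β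
    by_cases hx : x = 0
    · simp [hx, rk]
    obtain ⟨y, γ, h1, h2, h3⟩ := exists_pair hk hx β
    simpa only [rk_mul_rk, h2, one_smul, ← pow_two] using Submodule.mul_mem_mul (h x γ h3) (h y β h1)⟩

theorem red_sl (T : TP F U W V) : Red T (Γ F U) Gen := fun 𝒟 hD z hz hz' => by
  have : Nontrivial U := Module.nontrivial_of_finrank_pos (R := F) (by omega)
  obtain ⟨u, α, h, h0⟩ : ∃ (u : U) (α : Dual F U), α u = 0 ∧ T.sl α u z ≠ 0 := by
    by_contra hc
    push Not at hc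
    obtain ⟨c, hc⟩ := T.exists_C_of_sl hc
    exact hz' (hc ▸ T.cm_C c)
  have hu : u ≠ 0 := fun e => h0 (by ext; simp [e, T.sl_apply])
  have hα : α ≠ 0 := fun e => h0 (by ext; simp [e, T.sl_apply])
  obtain ⟨x, γ, h1, h2, h3⟩ := exists_pair hk hu α
  have z1 : ∀ {x y : U} {α β : Dual F U}, α y = 0 → T.A (rk x α) * T.A (rk y β) = 0 := fun h => by
    rw [← map_mul, rk_mul_rk, h, zero_smul, map_zero]
  have z2 : ∀ {x y : U} {α β : Dual F U}, α y = 0 → ∀ z, T.A (rk x α) * (T.A (rk y β) * z) = 0 := fun h z => by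
    rw [← mul_assoc, z1 h, zero_mul]
  have h4 : T.A (rk u γ) * T.C (T.sl α u z) + T.A (rk u α) * T.C (T.sl γ u z) ∈ 𝒟 := by
    rw [← T.A_sandwich, ← T.A_sandwich]
    convert neg_mem (D_mem hD (D_mem hD hz h3) h) using 1
    simp only [mul_sub, sub_mul, mul_assoc, z1 h3, z2 h, mul_zero]
    abel
  let 𝒳 := 𝒟.comap (LinearMap.mulRight F (T.C (T.sl α u z)) ∘ₗ T.A.toLinearMap)
  have hX : ∀ a, a ∈ 𝒳 ↔ T.A a * T.C (T.sl α u z) ∈ 𝒟 := fun _ => Iff.rfl
  have h5 : ∀ (a : End F U) (c : End F W) (n : End F U), T.A a * T.C c * T.A n = T.A (a * n) * T.C c := fun a c n => by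
    rw [mul_assoc, ← (T.commute n c).eq, ← mul_assoc, map_mul]
  have h6 : ∀ a x (γ : Dual F U), γ x = 0 → a ∈ 𝒳 → rk x γ * a - a * rk x γ - rk x γ * a * rk x γ ∈ 𝒳 :=
    fun a x γ h ha => by
      convert D_mem hD ((hX a).1 ha) h using 1
      simp only [hX, ← mul_assoc, ← map_mul, h5, map_sub T.A, sub_mul]
  refine ⟨𝒳, gen_of_rk hk (flag_all hk (Q := (· ∈ 𝒳)) (fun a c h => 𝒳.smul_mem c h)
    (fun a x γ h ha _ e => by simpa only [mul_assoc, e, mul_zero, sub_zero] using h6 a x γ h ha)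
    (fun a x γ h ha e => by simpa only [e, zero_mul, sub_zero, zero_sub, neg_mem_iff] using h6 a x γ h ha) hu hα h ?_),
    fun e => h0 (T.C_injective ((e.le ⟨T.cm_C _, fun a ha => ha⟩).trans (map_zero _).symm))⟩
  have := neg_mem (D_mem hD h4 h1)
  simp only [mul_add, add_mul, z2 h, h5, rk_mul_rk, h1, h2, one_smul, zero_smul, map_zero, zero_mul, add_zero,
    sub_zero, zero_sub, neg_neg] at this
  exact this

/-- The algebra attached to the unipotent radicals. -/
def cA (T : TP F U W V) (root : ∀ (x : U) (β : Dual F U) (h : β x = 0), rt T h ∈ H) : Subalgebra F (End F V) where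
  carrier := {z | T.Cm z ∧ ∀ u (β : Dual F U), β u = 0 → ∃ g ∈ H, g.1 = 1 + T.A (rk u β) * z}
  add_mem' {z z'} h h' := ⟨fun a => (h.1 a).add_right (h'.1 a), fun u β e => by
    obtain ⟨g, hg, h1⟩ := h.2 u β e
    obtain ⟨g', hg', h2⟩ := h'.2 u β e
    refine ⟨g * g', mul_mem hg hg', ?_⟩
    rw [Units.val_mul, h1, h2, mul_add (1 + _), mul_one, add_mul, one_mul, ← mul_assoc, mul_assoc _ z, ← (h.1 _).eq,
      ← mul_assoc, A_rk_sq T e, zero_mul, zero_mul, add_zero, mul_add, add_assoc]⟩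
  mul_mem' {z z'} h h' := ⟨fun a => (h.1 a).mul_right (h'.1 a), fun u β e => by
    by_cases hu : u = 0
    · exact ⟨1, one_mem _, by simp [hu, rk]⟩
    obtain ⟨x, γ, h1, h2, h3⟩ := exists_pair hk hu β
    have h4 : ∀ {z : End F V}, T.Cm z → ∀ a b z', T.A a * z * (T.A b * z') = T.A (a * b) * (z * z') :=
      fun h a b z' => by rw [map_mul, mul_assoc, ← mul_assoc _ (T.A b), ← (h b).eq, mul_assoc, mul_assoc]
    simpa only [h4 h.1, rk_mul_rk, h2, one_smul] using comm_mem (h.2 u γ h3) (h'.2 x β h1)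
      (by rw [h4 h'.1, rk_sq h1, map_zero, zero_mul]) (by rw [h4 h'.1, rk_mul_rk, e, zero_smul, map_zero, zero_mul])⟩
  algebraMap_mem' c := ⟨fun _ => (Algebra.commutes c _).symm, fun u β e =>
    ⟨_, root (c • u) β (by rw [map_smul, e, smul_zero]), by
      rw [rt_val, rk_smul_left, map_smul, ← Algebra.commutes, Algebra.smul_def]⟩⟩

variable {T : TP F U W V} {root : ∀ (x : U) (β : Dual F U) (h : β x = 0), rt T h ∈ H}

theorem conj_mem_cA {g : (End F V)ˣ} (hg : g ∈ H) (h : T.Cm g.1) {z : End F V} (hz : z ∈ cA hk T root) :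
    g.1 * z * (g⁻¹).1 ∈ cA hk T root :=
  ⟨fun a => ((h a).mul_right (hz.1 a)).mul_right (h a).units_inv_right, fun u β e => by
    obtain ⟨k, hk, h1⟩ := hz.2 u β e
    exact ⟨g * k * g⁻¹, mul_mem (mul_mem hg hk) (inv_mem hg), by
      rw [Units.val_mul, Units.val_mul, h1, mul_add, add_mul, mul_one, Units.mul_inv, ← mul_assoc, ← (h _).eq]
      simp only [mul_assoc]⟩⟩

variable [Nontrivial W]

theorem exists_mem_cA (root : ∀ (x : U) (β : Dual F U) (h : β x = 0), rt T h ∈ H) (h : ¬ Good H T) :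
    ∃ z ∈ cA hk T root, ∀ c : F, z ≠ c • 1 := by
  have : Nontrivial U := Module.nontrivial_of_finrank_pos (R := F) (by omega)
  by_contra hc
  push Not at hc
  refine h ⟨root, fun u hu g hg h1 h2 => ?_⟩
  obtain ⟨α, hα⟩ := exists_dual_one (F := F) hu
  have h3 : ∀ v, (g.1 - 1) v = T.tm u (T.φ α ((g.1 - 1) v)) := fun v => by
    obtain ⟨y, e⟩ := h1 v
    simp [e, T.φ_tm, hα]
  have h4 : ∀ x, ∃ c : F, T.sl α x (g.1 - 1) = c • 1 := fun x => by
    obtain ⟨β, hβ, h5, h6⟩ := SLn.exists_dual_ne_zero₂ hk u x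
    have h7 : ∀ (s : End F W) (a b : End F U), T.A a * T.C s * T.A b = T.A (a * b) * T.C s :=
      fun s a b => by rw [mul_assoc, ← (T.commute b s).eq, ← mul_assoc, map_mul]
    have h8 : ∀ (s : End F W) (a b : End F U), T.A a * (T.A b * T.C s) = T.A (a * b) * T.C s :=
      fun s a b => by rw [← mul_assoc, map_mul]
    have hQ := flag_all hk (Q := fun a => ∀ c : F, ∃ k ∈ H, k.1 = 1 + T.A (c • a) * T.C (T.sl α x (g.1 - 1)))
      (fun a c h d => by simpa only [smul_smul] using h (d * c))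
      (fun a y γ h ha e1 e2 c => by
        simpa only [h8, mul_smul_comm] using comm_mem ⟨_, root y γ h, rfl⟩ (ha c) (by rw [T.AC_mul]; simp [e1])
          (by rw [h7]; simp [e2]))
      (fun a y γ h ha e c => by
        simpa only [h7, smul_mul_assoc] using comm_mem (ha c) ⟨_, root y γ h, rfl⟩ (A_rk_sq T h) (by rw [h8]; simp [e]))
      hu hβ h5 fun c => by
        have h9 : β (c • x) = 0 := by rw [map_smul, h6, smul_zero]
        convert comm_mem (a := g.1 - 1) ⟨g, hg, by simp⟩ ⟨_, root _ β h9, rfl⟩ (A_rk_sq T h9) (LinearMap.ext fun v => by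
          rw [End.mul_apply, h3, T.A_rk, T.φ_tm, h5, zero_smul, map_zero, LinearMap.zero_apply]) using 5
        ext v
        rw [End.mul_apply, End.mul_apply, T.A_rk, h3, map_smul, LinearMap.smul_apply, T.A_rk, T.φ_C, T.sl_apply]
        simp
    obtain ⟨c, e⟩ := hc (T.C (T.sl α x (g.1 - 1))) ⟨T.cm_C _, fun u' β' h' => by
      simpa only [one_smul] using hQ u' β' h' 1⟩
    exact ⟨c, T.C_injective (by rw [e, map_smul, map_one])⟩
  obtain ⟨y, hy⟩ := exists_ne (0 : W)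
  obtain ⟨χ, hχ⟩ := exists_dual_one (F := F) hy
  refine ⟨1 + rk u (χ ∘ₗ T.φ α ∘ₗ (g.1 - 1) ∘ₗ T.flip.tm y), ?_⟩
  rw [map_add, map_one, ← sub_eq_iff_eq_add']
  refine T.ext_tm fun x w => ?_
  obtain ⟨c, e⟩ := h4 x
  rw [h3, T.A_tm, rk_apply, LinearMap.comp_apply, LinearMap.comp_apply, LinearMap.comp_apply, T.flip_tm, ← T.sl_apply,
    ← T.sl_apply, e]
  simp [hχ]

variable [FiniteDimensional F W] [FiniteDimensional F V] {J : Type*} [Fintype J] {T : J → TP F U W V}

theorem good_or (R : Fr T) (root : ∀ j (x : U) (β : Dual F U) (h : β x = 0), rt (T j) h ∈ H)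
    (cyc : ∀ i j l, i ≠ j → j ≠ l → i ≠ l → ∃ g ∈ H, Sub ((T i).mv g) (T j) ∧ Sub ((T j).mv g) (T l)) :
    (∀ j, Good H (T j)) ∨ ∃ i, ∀ u (β : Dual F U) c, β u = 0 → ∃ g ∈ H, g.1 = 1 + (T i).A (rk u β) * (T i).C c := by
  classical
  have := nontriv hk
  refine or_iff_not_imp_left.2 fun h => ?_
  obtain ⟨i, h⟩ := not_forall.1 h
  obtain ⟨z, hz, hz'⟩ := exists_mem_cA hk (root i) h
  have key : ∀ j, j ≠ i → ∀ z ∈ cA hk (T i) (root i), ¬ (T j).Cm z → ∀ a, (T j).A a ∈ cA hk (T i) (root i) :=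
    fun j hj z hz hz' => R.A_mem (fun j => red_sl hk (T j)) (Finset.univ.erase i) _
      (fun l hl d hd => by obtain rfl : l = i := by simpa using hl
                           exact hd.1)
      (fun l hl => by
        rintro _ ⟨x, β, h, rfl⟩ d hd
        rw [un_val, un_inv, map_add, map_sub, map_one, ← rt_val _ h, ← rt_inv _ h]
        exact conj_mem_cA (root := root i) hk (root l x β h) (fun a => (Commute.one_right _).add_right
          (R.comm i l (Finset.ne_of_mem_erase hl).symm _ a)) hd) (by simpa using hj) hz hz'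
  obtain ⟨j, hj⟩ := not_forall.1 fun h => (R.centre z h).elim hz'
  have hji : j ≠ i := fun e => hj (e ▸ hz.1)
  refine ⟨i, fun u β c e => (R.mem_of_cm (cA hk (T i) (root i)) (Finset.univ.erase i) (fun l hl => ?_) _ fun l hl => by
    obtain rfl : l = i := by simpa using hl
    exact (T l).cm_C c).2 u β e⟩
  have hli := Finset.ne_of_mem_erase hl
  by_cases hlj : l = j
  · exact hlj ▸ key j hji z hz hj
  obtain ⟨g, hg, h1, h2⟩ := cyc i j l hji.symm (Ne.symm hlj) hli.symm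
  obtain ⟨x, γ, hx, hγ, h0⟩ := exists_root hk
  obtain ⟨n, hn⟩ := h1 (rk x γ)
  obtain ⟨m, hm⟩ := h2 (rk x γ)
  have n2 : (T j).A n * (T j).A n = 0 := hn ▸ A_rk_sq _ h0
  have m2 : (T l).A m * (T l).A m = 0 := hm ▸ A_rk_sq _ h0
  obtain ⟨a, ha⟩ := not_forall.1 fun h => rk_ne hx hγ (((T i).mv g).A_injective
    (hn.trans ((eq_zero_of_cm hk n2 h).trans (map_zero _).symm)))
  obtain ⟨b, hb⟩ := not_forall.1 fun h => rk_ne hx hγ (((T j).mv g).A_injective
    (hm.trans ((eq_zero_of_cm hk m2 h).trans (map_zero _).symm)))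
  obtain ⟨k, hk', e⟩ := (key j hji z hz hj (rk x γ)).2 x γ h0
  have c1 := R.comm j l (Ne.symm hlj)
  have e1 : (g * k * g⁻¹).1 = 1 + (T j).A n * (T l).A m := by
    rw [Units.val_mul, Units.val_mul, e, mul_add, add_mul, mul_one, Units.mul_inv, ← conj_mul, ← TP.mv_A, ← TP.mv_A,
      hn, hm]
  have e2 : ((g * k * g⁻¹)⁻¹).1 = 1 - (T j).A n * (T l).A m := Units.inv_eq_of_mul_eq_one_right (by
    rw [e1, mul_sub, mul_one, add_mul, one_mul, (c1 m n).symm.mul_mul_mul_comm, m2, mul_zero, add_zero,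
      add_sub_cancel_right])
  have h3 := sub_mem (conj_mem_cA hk (mul_mem (mul_mem hg hk') (inv_mem hg)) (fun a => e1 ▸ (Commute.one_right _).add_right
    ((R.comm i j hji.symm _ a).mul_right (R.comm i l hli.symm _ a))) (key j hji z hz hj a)) (key j hji z hz hj a)
  have e3 : (1 + (T j).A n * (T l).A m) * (T j).A a * (1 - (T j).A n * (T l).A m) - (T j).A a =
      (T j).A (n * a - a * n) * (T l).A m := by
    have c2 : ∀ a z, (T l).A m * ((T j).A a * z) = (T j).A a * ((T l).A m * z) := fun a z => by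
      rw [← mul_assoc, ← (c1 m a).eq, mul_assoc]
    simp only [mul_sub, add_mul, mul_one, one_mul, mul_assoc, c2, m2, mul_zero, map_sub, map_mul, sub_mul,
      ← (c1 m a).eq]
    abel
  rw [e1, e2, e3] at h3
  refine key l hli _ h3 fun h4 => hb (sub_eq_zero.1 ((T j).eq_zero_of_A_mul (a := n * a - a * n) (fun e => ha ?_)
    (fun d => ((c1 b d).mul_right (c1 m d)).sub_right ((c1 m d).mul_right (c1 b d))) ?_))
  · exact (Commute.map (sub_eq_zero.1 e) (T j).A).symm
  · rw [mul_sub, ← mul_assoc, (c1 b _).eq, mul_assoc, (h4 b).eq, mul_assoc, sub_self]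

end CL.TWL
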