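/-
Tensor-wreath subgroups of `SL`, part 6: maximality.
-/
import Cfsg.Agent.Cls.TWL5
import Cfsg.Agent.Cls.TWMat

set_option autoImplicit false
set_option linter.unusedSectionVars false

namespace CL.TWL

open Module Matrix CL.TW CL.Asch CL.SLn Cfsg.Geo
open scoped commutatorElement

section Abstract

variable {F U W V G : Type*} [Field F] [AddCommGroup U] [Module F U] [AddCommGroup W] [Module F W]
  [AddCommGroup V] [Module F V] [Group G] [DistribMulAction G V] [SMulCommClass G F V]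

theorem centers_of_tv [FiniteDimensional F U] [FiniteDimensional F W] (hk : 3 ≤ finrank F U) (T : TP F U W V)
    {H : Subgroup G} (h : ∀ u y (β : Dual F U) (χ : Dual F W), β u = 0 → Tv H (T.tm u y) (χ ∘ₗ T.φ β)) :
    centers F V H = ⊤ := by
  let b := ((finBasis F U).tensorProduct (finBasis F W)).map T.E
  have h1 : ∀ p, b p = T.tm (finBasis F U p.1) (finBasis F W p.2) := fun p => by
    simp [b, TP.tm_apply, Basis.tensorProduct_apply']
  have h2 : ∀ p, b.coord p = (finBasis F W).coord p.2 ∘ₗ T.φ ((finBasis F U).coord p.1) := fun p =>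
    T.ext_tm fun x y => by
      obtain ⟨i, j⟩ := p
      rw [LinearMap.comp_apply, T.φ_tm]
      simp [b, TP.tm_apply, Basis.tensorProduct_repr_tmul_apply, mul_comm]
  refine centers_eq_top_of_basis b fun p q hpq c => ?_
  rw [h1, h2, ← LinearMap.smul_apply, ← map_smul]
  by_cases e : p.1 = q.1
  · have : Nontrivial (Fin (finrank F U)) := Fin.nontrivial_iff_two_le.2 (by omega)
    obtain ⟨a, ha⟩ := exists_ne p.1
    have h3 : p.2 ≠ q.2 := fun e' => hpq (Prod.ext e e')
    simpa [T.φ_tm] using (h (c • finBasis F U p.1) (finBasis F W p.2) ((finBasis F U).coord a)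
      ((finBasis F W).coord p.2) (by simp [Finsupp.single_eq_of_ne ha])).comm
      (h (finBasis F U a) (finBasis F W p.2) ((finBasis F U).coord q.1) ((finBasis F W).coord q.2)
        (by simp [Finsupp.single_eq_of_ne (e ▸ ha.symm : q.1 ≠ a)]))
      (by simp [T.φ_tm, Finsupp.single_eq_of_ne h3.symm])
  · exact h _ _ _ _ (by simp [Finsupp.single_eq_of_ne (Ne.symm e)])

theorem det_rt [FiniteDimensional F V] (p : ℕ) [Fact p.Prime] [CharP F p] [Nontrivial V] (T : TP F U W V) {x : U}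
    {β : Dual F U} (h : β x = 0) : LinearMap.det (rt T h).1 = 1 := (frobenius F p).injective (by
  have := pow_eq_one_of_sub p (a := (rt T h).1) (n := 1) (r := 2) (by simpa using (Fact.out : p.Prime).two_le) (by
    rw [rt_val, add_sub_cancel_left, pow_two, A_rk_sq T h])
  rw [pow_one] at this
  rw [frobenius_def, ← map_pow, this, map_one, map_one])

/-- The maps fixing a trilinear form. -/
def fixM (τ : V →ₗ[F] V →ₗ[F] V →ₗ[F] F) : Submonoid (End F V) where
  carrier := {m | ∀ a b c, τ (m a) (m b) (m c) = τ a b c}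
  one_mem' _ _ _ := rfl
  mul_mem' h h' _ _ _ := (h _ _ _).trans (h' _ _ _)

theorem Fac.mem_fixM {T : TP F (Fin 3 → F) W V} {τ : V →ₗ[F] V →ₗ[F] V →ₗ[F] F} {τ' : W →ₗ[F] W →ₗ[F] W →ₗ[F] F}
    (h : Fac T τ τ') {a : End F (Fin 3 → F)} (ha : ∀ x y z, D3 (a x) (a y) (a z) = D3 x y z) : T.A a ∈ fixM τ :=
  ext3 T (f := (τ.compl₁₂ (T.A a) (T.A a)).compr₂ (LinearMap.lcomp F F (T.A a))) fun x y z a b c => by
    simp only [LinearMap.compr₂_apply, LinearMap.compl₁₂_apply, LinearMap.lcomp_apply, TP.A_tm, h _ _ _, ha]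

end Abstract

variable {F : Type*} [Field F]

/-- The coefficients of the determinant. -/
def eps (F : Type*) [Field F] (a b c : Fin 3) : F := D3 (Pi.single a 1) (Pi.single b 1) (Pi.single c 1)

theorem sum_eps (x y z : Fin 3 → F) : ∑ a, ∑ b, ∑ c, eps F a b c * (x a * y b * z c) = D3 x y z := by
  simp [Fin.sum_univ_three, eps, D3]
  ring

theorem eps_add (a b : Fin 3) : eps F a (b + 1) (b + 2) = (1 : Matrix (Fin 3) (Fin 3) F) a b := by
  fin_cases a <;> fin_cases b <;> simp [eps, D3]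

theorem D3_mulVec (a : Matrix (Fin 3) (Fin 3) F) (x y z : Fin 3 → F) :
    D3 (a *ᵥ x) (a *ᵥ y) (a *ᵥ z) = a.det * D3 x y z := by
  simp [D3, mulVec, dotProduct, Fin.sum_univ_three, det_fin_three]
  ring

/-- The tensor power of the determinant. -/
noncomputable def tau (F : Type*) [Field F] (n : ℕ) :
    ((Fin n → Fin 3) → F) →ₗ[F] ((Fin n → Fin 3) → F) →ₗ[F] ((Fin n → Fin 3) → F) →ₗ[F] F :=
  ∑ x : Fin n → Fin 3, ∑ y : Fin n → Fin 3, ∑ z : Fin n → Fin 3, (∏ i, eps F (x i) (y i) (z i)) •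
    (LinearMap.proj x : ((Fin n → Fin 3) → F) →ₗ[F] F).smulRight
      ((LinearMap.proj y : ((Fin n → Fin 3) → F) →ₗ[F] F).smulRight (LinearMap.proj z))

theorem tau_apply {n : ℕ} (a b c : (Fin n → Fin 3) → F) :
    tau F n a b c = ∑ x, ∑ y, ∑ z, (∏ i, eps F (x i) (y i) (z i)) * (a x * b y * c z) := by
  simp [tau, mul_assoc]

theorem tau_nd {n : ℕ} {v : (Fin n → Fin 3) → F} (h : ∀ b c, tau F n v b c = 0) : v = 0 := funext fun x => by
  have h1 : ∀ y : Fin n → Fin 3, ∏ i, (1 : Matrix (Fin 3) (Fin 3) F) (y i) (x i) = if y = x then 1 else 0 :=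
    fun y => congrFun (congrFun (pureT_one (F := F)) y) x
  simpa [tau_apply, Pi.single_apply, eps_add, h1] using
    h (Pi.single (fun i => x i + 1) 1) (Pi.single (fun i => x i + 2) 1)

theorem tau_perm {n : ℕ} (π : Equiv.Perm (Fin n)) (a b c : (Fin n → Fin 3) → F) :
    tau F n (fun x => a (x ∘ π)) (fun x => b (x ∘ π)) (fun x => c (x ∘ π)) = tau F n a b c := by
  rw [tau_apply, tau_apply]
  refine Fintype.sum_equiv (π.symm.arrowCongr (Equiv.refl _)) _ _ fun x =>
    Fintype.sum_equiv (π.symm.arrowCongr (Equiv.refl _)) _ _ fun y =>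
    Fintype.sum_equiv (π.symm.arrowCongr (Equiv.refl _)) _ _ fun z => ?_
  rw [← Equiv.prod_comp π]
  rfl

theorem tau_tm {t : ℕ} (j : Fin (t + 1)) (x y z : Fin 3 → F) (a b c : (Fin t → Fin 3) → F) :
    tau F (t + 1) (fun w => x (w j) * a (j.removeNth w)) (fun w => y (w j) * b (j.removeNth w))
      (fun w => z (w j) * c (j.removeNth w)) = D3 x y z * tau F t a b c := by
  rw [tau_apply, tau_apply, ← sum_eps]
  simp only [sum_insertNth j, Fin.prod_univ_succAbove _ j, Fin.insertNth_apply_same, Fin.insertNth_apply_succAbove,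
    Fin.removeNth_insertNth, Finset.sum_mul_sum]
  refine Finset.sum_congr rfl fun _ _ => Finset.sum_congr rfl fun _ _ => Finset.sum_congr rfl fun _ _ =>
    Finset.sum_congr rfl fun _ _ => Finset.sum_congr rfl fun _ _ => Finset.sum_congr rfl fun _ _ => by ring

variable {ι : Type} [Fintype ι] [DecidableEq ι] {k t : ℕ}

theorem perm_three [Finite F] (p : ℕ) [Fact p.Prime] [CharP F p] (h2 : ∀ c : F, c ≠ 0 → c = 1)
    (e : ι ≃ (Fin (t + 1) → Fin 3)) (P : GL ι F) {H : Subgroup (End F (ι → F))ˣ} (G : ∀ j, Good H (wT e P j)) :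
    ∀ g ∈ H, Perm (wT e P) g := by
  let θ : (ι → F) →ₗ[F] ((Fin (t + 1) → Fin 3) → F) :=
    LinearMap.funLeft F F e.symm ∘ₗ toLin' ((P⁻¹ : GL ι F) : Matrix ι ι F)
  have hθ : ∀ x, θ ((P : Matrix ι ι F) *ᵥ (x ∘ e)) = x := fun x => funext fun a => by simp [θ]
  have hs : ∀ v : ι → F, v = (P : Matrix ι ι F) *ᵥ (θ v ∘ e) := fun v => by
    rw [show θ v ∘ e = ((P⁻¹ : GL ι F) : Matrix ι ι F) *ᵥ v from funext fun a => by simp [θ]]
    simp
  clear_value θ
  obtain ⟨τ, hτ⟩ : ∃ τ : (ι → F) →ₗ[F] (ι → F) →ₗ[F] (ι → F) →ₗ[F] F, ∀ a b c,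
      τ a b c = tau F (t + 1) (θ a) (θ b) (θ c) :=
    ⟨((tau F (t + 1)).compl₁₂ θ θ).compr₂ (LinearMap.lcomp F F θ), fun _ _ _ => rfl⟩
  have fac : ∀ j, Fac (wT e P j) τ (tau F t) := fun j x y z a b c => by
    rw [hτ, wT_tm, wT_tm, wT_tm, hθ, hθ, hθ, tau_tm]
  refine perm_of_tri (wT_fr e P) p G (τ := τ) (fun j => ⟨_, fac j⟩) (fun v h => ?_) fun g _ h => ?_
  · rw [hs v, tau_nd (v := θ v) fun b c => by rw [← hθ b, ← hθ c, ← hτ, h]]
    simp
  obtain ⟨g, rfl⟩ := GeneralLinearGroup.toLin.surjective g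
  obtain ⟨g, rfl⟩ := (transGL e P).surjective g
  obtain ⟨π, hπ⟩ := exists_perm (by simp) (wT_fr e P) h
  obtain ⟨A, rfl⟩ := exists_pureGL_of_permutes (by omega) t.succ_pos g π fun i a => by
    obtain ⟨a', h'⟩ := hπ i (toLin' a)
    rw [TP.mv_A, wT_A, toLin_conj, wT_A', conjAlg_transGL] at h'
    exact ⟨_, (transAlg e P).injective (toLin'.injective h')⟩
  rw [map_mul, map_mul]
  refine (fixM τ).mul_mem (pureT_mem ((fixM τ).comap ((toLinAlgEquiv' (R := F) (n := ι)).toMonoidHom.comp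
    (transAlg e P).toMonoidHom)) _ fun j => ?_) fun a b c => ?_
  · have := (fac j).mem_fixM (a := toLin' (A j).1) fun x y z => by
      simp only [toLin'_apply, D3_mulVec, h2 _ (A j).det_ne_zero, one_mul]
    rwa [wT_A] at this
  · change τ ((pmU e P π).1 a) ((pmU e P π).1 b) ((pmU e P π).1 c) = _
    rw [hs a, hs b, hs c, pmU_apply, pmU_apply, pmU_apply]
    simp only [hτ, hθ, tau_perm]

theorem pmU_mul (e : ι ≃ (Fin (t + 1) → Fin k)) (P : GL ι F) (π ρ : Equiv.Perm (Fin (t + 1))) :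
    pmU e P (π * ρ) = pmU e P π * pmU e P ρ := by
  rw [pmU, pmU, pmU, ← map_mul, ← map_mul]
  congr 2
  exact Units.ext (Matrix.ext fun x y => (permT_mul_apply π (permT k F ρ) x y).symm)

theorem isMaximalIn_wreath [Finite F] (hk : 3 ≤ k) (ht : 2 ≤ t) (e : ι ≃ (Fin t → Fin k)) (P : GL ι F) :
    IsMaximalIn (specialLinear ι F) (tensorWreathSubgroup k t e P ⊓ specialLinear ι F) := by
  refine isMaximalIn_of (not_sl_le_tensorWreathSubgroup (by omega) ht e P) fun H h1 _ g hg hgM => ?_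
  obtain ⟨t, rfl⟩ : ∃ s, t = s + 1 := ⟨t - 1, by omega⟩
  have : Nonempty (Fin k) := ⟨⟨0, by omega⟩⟩
  have : Nonempty ι := e.nonempty
  have hk' : 3 ≤ finrank F (Fin k → F) := by simpa using hk
  have := Fintype.ofFinite F
  obtain ⟨p, hp⟩ := CharP.exists F
  obtain ⟨n, hp', hn⟩ := FiniteField.card F p
  have := Fact.mk hp'
  let H' := H.map (GeneralLinearGroup.toLin (n := ι) (R := F)).toMonoidHom
  have mem : ∀ u ∈ PermG (wT e P), LinearMap.det u.1 = 1 → u ∈ H' := fun u hu hd => by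
    obtain ⟨g, rfl⟩ := GeneralLinearGroup.toLin.surjective u
    exact ⟨g, h1 ⟨(mem_tensorWreath_iff e P g).2 hu, mem_specialLinear.2 ((LinearMap.det_toLin' _).symm.trans hd)⟩, rfl⟩
  refine (good_or hk' (H := H') (wT_fr e P) (fun j x β h => mem _ (mem_permG 1 fun i a => ?_) (det_rt p _ h))
    (fun i j l hij hjl hil => ?_)).elim (fun G => ?_) fun ⟨i, h⟩ => ?_
  rotate_left 2
  · refine (hgM ((mem_tensorWreath_iff e P g).2 ((wT_fr e P).mem_permG (by omega) (?_ : Perm (wT e P) _)))).elim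
    by_cases h3 : 3 ≤ p
    · exact perm_of_large hk' (wT_fr e P) p G (c := 2) (by
        rw [Nat.card_eq_fintype_card, hn, ← pow_mul]
        exact Nat.pow_le_pow_right hp'.pos (by have := n.pos; nlinarith [show 2 ≤ finrank F (Fin k → F) - 1 by omega]))
        (by omega) _ ⟨g, hg, rfl⟩
    obtain rfl : p = 2 := by have := hp'.two_le; omega
    by_cases h4 : k = 3 ∧ (n : ℕ) = 1
    · obtain ⟨rfl, h4⟩ := h4
      refine perm_three 2 (fun c hc => ?_) e P G _ ⟨g, hg, rfl⟩
      simpa [hn, h4] using FiniteField.pow_card_sub_one_eq_one c hc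
    · exact perm_of_large hk' (wT_fr e P) 2 G (c := 3) (by
        rw [Nat.card_eq_fintype_card, hn, ← pow_mul, finrank_fin_fun]
        refine Nat.pow_le_pow_right two_pos ?_
        have := n.pos
        by_cases h5 : k = 3
        · subst h5; omega
        · nlinarith [show 3 ≤ k - 1 by omega]) (by omega) _ ⟨g, hg, rfl⟩
  · refine specialLinear_le_of_centers (centers_of_tv hk' (wT e P i) fun u y β χ h0 => ⟨by simp [TP.φ_tm, h0], ?_⟩)
    obtain ⟨_, ⟨g, hg, rfl⟩, e'⟩ := h u β (rk y χ) h0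
    refine ⟨g, hg, fun x => (LinearMap.congr_fun e' x).trans ?_⟩
    simp [TP.A_rk, TP.φ_C]
  · by_cases h' : i = j
    · subst h'
      simpa only [TP.mv_A, Equiv.Perm.one_apply] using sub_mv_rt _ h a
    · simpa only [TP.mv_A, Equiv.Perm.one_apply] using sub_mv_of_comm (g := rt (wT e P j) h) (fun a => (Commute.one_right _).add_right
        ((wT_fr e P).comm i j h' _ a)) a
  · let Φ := (Units.map (LinearMap.det (A := F) (M := ι → F))).comp (MonoidHom.mk' (pmU e P) (pmU_mul e P))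
    refine ⟨pmU e P ⁅Equiv.swap i j, Equiv.swap i l⁆, mem _ (mem_permG _ fun i a => ⟨a, pmU_conj e P _ i a⟩)
      (congrArg Units.val (show Φ _ = 1 by rw [map_commutatorElement, commutatorElement_eq_one_iff_mul_comm, mul_comm])),
      fun a => ⟨a, ?_⟩, fun a => ⟨a, ?_⟩⟩ <;> rw [TP.mv_A, pmU_conj] <;>
    simp [commutatorElement_def, Equiv.swap_apply_of_ne_of_ne, hij, hjl, hil, hij.symm, hjl.symm, hil.symm]

end CL.TWL
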