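import Cfsg.Agent.Cls.TenCore

set_option autoImplicit false

/-!
Elements fixing a unique coset, and pairs of quadratic elements `1 + σ`, `1 + κ` (`σ ^ 2 = κ ^ 2 = 0`).
-/

namespace CL.Sp

open Module Polynomial

section Grp

variable {G : Type*} [Group G] {X H : Subgroup G} {k : G}

/-- `k ∈ H` fixes only the coset `H` among the cosets `g H`, `g ∈ X`. -/
structure UF (X H : Subgroup G) (k : G) : Prop where
  memX : k ∈ X
  mem : k ∈ H
  uniq : ∀ g ∈ X, g⁻¹ * k * g ∈ H → g ∈ H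

theorem UF.mem_of_comm (U : UF X H k) {g : G} (hg : g ∈ X) (h : k * g = g * k) : g ∈ H :=
  U.uniq g hg (by rw [mul_assoc, h, inv_mul_cancel_left]; exact U.mem)

theorem isPGroup_zpowers {p n : ℕ} {s : G} (h : s ^ p ^ n = 1) : IsPGroup p (Subgroup.zpowers s) :=
  fun ⟨z, k, hk⟩ => ⟨n, Subtype.ext (by
    simp only [SubgroupClass.coe_pow, OneMemClass.coe_one, ← hk]
    rw [← zpow_natCast, ← zpow_mul, mul_comm, zpow_mul, zpow_natCast, h, one_zpow])⟩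

theorem UF.exists_conj [Finite G] {p n m : ℕ} [Fact p.Prime] (U : UF X H k) (hk : k ^ p ^ n = 1) {Γ : Subgroup G}
    (hΓ : Γ ≤ X) (hkΓ : k ∈ Γ) {s : G} (hs : s ∈ Γ) (hsp : s ^ p ^ m = 1) : ∃ γ ∈ Γ, γ * s * γ⁻¹ ∈ H := by
  let α := MulAction.orbit Γ ((1 : G) : G ⧸ H)
  have key : ∀ (g : Γ) (γ : Γ), g • (γ • ((1 : G) : G ⧸ H)) = γ • ((1 : G) : G ⧸ H) ↔ (γ : G)⁻¹ * g * γ ∈ H :=
    fun g γ => by
      change (((g : G) * (γ * 1) : G) : G ⧸ H) = ((γ * 1 : G) : G ⧸ H) ↔ _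
      rw [eq_comm, QuotientGroup.eq]
      simp [mul_assoc]
  have h1 := (isPGroup_zpowers (s := (⟨k, hkΓ⟩ : Γ)) (n := n) (Subtype.ext hk)).card_modEq_card_fixedPoints α
  have h2 : MulAction.fixedPoints (Subgroup.zpowers (⟨k, hkΓ⟩ : Γ)) α = {⟨_, MulAction.mem_orbit_self _⟩} := by
    ext ⟨_, γ, rfl⟩
    rw [Set.mem_singleton_iff, Subtype.ext_iff]
    constructor
    · intro h
      have := U.uniq γ (hΓ γ.2) ((key ⟨k, hkΓ⟩ γ).1 (congrArg Subtype.val (h ⟨_, Subgroup.mem_zpowers _⟩)))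
      simpa using (key γ 1).2 (by simpa using this)
    · rintro h ⟨_, j, rfl⟩
      refine Subtype.ext ((key _ γ).2 ?_)
      have h3 : (γ : G) ∈ H := by simpa using (key γ 1).1 (by simpa using h)
      exact mul_mem (mul_mem (inv_mem h3) (zpow_mem U.mem j)) h3
  rw [h2, show Nat.card ({⟨_, MulAction.mem_orbit_self _⟩} : Set α) = 1 by simp] at h1
  obtain ⟨⟨_, γ, rfl⟩, h⟩ := (isPGroup_zpowers (s := (⟨s, hs⟩ : Γ)) (n := m)
    (Subtype.ext hsp)).nonempty_fixed_point_of_prime_not_dvd_card α fun h =>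
      (Fact.out : p.Prime).one_lt.ne' (Nat.dvd_one.1 ((h1.dvd_iff dvd_rfl).1 h))
  exact ⟨γ⁻¹, inv_mem γ.2, by
    simpa using (key ⟨s, hs⟩ γ).1 (congrArg Subtype.val (h ⟨_, Subgroup.mem_zpowers _⟩))⟩

theorem exists_pow_pPart [Finite G] (p : ℕ) [Fact p.Prime] (ξ : G) : ∃ m n, ¬ p ∣ m ∧ (ξ ^ m) ^ p ^ n = 1 := by
  obtain ⟨e, m, hm, he⟩ := Nat.exists_eq_pow_mul_and_not_dvd (orderOf_pos ξ).ne' p (Fact.out : p.Prime).ne_one
  exact ⟨m, e, hm, by rw [← pow_mul, mul_comm, ← he, pow_orderOf_eq_one]⟩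

end Grp

variable {F V : Type*} [Field F] [AddCommGroup V] [Module F V] {σ κ τ a c : V →ₗ[F] V}

/-- The central element `σ κ + κ σ`. -/
def nu (σ κ : V →ₗ[F] V) : V →ₗ[F] V := σ ∘ₗ κ + κ ∘ₗ σ

theorem nu_apply (x : V) : nu σ κ x = σ (κ x) + κ (σ x) := rfl

theorem nu_σ (hσ : ∀ v, σ (σ v) = 0) (x : V) : nu σ κ (σ x) = σ (nu σ κ x) := by simp [nu_apply, hσ]

theorem nu_κ (hκ : ∀ v, κ (κ v) = 0) (x : V) : nu σ κ (κ x) = κ (nu σ κ x) := by simp [nu_apply, hκ]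

/-- The conjugate of `σ` by `γ`. -/
def cnj (γ : V ≃ₗ[F] V) (σ : V →ₗ[F] V) : V →ₗ[F] V := (γ : V →ₗ[F] V) ∘ₗ σ ∘ₗ ((γ⁻¹ : V ≃ₗ[F] V) : V →ₗ[F] V)

theorem cnj_apply (γ : V ≃ₗ[F] V) (x : V) : cnj γ σ x = γ (σ (γ⁻¹ x)) := rfl

theorem cnj_cnj (hσ : ∀ v, σ (σ v) = 0) (γ : V ≃ₗ[F] V) (x : V) : cnj γ σ (cnj γ σ x) = 0 := by
  simp [cnj_apply, inv_apply_apply, hσ]

theorem cnj_mul (γ δ : V ≃ₗ[F] V) : cnj (γ * δ) σ = cnj γ (cnj δ σ) := by
  ext x; simp [cnj_apply]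

theorem unip_cnj (hσ : ∀ v, σ (σ v) = 0) (γ : V ≃ₗ[F] V) (e : F) :
    unip (cnj γ σ) (cnj_cnj hσ γ) e = γ * unip σ hσ e * γ⁻¹ := by
  ext x; simp [unip_apply, cnj_apply, apply_inv_apply]

theorem range_cnj (γ : V ≃ₗ[F] V) : LinearMap.range (cnj γ σ) = (LinearMap.range σ).map (γ : V →ₗ[F] V) := by
  refine le_antisymm (by rintro _ ⟨x, rfl⟩; exact ⟨_, ⟨_, rfl⟩, rfl⟩) ?_
  rintro _ ⟨_, ⟨x, rfl⟩, rfl⟩
  exact ⟨γ x, by rw [cnj_apply, inv_apply_apply]; rfl⟩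

theorem finrank_range_cnj (γ : V ≃ₗ[F] V) :
    finrank F (LinearMap.range (cnj γ σ)) = finrank F (LinearMap.range σ) := by
  rw [range_cnj, LinearEquiv.finrank_map_eq]

theorem unip_pow_char {p : ℕ} [CharP F p] (hσ : ∀ v, σ (σ v) = 0) (e : F) : unip σ hσ e ^ p ^ 1 = 1 := by
  rw [pow_one, unip_pow, CharP.cast_eq_zero, zero_mul, unip_zero]

/-- The group generated by the elements `1 + e σ` and `1 + e κ`. -/
def PG (hσ : ∀ v, σ (σ v) = 0) (hκ : ∀ v, κ (κ v) = 0) : Subgroup (V ≃ₗ[F] V) :=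
  Subgroup.closure (Set.range (unip σ hσ) ∪ Set.range (unip κ hκ))

theorem closure_pair_le_PG (hσ : ∀ v, σ (σ v) = 0) (hκ : ∀ v, κ (κ v) = 0) (d e : F) :
    Subgroup.closure {unip σ hσ d, unip κ hκ e} ≤ PG hσ hκ :=
  Subgroup.closure_mono (by rintro _ (rfl | rfl); exacts [Or.inl ⟨_, rfl⟩, Or.inr ⟨_, rfl⟩])

theorem PG_fix {hσ : ∀ v, σ (σ v) = 0} {hκ : ∀ v, κ (κ v) = 0} {γ : V ≃ₗ[F] V} (hγ : γ ∈ PG hσ hκ) {x : V}
    (h1 : σ x = 0) (h2 : κ x = 0) : γ x = x := by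
  induction hγ using Subgroup.closure_induction with
  | mem g hg => rcases hg with ⟨e, rfl⟩ | ⟨e, rfl⟩ <;> simp [unip_apply, h1, h2]
  | one => rfl
  | mul g g' _ _ h h' => rw [LinearEquiv.mul_apply, h', h]
  | inv g _ h => rw [← h, inv_apply_apply, h]

/-- The shape of a conjugate `τ` of `σ` under the group generated by `1 + e σ`, `1 + e κ`. -/
structure PR (σ κ τ a c : V →ₗ[F] V) : Prop where
  σ2 : ∀ v, σ (σ v) = 0
  κ2 : ∀ v, κ (κ v) = 0
  aσ : ∀ x, a (σ x) = σ (a x)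
  aκ : ∀ x, a (κ x) = κ (a x)
  cσ : ∀ x, c (σ x) = σ (c x)
  cκ : ∀ x, c (κ x) = κ (c x)
  ac : ∀ x, a (c x) = c (a x)
  fix : ∀ x, nu σ κ x = 0 → a x = x
  cop : ∀ x, a x = 0 → c x = 0 → x = 0
  τ_eq : ∀ x, τ x = σ (a (a x)) + a (c (κ (σ x) - σ (κ x))) - c (c (κ (σ (κ x))))
  mem : ∀ y, a (σ y) + c (κ (σ y)) ∈ LinearMap.range τ

theorem exists_PR (hσ : ∀ v, σ (σ v) = 0) (hκ : ∀ v, κ (κ v) = 0) {γ : V ≃ₗ[F] V} (hγ : γ ∈ PG hσ hκ) :
    ∃ a c, PR σ κ (cnj γ σ) a c := by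
  let ν : Module.End F V := nu σ κ
  have cm : ∀ ρ : V →ₗ[F] V, (∀ x, ν (ρ x) = ρ (ν x)) → ∀ (p : F[X]) x, aeval ν p (ρ x) = ρ (aeval ν p x) :=
    fun ρ h p x => LinearMap.congr_fun (Algebra.commute_of_mem_adjoin_singleton_of_commute
      (aeval_mem_adjoin_singleton F ν) (a := ρ) (LinearMap.ext fun x => (h x).symm)).eq.symm x
  have c1 := cm σ (nu_σ hσ)
  have c2 := cm κ (nu_κ hκ)
  let P : (V ≃ₗ[F] V) → Prop := fun γ => ∃ a c : F[X], (∃ f, a = 1 + f * X) ∧ IsCoprime a c ∧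
    (∀ x, γ (σ x) = aeval ν a (σ x) + aeval ν c (κ (σ x))) ∧ ∀ x, σ (γ⁻¹ x) = σ (aeval ν a x) - σ (aeval ν c (κ x))
  have step : ∀ g ∈ Set.range (unip σ hσ) ∪ Set.range (unip κ hκ), ∀ γ, P γ → P (g * γ) := by
    rintro _ (⟨e, rfl⟩ | ⟨e, rfl⟩) γ ⟨a, c, ⟨f, hf⟩, hc, h1, h2⟩
    · refine ⟨a + c * (C e * X), c, ⟨f + c * C e, by rw [hf]; ring⟩, hc.add_mul_left_left _, fun x => ?_, fun x => ?_⟩
      · simp only [LinearEquiv.mul_apply, h1, unip_apply, map_add, map_mul, aeval_C, aeval_X, LinearMap.add_apply,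
          Module.End.mul_apply, Module.algebraMap_end_apply, ← c1, hσ, map_zero, ν, nu_apply, map_smul]
        module
      · simp only [mul_inv_rev, unip_inv, LinearEquiv.mul_apply, h2, unip_apply, map_add, map_mul, aeval_C, aeval_X,
          LinearMap.add_apply, Module.End.mul_apply, Module.algebraMap_end_apply, ← c1, hσ, map_zero, ν, nu_apply,
          map_smul]
        module
    · refine ⟨a, c + a * C e, ⟨f, hf⟩, hc.add_mul_left_right _, fun x => ?_, fun x => ?_⟩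
      · simp only [LinearEquiv.mul_apply, h1, unip_apply, map_add, map_mul, aeval_C, LinearMap.add_apply,
          Module.End.mul_apply, Module.algebraMap_end_apply, ← c2, hκ, map_zero, map_smul]
        module
      · simp only [mul_inv_rev, unip_inv, LinearEquiv.mul_apply, h2, unip_apply, map_add, map_mul, aeval_C,
          LinearMap.add_apply, Module.End.mul_apply, Module.algebraMap_end_apply, hκ, map_zero, map_smul]
        module
  obtain ⟨a, c, ⟨f, hf⟩, ⟨u, v, huv⟩, h1, h2⟩ : P γ := by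
    induction hγ using Subgroup.closure_induction_left with
    | one => exact ⟨1, 0, ⟨0, by simp⟩, isCoprime_one_left, by simp, by simp⟩
    | mul_left g hg k _ ih => exact step g hg k ih
    | inv_mul_cancel g hg k _ ih =>
      refine step _ ?_ k ih
      rcases hg with ⟨c, rfl⟩ | ⟨c, rfl⟩
      · exact Or.inl ⟨-c, (unip_inv _ _).symm⟩
      · exact Or.inr ⟨-c, (unip_inv _ _).symm⟩
  have c3 : ∀ x, aeval ν a (aeval ν c x) = aeval ν c (aeval ν a x) := fun x => by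
    rw [← Module.End.mul_apply, ← map_mul, mul_comm, map_mul, Module.End.mul_apply]
  refine ⟨aeval ν a, aeval ν c, hσ, hκ, c1 a, c2 a, c1 c, c2 c, c3, fun x hx => by
    simp [hf, show ν x = 0 from hx], fun x hx hx' => ?_, fun x => ?_, fun y => ⟨γ y, ?_⟩⟩
  · simpa [hx, hx'] using (LinearMap.congr_fun (congrArg (aeval ν) huv) x).symm
  · simp only [cnj_apply, h2, map_sub, h1, c1, c2, c3]
    abel
  · rw [cnj_apply, inv_apply_apply, h1]

namespace PR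

variable (R : PR σ κ τ a c)
include R

theorem aν (x : V) : a (nu σ κ x) = nu σ κ (a x) := by simp only [nu_apply, map_add, R.aσ, R.aκ]

theorem cν (x : V) : c (nu σ κ x) = nu σ κ (c x) := by simp only [nu_apply, map_add, R.cσ, R.cκ]

theorem κτ (x : V) : κ (τ x) = a (a (κ (σ x))) - a (c (κ (σ (κ x)))) := by
  simp only [R.τ_eq, map_add, map_sub, ← R.aκ, ← R.cκ, ← R.aσ, R.κ2, map_zero]; abel

theorem τκ (x : V) : τ (κ x) = a (a (σ (κ x))) + a (c (κ (σ (κ x)))) := by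
  simp only [R.τ_eq, R.aσ, R.κ2, map_zero, sub_zero]

theorem eq_zero_of_ν {y : V} (h1 : a (a y) = 0) (h2 : nu σ κ y = 0) : y = 0 := by
  rwa [R.fix y h2, R.fix y h2] at h1

theorem eq_zero_of_c {y : V} (h1 : a (a y) = 0) (h2 : c y = 0) : y = 0 :=
  R.cop y (R.cop _ h1 (by rw [← R.ac, h2, map_zero])) h2

theorem eq_zero_of_cν {y : V} (h1 : a (a y) = 0) (h2 : c (nu σ κ y) = 0) : y = 0 :=
  R.eq_zero_of_ν h1 (R.eq_zero_of_c (by rw [R.aν, R.aν, h1, map_zero]) h2)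

theorem cν_mem {y : V} (hy : y ∈ LinearMap.range κ) (h : a y = 0) :
    c (nu σ κ y) ∈ LinearMap.range τ ⊓ LinearMap.range κ := by
  obtain ⟨x, rfl⟩ := hy
  have := R.mem (κ x)
  rw [R.aσ, h, map_zero, zero_add] at this
  exact ⟨by simpa [nu_apply, R.κ2] using this, c (nu σ κ x), by rw [← R.cκ, nu_κ R.κ2]⟩

/-- If `κ τ κ = 0` and the ranges of `τ` and `κ` meet trivially, then `κ σ κ = 0`. -/
theorem κσκ (h : ∀ x, κ (τ (κ x)) = 0) (hd : ∀ y ∈ LinearMap.range τ, y ∈ LinearMap.range κ → y = 0) (x : V) :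
    κ (σ (κ x)) = 0 := by
  have key : ∀ y ∈ LinearMap.range κ, a y = 0 → y = 0 := fun y hy hy' =>
    R.eq_zero_of_cν (by rw [hy', map_zero]) (hd _ (R.cν_mem hy hy').1 (R.cν_mem hy hy').2)
  have := h x
  rw [R.κτ, R.κ2, map_zero, map_zero, map_zero, map_zero, sub_zero] at this
  exact key _ ⟨_, rfl⟩ (key _ ⟨_, (R.aκ _).symm⟩ this)

/-- A commuting conjugate bounds the rank of `κ`. -/
theorem finrank_le [FiniteDimensional F V] (h : ∀ x, τ (κ x) = κ (τ x)) (hi : ∀ x, σ (κ x) = 0 → κ x = 0) :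
    finrank F (LinearMap.range κ) ≤ 2 * finrank F (LinearMap.range τ ⊓ LinearMap.range κ : Submodule F V) := by
  have h1 : ∀ x, nu σ κ (κ x) = 0 → κ x = 0 := fun x hx => by
    have h2 := h x
    have h3 : κ (σ (κ x)) = 0 := by simpa [nu_apply, R.κ2] using hx
    rw [R.κτ, R.τκ, h3, map_zero, map_zero, add_zero, sub_zero, R.aσ, R.aσ, R.fix _ hx, R.fix _ hx, R.aκ, R.aκ] at h2
    exact hi x (h2.trans (hi _ (by rw [← h2, R.σ2])))
  have h2 : ∀ x, a (a (κ x)) = 0 := fun x => by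
    have h3 := h (κ x)
    rw [R.κ2, map_zero, R.κτ, R.κ2, map_zero, map_zero, map_zero, map_zero, sub_zero] at h3
    rw [R.aκ, R.aκ]
    refine h1 _ ?_
    rw [← R.aκ, ← R.aκ, ← R.aν, ← R.aν, nu_apply, R.κ2, map_zero, zero_add, ← h3]
  set N := LinearMap.range κ
  let a' := a.domRestrict N
  have h3 := LinearMap.finrank_range_add_finrank_ker a'
  have h4 : ∀ S : Submodule F V, S ≤ N → (∀ y ∈ S, a y = 0) →
      finrank F S ≤ finrank F (LinearMap.range τ ⊓ N : Submodule F V) := fun S hS hS' =>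
    LinearMap.finrank_le_finrank_of_injective
      (f := ((c ∘ₗ nu σ κ) ∘ₗ S.subtype).codRestrict _ fun y => R.cν_mem (hS y.2) (hS' y y.2)) (by
        rw [← LinearMap.ker_eq_bot, eq_bot_iff]
        exact fun y hy => Subtype.ext (R.eq_zero_of_cν (by rw [hS' y y.2, map_zero]) (congrArg Subtype.val hy)))
  have h5 := h4 (LinearMap.range a') (by rintro _ ⟨⟨_, x, rfl⟩, rfl⟩; exact ⟨_, (R.aκ x).symm⟩)
    (by rintro _ ⟨⟨_, x, rfl⟩, rfl⟩; exact h2 x)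
  have h6 := h4 ((LinearMap.ker a').map N.subtype) (Submodule.map_subtype_le _ _) (by rintro _ ⟨y, hy, rfl⟩; exact hy)
  rw [Submodule.finrank_map_subtype_eq] at h6
  omega

/-- The commuting case in odd characteristic. -/
theorem κσκ_of_comm [FiniteDimensional F V] {B : LinearMap.BilinForm F V} (hN : B.Nondegenerate) (two : (2 : F) ≠ 0)
    (hσ : ∀ x y, B (σ x) y = -B x (σ y)) (hκ : ∀ x y, B (κ x) y = -B x (κ y)) (h : ∀ x, τ (κ x) = κ (τ x))
    (hd : ∀ y ∈ LinearMap.range τ, y ∈ LinearMap.range κ → ∀ z, κ z ∈ LinearMap.range τ → B y z = 0) (x : V) :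
    κ (σ (κ x)) = 0 := by
  set ν := nu σ κ with hν
  have e0 : ∀ x, ν (κ x) = κ (σ (κ x)) := fun x => by simp [hν, nu_apply, R.κ2]
  have h2 : ∀ x, a (a (ν (κ x))) = 0 := fun x => by
    have h3 := h (κ x)
    rw [R.κ2, map_zero, R.κτ, R.κ2, map_zero, map_zero, map_zero, map_zero, sub_zero] at h3
    rw [e0, ← h3]
  have h3 : ∀ x, a (ν (κ x)) = 0 := fun x => by
    have h4 := congrArg ν (h x)
    have h5 : ν (a (a (σ (κ x)))) = 0 := by rw [R.aσ, R.aσ, hν, nu_σ R.σ2, ← R.aν, ← R.aν, ← hν, h2, map_zero]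
    have h6 : ν (a (a (κ (σ x)))) = 0 := by rw [hν, ← R.aν, ← R.aν, ← hν, h2]
    rw [R.κτ, R.τκ, map_add, map_sub, h5, h6, zero_add, zero_sub, eq_neg_iff_add_eq_zero, ← two_smul F,
      smul_eq_zero, ← e0] at h4
    refine R.eq_zero_of_cν (by rw [h2, map_zero]) ?_
    rw [R.cν, ← R.ac]
    exact h4.resolve_left two
  let K := LinearMap.range (ν ∘ₗ κ)
  have hK : ∀ y ∈ K, y ∈ LinearMap.range κ := by rintro _ ⟨x, rfl⟩; exact ⟨_, (nu_κ R.κ2 x).symm⟩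
  have hK' : ∀ y ∈ K, a y = 0 := by rintro _ ⟨x, rfl⟩; exact h3 x
  have hνK : ∀ y ∈ K, ν y ∈ K := fun y hy => by
    obtain ⟨x, rfl⟩ := hK y hy
    exact ⟨x, rfl⟩
  have h4 : ∀ y ∈ K, y ∈ LinearMap.range τ := fun y hy => by
    obtain ⟨y', e⟩ := (LinearMap.injective_iff_surjective (f := (c ∘ₗ ν).restrict (p := K) (q := K) (by
      rintro _ ⟨x, rfl⟩
      exact ⟨c (ν x), by simp only [LinearMap.comp_apply, hν, ← R.cκ, ← R.cν, ← nu_κ R.κ2]⟩))).1 (by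
        rw [← LinearMap.ker_eq_bot, eq_bot_iff]
        exact fun y hy => Subtype.ext (R.eq_zero_of_cν (by rw [hK' y y.2, map_zero]) (congrArg Subtype.val hy)))
      ⟨y, hy⟩
    have e' : c (ν y') = y := congrArg Subtype.val e
    exact e' ▸ (R.cν_mem (hK _ y'.2) (hK' _ y'.2)).1
  have hy : ν (κ x) ∈ K := ⟨x, rfl⟩
  rw [← e0]
  generalize ν (κ x) = y at hy
  have e1 : κ y = 0 := by obtain ⟨z, rfl⟩ := hK y hy; exact R.κ2 z
  have e2 : κ (σ y) = ν y := by simp [hν, nu_apply, e1]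
  refine R.eq_zero_of_ν (by rw [hK' y hy, map_zero]) (R.eq_zero_of_ν
    (by rw [hK' _ (hνK y hy), map_zero]) (hN.2 _ fun z => ?_))
  have := hd _ (h4 _ ⟨z, rfl⟩) (hK _ ⟨z, rfl⟩) (σ y) (e2 ▸ h4 _ (hνK y hy))
  rw [LinearMap.comp_apply, e0, hκ, hσ, hκ, e2] at this
  have e3 : κ (ν y) = 0 := by rw [hν, ← nu_κ R.κ2, e1, map_zero]
  rw [← hν, hν, nu_apply (σ := σ) (κ := κ) (nu σ κ y), ← hν, e3, map_zero, zero_add]
  simpa using this

end PR

variable {X H : Subgroup (V ≃ₗ[F] V)}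

theorem UF.mem_of_κσκ {hκ : ∀ v, κ (κ v) = 0} {e : F} (U : UF X H (unip κ hκ e)) {hσ : ∀ v, σ (σ v) = 0} {d : F}
    (hs : unip σ hσ d ∈ X) (h : ∀ x, κ (σ (κ x)) = 0) : unip σ hσ d ∈ H := by
  have h1 := U.mem_of_comm (mul_mem (mul_mem (inv_mem hs) U.memX) hs) (by
    ext x
    simp only [unip_inv, LinearEquiv.mul_apply, unip_apply, map_add, map_smul, hκ, hσ, h, map_zero]
    module)
  exact U.uniq _ hs h1

/-- The case where a conjugate of `σ` is a multiple of `κ`. -/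
theorem nu_eq_zero_of_conj [Finite F] [FiniteDimensional F V] {hκ : ∀ v, κ (κ v) = 0} {hσ : ∀ v, σ (σ v) = 0}
    (C : AddSubgroup F) (hC : ∀ d ∈ C, unip κ hκ d ∈ X ∧ unip κ hκ d ∈ H)
    (U : ∀ d ∈ C, d ≠ 0 → UF X H (unip κ hκ d)) (hs : unip σ hσ 1 ∈ X) {γ : V ≃ₗ[F] V} (hγ : γ ∈ PG hσ hκ)
    {μ : F} (hμ : μ ∈ C) (e : ∀ x, cnj γ σ x = μ • κ x) {d : F} (hd : d ∈ C) (d0 : d ≠ 0) (d1 : μ + d ≠ 0)
    (hH : ∀ h ∈ X, h ∈ H → (∀ x, nu σ κ x = 0 → h x = x) → h = 1) (x : V) : nu σ κ x = 0 := by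
  have := finite_linearEquiv (F := F) (V := V)
  obtain ⟨p, hp⟩ := CharP.exists F
  have hpp : Fact p.Prime := ⟨CharP.char_is_prime F p⟩
  obtain ⟨a, c, R⟩ := exists_PR hσ hκ hγ
  have h1 : ∀ x, nu σ κ x = 0 → κ (σ x) = 0 ∧ σ (κ x) = 0 ∧ σ x = μ • κ x := fun x hx => by
    have f1 : a (κ (σ x)) = κ (σ x) := R.fix _ (by rw [nu_κ hκ, nu_σ hσ, hx, map_zero, map_zero])
    have f2 : κ (σ (κ x)) = 0 := by simpa [nu_apply, hκ] using congrArg κ hx
    have f3 := R.κτ x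
    rw [e, map_smul, hκ, smul_zero, f1, f1, f2, map_zero, map_zero, sub_zero] at f3
    have f4 : σ (κ x) = 0 := by rwa [nu_apply, ← f3, add_zero] at hx
    refine ⟨f3.symm, f4, ?_⟩
    rw [← e, R.τ_eq, ← f3, f4, R.fix x hx, R.fix x hx]
    simp
  let Γ : Subgroup (V ≃ₗ[F] V) :=
    { carrier := {g | g ∈ X ∧ ∃ e : F, ∀ x, nu σ κ x = 0 → g x = x + e • κ x}
      mul_mem' := by
        rintro g g' ⟨hg, e, h⟩ ⟨hg', e', h'⟩
        refine ⟨mul_mem hg hg', e + e', fun x hx => ?_⟩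
        rw [LinearEquiv.mul_apply, h' x hx, map_add, map_smul, h x hx, h _ (by rw [nu_κ hκ, hx, map_zero]), hκ]
        module
      one_mem' := ⟨one_mem _, 0, by simp⟩
      inv_mem' := by
        rintro g ⟨hg, e, h⟩
        refine ⟨inv_mem hg, -e, fun x hx => g.injective ?_⟩
        rw [apply_inv_apply, map_add, map_smul, h x hx, h _ (by rw [nu_κ hκ, hx, map_zero]), hκ]
        module }
  set ξ := unip σ hσ 1 * unip κ hκ d with hξ
  have hξX : ξ ∈ X := mul_mem hs (hC d hd).1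
  have hξn : ∀ n : ℕ, ∀ x, nu σ κ x = 0 → (ξ ^ n) x = x + (n * (μ + d)) • κ x := fun n x hx => by
    induction n with
    | zero => simp
    | succ n ih =>
      rw [pow_succ', LinearEquiv.mul_apply, ih, hξ]
      simp only [LinearEquiv.mul_apply, unip_apply, map_add, map_smul, hκ, (h1 x hx).2.1, (h1 x hx).2.2,
        map_zero, smul_zero]
      push_cast
      module
  have key : ∀ n : ℕ, ∀ δ ∈ Γ, δ * ξ ^ n * δ⁻¹ ∈ H → δ * ξ ^ n * δ⁻¹ = unip κ hκ (n * (μ + d)) := by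
    rintro n δ hδ h
    obtain ⟨-, e', h'⟩ := Γ.inv_mem hδ
    have hm : (n * (μ + d) : F) ∈ C := by rw [← nsmul_eq_mul]; exact nsmul_mem (add_mem hμ hd) n
    refine mul_inv_eq_one.1 (hH _ (mul_mem (mul_mem (mul_mem hδ.1 (pow_mem hξX n)) (inv_mem hδ.1))
      (inv_mem (hC _ hm).1)) (mul_mem h (inv_mem (hC _ hm).2)) fun x hx => ?_)
    have hx' : nu σ κ (κ x) = 0 := by rw [nu_κ hκ, hx, map_zero]
    rw [LinearEquiv.mul_apply, LinearEquiv.mul_apply, LinearEquiv.mul_apply, ← δ.symm.injective.eq_iff,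
      LinearEquiv.symm_apply_apply, unip_inv, unip_apply]
    change _ = δ⁻¹ x
    simp only [map_add, map_smul, h' x hx, h' _ hx', hξn n x hx, hξn n _ hx', hκ, map_zero]
    module
  obtain ⟨m, n, hm, hn⟩ := exists_pow_pPart p ξ
  obtain ⟨δ, hδ, h2⟩ := (U d hd d0).exists_conj (unip_pow_char hκ d) (Γ := Γ) (fun g hg => hg.1)
    ⟨(hC d hd).1, d, fun x _ => rfl⟩ ⟨pow_mem hξX m, _, hξn m⟩ hn
  have h3 := key m δ hδ h2
  have h4 := key 1 δ hδ ((U (m * (μ + d)) (by rw [← nsmul_eq_mul]; exact nsmul_mem (add_mem hμ hd) m)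
    (mul_ne_zero ((CharP.cast_eq_zero_iff F p m).not.2 hm) d1)).mem_of_comm
      (mul_mem (mul_mem hδ.1 (pow_mem hξX 1)) (inv_mem hδ.1)) (by rw [← h3]; group))
  have h5 : ∀ x, ξ (ξ x - x) = ξ x - x := fun x => by
    have f : ∀ x, δ (ξ x) = δ x + ((1 : ℕ) * (μ + d)) • κ (δ x) := fun x => by
      simpa [unip_apply, inv_apply_apply] using LinearEquiv.congr_fun h4 (δ x)
    refine δ.injective ?_
    rw [f, map_sub, f, add_sub_cancel_left, map_smul, hκ, smul_zero, smul_zero, add_zero]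
  have h6 := h5 (ξ⁻¹ x)
  rw [apply_inv_apply, map_sub, apply_inv_apply] at h6
  simp only [hξ, mul_inv_rev, unip_inv, LinearEquiv.mul_apply, unip_apply, map_add, map_smul] at h6
  refine smul_right_injective V d0 ?_
  rw [nu_apply]
  linear_combination (norm := module) h6

end CL.Sp
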