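import Cfsg.Agent.Cls.TenLin
import Cfsg.Agent.Cls.TenGrp
import Cfsg.Agent.Cls.UniGroup

set_option autoImplicit false

/-!
Tensor products of reflexive sesquilinear forms.  For an overgroup `X` of the group of Kronecker products: if the
unipotent radical of the stabiliser of `V₁ ⊗ w` (`w` isotropic) has no new elements, the stabiliser has no new
elements, and the maps `1 ⊗ t` (`t` a transvection) fix a unique tensor decomposition.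
-/

namespace CL.Sp

open Module TensorProduct CL.SLn
open CL.Uni (UG UG_apply_left UG_apply_right)

variable {F V₁ V₂ V : Type*} [Field F] [AddCommGroup V₁] [Module F V₁] [AddCommGroup V₂] [Module F V₂]
  [AddCommGroup V] [Module F V] {σ : F →+* F} {ε ε₁ ε₂ : F}

/-- A non-degenerate `ε`-hermitian form. -/
structure RF (σ : F →+* F) (ε : F) (B : V →ₛₗ[σ] V →ₗ[F] F) : Prop where
  invol : ∀ a, σ (σ a) = a
  eps : ε * σ ε = 1
  symm : ∀ x y, B y x = ε * σ (B x y)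
  nondeg : ∀ x, (∀ y, B x y = 0) → x = 0

namespace RF

variable {B : V →ₛₗ[σ] V →ₗ[F] F} (R : RF σ ε B)
include R

theorem flip0 {x y : V} (h : B x y = 0) : B y x = 0 := by rw [R.symm, h, map_zero, mul_zero]

theorem flip_ne {x y : V} (h : B x y ≠ 0) : B y x ≠ 0 := fun e => h (R.flip0 e)

theorem eps_ne : ε ≠ 0 := left_ne_zero_of_mul_eq_one R.eps

theorem nondeg' (x : V) (h : ∀ y, B y x = 0) : x = 0 := R.nondeg x fun y => R.flip0 (h y)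

theorem ext' {x y : V} (h : ∀ z, B z x = B z y) : x = y :=
  sub_eq_zero.1 (R.nondeg' _ fun z => by rw [map_sub, h, sub_self])

theorem exists_one {x : V} (hx : x ≠ 0) : ∃ y, B x y = 1 := by
  obtain ⟨y, hy⟩ : ∃ y, B x y ≠ 0 := by
    by_contra h
    push Not at h
    exact hx (R.nondeg x h)
  exact ⟨(B x y)⁻¹ • y, by simp [hy]⟩

theorem exists_one' {x : V} (hx : x ≠ 0) : ∃ y, B y x = 1 := by
  obtain ⟨y, hy⟩ := R.exists_one hx
  exact ⟨ε • y, by rw [map_smulₛₗ, LinearMap.smul_apply, R.symm, hy, map_one, mul_one, smul_eq_mul, mul_comm, R.eps]⟩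

theorem repr [FiniteDimensional F V] (f : Dual F V) : ∃ t, B t = f := CL.Cls.exists_repr_of_nondeg R.invol B R.nondeg f

theorem exists_smul [FiniteDimensional F V] {w x : V} (h : ∀ z, B z w = 0 → B z x = 0) : ∃ c : F, x = c • w := by
  by_contra hc
  push Not at hc
  obtain ⟨f, f1, f0⟩ := exists_dual_pair (F := F) (u := w) (v := x) fun c e => hc c e.symm
  obtain ⟨z, rfl⟩ := R.repr f
  exact one_ne_zero (f1.symm.trans (h z f0))

theorem exists_equiv [FiniteDimensional F V] (f : V →ₗ[F] V) {m : F} (hm : m ≠ 0)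
    (hf : ∀ x y, B (f x) (f y) = m * B x y) : ∃ g : V ≃ₗ[F] V, ∀ x, g x = f x :=
  ⟨LinearEquiv.ofInjectiveEndo f (by
    rw [← LinearMap.ker_eq_bot, eq_bot_iff]
    refine fun x hx => R.nondeg x fun y => mul_left_cancel₀ hm ?_
    rw [← hf, LinearMap.mem_ker.1 hx]; simp), fun _ => rfl⟩

/-- Non-zero vectors orthogonal to a small family. -/
theorem exists_perp [FiniteDimensional F V] (U : Submodule F V) {ι : Type*} [Fintype ι] (a : ι → V)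
    (h : Fintype.card ι < finrank F U) : ∃ u ∈ U, u ≠ 0 ∧ ∀ i, B (a i) u = 0 := by
  obtain ⟨u, hu, h0⟩ := Submodule.exists_mem_ne_zero_of_ne_bot (LinearMap.ker_ne_bot_of_finrank_lt
    (f := (LinearMap.pi fun i => B (a i)) ∘ₗ U.subtype) (by simpa using h))
  exact ⟨u, u.2, fun e => h0 (Subtype.ext e), fun i => congrFun (LinearMap.mem_ker.1 hu) i⟩

theorem exists_pair_perp [FiniteDimensional F V] (h3 : 3 ≤ finrank F V) {w w' : V} (hw : B w w = 0)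
    (h : B w w' = 1) : ∃ y y', B w y = 0 ∧ B w y' = 0 ∧ B y y' = 1 := by
  obtain ⟨y, -, y0, hy⟩ := R.exists_perp ⊤ ![w, w'] (by simp; omega)
  obtain ⟨z, hz⟩ := R.exists_one y0
  exact ⟨y, z - B w z • w', hy 0, by simp [h], by simp [hz, show B y w' = 0 from R.flip0 (hy 1)]⟩

end RF

/-- A tensor decomposition compatible with forms. -/
structure TF (σ : F →+* F) (ε₁ ε₂ ε : F) (B₁ : V₁ →ₛₗ[σ] V₁ →ₗ[F] F) (B₂ : V₂ →ₛₗ[σ] V₂ →ₗ[F] F)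
    (B : V →ₛₗ[σ] V →ₗ[F] F) extends TL F V₁ V₂ V where
  r₁ : RF σ ε₁ B₁
  r₂ : RF σ ε₂ B₂
  r : RF σ ε B
  form : ∀ a y a' y', B (E (a ⊗ₜ y)) (E (a' ⊗ₜ y')) = B₁ a a' * B₂ y y'

namespace TF

variable {B₁ : V₁ →ₛₗ[σ] V₁ →ₗ[F] F} {B₂ : V₂ →ₛₗ[σ] V₂ →ₗ[F] F} {B : V →ₛₗ[σ] V →ₗ[F] F}
  (T : TF σ ε₁ ε₂ ε B₁ B₂ B)

/-- The same decomposition with the factors interchanged. -/
noncomputable def sw : TF σ ε₂ ε₁ ε B₂ B₁ B :=
  { T.toTL.swap with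
    r₁ := T.r₂, r₂ := T.r₁, r := T.r, form := fun y a y' a' => (T.form a y a' y').trans (mul_comm _ _) }

/-- Contraction of the second factor with `u`. -/
noncomputable abbrev ψ' (u : V₂) : V →ₗ[F] V₁ := T.ψ (B₂ u)

/-- Contraction of the first factor with `b`. -/
noncomputable abbrev φ' (b : V₁) : V →ₗ[F] V₂ := T.φ (B₁ b)

/-- The subspace `V₁ ⊗ w`. -/
noncomputable abbrev L (w : V₂) : Submodule F V := T.swap.M w

/-- The map `1 ⊗ (y ↦ B₂(u, y) u)`. -/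
noncomputable abbrev κ' (u : V₂) : V →ₗ[F] V := T.κ u (B₂ u)

theorem sw_tm (y : V₂) (a : V₁) : T.sw.tm y a = T.tm a y := rfl

theorem sw_ψ' (b : V₁) : T.sw.ψ' b = T.φ' b := LinearMap.congr_fun T.swap_ψ _

theorem sw_φ' (u : V₂) : T.sw.φ' u = T.ψ' u := rfl

theorem sw_kron (a : V₁ ≃ₗ[F] V₁) (t : V₂ ≃ₗ[F] V₂) : T.sw.kron t a = T.kron a t := T.swap_kron a t

theorem sw_KS : T.sw.KS = T.KS := T.KS_swap

theorem sw_L (v : V₁) : T.sw.L v = T.M v := rfl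

theorem mem_L {w : V₂} {x : V} : x ∈ T.L w ↔ ∃ a, x = T.tm a w := T.swap.mem_M

theorem tm_mem_L (a : V₁) (w : V₂) : T.tm a w ∈ T.L w := ⟨a, rfl⟩

theorem B_tm (a : V₁) (y : V₂) (a' : V₁) (y' : V₂) : B (T.tm a y) (T.tm a' y') = B₁ a a' * B₂ y y' := T.form _ _ _ _

theorem B_ψ (b : V₁) (u : V₂) (x : V) : B (T.tm b u) x = B₁ b (T.ψ' u x) :=
  T.ext_tm (f := B (T.tm b u)) (g := B₁ b ∘ₗ T.ψ' u) (fun a y => by simp [B_tm, T.ψ_tm, mul_comm]) x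

theorem B_φ (b : V₁) (u : V₂) (x : V) : B (T.tm b u) x = B₂ u (T.φ' b x) := by rw [B_ψ, T.φ_ψ]

theorem kron_mem_UG {a : V₁ ≃ₗ[F] V₁} {t : V₂ ≃ₗ[F] V₂}
    (h : ∀ x x' y y', B₁ (a x) (a x') * B₂ (t y) (t y') = B₁ x x' * B₂ y y') : T.kron a t ∈ UG B := fun u v =>
  T.ind (P := fun u => B (T.kron a t u) (T.kron a t v) = B u v) (by simp)
    (fun x y => T.ext_tm (f := B (T.kron a t (T.tm x y)) ∘ₗ (T.kron a t : V →ₗ[F] V)) (g := B (T.tm x y))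
      (fun x' y' => by simp [T.kron_tm, B_tm, h]) v) (fun x y hx hy => by simp [hx, hy]) u

theorem kron_mem_UG' {a : V₁ ≃ₗ[F] V₁} {t : V₂ ≃ₗ[F] V₂} (ha : a ∈ UG B₁) (ht : t ∈ UG B₂) : T.kron a t ∈ UG B :=
  T.kron_mem_UG fun x x' y y' => by rw [ha, ht]

theorem ψ'_kron (a : V₁ ≃ₗ[F] V₁) {t : V₂ ≃ₗ[F] V₂} (ht : t ∈ UG B₂) (u : V₂) (x : V) :
    T.ψ' u (T.kron a t x) = a (T.ψ' (t⁻¹ u) x) := by
  rw [T.ψ_kron]
  congr 3
  ext y
  exact UG_apply_right ht u y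

theorem φ'_kron {a : V₁ ≃ₗ[F] V₁} (ha : a ∈ UG B₁) (t : V₂ ≃ₗ[F] V₂) (b : V₁) (x : V) :
    T.φ' b (T.kron a t x) = t (T.φ' (a⁻¹ b) x) := by
  rw [← sw_ψ', ← sw_ψ', ← sw_kron, T.sw.ψ'_kron _ ha]

theorem κ'_κ' {u : V₂} (hu : B₂ u u = 0) (x : V) : T.κ' u (T.κ' u x) = 0 := by simp [T.κ_apply, T.ψ_tm, hu]

theorem unip_κ'_mem_KS {u : V₂} (hu : B₂ u u = 0) (c : F) : unip (T.κ' u) (T.κ'_κ' hu) c ∈ T.KS := by
  have h : (c • B₂ u) u = 0 := by simp [hu]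
  refine ⟨1, LinearEquiv.transvection h, T.equiv_ext fun a y => ?_⟩
  simp [T.kron_tm, unip_apply, T.κ_apply, T.ψ_tm, LinearMap.transvection.apply, mul_smul]

theorem range_κ' {u : V₂} (hu : u ≠ 0) : LinearMap.range (T.κ' u) = T.L u :=
  T.swap.range_τ u fun e => hu (T.r₂.nondeg u fun y => by rw [e]; rfl)

theorem ext_perp {W : Type*} [AddCommGroup W] [Module F W] {w w' : V₂} (h : B₂ w w' = 1) {f g : V →ₗ[F] W}
    (hf : ∀ a y, B₂ w y = 0 → f (T.tm a y) = g (T.tm a y)) {x : V} (hx : T.ψ' w x = 0) : f x = g x := by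
  have := T.ext_tm (f := f ∘ₗ (LinearMap.id - T.κ w' (B₂ w))) (g := g ∘ₗ (LinearMap.id - T.κ w' (B₂ w)))
    (fun a y => by simpa [T.κ_apply, T.ψ_tm] using hf a (y - B₂ w y • w') (by simp [h])) x
  simpa [T.κ_apply, hx] using this

theorem mem_L_of [FiniteDimensional F V₂] {w : V₂} (hw : w ≠ 0) {x : V}
    (h : ∀ z, B₂ z w = 0 → T.ψ' z x = 0) : x ∈ T.L w :=
  T.swap.mem_M_of_φ hw fun f hf => by
    obtain ⟨z, rfl⟩ := T.r₂.repr f
    exact h z hf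

theorem eq_zero_of_ψ' {x : V} (h : ∀ z, T.ψ' z x = 0) : x = 0 :=
  T.r.nondeg' x (T.ind (P := fun y => B y x = 0) (by simp) (fun a y => by rw [B_ψ, h, map_zero])
    fun y z hy hz => by simp [hy, hz])

/-- The unipotent radical of the stabiliser of `V₁ ⊗ w`. -/
structure Rad (w : V₂) (h : V ≃ₗ[F] V) : Prop where
  fix : ∀ a, h (T.tm a w) = T.tm a w
  sub : ∀ x, T.ψ' w x = 0 → h x - x ∈ T.L w

variable {T} {X : Subgroup (V ≃ₗ[F] V)} {w w' : V₂}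

theorem ψ'_of_stab {k : V ≃ₗ[F] V} (hk : k ∈ UG B) {α : V₁ ≃ₗ[F] V₁} (h : ∀ a, k (T.tm a w) = T.tm (α a) w)
    (b : V₁) (x : V) : B₁ (α b) (T.ψ' w (k x)) = B₁ b (T.ψ' w x) := by rw [← B_ψ, ← h, hk, B_ψ]

theorem ψ'_eq_zero_of_stab {k : V ≃ₗ[F] V} (hk : k ∈ UG B) {α : V₁ ≃ₗ[F] V₁}
    (h : ∀ a, k (T.tm a w) = T.tm (α a) w) {x : V} (hx : T.ψ' w x = 0) : T.ψ' w (k x) = 0 :=
  T.r₁.nondeg' _ fun b => by rw [← apply_inv_apply α b, ψ'_of_stab hk h, hx, map_zero]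

theorem Rad.ψ'_eq {h : V ≃ₗ[F] V} (R : T.Rad w h) (hh : h ∈ UG B) (x : V) : T.ψ' w (h x) = T.ψ' w x :=
  T.r₁.ext' fun b => ψ'_of_stab hh (α := 1) R.fix b x

theorem Rad.mul {h h' : V ≃ₗ[F] V} (R : T.Rad w h) (R' : T.Rad w h') : T.Rad w (h * h') :=
  ⟨fun a => by rw [LinearEquiv.mul_apply, R'.fix, R.fix], fun x hx => by
    obtain ⟨a, e⟩ := T.mem_L.1 (R'.sub x hx)
    have := add_mem (R.sub x hx) (T.tm_mem_L a w)
    rwa [← R.fix, ← e, map_sub, add_comm, sub_add_sub_cancel] at this⟩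

theorem Rad.inv {h : V ≃ₗ[F] V} (R : T.Rad w h) : T.Rad w h⁻¹ :=
  have h1 : ∀ a, h⁻¹ (T.tm a w) = T.tm a w := fun a => h.injective (by rw [apply_inv_apply, R.fix])
  ⟨h1, fun x hx => by
    obtain ⟨a, e⟩ := T.mem_L.1 (R.sub x hx)
    have := neg_mem (T.tm_mem_L a w)
    rwa [← h1, ← e, map_sub, inv_apply_apply, neg_sub] at this⟩

theorem Rad.conj {h k : V ≃ₗ[F] V} (R : T.Rad w h) (hk : k ∈ UG B) {α : V₁ ≃ₗ[F] V₁}
    (e : ∀ a, k (T.tm a w) = T.tm (α a) w) : T.Rad w (k⁻¹ * h * k) :=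
  ⟨fun a => by rw [LinearEquiv.mul_apply, LinearEquiv.mul_apply, e, R.fix, ← e, inv_apply_apply], fun x hx => by
    obtain ⟨a, e'⟩ := T.mem_L.1 (R.sub _ (ψ'_eq_zero_of_stab hk e hx))
    refine T.mem_L.2 ⟨α⁻¹ a, k.injective ?_⟩
    rw [e, apply_inv_apply, ← e', map_sub, LinearEquiv.mul_apply, LinearEquiv.mul_apply, apply_inv_apply]⟩

variable [FiniteDimensional F V₁] [FiniteDimensional F V₂]

theorem exists_kron_one {h : V ≃ₗ[F] V} (hK : h ∈ T.KS) (hw : w ≠ 0) (hf : ∀ a, h (T.tm a w) = T.tm a w) :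
    ∃ t, h = T.kron 1 t := by
  obtain ⟨a, t, rfl⟩ := hK
  obtain ⟨f, hf'⟩ := exists_dual_eq_one (F := F) (t.map_ne_zero_iff.2 hw)
  have h1 : ∀ x, a x = f w • x := fun x => by
    simpa [T.kron_tm, T.ψ_tm, hf'] using congrArg (T.ψ f) (hf x)
  by_cases h0 : f w = 0
  · exact ⟨1, T.equiv_ext fun x y => by
      have : x = 0 := a.injective (by simp [h1, h0])
      simp [this]⟩
  exact ⟨Units.mk0 _ h0 • t, T.equiv_ext fun x y => by simp [T.kron_tm, h1]⟩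

theorem Rad.exists_z [Nontrivial V₁] {h : V ≃ₗ[F] V} (R : T.Rad w h) (hK : h ∈ T.KS) (hw : B₂ w w' = 1) :
    ∃ z, B₂ w z = 0 ∧ ∀ x, T.ψ' w x = 0 → h x = x - T.tm (T.ψ' z x) w := by
  have hw0 : w ≠ 0 := fun e => by simp [e] at hw
  obtain ⟨t, rfl⟩ := exists_kron_one hK hw0 R.fix
  obtain ⟨b, hb⟩ := exists_ne (0 : V₁)
  obtain ⟨f, hf⟩ := exists_dual_eq_one (F := F) hw0
  obtain ⟨z, hz⟩ := T.r₂.repr (f ∘ₗ (LinearMap.id - (t : V₂ →ₗ[F] V₂)))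
  have htw : t w = w := T.tm_injective hb ((T.kron_tm 1 t b w).symm.trans (R.fix b))
  refine ⟨z, T.r₂.flip0 (by simp [hz, htw]), fun x hx => T.ext_perp hw (f := T.kron 1 t)
    (g := LinearMap.id - T.κ w (B₂ z)) (fun a y hy => ?_) hx⟩
  have h1 := R.sub (T.tm b y) (by simp [T.ψ_tm, hy])
  rw [T.kron_tm, LinearEquiv.coe_one, id, ← map_sub] at h1
  obtain ⟨c, hc⟩ := T.swap.exists_smul_of_tm_mem hb h1
  have h2 : t y = y + c • w := by rw [← hc]; abel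
  simp [T.kron_tm, T.κ_apply, T.ψ_tm, hz, h2, hf]

/-- The stabiliser of `V₁ ⊗ w` consists of Kronecker products. -/
theorem mem_KS_of_stab [Nontrivial V₁] (hX : X ≤ UG B) (h3 : 3 ≤ finrank F V₂) (hw : B₂ w w = 0)
    (hww : B₂ w w' = 1) (hw' : B₂ w' w' = 0)
    (hE : ∀ z, B₂ w z = 0 → ∃ e ∈ X, T.Rad w e ∧ ∀ x, T.ψ' w x = 0 → e x = x - T.tm (T.ψ' z x) w)
    (hN : ∀ h ∈ X, T.Rad w h → h ∈ T.KS)
    (hK : ∀ a t, ∀ k ∈ X, T.kron a t ∈ UG B → T.Rad w ((T.kron a t)⁻¹ * k) → T.kron a t ∈ X)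
    {k : V ≃ₗ[F] V} (hk : k ∈ X) (h : ∀ a, k (T.tm a w) ∈ T.L w) : k ∈ T.KS := by
  have hw0 : w ≠ 0 := fun e => by simp [e] at hww
  obtain ⟨α, hα⟩ : ∃ α : V₁ ≃ₗ[F] V₁, ∀ a, k (T.tm a w) = T.tm (α a) w := T.swap.exists_stab hw0 h
  have h1 : ∀ z, B₂ z w = 0 → ∃ z', ∀ x, T.ψ' w x = 0 → T.ψ' z (k x) = α (T.ψ' z' x) := fun z hz => by
    obtain ⟨e, he, R, e1⟩ := hE z (T.r₂.flip0 hz)
    obtain ⟨z', -, e2⟩ := (R.conj (hX hk) hα).exists_z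
      (hN _ (mul_mem (mul_mem (inv_mem hk) he) hk) (R.conj (hX hk) hα)) hww
    refine ⟨z', fun x hx => T.tm_left_injective hw0 ?_⟩
    have := congrArg k (e2 x hx)
    rwa [LinearEquiv.mul_apply, LinearEquiv.mul_apply, apply_inv_apply, e1 _ (ψ'_eq_zero_of_stab (hX hk) hα hx),
      map_sub, hα, sub_right_inj] at this
  obtain ⟨a₀, ha₀⟩ := exists_ne (0 : V₁)
  obtain ⟨f, hf⟩ := exists_dual_eq_one (F := F) (α.map_ne_zero_iff.2 ha₀)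
  let t : V₂ →ₗ[F] V₂ := T.φ f ∘ₗ (k : V →ₗ[F] V) ∘ₗ T.tm a₀
  have ht : ∀ y, t y = T.φ f (k (T.tm a₀ y)) := fun y => rfl
  have hp : ∀ a y, B₂ w y = 0 → T.ψ' w (T.tm a y) = 0 := fun a y hy => by simp [T.ψ_tm, hy]
  have h2 : ∀ a y, B₂ w y = 0 → ∃ b, k (T.tm a y) = T.tm (α a) (t y) + T.tm b w := fun a y hy => by
    obtain ⟨b, hb⟩ := T.mem_L.1 (T.mem_L_of hw0 (x := k (T.tm a y) - T.tm (α a) (t y)) fun z hz => by
      obtain ⟨z', e⟩ := h1 z hz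
      rw [map_sub, T.ψ_tm, ht, T.φ_ψ, e _ (hp _ _ hy), e _ (hp _ _ hy)]
      simp [T.ψ_tm, hf])
    exact ⟨b, by rw [← hb]; abel⟩
  have h4 : ∀ y, B₂ w y = 0 → B₂ w (t y) = 0 := fun y hy => by
    rw [ht, T.φ_ψ, ψ'_eq_zero_of_stab (hX hk) hα (hp _ _ hy), map_zero]
  have h5 : t w = w := by rw [ht, hα, T.φ_tm, hf, one_smul]
  have h6 : ∀ a b y y', B₂ w y = 0 → B₂ w y' = 0 → B₁ (α a) (α b) * B₂ (t y) (t y') = B₁ a b * B₂ y y' :=
    fun a b y y' hy hy' => by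
      obtain ⟨c, e⟩ := h2 a y hy
      obtain ⟨c', e'⟩ := h2 b y' hy'
      have := hX hk (T.tm a y) (T.tm b y')
      simpa [e, e', B_tm, hw, h4 y' hy', T.r₂.flip0 (h4 y hy)] using this
  obtain ⟨y₀, y₁, p0, p1, p2⟩ := T.r₂.exists_pair_perp h3 hw hww
  obtain ⟨a₁, ha₁⟩ := T.r₁.exists_one ha₀
  set m := B₂ (t y₀) (t y₁) with hm
  have h7 : ∀ a b, B₁ (α a) (α b) * m = B₁ a b := fun a b => by rw [h6 a b y₀ y₁ p0 p1, p2, mul_one]
  have h8 : ∀ y y', B₂ w y = 0 → B₂ w y' = 0 → B₂ (t y) (t y') = m * B₂ y y' := fun y y' hy hy' => by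
    have := h6 a₀ a₁ y y' hy hy'
    have e := h7 a₀ a₁
    rw [ha₁] at this e
    linear_combination m * this - B₂ (t y) (t y') * e
  have hm0 : m ≠ 0 := fun e => by simpa [e, ha₁] using h7 a₀ a₁
  have hσm : σ m = m := by
    have e1 := congrArg σ (h7 a₀ a₁)
    have e2 := h7 a₁ a₀
    rw [T.r₁.symm (α a₀), T.r₁.symm a₀, ha₁] at e2
    rw [map_mul, ha₁] at e1
    have e3 := T.r₁.eps_ne
    have e4 : σ (B₁ (α a₀) (α a₁)) * m = σ 1 := mul_left_cancel₀ e3 (by linear_combination e2)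
    linear_combination (σ m) * e4.symm + m * e1 + (σ m - m) * (map_one σ).symm
  let π : V₂ →ₗ[F] V₂ := LinearMap.id - (B₂ w).smulRight w'
  have hπ : ∀ y, B₂ w (π y) = 0 := fun y => by simp [π, hww]
  let s : V₂ →ₗ[F] V₂ := t ∘ₗ π - (σ ε₂ • (B₂ w' ∘ₗ (t - LinearMap.id) ∘ₗ π)).smulRight w + (m • B₂ w).smulRight w'
  have hs : ∀ y, s y = t (π y) - (σ ε₂ * (B₂ w' (t (π y)) - B₂ w' (π y))) • w + (m * B₂ w y) • w' := fun y => by
    simp [s]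
  have e21 : B₂ w' w = ε₂ := by rw [T.r₂.symm, hww, map_one, mul_one]
  have h9 : ∀ y y', B₂ (s y) (s y') = m * B₂ y y' := fun y y' => by
    have d : ∀ y, y = π y + B₂ w y • w' := fun y => by simp [π]
    conv_rhs => rw [d y, d y']
    have := T.r₂.eps
    simp only [hs, map_add, map_sub, map_smul, map_smulₛₗ, LinearMap.add_apply, LinearMap.sub_apply,
      LinearMap.smul_apply, smul_eq_mul, h8 _ _ (hπ y) (hπ y'), h4 _ (hπ y'), T.r₂.flip0 (h4 _ (hπ y)), hw, hww, hw',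
      e21, map_mul, hσm, T.r₂.invol, T.r₂.symm w' (t (π y)), T.r₂.symm w' (π y), RingHom.id_apply]
    linear_combination (-(m * σ (B₂ w y) * (B₂ w' (t (π y')) - B₂ w' (π y')))) * this
  obtain ⟨s', hs'⟩ := T.r₂.exists_equiv s hm0 h9
  have hU : T.kron α s' ∈ UG B := T.kron_mem_UG fun x x' y y' => by rw [hs', hs', h9, ← mul_assoc, h7]
  have hπ' : ∀ y, B₂ w y = 0 → π y = y := fun y hy => by simp [π, hy]
  have hsw : s' w = w := by simp [hs', hs, hπ' w hw, h5, hw]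
  have hi : ∀ a, (T.kron α s')⁻¹ (T.tm a w) = T.tm (α⁻¹ a) w := fun a =>
    (T.kron α s').injective (by rw [apply_inv_apply, T.kron_tm, apply_inv_apply, hsw])
  have R : T.Rad w ((T.kron α s')⁻¹ * k) := ⟨fun a => by rw [LinearEquiv.mul_apply, hα, hi, inv_apply_apply],
    fun x hx => by
      rw [← Submodule.Quotient.eq]
      refine T.ext_perp hww (f := (T.L w).mkQ ∘ₗ (((T.kron α s')⁻¹ * k : V ≃ₗ[F] V) : V →ₗ[F] V)) (g := (T.L w).mkQ)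
        (fun a y hy => (Submodule.Quotient.eq _).2 ?_) hx
      obtain ⟨b, e⟩ := h2 a y hy
      have : T.tm (α a) (t y) = T.kron α s' (T.tm a y) +
          T.tm ((σ ε₂ * (B₂ w' (t y) - B₂ w' y)) • α a) w := by simp [T.kron_tm, hs', hs, hπ' y hy, hy]
      rw [LinearEquiv.coe_coe, LinearEquiv.mul_apply, e, this, map_add, map_add, inv_apply_apply, hi, hi, add_assoc,
        add_sub_cancel_left]
      exact add_mem (T.tm_mem_L _ _) (T.tm_mem_L _ _)⟩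
  simpa using mul_mem (T.kron_mem_KS α s') (hN _ (mul_mem (inv_mem (hK α s' k hk hU R)) hk) R)

variable [FiniteDimensional F V] [Finite F] [Nontrivial V₁]

theorem exists_range_cnj (hlt : finrank F V₁ < finrank F V₂) {u : V₂} (hu0 : u ≠ 0) (hu : B₂ u u = 0) {c : F}
    (hc : c ≠ 0) {g : V ≃ₗ[F] V} (hg : g ∈ UG B) (h : unip _ (cnj_cnj (T.κ'_κ' hu) g) c ∈ T.KS) :
    ∃ u' ≠ 0, B₂ u' u' = 0 ∧ LinearMap.range (cnj g (T.κ' u)) = T.L u' ∧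
      ∃ t, unip _ (cnj_cnj (T.κ'_κ' hu) g) c = T.kron 1 t := by
  obtain ⟨a, ha⟩ := exists_ne (0 : V₁)
  have h1 : finrank F (LinearMap.range (cnj g (T.κ' u))) = finrank F V₁ := by
    rw [finrank_range_cnj, T.range_κ' hu0, T.swap.finrank_M hu0]
  obtain ⟨u', h0, e, ht⟩ := TL.exists_range_eq_of_unip hlt _ hc h h1.le fun e => by
    rw [e, LinearMap.range_zero, finrank_bot] at h1
    exact (finrank_pos (R := F) (M := V₁)).ne h1
  refine ⟨u', h0, ?_, e, ht⟩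
  obtain ⟨b, hb⟩ := T.r₁.exists_one ha
  obtain ⟨x, hx⟩ := e.ge (T.tm_mem_L a u')
  obtain ⟨y, hy⟩ := e.ge (T.tm_mem_L b u')
  have := T.B_tm a u' b u'
  rw [← hx, ← hy, cnj_apply, cnj_apply, hg, T.κ_apply, T.κ_apply, B_tm, hu, hb] at this
  simpa using this.symm

/-- The maps `1 ⊗ t`, `t` a transvection, fix a unique tensor decomposition. -/
theorem uf_κ' (hX : X ≤ UG B) (hlt : finrank F V₁ < finrank F V₂)
    (hQ : ∀ u u', u ≠ 0 → u' ≠ 0 → B₂ u u = 0 → B₂ u' u' = 0 → ∀ k ∈ X, (∀ a, k (T.tm a u) ∈ T.L u') → k ∈ T.KS)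
    {u : V₂} (hu0 : u ≠ 0) (hu : B₂ u u = 0) {c : F} (hc : c ≠ 0) (hk : unip (T.κ' u) (T.κ'_κ' hu) c ∈ X) :
    UF X T.KS (unip (T.κ' u) (T.κ'_κ' hu) c) := ⟨hk, T.unip_κ'_mem_KS hu c, fun g hg h => by
  obtain ⟨u', h0, h1, e, -⟩ := exists_range_cnj hlt hu0 hu hc (inv_mem (hX hg)) (by rwa [unip_cnj, inv_inv])
  refine hQ u' u h0 hu0 h1 hu g hg fun a => ?_
  obtain ⟨x, hx⟩ := e.ge (T.tm_mem_L a u')
  rw [← hx, cnj_apply, apply_inv_apply]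
  exact T.tm_mem_L _ _⟩

theorem mem_KS_of_ψ' (hX : X ≤ UG B) (hlt : finrank F V₁ < finrank F V₂) {c : F} (hc : c ≠ 0)
    (hU : ∀ u, u ≠ 0 → ∀ hu : B₂ u u = 0, UF X T.KS (unip (T.κ' u) (T.κ'_κ' hu) c)) {g : V ≃ₗ[F] V} (hg : g ∈ X)
    (hw0 : w ≠ 0) (hw : B₂ w w = 0) {a : V₁} (ha : a ≠ 0) {u : V₂} (hu0 : u ≠ 0) (hu : B₂ u u = 0)
    (h1 : T.ψ' u (g (T.tm a w)) = 0) (h2 : g (T.tm a w) ∉ T.L u) : g ∈ T.KS := by
  have := finite_linearEquiv (F := F) (V := V)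
  obtain ⟨p, hp⟩ := CharP.exists F
  have hpp : Fact p.Prime := ⟨CharP.char_is_prime F p⟩
  have hσ := cnj_cnj (T.κ'_κ' hw) g
  have hs : unip _ hσ c ∈ X := unip_cnj (T.κ'_κ' hw) g c ▸ mul_mem (mul_mem hg (hU w hw0 hw).memX) (inv_mem hg)
  have hΓ : Subgroup.closure {unip _ hσ c, unip _ (T.κ'_κ' hu) c} ≤ X :=
    (Subgroup.closure_le _).2 (by rintro _ (rfl | rfl); exacts [hs, (hU u hu0 hu).memX])
  obtain ⟨γ, hγ, h⟩ := (hU u hu0 hu).exists_conj (unip_pow_char _ c) hΓ (Subgroup.subset_closure (Or.inr rfl))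
    (Subgroup.subset_closure (Or.inl rfl)) (unip_pow_char _ c)
  have hγ' := closure_pair_le_PG _ _ _ _ hγ
  obtain ⟨a', c', R⟩ := exists_PR _ _ hγ'
  obtain ⟨u', h0, -, e, -⟩ := exists_range_cnj hlt hw0 hw hc (hX (mul_mem (hΓ hγ) hg)) (by
    rw [unip_cnj (T.κ'_κ' hw)] at h ⊢
    simpa [mul_assoc] using h)
  rw [cnj_mul] at e
  have hx : g (T.tm a w) ∈ T.L u' := by
    rw [← e, range_cnj, range_cnj, T.range_κ' hw0]
    refine ⟨_, ⟨_, T.tm_mem_L a w, rfl⟩, PG_fix hγ' ?_ (by simp [T.κ_apply, h1])⟩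
    simp [cnj_apply, inv_apply_apply, T.κ_apply, T.ψ_tm, hw]
  obtain ⟨b, hb⟩ := T.mem_L.1 hx
  have hb0 : b ≠ 0 := fun e => T.tm_ne_zero ha hw0 (g.injective (by simp [hb, e]))
  have h3 : B₂ u u' = 0 := by simpa [hb, T.ψ_tm, hb0] using h1
  have h4 := (hU u hu0 hu).mem_of_κσκ hs (R.κσκ (fun x => by
      obtain ⟨b', e'⟩ := T.mem_L.1 (e ▸ LinearMap.mem_range_self _ (T.κ' u x))
      rw [e']; simp [T.κ_apply, T.ψ_tm, h3]) fun y hy hy' => by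
      by_contra hy0
      rw [T.range_κ' hu0] at hy'
      exact h2 ((T.swap.M_eq_of_inf ((Submodule.ne_bot_iff _).2 ⟨y, ⟨e.le hy, hy'⟩, hy0⟩)).le hx))
  rw [unip_cnj (T.κ'_κ' hw)] at h4
  simpa using inv_mem ((hU w hw0 hw).uniq g⁻¹ (inv_mem hg) (by rwa [inv_inv]))

end TF

end CL.Sp
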