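import Cfsg.Agent.Cls.TenForm

set_option autoImplicit false

/-!
The unipotent radical of the stabiliser of `V₁ ⊗ w`: the elements of a subgroup `X` in its centre and in its central
quotient as additive groups of linear maps.
-/

namespace CL.Sp.TF

open Module CL.SLn
open CL.Uni (UG UG_apply_left UG_apply_right)

variable {F V₁ V₂ V : Type*} [Field F] [AddCommGroup V₁] [Module F V₁] [AddCommGroup V₂] [Module F V₂]
  [AddCommGroup V] [Module F V] {σ : F →+* F} {ε ε₁ ε₂ : F}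
  {B₁ : V₁ →ₛₗ[σ] V₁ →ₗ[F] F} {B₂ : V₂ →ₛₗ[σ] V₂ →ₗ[F] F} {B : V →ₛₗ[σ] V →ₗ[F] F}
  (T : TF σ ε₁ ε₂ ε B₁ B₂ B) {X : Subgroup (V ≃ₗ[F] V)} {w w' : V₂}

theorem ψ'_tm (u : V₂) (a : V₁) (y : V₂) : T.ψ' u (T.tm a y) = B₂ u y • a := T.ψ_tm _ _ _

theorem ψ'_smul (c : F) (u : V₂) (x : V) : T.ψ' (c • u) x = σ c • T.ψ' u x := by simp [ψ']

theorem ψ'_add (u u' : V₂) (x : V) : T.ψ' (u + u') x = T.ψ' u x + T.ψ' u' x := by simp [ψ']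

theorem mem_of_perp (h : B₂ w w' = 1) {S : Submodule F V} (hS : ∀ a y, B₂ w y = 0 → T.tm a y ∈ S) {x : V}
    (hx : T.ψ' w x = 0) : x ∈ S :=
  (Submodule.Quotient.mk_eq_zero S).1 (T.ext_perp h (f := S.mkQ) (g := 0)
    (fun a y hy => (Submodule.Quotient.mk_eq_zero S).2 (hS a y hy)) hx)

theorem mem_L_of_perp [FiniteDimensional F V₂] (hw : w ≠ 0) {x : V} (h : ∀ y, T.ψ' w y = 0 → B y x = 0) :
    x ∈ T.L w :=
  T.mem_L_of hw fun z hz => T.r₁.nondeg' _ fun b => by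
    rw [← B_ψ]; exact h _ (by simp [T.ψ_tm, T.r₂.flip0 hz])

theorem B_ψ' (x : V) (b : V₁) (u : V₂) : B x (T.tm b u) = ε₂ * B₁ (T.ψ' u x) b :=
  T.ind (P := fun x => B x (T.tm b u) = ε₂ * B₁ (T.ψ' u x) b) (by simp)
    (fun a y => by simp [B_tm, T.ψ_tm, T.r₂.symm u y]; ring) (fun x y hx hy => by simp [hx, hy, mul_add]) x

include T in
theorem flip_one (h : B₂ w w' = 1) : B₂ w' w = ε₂ := by rw [T.r₂.symm, h, map_one, mul_one]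

/-- The elements of `X` in the centre of the radical. -/
def ZA (X : Subgroup (V ≃ₗ[F] V)) (hw : B₂ w w = 0) : AddSubgroup (V₁ →ₗ[F] V₁) where
  carrier := {A | ∃ h ∈ X, ∀ x, h x = x + T.tm (A (T.ψ' w x)) w}
  zero_mem' := ⟨1, one_mem _, fun x => by simp⟩
  add_mem' := by
    rintro A A' ⟨h, hh, e⟩ ⟨h', hh', e'⟩
    exact ⟨h * h', mul_mem hh hh', fun x => by simp [e, e', T.ψ_tm, hw]; abel⟩
  neg_mem' := by
    rintro A ⟨h, hh, e⟩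
    exact ⟨h⁻¹, inv_mem hh, fun x => h.injective (by rw [apply_inv_apply, e]; simp [T.ψ_tm, hw])⟩

/-- The elements of `X` in the radical modulo its centre. -/
def RD (X : Subgroup (V ≃ₗ[F] V)) (w : V₂) : AddSubgroup (V →ₗ[F] V₁) where
  carrier := {D | ∃ h ∈ X, T.Rad w h ∧ ∀ x, T.ψ' w x = 0 → h x = x + T.tm (D x) w}
  zero_mem' := ⟨1, one_mem _, ⟨fun _ => rfl, fun x _ => by simp⟩, fun x _ => by simp⟩
  add_mem' := by
    rintro D D' ⟨h, hh, R, e⟩ ⟨h', hh', R', e'⟩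
    exact ⟨h * h', mul_mem hh hh', R.mul R', fun x hx => by
      rw [LinearEquiv.mul_apply, e' x hx, map_add, R.fix, e x hx]; simp [add_assoc]⟩
  neg_mem' := by
    rintro D ⟨h, hh, R, e⟩
    exact ⟨h⁻¹, inv_mem hh, R.inv, fun x hx => h.injective (by
      rw [apply_inv_apply, map_add, R.fix, e x hx]; simp)⟩

variable {T}

theorem Rad.exists_D {h : V ≃ₗ[F] V} (R : T.Rad w h) (hw : w ≠ 0) :
    ∃ D : V →ₗ[F] V₁, ∀ x, T.ψ' w x = 0 → h x = x + T.tm (D x) w := by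
  obtain ⟨f, hf⟩ := exists_dual_eq_one (F := F) hw
  refine ⟨T.ψ f ∘ₗ ((h : V →ₗ[F] V) - LinearMap.id), fun x hx => ?_⟩
  obtain ⟨a, e⟩ := T.mem_L.1 (R.sub x hx)
  simp [e, T.ψ_tm, hf, ← sub_eq_iff_eq_add']

theorem RD_congr {D D' : V →ₗ[F] V₁} (h : D ∈ T.RD X w) (e : ∀ x, T.ψ' w x = 0 → D' x = D x) : D' ∈ T.RD X w := by
  obtain ⟨k, hk, R, e'⟩ := h
  exact ⟨k, hk, R, fun x hx => by rw [e x hx, e' x hx]⟩

theorem RD_congr' (hw : B₂ w w' = 1) {D D' : V →ₗ[F] V₁} (h : D ∈ T.RD X w)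
    (e : ∀ a y, B₂ w y = 0 → D' (T.tm a y) = D (T.tm a y)) : D' ∈ T.RD X w :=
  RD_congr h fun _ hx => T.ext_perp hw e hx

theorem rad_kron (hw : B₂ w w' = 1) {t : V₂ ≃ₗ[F] V₂} (h1 : t w = w) {z : V₂}
    (ht : ∀ y, B₂ w y = 0 → t y = y + B₂ z y • w) :
    T.Rad w (T.kron 1 t) ∧ ∀ x, T.ψ' w x = 0 → T.kron 1 t x = x + T.tm (T.ψ' z x) w :=
  have h : ∀ x, T.ψ' w x = 0 → T.kron 1 t x = x + T.tm (T.ψ' z x) w := fun x hx =>
    T.ext_perp hw (f := T.kron 1 t) (g := LinearMap.id + T.κ w (B₂ z))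
      (fun a y hy => by simp [T.kron_tm, ht y hy, T.κ_apply, T.ψ_tm]) hx
  ⟨⟨fun a => by simp [T.kron_tm, h1], fun x hx => by rw [h x hx, add_sub_cancel_left]; exact T.tm_mem_L _ _⟩, h⟩

theorem ψ'_mem_RD (hw : B₂ w w' = 1) {t : V₂ ≃ₗ[F] V₂} (hk : T.kron 1 t ∈ X) (h1 : t w = w) {z : V₂}
    (ht : ∀ y, B₂ w y = 0 → t y = y + B₂ z y • w) : T.ψ' z ∈ T.RD X w :=
  ⟨_, hk, rad_kron hw h1 ht⟩

theorem RD_mono {Y : Subgroup (V ≃ₗ[F] V)} (h : X ≤ Y) : T.RD X w ≤ T.RD Y w :=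
  fun _ ⟨k, hk, e⟩ => ⟨k, h hk, e⟩

theorem RD_self (hw0 : w ≠ 0) (hw : B₂ w w = 0) {D : V →ₗ[F] V₁} (h : D ∈ T.RD X w) (a : V₁) : D (T.tm a w) = 0 := by
  obtain ⟨k, -, R, e⟩ := h
  have := e (T.tm a w) (by simp [T.ψ_tm, hw])
  rw [R.fix, left_eq_add] at this
  exact (T.tm_eq_zero this).resolve_right hw0

theorem RD_conj (hX : X ≤ UG B) {D : V →ₗ[F] V₁} (h : D ∈ T.RD X w) {k : V ≃ₗ[F] V} (hk : k ∈ X)
    {α : V₁ ≃ₗ[F] V₁} (e : ∀ a, k (T.tm a w) = T.tm (α a) w) :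
    ((α⁻¹ : V₁ ≃ₗ[F] V₁) : V₁ →ₗ[F] V₁) ∘ₗ D ∘ₗ (k : V →ₗ[F] V) ∈ T.RD X w := by
  obtain ⟨h, hh, R, e'⟩ := h
  refine ⟨k⁻¹ * h * k, mul_mem (mul_mem (inv_mem hk) hh) hk, R.conj (hX hk) e, fun x hx => k.injective ?_⟩
  rw [LinearEquiv.mul_apply, LinearEquiv.mul_apply, apply_inv_apply, e' _ (ψ'_eq_zero_of_stab (hX hk) e hx), map_add,
    e]
  simp

theorem ZA_skew (hX : X ≤ UG B) {hw : B₂ w w = 0} (hww : B₂ w w' = 1) {A : V₁ →ₗ[F] V₁} (h : A ∈ T.ZA X hw)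
    (a b : V₁) : B₁ (A a) b = -(ε₂ * B₁ a (A b)) := by
  obtain ⟨k, hk, e⟩ := h
  have := hX hk (T.tm a w') (T.tm b w')
  simp only [e, T.ψ_tm, hww, one_smul, map_add, LinearMap.add_apply, B_tm, hw, T.flip_one hww] at this
  linear_combination this

theorem ZA_conj {hw : B₂ w w = 0} {A : V₁ →ₗ[F] V₁} (h : A ∈ T.ZA X hw) {a : V₁ ≃ₗ[F] V₁} {t : V₂ ≃ₗ[F] V₂}
    (hk : T.kron a t ∈ X) (ht : t ∈ UG B₂) {u : V₂} (hu : B₂ u u = 0) {c : F} (e : t w = c • u) :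
    (c * σ c) • cnj a A ∈ T.ZA X hu := by
  obtain ⟨k, hh, e'⟩ := h
  refine ⟨T.kron a t * k * (T.kron a t)⁻¹, mul_mem (mul_mem hk hh) (inv_mem hk), fun x => ?_⟩
  rw [LinearEquiv.mul_apply, LinearEquiv.mul_apply, e', map_add, apply_inv_apply, T.kron_tm, T.kron_inv,
    T.ψ'_kron _ (inv_mem ht), inv_inv, e, ψ'_smul]
  simp [cnj_apply, mul_smul]

theorem mem_KS_of_smul (hw : B₂ w w = 0) {h : V ≃ₗ[F] V} {s : F} (e : ∀ x, h x = x + T.tm (s • T.ψ' w x) w) :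
    h ∈ T.KS := by
  have : h = unip (T.κ' w) (T.κ'_κ' hw) s := LinearEquiv.ext fun x => by simp [e, unip_apply, T.κ_apply]
  exact this ▸ T.unip_κ'_mem_KS hw s

variable [FiniteDimensional F V₂]

theorem exists_A (hw : B₂ w w' = 1) {h : V ≃ₗ[F] V} (hh : h ∈ UG B) (e : ∀ x, T.ψ' w x = 0 → h x = x) :
    ∃ A : V₁ →ₗ[F] V₁, ∀ x, h x = x + T.tm (A (T.ψ' w x)) w := by
  have hw0 : w ≠ 0 := fun e => by simp [e] at hw
  obtain ⟨f, hf⟩ := exists_dual_eq_one (F := F) hw0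
  refine ⟨T.ψ f ∘ₗ ((h : V →ₗ[F] V) - LinearMap.id) ∘ₗ T.tm.flip w', fun x => ?_⟩
  obtain ⟨a, ha⟩ := T.mem_L.1 (T.mem_L_of_perp hw0 (x := h (T.tm (T.ψ' w x) w') - T.tm (T.ψ' w x) w') fun y hy => by
    rw [map_sub, ← e y hy, hh, e y hy, sub_self])
  have := e (x - T.tm (T.ψ' w x) w') (by simp [T.ψ_tm, hw])
  rw [map_sub] at this
  simp only [LinearMap.comp_apply, LinearMap.flip_apply, LinearMap.sub_apply, LinearEquiv.coe_coe, LinearMap.id_apply,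
    ha, T.ψ_tm, hf, one_smul]
  linear_combination (norm := module) this + ha

/-- The adjoint of the map induced by an element of the radical. -/
theorem Rad.adj {h : V ≃ₗ[F] V} (R : T.Rad w h) (hh : h ∈ UG B) {D : V →ₗ[F] V₁}
    (e : ∀ x, T.ψ' w x = 0 → h x = x + T.tm (D x) w) {y : V} (hy : T.ψ' w y = 0) (x : V) :
    B y (h x - x) = -B₁ (D y) (T.ψ' w x) := by
  have := hh y x
  rw [e y hy, map_add, LinearMap.add_apply, B_ψ, R.ψ'_eq hh] at this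
  rw [map_sub]
  linear_combination this

/-- Commutators in the radical. -/
theorem exists_comm (hX : X ≤ UG B) (hw : B₂ w w = 0) (hww : B₂ w w' = 1) {h h' : V ≃ₗ[F] V} (hh : h ∈ X)
    (hh' : h' ∈ X) (R : T.Rad w h) (R' : T.Rad w h') {D D' : V →ₗ[F] V₁}
    (e : ∀ x, T.ψ' w x = 0 → h x = x + T.tm (D x) w) (e' : ∀ x, T.ψ' w x = 0 → h' x = x + T.tm (D' x) w) :
    ∃ A ∈ T.ZA X hw, ∀ a, A a = D (h' (T.tm a w') - T.tm a w') - D' (h (T.tm a w') - T.tm a w') := by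
  have hw0 : w ≠ 0 := fun e => by simp [e] at hww
  have h1 : ∀ x, h (h' x) = h' (h x) + T.tm (D (h' x - x) - D' (h x - x)) w := fun x => by
    have e1 := e (h' x - x) (by rw [map_sub, R'.ψ'_eq (hX hh'), sub_self])
    have e2 := e' (h x - x) (by rw [map_sub, R.ψ'_eq (hX hh), sub_self])
    rw [map_sub] at e1 e2
    rw [map_sub, LinearMap.sub_apply]
    linear_combination (norm := module) e1 - e2
  have hk : (h' * h)⁻¹ * (h * h') ∈ X := mul_mem (inv_mem (mul_mem hh' hh)) (mul_mem hh hh')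
  have h2 : ∀ x, ((h' * h)⁻¹ * (h * h')) x = x + T.tm (D (h' x - x) - D' (h x - x)) w := fun x =>
    (h' * h).injective (by
      rw [LinearEquiv.mul_apply _⁻¹, apply_inv_apply, map_add, (R'.mul R).fix]; exact h1 x)
  obtain ⟨A, hA⟩ := exists_A hww (hX hk) fun x hx => by
    rw [h2, e x hx, e' x hx, add_sub_cancel_left, add_sub_cancel_left, RD_self hw0 hw ⟨h, hh, R, e⟩,
      RD_self hw0 hw ⟨h', hh', R', e'⟩]
    simp
  refine ⟨A, ⟨_, hk, hA⟩, fun a => T.tm_left_injective hw0 ?_⟩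
  have := hA (T.tm a w')
  rwa [h2, T.ψ_tm, hww, one_smul, add_right_inj, eq_comm] at this

/-- Commutators with the maps `1 ⊗ e`. -/
theorem exists_comm_ψ (hX : X ≤ UG B) (hw : B₂ w w = 0) (hww : B₂ w w' = 1) {D : V →ₗ[F] V₁} (hD : D ∈ T.RD X w)
    {z : V₂} (hz : B₂ w z = 0) (hE : T.ψ' z ∈ T.RD X w) :
    ∃ A ∈ T.ZA X hw, ∀ a b, B₁ b (A a) = B₁ (D (T.tm b z)) a - σ ε₂ * B₁ b (D (T.tm a z)) := by
  have hw0 : w ≠ 0 := fun e => by simp [e] at hww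
  obtain ⟨h, hh, R, e⟩ := id hD
  obtain ⟨h', hh', R', e'⟩ := hE
  obtain ⟨A, hA, e1⟩ := exists_comm hX hw hww hh hh' R R' e e'
  refine ⟨A, hA, fun a b => ?_⟩
  obtain ⟨c, hc⟩ := T.mem_L.1 (T.mem_L_of_perp hw0 (x := h' (T.tm a w') - T.tm a w' + σ ε₂ • T.tm a z) fun y hy => by
    have := T.r₂.eps
    rw [map_add, R'.adj (hX hh') e' hy, map_smul, B_ψ', T.ψ_tm, hww, one_smul, smul_eq_mul]
    linear_combination B₁ (T.ψ' z y) a * this)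
  rw [e1, eq_sub_of_add_eq hc, map_sub, map_sub, RD_self hw0 hw hD, ← B_ψ,
    R.adj (hX hh) e (by simp [T.ψ_tm, hz]), T.ψ_tm, hww]
  simp
  ring

/-- Two isometries which agree on `(V₁ ⊗ w)^⊥` have the same commutators with suitable maps. -/
theorem comm_eq (hww : B₂ w w' = 1) {h h₀ t : V ≃ₗ[F] V} (hh : h ∈ UG B) (hh₀ : h₀ ∈ UG B)
    (e : ∀ x, T.ψ' w x = 0 → h x = h₀ x) (h1 : ∀ a, t (T.tm a w) = T.tm a w) (h2 : ∀ x, T.ψ' w (t x) = T.ψ' w x) :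
    t * h * t⁻¹ * h⁻¹ = t * h₀ * t⁻¹ * h₀⁻¹ := by
  obtain ⟨A, hA⟩ := exists_A (T := T) hww (mul_mem (inv_mem hh₀) hh) fun x hx => by
    rw [LinearEquiv.mul_apply, e x hx, inv_apply_apply]
  have : t * (h₀⁻¹ * h) = h₀⁻¹ * h * t := LinearEquiv.ext fun x => by
    rw [LinearEquiv.mul_apply, LinearEquiv.mul_apply _ t, hA, hA, map_add, h1, h2]
  calc t * h * t⁻¹ * h⁻¹ = t * h₀ * t⁻¹ * (t * (h₀⁻¹ * h)) * t⁻¹ * h⁻¹ := by group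
    _ = _ := by rw [this]; group

variable [Nontrivial V₁]

theorem mem_KS_of_scalar (hX : X ≤ UG B) (hw : B₂ w w = 0) (hww : B₂ w w' = 1)
    (hE : ∀ z, B₂ w z = 0 → T.ψ' z ∈ T.RD (X ⊓ T.KS) w) (hZ : ∀ A ∈ T.ZA X hw, ∃ s : F, ∀ a, A a = s • a)
    {h : V ≃ₗ[F] V} (hh : h ∈ X) (R : T.Rad w h) {D : V →ₗ[F] V₁} (e : ∀ x, T.ψ' w x = 0 → h x = x + T.tm (D x) w)
    (hD : ∀ z, B₂ w z = 0 → ∃ s : F, ∀ a, D (T.tm a z) = s • a) : h ∈ T.KS := by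
  have hw0 : w ≠ 0 := fun e => by simp [e] at hww
  obtain ⟨a₀, ha₀⟩ := exists_ne (0 : V₁)
  obtain ⟨f, hf⟩ := exists_dual_eq_one (F := F) ha₀
  obtain ⟨z, hz⟩ := T.r₂.repr (f ∘ₗ D ∘ₗ T.tm a₀)
  obtain ⟨k, hk, R', e'⟩ := hE z (T.r₂.flip0 (by simp [hz, RD_self hw0 hw ⟨h, hh, R, e⟩]))
  obtain ⟨A, hA⟩ := exists_A (T := T) hww (mul_mem (inv_mem (hX hk.1)) (hX hh)) fun x hx => k.injective (by
    rw [LinearEquiv.mul_apply, apply_inv_apply, e x hx, e' x hx, T.ext_perp hww (f := D) (g := T.ψ' z)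
      (fun a y hy => by obtain ⟨s, hs⟩ := hD y hy; simp [T.ψ_tm, hz, hs, hf]) hx])
  obtain ⟨s, hs⟩ := hZ A ⟨_, mul_mem (inv_mem hk.1) hh, hA⟩
  have := mul_mem hk.2 (mem_KS_of_smul hw (s := s) fun x => by rw [hA, hs])
  rwa [mul_inv_cancel_left] at this

variable [FiniteDimensional F V₁]

/-- An element of `X` mapping `V₁ ⊗ u` onto `V₁ ⊗ u'` is a Kronecker product. -/
theorem mem_KS_of_map (hX : X ≤ UG B) (h3 : 3 ≤ finrank F V₂)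
    (hH : ∀ w, w ≠ 0 → B₂ w w = 0 → ∃ w', B₂ w w' = 1 ∧ B₂ w' w' = 0)
    (hT : ∀ u u', u ≠ 0 → u' ≠ 0 → B₂ u u = 0 → B₂ u' u' = 0 → ∃ t, ∃ c : F, T.kron 1 t ∈ X ∧ t u = c • u')
    (hE : ∀ w, w ≠ 0 → ∀ z, B₂ w w = 0 → B₂ w z = 0 → T.ψ' z ∈ T.RD X w)
    (hN : ∀ w, w ≠ 0 → B₂ w w = 0 → ∀ h ∈ X, T.Rad w h → h ∈ T.KS)
    (hK : ∀ w, w ≠ 0 → B₂ w w = 0 → ∀ a t, ∀ k ∈ X, T.kron a t ∈ UG B → T.Rad w ((T.kron a t)⁻¹ * k) → T.kron a t ∈ X)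
    (u u' : V₂) (h0 : u ≠ 0) (h0' : u' ≠ 0) (hu : B₂ u u = 0) (hu' : B₂ u' u' = 0) (k : V ≃ₗ[F] V) (hk : k ∈ X)
    (h : ∀ a, k (T.tm a u) ∈ T.L u') : k ∈ T.KS := by
  obtain ⟨t, c, ht, e⟩ := hT u' u h0' h0 hu' hu
  obtain ⟨v, h1, h2⟩ := hH u h0 hu
  have := mem_KS_of_stab hX h3 hu h1 h2 (fun z hz => ?_) (hN u h0 hu) (hK u h0 hu) (mul_mem ht hk) fun a => ?_
  · simpa using mul_mem (inv_mem (T.kron_mem_KS 1 t)) this
  · obtain ⟨k, hk, R, e⟩ := neg_mem (hE u h0 z hu hz)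
    exact ⟨k, hk, R, fun x hx => by simp [e x hx, sub_eq_add_neg]⟩
  · obtain ⟨b, hb⟩ := T.mem_L.1 (h a)
    rw [LinearEquiv.mul_apply, hb, T.kron_tm, e, map_smul]
    exact Submodule.smul_mem _ _ (T.tm_mem_L _ _)

end CL.Sp.TF
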