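import Cfsg.Agent.Cls.UniFr4

/-!
# Frames in unitary groups, V: the stabiliser of an orthonormal frame is maximal in `SU`
-/

set_option autoImplicit false

namespace CL.Uni.Fr

open Matrix Module

universe u v

variable {F : Type u} [Field F] [StarRing F] {ι : Type} [Fintype ι] [DecidableEq ι] {q : ℕ}
variable {G : Subgroup (U ι F)} {g x : U ι F} {π : Equiv.Perm ι} {k l : ι}

theorem addSubgroup_eq_top (h : IsBar (starRingEnd F) q) {A : AddSubgroup F}
    (hA : ∀ b : F, b * star b = 1 → ∀ y ∈ A, b * y ∈ A) {a : F} (ha : a ∈ A) (ha0 : a ≠ 0) (c : F) : c ∈ A := by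
  have := h.finite
  have := Fintype.ofFinite F
  let S : Subring F :=
    { carrier := {x | ∀ y ∈ A, x * y ∈ A}
      mul_mem' := fun hx hx' y hy => by rw [mul_assoc]; exact hx _ (hx' y hy)
      one_mem' := fun y hy => by rwa [one_mul]
      add_mem' := fun hx hx' y hy => by rw [add_mul]; exact A.add_mem (hx y hy) (hx' y hy)
      zero_mem' := fun y hy => by simp
      neg_mem' := fun hx y hy => by rw [neg_mul]; exact A.neg_mem (hx y hy) }
  let K : Subfield F := S.toSubfield fun x hx => by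
    rcases eq_or_ne x 0 with rfl | h0
    · simp
    · have h1 := FiniteField.pow_card_sub_one_eq_one x h0
      obtain ⟨n, hn⟩ : ∃ n, Fintype.card F - 1 = n + 1 := ⟨Fintype.card F - 2, by
        have := Fintype.one_lt_card (α := F); omega⟩
      rw [hn, pow_succ] at h1
      exact eq_inv_of_mul_eq_one_left h1 ▸ S.pow_mem hx n
  have h1 : q + 1 ≤ Nat.card K := h.card_norm_one ▸ Nat.card_le_card_of_injective
    (fun x : {x : F // x * starRingEnd F x = 1} => (⟨x.1, hA x x.2⟩ : K)) fun x y e =>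
      Subtype.ext (congrArg (fun z : K => z.1) e)
  have h2 := Module.natCard_eq_pow_finrank (K := K) (V := F)
  have h3 : finrank K F = 1 := by
    have := finrank_pos (R := K) (M := F)
    by_contra h3
    have := Nat.pow_le_pow_right (show 0 < Nat.card K by omega) (show 2 ≤ finrank K F by omega)
    rw [← h2, h.card] at this
    nlinarith
  rw [h3, pow_one] at h2
  have h4 : c / a ∈ K := (K.toAddSubgroup.eq_top_of_card_eq h2.symm).ge trivial
  simpa [ha0] using h4 a ha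

theorem exists_inv_mem (h : IsBar (starRingEnd F) q) {S : Set F} (h1 : ∀ ν ∈ S, star ν = ν)
    (h2 : ∀ ν ∈ S, 1 - ν ∈ S) {ν : F} (hν : ν ∈ S) (h0 : ν ≠ 0) (h0' : ν ≠ 1)
    (h3 : ∀ s : F, s * star s = 1 → ν * (1 - ν) * (2 - s - star s) ∈ S) : ∃ μ ∈ S, μ ≠ 0 ∧ μ ≠ 1 ∧ μ⁻¹ ∈ S := by
  classical
  have := h.finite
  have := Fintype.ofFinite F
  by_contra hc
  push Not at hc
  let T : Finset F := {μ | μ ∈ S ∧ μ ≠ 0 ∧ μ ≠ 1}
  have hT : ∀ {μ}, μ ∈ T ↔ μ ∈ S ∧ μ ≠ 0 ∧ μ ≠ 1 := by simp [T]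
  have a1 : (Finset.univ.filter fun x : F => x * star x = 1).card = q + 1 := by
    rw [← h.card_norm_one, Nat.card_eq_fintype_card, Fintype.card_subtype]; rfl
  have a2 : (Finset.univ.filter fun x : F => star x = x).card = q := by
    rw [← h.card_fixed, Nat.card_eq_fintype_card, Fintype.card_subtype]; rfl
  have a3 := mul_ne_zero h0 (sub_ne_zero.2 h0'.symm)
  have b1 := Finset.card_le_mul_card_image_of_maps_to (s := (Finset.univ.filter fun x : F => x * star x = 1).erase 1)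
    (t := insert 1 T) (f := fun s => ν * (1 - ν) * (2 - s - star s)) (fun s hs => by
      simp only [Finset.mem_erase, Finset.mem_filter, Finset.mem_univ, true_and] at hs
      refine Finset.mem_insert.2 (or_iff_not_imp_left.2 fun e => hT.2 ⟨h3 s hs.2, mul_ne_zero a3 fun e' => ?_, e⟩)
      exact hs.1 (sub_eq_zero.1 (mul_self_eq_zero.1 (by linear_combination -s * e' - hs.2)))) 2 fun b _ => by
      rcases (Finset.filter (fun s => ν * (1 - ν) * (2 - s - star s) = b) _).eq_empty_or_nonempty with e | ⟨s, hs⟩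
      · rw [e]; simp
      refine (Finset.card_le_card (t := {s, star s}) fun s' hs' => ?_).trans Finset.card_le_two
      simp only [Finset.mem_erase, Finset.mem_filter, Finset.mem_univ, true_and] at hs hs'
      have := mul_left_cancel₀ a3 (hs.2.trans hs'.2.symm)
      simpa [sub_eq_zero] using show (s' - s) * (s' - star s) = 0 by linear_combination s' * this + hs.1.2 - hs'.1.2
  have b2 : ((T ∪ T.image (·⁻¹)) ∪ T.image (1 - ·⁻¹)).card ≤
      (((Finset.univ.filter fun x : F => star x = x).erase 0).erase 1).card := Finset.card_le_card fun μ hμ => by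
    simp only [Finset.mem_union, Finset.mem_image, hT] at hμ
    rcases hμ with (hμ | ⟨μ, hμ, rfl⟩) | ⟨μ, hμ, rfl⟩ <;> simp [hμ, h1 μ hμ.1, sub_eq_zero, hμ.2.2.symm]
  rw [Finset.card_union_of_disjoint, Finset.card_union_of_disjoint, Finset.card_image_of_injective _ inv_injective,
    Finset.card_image_of_injective (f := fun x : F => 1 - x⁻¹) _ (sub_right_injective.comp inv_injective), Finset.card_erase_of_mem (by simp),
    Finset.card_erase_of_mem (by simp), a2] at b2
  · rw [Finset.card_erase_of_mem (by simp), a1] at b1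
    have := Finset.card_insert_le 1 T
    have := Finset.card_pos.2 ⟨ν, hT.2 ⟨hν, h0, h0'⟩⟩
    omega
  · refine Finset.disjoint_left.2 fun μ hμ hμ' => ?_
    obtain ⟨μ, h4, rfl⟩ := Finset.mem_image.1 hμ'
    exact hc μ (hT.1 h4).1 (hT.1 h4).2.1 (hT.1 h4).2.2 (hT.1 hμ).1
  · refine Finset.disjoint_right.2 fun μ hμ hμ' => ?_
    obtain ⟨μ, h4, rfl⟩ := Finset.mem_image.1 hμ
    rw [hT] at h4
    rcases Finset.mem_union.1 hμ' with h5 | h5
    · exact hc μ h4.1 h4.2.1 h4.2.2 (by simpa using h2 _ (hT.1 h5).1)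
    · obtain ⟨μ', h5, e⟩ := Finset.mem_image.1 h5
      rw [hT] at h5
      have := h4.2.1
      have := h5.2.1
      have := sub_ne_zero.2 h4.2.2.symm
      refine hc _ (h2 μ h4.1) this (by simpa using h4.2.1) (by
        convert h2 μ' h5.1 using 1
        field_simp at e ⊢
        linear_combination e)

/-- The elements of `G` fixing the coordinate lines outside `I`. -/
def Cl (G : Subgroup (U ι F)) (I : Finset ι) : Subgroup (U ι F) := G ⊓ ⨅ m ∈ Iᶜ, Lst m

theorem mem_Cl {I : Finset ι} : g ∈ Cl G I ↔ g ∈ G ∧ ∀ m ∉ I, ∀ i, i ≠ m → g.1 i m = 0 := by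
  simp [Cl, Subgroup.mem_iInf, Lst]

theorem mem_Cl_of_mon {I : Finset ι} (hg : g ∈ G) (hπ : IsMon g π) (h : ∀ m ∉ I, π m = m) : g ∈ Cl G I :=
  mem_Cl.2 ⟨hg, fun m hm i hi => hπ i m ((h m hm).symm ▸ hi)⟩

theorem Cl.row {I : Finset ι} (hg : g ∈ Cl G I) {m : ι} (hm : m ∉ I) {j : ι} (hj : j ≠ m) : g.1 m j = 0 :=
  row_of_col ((mem_Cl.1 hg).2 m hm) j hj

theorem Cl.norm_pair (hg : g ∈ Cl G {k, l}) (hkl : k ≠ l) :
    g.1 l k * star (g.1 l k) = 1 - g.1 k k * star (g.1 k k) := by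
  have := col_orth g k k
  rw [if_pos rfl, ← Finset.sum_add_sum_compl {k, l}, Finset.sum_pair hkl, Finset.sum_eq_zero fun m hm => by
    rw [Cl.row hg (Finset.mem_compl.1 hm) fun e => by simp [e] at hm, mul_zero]] at this
  linear_combination this

/-- A column which is tangent to a coordinate line. -/
def Tan (G : Subgroup (U ι F)) : Prop := ∃ g ∈ G, ∃ j m k l o : ι, (m ≠ k ∧ m ≠ l ∧ k ≠ l) ∧
  (o ≠ m ∧ o ≠ k ∧ o ≠ l ∧ o ≠ j) ∧ g ∈ Lst o ∧ g.1 m j * star (g.1 m j) = 1 ∧ g.1 k j ≠ 0 ∧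
    ∀ i, i ≠ m → i ≠ k → i ≠ l → g.1 i j = 0

theorem IsMon.conj_apply (hπ : IsMon x π) (g : U ι F) (i j : ι) :
    (x * g * x⁻¹).1 (π i) (π j) = x.1 (π i) i * g.1 i j * star (x.1 (π j) j) := by
  rw [mul_apply_of_col (k := j) _ (fun k hk => hπ.inv k _ (by simpa using hk)), inv_apply,
    mul_apply_of_row (k := i) _ fun m hm => hπ _ m (π.injective.ne hm.symm)]

theorem tan_of_pair (h : IsBar (starRingEnd F) q) (hn : 4 ≤ Fintype.card ι) (hG : SMon G) (hkl : k ≠ l)
    (hg : g ∈ Cl G {k, l}) (hg' : g ∉ Mon ι F) : Tan G := by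
  obtain ⟨m, o, hmo, hm, ho⟩ := exists_two_notMem (s := {k, l}) (by have := @Finset.card_le_two _ _ k l; omega)
  have hm' : m ≠ k ∧ m ≠ l := by simpa using hm
  have ho' : o ≠ k ∧ o ≠ l := by simpa using ho
  have h1 : ∀ {ν}, (∃ g ∈ Cl G {k, l}, g.1 k k * star (g.1 k k) = ν) →
      ∃ g ∈ Cl G {k, l}, g.1 k k * star (g.1 k k) = 1 - ν := by
    rintro _ ⟨g, hg, rfl⟩
    obtain ⟨s, s1, s2, -⟩ := hG.exists_mon (Equiv.swap k l) k (s := 1) (by simp)
    refine ⟨s * g, mul_mem (mem_Cl_of_mon s1 s2 fun m hm => Equiv.swap_apply_of_ne_of_ne (fun e => hm (by simp [e]))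
      fun e => hm (by simp [e])) hg, ?_⟩
    have := s2.norm l
    rw [Equiv.swap_apply_right] at this
    rw [mul_apply_of_row (k := l) _ fun j hj => s2 k j fun e => hj (by
      simpa using (congrArg (Equiv.swap k l) e).symm), ← Cl.norm_pair hg hkl, star_mul']
    linear_combination g.1 l k * star (g.1 l k) * this
  obtain ⟨μ, ⟨g₁, a1, a2⟩, a3, a4, a5⟩ := exists_inv_mem h
    (S := {ν | ∃ g ∈ Cl G {k, l}, g.1 k k * star (g.1 k k) = ν}) (by rintro _ ⟨g, -, rfl⟩; simp [mul_comm])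
    (fun _ => h1) ⟨g, hg, rfl⟩ (fun e => hg' (mem_Mon_of_col fun j => by
      have e1 : g.1 k k = 0 := by simpa using e
      have e2 : ∀ i, i ≠ l → g.1 i k = 0 := fun i hi => by_cases (fun e : i = k => e ▸ e1) fun e =>
        Cl.row hg (by simp [hi, e]) (Ne.symm e)
      by_cases hj : j = k
      · exact ⟨l, hj ▸ e2⟩
      by_cases hj' : j = l
      · exact ⟨k, fun i hi => by_cases (fun e : i = l => e ▸ row_of_col e2 j hj) fun e =>
          Cl.row hg (by simp [hi, e]) (hj' ▸ Ne.symm e)⟩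
      · exact ⟨j, (mem_Cl.1 hg).2 j (by simp [hj, hj'])⟩)) (fun e => hg' (mem_Mon_of_col fun j => by
      have e1 : g.1 l k = 0 := by simpa [e] using Cl.norm_pair hg hkl
      have e2 : ∀ i, i ≠ k → g.1 i k = 0 := fun i hi => by_cases (fun e : i = l => e ▸ e1) fun e =>
        Cl.row hg (by simp [hi, e]) (Ne.symm hi)
      by_cases hj : j = k
      · exact ⟨k, hj ▸ e2⟩
      by_cases hj' : j = l
      · exact ⟨l, fun i hi => by_cases (fun e : i = k => e ▸ row_of_col e2 j hj) fun e =>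
          Cl.row hg (by simp [hi, e]) (hj' ▸ Ne.symm hi)⟩
      · exact ⟨j, (mem_Cl.1 hg).2 j (by simp [hj, hj'])⟩)) fun s hs => by
      obtain ⟨t, t1, t2, -, t3⟩ := hG.exists_t ho'.1.symm hs
      obtain ⟨g', b1, b2⟩ := h1 ⟨_, conj_mem' hg (mem_Cl_of_mon t1 t2 fun _ _ => rfl), rfl⟩
      refine ⟨g', b1, b2.trans ?_⟩
      simp only [(t3.conj' g).apply, inv_mulVec_single, Cl.row hg ho ho'.1.symm, if_true, star_zero, star_add,
        star_mul', star_sub, star_star, star_one]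
      linear_combination (-(g.1 k k * star (g.1 k k)) ^ 2) * hs
  obtain ⟨g₂, b1, b2⟩ := h1 a5
  obtain ⟨x, x1, x2, -⟩ := hG.exists_mon (Equiv.swap l m) k (s := 1) (by simp)
  have c1 : Equiv.swap l m k = k := Equiv.swap_apply_of_ne_of_ne hkl hm'.1.symm
  have c2 : x * g₂ * x⁻¹ ∈ Cl G {k, m} := mem_Cl.2 ⟨conj_mem x1 (mem_Cl.1 b1).1, fun n hn i hi => by
    obtain ⟨n, rfl⟩ := (Equiv.swap l m).surjective n
    obtain ⟨i, rfl⟩ := (Equiv.swap l m).surjective i
    rw [x2.conj_apply, (mem_Cl.1 b1).2 n (fun e => hn (by rcases Finset.mem_insert.1 e with e | e <;> simp_all)) i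
      fun e => hi (by rw [e]), mul_zero, zero_mul]⟩
  have c3 : (x * g₂ * x⁻¹).1 m k * star ((x * g₂ * x⁻¹).1 m k) = μ⁻¹ := by
    have := x2.conj_apply g₂ k k
    have c4 := x2.norm k
    rw [c1] at this c4
    rw [Cl.norm_pair c2 hm'.1.symm, this, show x.1 k k * g₂.1 k k * star (x.1 k k) = g₂.1 k k by
      linear_combination g₂.1 k k * c4, b2, sub_sub_cancel]
  generalize x * g₂ * x⁻¹ = g₃ at c2 c3
  have c4 : ∀ i, (g₃ * g₁).1 i k = g₃.1 i k * g₁.1 k k + g₃.1 i l * g₁.1 l k := fun i => by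
    rw [Submonoid.coe_mul, mul_apply, ← Finset.sum_add_sum_compl {k, l}, Finset.sum_pair hkl,
      Finset.sum_eq_zero fun m hm => by rw [Cl.row a1 (Finset.mem_compl.1 hm) fun e => by simp [e] at hm, mul_zero],
      add_zero]
  have c5 := (mem_Cl.1 c2).2 l (by simp [hkl.symm, hm'.2.symm])
  refine ⟨g₃ * g₁, G.mul_mem (mem_Cl.1 c2).1 (mem_Cl.1 a1).1, k, m, l, k, o, ⟨hm'.2, hm'.1, hkl.symm⟩,
    ⟨hmo.symm, ho'.2, ho'.1, ho'.1⟩, mul_mem ((mem_Cl.1 c2).2 o (by simp [ho', hmo.symm])) ((mem_Cl.1 a1).2 o ho),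
    ?_, ?_, fun i h1 h2 h3 => ?_⟩
  · rw [c4, c5 m hm'.2, zero_mul, add_zero, star_mul', mul_mul_mul_comm, c3, a2, inv_mul_cancel₀ a3]
  · rw [c4, row_of_col c5 k hkl, zero_mul, zero_add]
    exact mul_ne_zero (right_ne_zero_of_mul_eq_one (norm_of_col c5)) (left_ne_zero_of_mul (by
      rw [Cl.norm_pair a1 hkl, a2]; exact sub_ne_zero.2 a4.symm))
  · rw [c4, c5 i h2, Cl.row c2 (by simp [h1, h3]) (Ne.symm h3), zero_mul, zero_mul, add_zero]

theorem le_Mon_or_tan (h : IsBar (starRingEnd F) q) (hn : 7 ≤ Fintype.card ι ∨ Fintype.card ι = 6 ∧ 3 ≤ q)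
    (hG : SMon G) : G ≤ Mon ι F ∨ Tan G := or_iff_not_imp_right.2 fun hT => by
  suffices ∀ n (I : Finset ι), I.card = n → Cl G I ≤ Mon ι F from fun g hg =>
    this _ Finset.univ rfl (mem_Cl.2 ⟨hg, by simp⟩)
  intro n
  induction n using Nat.strong_induction_on with | _ n ih =>
  rintro I rfl
  have h1 : ∀ g ∈ Cl G I, ∀ i ∈ I, ∀ j ∈ I, (∀ k ∈ I, k ≠ i → g.1 k j = 0) → g ∈ Mon ι F := fun g hg i hi j hj e => by
    obtain ⟨s, s1, s2, -⟩ := hG.exists_mon (Equiv.swap i j) i (s := 1) (by simp)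
    have h1 := mul_mem (mem_Cl_of_mon s1 s2 fun m hm => Equiv.swap_apply_of_ne_of_ne (fun e => hm (e ▸ hi))
      fun e => hm (e ▸ hj)) hg
    refine ((Mon ι F).mul_mem_cancel_left ⟨_, s2⟩).1 (ih _ (Finset.card_erase_lt_of_mem hj) _ rfl
      (mem_Cl.2 ⟨(mem_Cl.1 h1).1, fun m hm => by_cases (fun e' : m = j => ?_) fun e' =>
        (mem_Cl.1 h1).2 m fun e => hm (Finset.mem_erase.2 ⟨e', e⟩)⟩))
    intro n hn
    rw [e', mul_apply_of_col (k := i) _ fun k hk => by_cases (e k · hk) fun hk' =>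
      Cl.row hg hk' fun e => hk' (e ▸ hj), s2 n i (by simpa [← e'] using hn), zero_mul]
  rcases eq_or_ne I Finset.univ with rfl | hI
  · exact fun g hg => le_Mon_SU h hn hG (fun g hg i j e => h1 g (mem_Cl.2 ⟨hg, by simp⟩) i (by simp) j (by simp)
      fun k _ => e k) (mem_Cl.1 hg).1
  obtain ⟨o, ho⟩ := exists_notMem (s := I) (Finset.card_lt_iff_ne_univ I |>.2 hI)
  have hC : Cut (Cl G I) I := fun g hg _ _ i hi m _ => Finset.sum_eq_zero fun j hj => by
    rw [(mem_Cl.1 hg).2 j (Finset.mem_compl.1 hj) i fun e => Finset.mem_compl.1 hj (e ▸ hi), zero_mul]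
  obtain ⟨h2, h3, h4⟩ := hC.transfer (fun g π hπ e => by
    obtain ⟨g', a1, a2, a3⟩ := hG.exists_mon π o (s := fun j => g.1 (π j) j) fun j => (mul_comm _ _).trans (hπ.norm j)
    refine ⟨g', mem_Cl_of_mon a1 a2 fun m hm => (e m hm).1, fun i _ j hj => ?_⟩
    rcases eq_or_ne i (π j) with rfl | hij
    exacts [a3 j fun e => ho (e ▸ hj), (a2 i j hij).trans (hπ i j hij).symm]) h1
  by_cases c1 : I.card ≤ 1
  · refine fun g hg => mem_Mon_of_col fun j => ⟨j, fun i hi => by_cases (fun hj : j ∈ I => Cl.row hg (fun e => hi ?_)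
      hi.symm) fun hj => (mem_Cl.1 hg).2 j hj i hi⟩
    exact Finset.card_le_one.1 c1 i e j hj
  by_cases c2 : I.card = 2
  · obtain ⟨k, l, hkl, rfl⟩ := Finset.card_eq_two.1 c2
    exact fun g hg => by_contra fun hg' => hT (tan_of_pair h (by omega) hG hkl hg hg')
  refine h4 (Finset.card_pos.1 (by omega)) ?_
  by_cases c3 : 4 ≤ I.card
  · exact le_Mon_of_four h (by rwa [Fintype.card_coe]) h2 h3
  by_cases c4 : (2 : F) = 0
  swap
  · exact le_Mon_odd h c4 (by rw [Fintype.card_coe]; omega) h2 h3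
  obtain ⟨k, l, j, hkl, hkj, hlj⟩ := exists_three (ι := I) (by rw [Fintype.card_coe]; omega)
  refine le_Mon_even h c4 (by rw [Fintype.card_coe]; omega) h2 h3 hkl fun x hx e => by_contra fun hx' => hT ?_
  have a1 := eq_of_fix c4 hkl (e.trans (one_smul _ _).symm) hkj.symm hlj.symm
  have a2 : Finset.univ = {j, k, l} := (Finset.eq_univ_of_card _ (by
    rw [Finset.card_eq_three.2 ⟨j, k, l, hkj.symm, hlj.symm, hkl, rfl⟩, Fintype.card_coe]; omega)).symm
  have a3 := col_orth x j j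
  rw [if_pos rfl, a2, Finset.sum_insert (by simp [hkj.symm, hlj.symm]), Finset.sum_pair hkl, a1] at a3
  have a4 : x.1 k j ≠ 0 := fun e' => hx' (h3 x hx j j fun i hi => by
    have := a2.le (Finset.mem_univ i)
    simp only [Finset.mem_insert, Finset.mem_singleton, hi, false_or] at this
    rcases this with rfl | rfl
    exacts [e', a1.trans e'])
  obtain ⟨g, rfl⟩ := hx
  have a5 : ∀ i : I, o ≠ i := fun i e => ho (e ▸ i.2)
  refine ⟨g, (mem_Cl.1 g.2).1, j, j, k, l, o, by simp [Subtype.val_inj, hkl, hkj.symm, hlj.symm], by simp [a5],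
    (mem_Cl.1 g.2).2 o ho, ?_, a4, fun i h1 h2 h3 => Cl.row g.2 (fun hi => ?_) h1.symm⟩
  · change star (g.1.1 j j) * g.1.1 j j + (star (g.1.1 k j) * g.1.1 k j + star (g.1.1 k j) * g.1.1 k j) = 1 at a3
    linear_combination a3 - star (g.1.1 k j) * g.1.1 k j * c4
  · have := a2.le (Finset.mem_univ (⟨i, hi⟩ : I))
    simp only [Finset.mem_insert, Finset.mem_singleton] at this
    rcases this with e | e | e
    exacts [h1 (congrArg Subtype.val e), h2 (congrArg Subtype.val e), h3 (congrArg Subtype.val e)]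

section bridge

variable {V : Type v} [AddCommGroup V] [Module F V] {B : V →ₛₗ[starRingEnd F] V →ₗ[F] F}
  {θ : (ι → F) ≃ₗ[F] V} {M : Subgroup (V ≃ₗ[F] V)}

/-- Unitary matrices as maps of a space with an orthonormal basis. -/
noncomputable def psi (θ : (ι → F) ≃ₗ[F] V) : U ι F →* V ≃ₗ[F] V :=
  (conjEquiv θ).toMonoidHom.comp ((glEquiv ι F).toMonoidHom.comp Unitary.toUnits)

theorem psi_apply (g : U ι F) (v : ι → F) : psi θ g (θ v) = θ (g.1 *ᵥ v) :=
  congrArg (fun u => θ (g.1 *ᵥ u)) (θ.symm_apply_apply v)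

theorem dt_psi (g : U ι F) : dt (psi θ g) = g.1.det := (dt_conjEquiv _ _).trans (dt_glEquiv _)

theorem psi_mem_UG (hθ : ∀ u v, B (θ u) (θ v) = star u ⬝ᵥ v) (g : U ι F) : psi θ g ∈ UG B := fun u v => by
  obtain ⟨u, rfl⟩ := θ.surjective u
  obtain ⟨v, rfl⟩ := θ.surjective v
  rw [psi_apply, psi_apply, hθ, hθ, ip_mulVec]

theorem exists_psi_eq (hθ : ∀ u v, B (θ u) (θ v) = star u ⬝ᵥ v) {x : V ≃ₗ[F] V} (hx : x ∈ UG B) :
    ∃ g, psi θ g = x := by
  obtain ⟨x, rfl⟩ := (conjEquiv θ).surjective x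
  obtain ⟨A, rfl⟩ := (glEquiv ι F).surjective x
  refine ⟨⟨A.1, mem_unitaryGroup_iff'.2 (Matrix.ext fun i j => ?_)⟩,
    congrArg (conjEquiv θ) (congrArg (glEquiv ι F) (Units.ext rfl))⟩
  have := hx (θ (Pi.single i 1)) (θ (Pi.single j 1))
  simp only [conjEquiv_apply, LinearEquiv.symm_apply_apply, glEquiv_apply, hθ] at this
  simpa [mul_apply, dotProduct, one_apply, Pi.single_apply, eq_comm, apply_ite star] using this

theorem SUG_le_of_tan (h : IsHerm B q) (hθ : ∀ u v, B (θ u) (θ v) = star u ⬝ᵥ v) (hn : 4 ≤ Fintype.card ι)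
    (hM : M ≤ UG B) (hG : SMon (M.comap (psi θ))) (hT : Tan (M.comap (psi θ))) : SUG B ≤ M := by
  have := θ.finiteDimensional
  obtain ⟨g, hg, j, m, k, l, o, ⟨hmk, hml, hkl⟩, ⟨hom, hok, hol, hoj⟩, g1, g2, g3, g4⟩ := hT
  obtain ⟨a, ha, ha'⟩ := exists_nonreal h.bar
  have a1 : a - 1 ≠ 0 := fun e => ha' (by rw [sub_eq_zero.1 e, star_one])
  obtain ⟨r, hr⟩ : ∃ r : ι → F, g.1 *ᵥ Pi.single j 1 = g.1 m j • (Pi.single m 1 + r) :=
    ⟨star (g.1 m j) • g.1 *ᵥ Pi.single j 1 - Pi.single m 1, by rw [add_sub_cancel, smul_smul, g2, one_smul]⟩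
  have c0 := left_ne_zero_of_mul_eq_one g2
  have r0 : ∀ i, g.1 i j = g.1 m j * ((if i = m then 1 else 0) + r i) := fun i => by
    simpa [Pi.single_apply] using congrFun hr i
  have r1 : ∀ i, i ≠ k → i ≠ l → r i = 0 := fun i h1 h2 => by
    rcases eq_or_ne i m with rfl | h3
    · simpa [c0] using r0 i
    · simpa [c0, h3, g4 i h3 h1 h2] using r0 i
  have r2 : r k ≠ 0 := fun e => g3 (by simp [r0 k, e, hmk.symm])
  have r3 : ∀ u, star r ⬝ᵥ u = star (r k) * u k + star (r l) * u l := fun u => by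
    rw [dotProduct, ← Finset.sum_add_sum_compl {k, l}, Finset.sum_pair hkl, Finset.sum_eq_zero fun i hi => by
      simp only [Finset.mem_compl, Finset.mem_insert, Finset.mem_singleton, not_or] at hi
      simp [r1 i hi.1 hi.2], add_zero]
    rfl
  have r4 : star r ⬝ᵥ r = 0 := by
    have := ip_mulVec g (Pi.single j 1) (Pi.single j 1)
    simpa [hr, r1 m hmk hml, mul_comm (star _), g2, ← mul_assoc, c0] using this
  have hr' : B (θ r) (θ r) = 0 := (hθ _ _).trans r4
  have fix : ∀ x : U ι F, ∀ π, IsMon x π → π k = k → π l = l → x.1 k k = 1 → x.1 l l = 1 → psi θ x (θ r) = θ r :=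
    fun x π hπ e1 e2 e3 e4 => by
      rw [psi_apply]
      refine congrArg θ (funext fun i => ?_)
      obtain ⟨i, rfl⟩ := π.surjective i
      rw [hπ.mulVec_apply]
      by_cases h1 : i = k
      · rw [h1, e1, e3, one_mul]
      by_cases h2 : i = l
      · rw [h2, e2, e4, one_mul]
      · rw [r1 i h1 h2, r1 _ (e1 ▸ π.injective.ne h1) (e2 ▸ π.injective.ne h2), mul_zero]
  have e1 : ∀ c, θ (Pi.single m c) ∈ h.eichAdd M hr' := by
    refine addSubgroup_eq_top h.bar (A := (h.eichAdd M hr').comap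
      (θ.toAddEquiv.toAddMonoidHom.comp (AddMonoidHom.single (fun _ => F) m))) (fun b hb y hy => ?_) ?_ a1
    · obtain ⟨t, t1, t2, t3, -⟩ := hG.exists_t hom.symm hb
      have := h.apply_mem_eichAdd hM hr' hy t1 (fix t 1 t2 rfl rfl (by simp [t3, hmk.symm, hok.symm])
        (by simp [t3, hml.symm, hol.symm]))
      change psi θ t (θ (Pi.single m y)) ∈ _ at this
      rwa [psi_apply, t3, diagonal_mulVec_single, if_pos rfl] at this
    obtain ⟨t, t1, -, -, t2⟩ := hG.exists_t hoj.symm ha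
    obtain ⟨t', t1', -, -, t2'⟩ := hG.exists_t hom.symm (a := star a) (by rw [star_star, mul_comm, ha])
    refine ⟨(hθ r (Pi.single m (a - 1))).trans (by simp [r1 m hmk hml]), 1 - a, ?_,
      psi θ (g * t * g⁻¹ * t'), (M.comap (psi θ)).mul_mem (conj_mem hg t1) t1', fun x => ?_⟩
    · refine Eq.trans ?_ (hθ (Pi.single m (a - 1)) (Pi.single m (a - 1))).symm
      simp only [starRingEnd_apply, star_sub, star_one, Pi.star_single, single_dotProduct, Pi.single_eq_same]
      linear_combination -ha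
    obtain ⟨u, rfl⟩ := θ.surjective x
    change _ = _ + _ • θ (Pi.single m (a - 1)) - (B (θ (Pi.single m (a - 1))) _ + _) • _
    rw [psi_apply, hθ, hθ, ← map_smul, ← map_smul, ← map_add, ← map_sub, mul_mulVec, (t2.conj g).mulVec, t2'.mulVec,
      hr, show g.1 *ᵥ Pi.single o 1 = Pi.single o (g.1 o o) from funext fun i => by
        rcases eq_or_ne i o with rfl | hi
        exacts [by simp, by simp [hi, g1 i hi]]]
    refine congrArg θ (funext fun i => ?_)
    have o1 := norm_of_col g1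
    simp only [star_smul, star_add, Pi.star_single, star_one, star_star, star_sub, smul_dotProduct, add_dotProduct,
      dotProduct_add, dotProduct_smul, single_dotProduct, dotProduct_single, Pi.star_apply, r1 m hmk hml,
      r1 o hok hol, Pi.add_apply, Pi.sub_apply, Pi.smul_apply, smul_eq_mul, Pi.single_apply, hom, hom.symm, if_true,
      if_false, star_zero]
    split_ifs with h1 h2
    · exact absurd (h2.symm.trans h1) hom
    · linear_combination (a - 1) * (star a * u m + star r ⬝ᵥ u) * (1 + r i) * g2 + u m * (1 + r i) * ha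
    · linear_combination (a - 1) * (star a * u m + star r ⬝ᵥ u) * r i * g2 + (u m * r i + u o) * ha +
        (star a - 1) * a * u o * o1
    · linear_combination (a - 1) * (star a * u m + star r ⬝ᵥ u) * r i * g2 + u m * r i * ha
  have e2 : ∀ i, i ≠ k → i ≠ l → ∀ c, θ (Pi.single i c) ∈ h.eichAdd M hr' := fun i h1 h2 c => by
    obtain ⟨s, s1, s2, s3⟩ := hG.exists_mon (Equiv.swap m i) m (s := 1) (by simp)
    have b1 := Equiv.swap_apply_of_ne_of_ne hmk.symm h1.symm
    have b2 := Equiv.swap_apply_of_ne_of_ne hml.symm h2.symm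
    have b3 := s2.norm m
    have := h.apply_mem_eichAdd hM hr' (e1 (star (s.1 (Equiv.swap m i m) m) * c)) s1
      (fix s _ s2 b1 b2 (by simpa [b1] using s3 k hmk.symm) (by simpa [b2] using s3 l hml.symm))
    rwa [psi_apply, ← smul_eq_mul, Pi.single_smul, ← mul_one c, ← smul_eq_mul c, Pi.single_smul, mulVec_smul,
      mulVec_smul, s2.mulVec_single, smul_comm, ← Pi.single_smul, smul_eq_mul, b3, ← Pi.single_smul,
      Equiv.swap_apply_left, smul_eq_mul, mul_one] at this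
  obtain ⟨t, t1, -, t2, -⟩ := hG.exists_t hok.symm ha
  refine h.SUG_le_of_eichAdd (by rwa [← θ.finrank_eq, finrank_fintype_fun_eq_card]) hM hr' (fun w hw => ?_) t1 ?_
  · obtain ⟨u, rfl⟩ := θ.surjective w
    rw [hθ, r3] at hw
    rw [r3] at r4
    have b1 : star (r l) ≠ 0 := fun e => r2 (by simpa [e] using r4)
    rw [show u = (u k / r k) • r + ∑ i ∈ {k, l}ᶜ, Pi.single i (u i) from funext fun i => by
      simp only [Pi.add_apply, Pi.smul_apply, Finset.sum_apply, Pi.single_apply, Finset.sum_ite_eq, smul_eq_mul,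
        Finset.mem_compl, Finset.mem_insert, Finset.mem_singleton]
      by_cases h1 : i = k
      · simp [h1, r2]
      by_cases h2 : i = l
      · simp only [h2, or_true, not_true, if_false]
        field_simp
        exact mul_left_cancel₀ b1 (by linear_combination r k * hw - u k * r4)
      · simp [h1, h2, r1 i h1 h2], map_add, map_smul, map_sum]
    refine add_mem (h.smul_self_mem_eichAdd hr' _) (sum_mem fun i hi => ?_)
    simp only [Finset.mem_compl, Finset.mem_insert, Finset.mem_singleton, not_or] at hi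
    exact e2 i hi.1 hi.2 _
  · rw [psi_apply, hθ, r3, t2, mulVec_diagonal, mulVec_diagonal, if_pos rfl, if_neg hkl.symm, if_neg hol.symm]
    rw [r3] at r4
    exact fun e => mul_ne_zero a1 (mul_ne_zero (star_ne_zero.2 r2) r2) (by linear_combination e - r4)

theorem SUG_le_of_frame [FiniteDimensional F V] (h : IsHerm B q)
    (hn : 7 ≤ finrank F V ∨ finrank F V = 6 ∧ 3 ≤ q) {D : ι → Submodule F V} (hD : IsUDec B 1 D) (hM : M ≤ UG B)
    (hH : decStab D ⊓ SUG B ≤ M) {x : V ≃ₗ[F] V} (hx : x ∈ M) (hx' : x ∉ decStab D) : SUG B ≤ M := by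
  obtain ⟨a, a1, a2, a3⟩ := h.exists_adapted hD
  have a4 : ∀ i j, B (a i 0) (a j 0) = if i = j then 1 else 0 := fun i j => by simpa using a1 (i, 0) (j, 0)
  have hD' : ∀ i, D i = F ∙ a i 0 := fun i => by rw [← a2, Set.range_unique]; rfl
  let b : Basis ι F V := Basis.mk (linearIndependent_of_orthonormal a4) (a3.ge.trans (Submodule.span_mono (by
    rintro _ ⟨⟨i, j⟩, rfl⟩
    exact ⟨i, by rw [Subsingleton.elim j 0]⟩)))
  let θ := b.equivFun.symm
  have h1 : ∀ i c, θ (Pi.single i c) = c • a i 0 := fun i c => by simp [θ, b, Pi.single_apply]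
  have hθ : ∀ u v, B (θ u) (θ v) = star u ⬝ᵥ v := fun u v => by
    simp [θ, b, LinearMap.map_smulₛₗ, a4, dotProduct, mul_comm, starRingEnd_apply]
  have h2 : ∀ g, g ∈ Mon ι F → psi θ g ∈ decStab D := fun g ⟨π, hπ⟩ => ⟨π, fun i => by
    rw [hD', hD', Submodule.map_span, Set.image_singleton, ← one_smul F (a i 0), ← h1, LinearEquiv.coe_coe, psi_apply,
      hπ.mulVec_single, h1, Submodule.span_singleton_smul_eq (hπ.ne_zero i).isUnit]⟩
  have hG : SMon (M.comap (psi θ)) := fun g hg e => hH ⟨h2 g hg, mem_SUG.2 ⟨psi_mem_UG hθ g, (dt_psi g).trans e⟩⟩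
  rw [← θ.finrank_eq, finrank_fintype_fun_eq_card] at hn
  obtain ⟨g, rfl⟩ := exists_psi_eq hθ (hM hx)
  exact SUG_le_of_tan h hθ (by omega) hM hG ((le_Mon_or_tan h.bar hn hG).resolve_left fun e => hx' (h2 g (e hx)))

end bridge

end CL.Uni.Fr

namespace CL.Uni

open Cfsg Cfsg.Geo

/-- Imprimitive subgroups of `SU_n(q)` of type `GU_1(q) wr S_n`. -/
theorem isMaximalIn_SU_frame {F : Type*} [Field F] [Fintype F] {q : ℕ} (hF : Fintype.card F = q ^ 2) {n t : ℕ}
    (hn : 7 ≤ n ∨ n = 6 ∧ 3 ≤ q) (D : Fin t → Submodule F (Fin n → F))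
    (hD : IsNondegenerateMDecomposition (hermForm n F q) 1 D) : IsMaximalIn (GU n F q ⊓ specialLinear (Fin n) F)
      (decompositionStabilizer D ⊓ (GU n F q ⊓ specialLinear (Fin n) F)) := by
  let _ : StarRing F :=
    { star := bar hF
      star_involutive := (isBar_bar hF).bar_bar
      star_mul := fun a b => by rw [map_mul, mul_comm]
      star_add := map_add _ }
  have h : IsBar (starRingEnd F) q := ⟨(isBar_bar hF).card, fun _ => rfl⟩
  have hB := isHerm_stdB h (Fin n)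
  have : Nontrivial (Fin t) := Fin.nontrivial_iff_two_le.2 hD.decomp.two_le
  exact isMaximalIn_SU_of h (H' := decStab D) (fun A _ => Iff.rfl)
    (hB.exists_SUG_notMem_decStab (by simp; omega) (isUDec_of h hD)) fun M h1 h2 g hg hg' =>
      Fr.SUG_le_of_frame hB (by simpa using hn) (isUDec_of h hD) (h2.trans SUG_le_UG) h1 hg hg'

end CL.Uni
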