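/-
Overgroups of the monomial group of determinant one in `U_4(q)`, `q ≠ 3`.
-/
import Cfsg.Agent.Cls.UniFr5

set_option autoImplicit false

namespace CL.Uni.Fr

open Matrix Module

universe u v

variable {F : Type u} [Field F] [StarRing F] {q : ℕ}

section general

variable {ι : Type} [Fintype ι] [DecidableEq ι] {G : Subgroup (U ι F)} {g x y y' z : U ι F} {π : Equiv.Perm ι}
  {k l : ι} {a : F}

theorem nonreal_of_four (a1 : a * star a = 1) (a4 : a ^ 4 ≠ 1) : star a ≠ a ∧ a + star a ≠ 0 :=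
  ⟨fun e => a4 (by rw [e] at a1; linear_combination (a * a + 1) * a1), fun e => a4 (by
    linear_combination (a ^ 3 - a) * e - (a ^ 2 - 1) * a1)⟩

theorem bp₄ (hn : Fintype.card ι = 4) (hG : SMon G) (hB : Blk G) (a1 : a * star a = 1) (a3 : a ^ 3 ≠ 1)
    (a4 : a ^ 4 ≠ 1) : BP G := fun g hg j k l hkl h1 h2 => by_contra fun hg' => by
  classical
  obtain ⟨a2, a5⟩ := nonreal_of_four a1 a4
  obtain ⟨t, t1, -, -, t2⟩ := hG.exists_t hkl a1
  have hx := t2.conj' g
  obtain ⟨π, hπ⟩ := hB.of_rk (conj_mem' hg t1) hx (j := j) (by simp [inv_apply, h1]) (by simp [inv_apply, h2])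
  have h4 := rk_supp hx hπ a1 a2 (by
    simpa only [inv_mulVec_single, star_ne_zero] using hB.two_ne_zero hg hg' k)
  have h6 := (rk_moved hx hπ a1 a2).1
  simp only [inv_mulVec_single, star_ne_zero, star_star] at h4 h6
  have h8 := row_orth g k k
  rw [if_pos rfl, ← Finset.sum_filter_of_ne (p := (g.1 k · ≠ 0)) fun i _ => left_ne_zero_of_mul] at h8
  have h9 := congrArg (· * (2 - a - star a)) h8
  simp only [Finset.sum_mul] at h9
  rw [Finset.sum_congr rfl (g := fun _ => (1 : F)) fun i hi => by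
    rw [mul_comm (g.1 k i)]; exact h6 i ((h4 i).1 (Finset.mem_filter.1 hi).2), Finset.sum_const] at h9
  have c1 : (Finset.univ.filter (g.1 k · ≠ 0)).card < 4 := hn ▸ (Finset.card_lt_iff_ne_univ _).2 fun e => by
    simpa [h1] using e.ge (Finset.mem_univ j)
  have c2 : 1 < (Finset.univ.filter (g.1 k · ≠ 0)).card := by
    obtain ⟨i, m, him, hi, hm⟩ := hB.two_ne_zero hg hg' k
    exact Finset.one_lt_card.2 ⟨i, by simpa using hi, m, by simpa using hm, him⟩
  generalize (Finset.univ.filter (g.1 k · ≠ 0)).card = c at h9 c1 c2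
  obtain rfl | rfl : c = 2 ∨ c = 3 := by omega
  · simp only [nsmul_eq_mul, Nat.cast_ofNat] at h9
    exact a5 (by linear_combination h9)
  · simp only [nsmul_eq_mul, Nat.cast_ofNat] at h9
    exact a3 (by linear_combination (a ^ 2 - a) * h9 - (a - 1) * a1)

/-- All entries of the non-monomial elements are non-zero. -/
def Full (G : Subgroup (U ι F)) : Prop := ∀ g ∈ G, g ∉ Mon ι F → ∀ k j, g.1 k j ≠ 0

theorem not_mon_of_two {i j m : ι} (him : i ≠ m) (hi : x.1 i j ≠ 0) (hm : x.1 m j ≠ 0) : x ∉ Mon ι F :=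
  fun ⟨_, hπ⟩ => him ((hπ.eq hi).symm.trans (hπ.eq hm))

theorem conj_add_smul {A B : F} {R : Matrix ι ι F} (hx : x.1 = A • 1 + B • R) (g : U ι F) :
    (g⁻¹ * x * g).1 = A • 1 + B • ((g⁻¹).1 * R * g.1) := by
  have : (g⁻¹).1 * g.1 = 1 := g.2.1
  rw [Submonoid.coe_mul, Submonoid.coe_mul, hx]
  simp only [mul_add, add_mul, mul_one, Matrix.mul_smul, Matrix.smul_mul, this]

theorem full₄ (hn : Fintype.card ι = 4) (hG : SMon G) (hB : Blk G) (hP : BP G) (a1 : a * star a = 1)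
    (a4 : a ^ 4 ≠ 1) : Full G := fun g hg hg' k j h0 => by
  obtain ⟨d, d1, d2⟩ := exists_diag (s := fun i => if i = k then star a ^ 3 else a) fun i => by
    split_ifs
    · rw [star_pow, star_star, ← mul_pow, mul_comm, a1, one_pow]
    · exact a1
  have d3 : d ∈ G := hG d ⟨1, d1⟩ (by
    rw [d2, det_diagonal, ← Finset.mul_prod_erase _ _ (Finset.mem_univ k), if_pos rfl,
      Finset.prod_congr rfl (g := fun _ => a) (by simp +contextual), Finset.prod_const,
      Finset.card_erase_of_mem (Finset.mem_univ k), Finset.card_univ, hn, ← mul_pow, mul_comm, a1, one_pow])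
  have d4 : d.1 = a • 1 + (star a ^ 3 - a) • R (Pi.single k 1) := by
    rw [d2]
    ext i j
    simp only [diagonal_apply, Matrix.add_apply, one_apply, Matrix.smul_apply, R_apply, Pi.single_apply,
      smul_eq_mul]
    split_ifs <;> simp_all
  have d5 : star a ^ 3 - a ≠ 0 := fun e => a4 (by
    linear_combination -a ^ 3 * e + ((a * star a) ^ 2 + a * star a + 1) * a1)
  have e : ∀ i m, (g⁻¹ * d * g).1 i m = a * (if i = m then 1 else 0) +
      (star a ^ 3 - a) * (star (g.1 k i) * g.1 k m) := fun i m => by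
    have := conj_R g⁻¹ (Pi.single k 1)
    rw [inv_inv] at this
    rw [conj_add_smul d4, this]
    simp [R_apply, one_apply, inv_apply]
  have nz : ∀ i, i ≠ j → g.1 k i ≠ 0 := fun i hi e => hg' ((Mon ι F).inv_mem_iff.1
    (hP _ (G.inv_mem hg) k i j hi (by rw [inv_apply, e, star_zero]) (by rw [inv_apply, h0, star_zero])))
  obtain ⟨i, hi⟩ := exists_notMem (s := {j}) (by simp [hn])
  obtain ⟨m, m', hmm, hm, hm'⟩ := exists_two_notMem (s := {j, i}) (by
    have := @Finset.card_le_two _ _ j i; omega)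
  simp only [Finset.mem_insert, Finset.mem_singleton, not_or] at hi hm hm'
  exact not_mon_of_two (j := i) hmm (by simp [e, hm.2, d5, nz m hm.1, nz i hi])
    (by simp [e, hm'.2, d5, nz m' hm'.1, nz i hi])
    (hB _ (conj_mem' hg d3) j j fun i hi => by simp [e, hi, h0])

theorem Full.eq_of_diag (hF : Full G) (hg : g ∈ G) (hg' : g ∉ Mon ι F) {s : ι → F} (hy : y.1 = diagonal s) {i : ι}
    (h : ∀ k, k ≠ i → (g⁻¹ * y * g).1 k i = 0) (m m' : ι) : s m = s m' :=
  (mul_right_cancel₀ (hF g hg hg' m i) ((eig_of_diag hy h m).trans (mul_comm _ _))).trans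
    (mul_right_cancel₀ (hF g hg hg' m' i) ((eig_of_diag hy h m').trans (mul_comm _ _))).symm

theorem exists_t₄ (hn : Fintype.card ι = 4) (hG : SMon G) (h2 : (2 : F) ≠ 0) (hkl : k ≠ l) (a1 : a * star a = 1)
    (hz : z.1 = diagonal (sg F k l)) :
    ∃ t ∈ G, t.1 = ((a + star a) / 2) • 1 + ((star a - a) / 2) • z.1 := by
  obtain ⟨d, d1, d2⟩ := exists_diag (s := fun i => if i = k ∨ i = l then a else star a) fun i => by
    split_ifs
    exacts [a1, by rw [star_star, mul_comm, a1]]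
  refine ⟨d, hG d ⟨1, d1⟩ ?_, ?_⟩
  · rw [d2, det_diagonal, ← Finset.prod_mul_prod_compl {k, l}, Finset.prod_pair hkl,
      Finset.prod_congr rfl (g := fun _ => star a) (by simp +contextual), Finset.prod_const, Finset.card_compl,
      Finset.card_pair hkl, hn]
    simp only [true_or, or_true, if_true]
    linear_combination (a * star a + 1) * a1
  · rw [d2, hz]
    ext i j
    simp only [diagonal_apply, Matrix.add_apply, one_apply, Matrix.smul_apply, sg, smul_eq_mul]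
    split_ifs <;> field_simp <;> ring

theorem exists_z₄ (hn : Fintype.card ι = 4) (hG : SMon G) (hF : Full G) (h2 : (2 : F) ≠ 0) (hkl : k ≠ l)
    (a1 : a * star a = 1) (a4 : a ^ 4 ≠ 1) : ∃ z, Uq G (Mon ι F) z ∧ z.1 = diagonal (sg F k l) := by
  obtain ⟨a2, a5⟩ := nonreal_of_four a1 a4
  obtain ⟨z, z1, z2, z3, -⟩ := hG.exists_t hkl (a := (-1 : F)) (by simp)
  replace z3 : z.1 = diagonal (sg F k l) := z3.trans (congrArg _ (funext fun i => by
    simp only [sg]; split_ifs <;> simp_all))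
  refine ⟨z, ⟨z1, ⟨1, z2⟩, Subtype.ext ?_, fun g hg ⟨π, hπ⟩ => by_contra fun hg' => ?_⟩, z3⟩
  · rw [Submonoid.coe_mul, z3, diagonal_mul_diagonal, OneMemClass.coe_one, ← diagonal_one]
    exact congrArg _ (funext fun i => by simp only [sg]; split_ifs <;> simp)
  obtain ⟨o, ho⟩ := exists_notMem (s := {k, l}) (Finset.card_le_two.trans_lt (by omega))
  have h1 : π k ≠ k := fun e => by
    have := hF.eq_of_diag hg hg' z3 (i := k) (fun m hm => hπ m k (e.symm ▸ hm)) k o
    simp only [Finset.mem_insert, Finset.mem_singleton] at ho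
    simp only [sg, true_or, if_true, ho, if_false] at this
    exact h2 (by linear_combination -this)
  obtain ⟨t, t1, t2⟩ := exists_t₄ hn hG h2 hkl a1 z3
  have e : ∀ i, (g⁻¹ * t * g).1 i k = (a + star a) / 2 * (if i = k then 1 else 0) +
      (star a - a) / 2 * (g⁻¹ * z * g).1 i k := fun i => by
    rw [conj_add_smul t2]
    simp [one_apply]
  obtain ⟨m, hm⟩ := exists_notMem (s := {k, π k}) (Finset.card_le_two.trans_lt (by omega))
  simp only [Finset.mem_insert, Finset.mem_singleton, not_or] at hm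
  exact hF _ (conj_mem' hg t1) (not_mon_of_two (j := k) h1 (by
    rw [e, if_neg h1, mul_zero, zero_add]
    exact mul_ne_zero (div_ne_zero (sub_ne_zero.2 a2) h2) (hπ.ne_zero k)) (by
    rw [e, if_pos rfl, hπ k k h1.symm, mul_zero, add_zero, mul_one]
    exact div_ne_zero a5 h2)) m k (by rw [e, if_neg hm.1, hπ m k hm.2, mul_zero, mul_zero, add_zero])

theorem neg_mem_Mon (hx : x ∈ Mon ι F) : -x ∈ Mon ι F := by
  obtain ⟨π, hπ⟩ := hx
  exact ⟨π, fun i j e => neg_eq_zero.2 (hπ i j e)⟩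

theorem odd_or_odd [Finite F] (hF : Full G) (h2 : (2 : F) ≠ 0) (hz : Uq G (Mon ι F) z)
    (hz' : z.1 = diagonal (sg F k l)) (hg : g ∈ G) (hg' : g ∉ Mon ι F) :
    Odd (orderOf (z * (g * z * g⁻¹))) ∨ Odd (orderOf (z * -(g * z * g⁻¹))) := by
  refine or_iff_not_imp_left.2 fun ho => ?_
  obtain ⟨m, w, e, y1, y0, y2, y3, ⟨u, hu, y4⟩, u', hu', y5⟩ := exists_central hz.memG hg hz.sq rfl ho
  have hy : w ∈ G := e ▸ G.pow_mem (G.mul_mem hz.memG (conj_mem hg hz.memG)) m
  obtain ⟨π, hπ⟩ := hz.diag hz' (conj_mem' hg hy) (G.mul_mem (G.inv_mem hg) hu')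
    (by rw [← mul_left_cancel_iff (a := g), ← mul_right_cancel_iff (a := g⁻¹)]; simpa [mul_assoc] using y3)
    (by rw [← mul_left_cancel_iff (a := g), ← mul_right_cancel_iff (a := g⁻¹)]; simpa [mul_assoc] using y5)
  obtain ⟨ρ, hρ⟩ := hz.diag hz' hy hu y2 y4
  have h3 := hF.eq_of_diag hg hg' hρ (i := k) fun i hi => by rw [hπ]; exact diagonal_apply_ne _ hi
  have h4 : w = -1 := by
    have h5 : sg F k l (ρ.symm k) * sg F k l k = -1 := by
      refine (mul_self_eq_one_iff.1 (by simp only [sg]; split_ifs <;> simp)).resolve_left fun e => y1 ?_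
      exact Subtype.ext (hρ.trans ((congrArg _ (funext fun i => (h3 i k).trans e)).trans diagonal_one))
    refine Subtype.ext (hρ.trans ((congrArg _ (funext fun i => (h3 i k).trans h5)).trans ?_))
    rw [← diagonal_neg, diagonal_one]
    rfl
  rw [h4] at e
  obtain ⟨j, rfl | rfl⟩ := Nat.even_or_odd' m
  · exfalso
    have hs : g * z * g⁻¹ * (g * z * g⁻¹) = 1 := by rw [conj_mul, hz.sq, mul_one, mul_inv_cancel]
    obtain ⟨v, hv, e'⟩ := exists_conj_refl hz.memG hg hz.sq rfl j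
    have h5 := inv_pow_mul hz.sq hs j
    rw [two_mul, pow_add] at e
    generalize (z * (g * z * g⁻¹)) ^ j = c at e e' h5
    have h6 : (z * c)⁻¹ * z * (z * c) = -z := by
      rw [_root_.mul_inv_rev, mul_assoc, mul_assoc, inv_mul_cancel_left, ← mul_assoc, h5, mul_assoc,
        ← e, mul_neg_one]
    obtain ⟨τ, hτ⟩ := (Mon ι F).inv_mem_iff.1 (hz.uniq _ (G.inv_mem hv) (by
      rw [inv_inv, ← e']
      exact hz.uniq _ (e' ▸ conj_mem hv hz.memG) (h6 ▸ neg_mem_Mon hz.memH)))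
    have h7 : z * (z * c) = z * c * z := Subtype.ext (by
      rw [Submonoid.coe_mul, Submonoid.coe_mul _ (z * c), e', hτ.conj_diag hz', hz', diagonal_mul_diagonal,
        diagonal_mul_diagonal]
      simp only [mul_comm])
    rw [mul_assoc, h7, inv_mul_cancel_left] at h6
    have h8 := congrArg (fun x : U ι F => x.1 k k) h6
    simp only [Unitary.coe_neg, Matrix.neg_apply, hz', diagonal_apply_eq, sg, true_or, if_true] at h8
    exact h2 (by linear_combination -h8)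
  · refine Odd.of_dvd_nat ⟨j, rfl⟩ (orderOf_dvd_of_pow_eq_one ?_)
    rw [mul_neg, Odd.neg_pow ⟨j, rfl⟩, ← e, neg_neg]

theorem cr_of_real {v : ι → F} (h : ∀ i k, ∃ t, star t = t ∧ x.1 i k = t * (v i * star (v k))) {m : U ι F}
    (hm : m ∈ Mon ι F) : CR (x * m) := fun i i' j j' _ => by
  obtain ⟨π, hπ⟩ := hm
  choose t h1 h2 using h
  simp only [mul_apply_of_col x (hπ · _), h2, star_mul', h1, star_star]
  ring

theorem herm_of_sq (hy : y * y = 1) (i j : ι) : star (y.1 i j) = y.1 j i := by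
  rw [← inv_apply, inv_eq_of_mul_eq_one_right hy]

theorem cr_of_herm (hy : y * y = 1) (hy' : y' * y' = 1) (hπ : IsMon (y' * y) π) (hf : ∀ i j, y'.1 i j ≠ 0) {o : ι}
    (ho : π o = o) (h3 : ∀ i j, i = o ∨ j = o ∨ i = j ∨ j = π i ∨ i = π j) {m : U ι F} (hm : m ∈ Mon ι F) :
    CR (y' * m) := by
  have s := herm_of_sq hy'
  have e : y' * (y' * y) = y := by rw [← mul_assoc, hy', one_mul]
  generalize y' * y = n at hπ e
  have h1 : ∀ i j, y'.1 i (π j) * n.1 (π j) j * n.1 (π i) i = y'.1 (π i) j := fun i j => by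
    have := herm_of_sq hy j i
    rw [← e, mul_apply_of_col _ (hπ · i), mul_apply_of_col _ (hπ · j), star_mul', s] at this
    linear_combination -n.1 (π i) i * this + y'.1 (π i) j * hπ.norm i
  have h2 : star (n.1 o o) = n.1 o o := by
    have h2 := h1 o o
    have h4 := hπ.norm o
    rw [ho] at h2 h4
    exact mul_left_cancel₀ (hf o o) (by linear_combination -star (n.1 o o) * h2 + y'.1 o o * n.1 o o * h4)
  have key : ∀ i j, star (y'.1 i j * y'.1 o i * y'.1 j o) = y'.1 i j * y'.1 o i * y'.1 j o →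
      ∃ t, star t = t ∧ y'.1 i j = t * (y'.1 i o * star (y'.1 j o)) := fun i j h => by
    have a1 := hf i o
    have a2 := hf o i
    have a3 := hf j o
    have a4 := hf o j
    refine ⟨y'.1 i j * y'.1 o i * y'.1 j o / (y'.1 i o * y'.1 o i * (y'.1 j o * y'.1 o j)), ?_, ?_⟩
    · rw [star_div₀, h]
      simp only [star_mul', s]
      ring
    · rw [s]
      field_simp
  have h4 : ∀ i, star (y'.1 i (π i) * y'.1 o i * y'.1 (π i) o) = y'.1 i (π i) * y'.1 o i * y'.1 (π i) o :=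
    fun i => by
      have b1 := h1 i i
      have b2 := h1 o i
      have b3 := congrArg star b2
      have b4 := hπ.norm i
      rw [ho] at b2 b3
      simp only [star_mul', s, h2] at b3 ⊢
      rw [← b1, ← b2, ← b3]
      linear_combination y'.1 i (π i) * y'.1 (π i) o * n.1 o o * y'.1 o (π i) * n.1 (π i) i * b4
  refine cr_of_real (v := fun i => y'.1 i o) (fun i j => key i j ?_) hm
  rcases h3 i j with rfl | rfl | rfl | rfl | rfl
  · simp only [star_mul', s]; ring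
  · simp only [star_mul', s]; ring
  · simp only [star_mul', s]; ring
  · exact h4 i
  · have := congrArg star (h4 j)
    simp only [star_mul', s] at this ⊢
    linear_combination this

theorem false_of_cr (h2 : (2 : F) ≠ 0) (hn : 3 ≤ Fintype.card ι) (hy : y * y = 1) (hf : ∀ i j, y.1 i j ≠ 0)
    (hc : CR y) {A B : F} (hA : star A = A) (hA0 : A ≠ 0) (hB : star B = -B) (hB0 : B ≠ 0)
    (hx : x.1 = A • 1 + B • y.1) : ¬ CR x := fun hc' => by
  obtain ⟨i, j, m, hij, him, hjm⟩ := exists_three hn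
  have h1 := hc i j i m hij
  have h3 := hc' i j i m hij
  have s := herm_of_sq hy
  simp only [hx, Matrix.add_apply, Matrix.smul_apply, one_apply, hij.symm, him, hjm, if_true, if_false, smul_eq_mul,
    mul_zero, zero_add, star_mul', star_add, s, hA, hB, star_one, star_neg] at h1 h3
  have h4 : y.1 m j * y.1 i m * y.1 j i = y.1 j m * y.1 m i * y.1 i j :=
    mul_left_cancel₀ (hf i i) (by linear_combination h1)
  have h5 : 2 * A * B ^ 3 * (y.1 j m * y.1 m i * y.1 i j) = 0 := by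
    linear_combination -h3 + (B ^ 4 * y.1 i i - A * B ^ 3) * h4
  simp [h2, hA0, hB0, hf] at h5

theorem le_Mon_SU₄_even (h : IsBar (starRingEnd F) q) (h2 : (2 : F) = 0) (hn : Fintype.card ι = 4) (hG : SMon G)
    (hB : Blk G) : G ≤ Mon ι F := by
  have sc : ∀ {x g : U ι F} {c : F}, x.1 = c • g.1 → c * star c = 1 := fun {x g c} e => by
    obtain ⟨i, -⟩ := exists_notMem (s := (∅ : Finset ι)) (by simp [hn])
    have h1 := row_orth x i i
    have h3 := row_orth g i i
    simp only [e, Matrix.smul_apply, smul_eq_mul, star_mul', if_true, mul_mul_mul_comm c, ← Finset.mul_sum] at h1 h3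
    rwa [h3, mul_one] at h1
  let G' : Subgroup (U ι F) :=
    { carrier := {x | ∃ g ∈ G, ∃ c : F, x.1 = c • g.1}
      one_mem' := ⟨1, G.one_mem, 1, by simp⟩
      mul_mem' := fun ⟨g, hg, c, e⟩ ⟨g', hg', c', e'⟩ => ⟨g * g', G.mul_mem hg hg', c * c', by
        simp [e, e', smul_smul, mul_comm]⟩
      inv_mem' := fun ⟨g, hg, c, e⟩ => ⟨g⁻¹, G.inv_mem hg, star c, Matrix.ext fun i j => by
        simp [inv_apply, e]⟩ }
  refine le_trans (b := G') (fun g hg => ⟨g, hg, 1, by simp⟩) (le_Mon_of_four h hn.ge (fun x hx => ?_) ?_)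
  · obtain ⟨m, hm⟩ : Even q := Nat.not_odd_iff_even.1 fun ⟨m, hm⟩ => one_ne_zero (α := F) (by
      have := h.cast_q
      rw [hm] at this
      push_cast at this
      linear_combination this - m * h2)
    have h3 := norm_det x
    have h4 : (x.1.det ^ (m * m)) ^ 4 = x.1.det := by
      rw [← pow_mul, show m * m * 4 = q * q by rw [hm]; ring, pow_mul, ← h.apply, ← h.apply, h.bar_bar]
    have h5 : x.1.det ^ (m * m) * star (x.1.det ^ (m * m)) = 1 := by rw [star_pow, ← mul_pow, h3, one_pow]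
    generalize x.1.det ^ (m * m) = c at h4 h5
    obtain ⟨d, d1, d2⟩ := exists_diag (ι := ι) (s := fun _ => star c) fun _ => by rw [star_star, mul_comm, h5]
    refine ⟨x * d, hG _ (mul_mem hx ⟨1, d1⟩) ?_, c, Matrix.ext fun i j => ?_⟩
    · rw [Submonoid.coe_mul, det_mul, d2, det_diagonal, Finset.prod_const, Finset.card_univ, hn, ← h4, ← mul_pow,
        h5, one_pow]
    · rw [Submonoid.coe_mul, d2, Matrix.smul_apply, mul_diagonal, smul_eq_mul]
      linear_combination -x.1 i j * h5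
  · rintro x ⟨g, hg, c, e⟩ i j hx
    obtain ⟨π, hπ⟩ := hB g hg i j fun k hk => by
      simpa [e, left_ne_zero_of_mul_eq_one (sc e)] using hx k hk
    exact ⟨π, fun i j hij => by simp [e, hπ i j hij]⟩

theorem le_Mon_or_tan' (h : IsBar (starRingEnd F) q) (hn : 4 ≤ Fintype.card ι) (hG : SMon G)
    (hB : Blk G → G ≤ Mon ι F) : G ≤ Mon ι F ∨ Tan G := or_iff_not_imp_right.2 fun hT => by
  suffices ∀ n (I : Finset ι), I.card = n → Cl G I ≤ Mon ι F from fun g hg =>
    this _ Finset.univ rfl (mem_Cl.2 ⟨hg, by simp⟩)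
  intro n
  induction n using Nat.strong_induction_on with | _ n ih =>
  rintro I rfl
  have h1 : ∀ g ∈ Cl G I, ∀ i ∈ I, ∀ j ∈ I, (∀ k ∈ I, k ≠ i → g.1 k j = 0) → g ∈ Mon ι F := fun g hg i hi j hj e => by
    obtain ⟨s, s1, s2, -⟩ := hG.exists_mon (Equiv.swap i j) i (s := 1) (by simp)
    have h1 := mul_mem (mem_Cl_of_mon s1 s2 fun m hm => Equiv.swap_apply_of_ne_of_ne (fun e => hm (e ▸ hi))
      fun e => hm (e ▸ hj)) hg
    refine ((Mon ι F).mul_mem_cancel_left ⟨_, s2⟩).1 (ih _ (Finset.card_erase_lt_of_mem hj) _ rfl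
      (mem_Cl.2 ⟨(mem_Cl.1 h1).1, fun m hm => by_cases (fun e' : m = j => ?_) fun e' =>
        (mem_Cl.1 h1).2 m fun e => hm (Finset.mem_erase.2 ⟨e', e⟩)⟩))
    intro n hn
    rw [e', mul_apply_of_col (k := i) _ fun k hk => by_cases (e k · hk) fun hk' =>
      Cl.row hg hk' fun e => hk' (e ▸ hj), s2 n i (by simpa [← e'] using hn), zero_mul]
  rcases eq_or_ne I Finset.univ with rfl | hI
  · exact fun g hg => hB (fun g hg i j e => h1 g (mem_Cl.2 ⟨hg, by simp⟩) i (by simp) j (by simp)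
      fun k _ => e k) (mem_Cl.1 hg).1
  obtain ⟨o, ho⟩ := exists_notMem (s := I) (Finset.card_lt_iff_ne_univ I |>.2 hI)
  have hC : Cut (Cl G I) I := fun g hg _ _ i hi m _ => Finset.sum_eq_zero fun j hj => by
    rw [(mem_Cl.1 hg).2 j (Finset.mem_compl.1 hj) i fun e => Finset.mem_compl.1 hj (e ▸ hi), zero_mul]
  obtain ⟨h2, h3, h4⟩ := hC.transfer (fun g π hπ e => by
    obtain ⟨g', a1, a2, a3⟩ := hG.exists_mon π o (s := fun j => g.1 (π j) j) fun j => (mul_comm _ _).trans (hπ.norm j)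
    refine ⟨g', mem_Cl_of_mon a1 a2 fun m hm => (e m hm).1, fun i _ j hj => ?_⟩
    rcases eq_or_ne i (π j) with rfl | hij
    exacts [a3 j fun e => ho (e ▸ hj), (a2 i j hij).trans (hπ i j hij).symm]) h1
  by_cases c1 : I.card ≤ 1
  · refine fun g hg => mem_Mon_of_col fun j => ⟨j, fun i hi => by_cases (fun hj : j ∈ I => Cl.row hg (fun e => hi ?_)
      hi.symm) fun hj => (mem_Cl.1 hg).2 j hj i hi⟩
    exact Finset.card_le_one.1 c1 i e j hj
  by_cases c2 : I.card = 2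
  · obtain ⟨k, l, hkl, rfl⟩ := Finset.card_eq_two.1 c2
    exact fun g hg => by_contra fun hg' => hT (tan_of_pair h (by omega) hG hkl hg hg')
  refine h4 (Finset.card_pos.1 (by omega)) ?_
  by_cases c3 : 4 ≤ I.card
  · exact le_Mon_of_four h (by rwa [Fintype.card_coe]) h2 h3
  by_cases c4 : (2 : F) = 0
  swap
  · exact le_Mon_odd h c4 (by rw [Fintype.card_coe]; omega) h2 h3
  obtain ⟨k, l, j, hkl, hkj, hlj⟩ := exists_three (ι := I) (by rw [Fintype.card_coe]; omega)
  refine le_Mon_even h c4 (by rw [Fintype.card_coe]; omega) h2 h3 hkl fun x hx e => by_contra fun hx' => hT ?_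
  have a1 := eq_of_fix c4 hkl (e.trans (one_smul _ _).symm) hkj.symm hlj.symm
  have a2 : Finset.univ = {j, k, l} := (Finset.eq_univ_of_card _ (by
    rw [Finset.card_eq_three.2 ⟨j, k, l, hkj.symm, hlj.symm, hkl, rfl⟩, Fintype.card_coe]; omega)).symm
  have a3 := col_orth x j j
  rw [if_pos rfl, a2, Finset.sum_insert (by simp [hkj.symm, hlj.symm]), Finset.sum_pair hkl, a1] at a3
  have a4 : x.1 k j ≠ 0 := fun e' => hx' (h3 x hx j j fun i hi => by
    have := a2.le (Finset.mem_univ i)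
    simp only [Finset.mem_insert, Finset.mem_singleton, hi, false_or] at this
    rcases this with rfl | rfl
    exacts [e', a1.trans e'])
  obtain ⟨g, rfl⟩ := hx
  have a5 : ∀ i : I, o ≠ i := fun i e => ho (e ▸ i.2)
  refine ⟨g, (mem_Cl.1 g.2).1, j, j, k, l, o, by simp [Subtype.val_inj, hkl, hkj.symm, hlj.symm], by simp [a5],
    (mem_Cl.1 g.2).2 o ho, ?_, a4, fun i h1 h2 h3 => Cl.row g.2 (fun hi => ?_) h1.symm⟩
  · change star (g.1.1 j j) * g.1.1 j j + (star (g.1.1 k j) * g.1.1 k j + star (g.1.1 k j) * g.1.1 k j) = 1 at a3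
    linear_combination a3 - star (g.1.1 k j) * g.1.1 k j * c4
  · have := a2.le (Finset.mem_univ (⟨i, hi⟩ : I))
    simp only [Finset.mem_insert, Finset.mem_singleton] at this
    rcases this with e | e | e
    exacts [h1 (congrArg Subtype.val e), h2 (congrArg Subtype.val e), h3 (congrArg Subtype.val e)]

end general

section four

variable {G : Subgroup (U (Fin 4) F)} {g z : U (Fin 4) F}

theorem exists_sw₄ [Finite F] (hG : SMon G) (hF : Full G) (h2 : (2 : F) ≠ 0) (hz : Uq G (Mon (Fin 4) F) z)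
    (hz' : z.1 = diagonal (sg F 0 1)) (hg : g ∈ G) (hg' : g ∉ Mon (Fin 4) F) {j : Fin 4} (hj : 0 ≠ j) :
    ∃ y, Sw G z g y ∧ ∃ (z₁ : U (Fin 4) F) (ε : F), ε ≠ 0 ∧ z₁.1 = diagonal (fun i => ε * sg F 0 j i) ∧
      y * z₁ * y = g * z * g⁻¹ := by
  obtain ⟨π, e0, rfl⟩ := exists_perm_pair (k := (0 : Fin 4)) (l := 1) (by decide) hj
  obtain ⟨m, m1, m2, -⟩ := hG.exists_mon π 0 (s := 1) (by simp)
  have m3 : (m * z * m⁻¹).1 = diagonal (sg F 0 (π 1)) := (m2.conj_diag hz').trans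
    (congrArg _ (funext fun i => by simp [sg, Equiv.symm_apply_eq, e0]))
  have cj : ∀ x : U (Fin 4) F, orderOf (m * x * m⁻¹) = orderOf x := fun x =>
    (SemiconjBy.orderOf_eq m (by rw [SemiconjBy]; group)).symm
  rcases odd_or_odd hF h2 hz hz' (G.mul_mem (G.inv_mem m1) hg)
    (fun h => hg' (by simpa using (Mon (Fin 4) F).mul_mem ⟨π, m2⟩ h)) with ho | ho
  · obtain ⟨u, hu, y, e1, e2, e3⟩ := hz.exists_swap le_rfl m1 hg (conj_mem m1 hz.memG) (conj_mem hg hz.memG)
      (by rwa [← cj, show m * (z * (m⁻¹ * g * z * (m⁻¹ * g)⁻¹)) * m⁻¹ = m * z * m⁻¹ * (g * z * g⁻¹) by group] at ho)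
    exact ⟨y, ⟨⟨_, G.mul_mem hu m1, e1⟩, ((Mon (Fin 4) F).mul_mem_cancel_right ⟨π, m2⟩).1 e3⟩, _, 1,
      one_ne_zero, by simpa only [one_mul] using m3, e2⟩
  · obtain ⟨κ, k1, k2, -⟩ := hG.exists_mon (Equiv.swap 0 2 * Equiv.swap 1 3) 0 (s := 1) (by simp)
    have k3 : κ * z * κ⁻¹ = -z := Subtype.ext ((k2.conj_diag hz').trans (by
      rw [Unitary.coe_neg, hz', diagonal_neg]
      refine congrArg _ (funext fun i => ?_)
      fin_cases i <;> simp [sg, Equiv.symm_apply_eq, Equiv.swap_apply_def]))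
    have k4 : g * κ * z * (g * κ)⁻¹ = -(g * z * g⁻¹) := by
      rw [show g * κ * z * (g * κ)⁻¹ = g * (κ * z * κ⁻¹) * g⁻¹ by group, k3, mul_neg, neg_mul]
    obtain ⟨u, hu, y, e1, e2, e3⟩ := hz.exists_swap le_rfl m1 (G.mul_mem hg k1) (conj_mem m1 hz.memG)
      (conj_mem (G.mul_mem hg k1) hz.memG) (by
        rwa [← cj, mul_neg, mul_neg, neg_mul, show m * (z * (m⁻¹ * g * z * (m⁻¹ * g)⁻¹)) * m⁻¹ =
          m * z * m⁻¹ * (g * z * g⁻¹) by group, ← mul_neg, ← k4] at ho)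
    refine ⟨y, ⟨⟨_, G.mul_mem hu m1, e1⟩, ?_⟩, -(m * z * m⁻¹), -1, by simp, ?_, by
      rw [mul_neg, neg_mul, e2, k4, neg_neg]⟩
    · simpa [mul_assoc] using (Mon (Fin 4) F).mul_mem ⟨_, k2⟩
        (((Mon (Fin 4) F).mul_mem_cancel_right ⟨π, m2⟩).1 e3)
    · rw [Unitary.coe_neg, m3, diagonal_neg]
      simp only [neg_one_mul]

theorem perm_of_conj₄ (h2 : (2 : F) ≠ 0) {x y y' : U (Fin 4) F} {π : Equiv.Perm (Fin 4)} (hπ : IsMon x π)
    {j j' : Fin 4} {ε ε' : F} (hε : ε' ≠ 0) (hy : y.1 = diagonal fun i => ε * sg F 0 j i)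
    (hy' : y'.1 = diagonal fun i => ε' * sg F 0 j' i) (h : x * y * x⁻¹ = y') :
    (π 0 = 0 ∨ π 0 = j') ↔ (π j = 0 ∨ π j = j') := by
  have h1 := diagonal_injective ((hπ.conj_diag hy).symm.trans (h ▸ hy'))
  have h3 := congrFun h1 (π 0)
  have h4 := congrFun h1 (π j)
  simp only [Function.comp, Equiv.symm_apply_apply, sg, true_or, or_true, if_true] at h3 h4
  have h5 := mul_left_cancel₀ hε (h3.symm.trans h4)
  split_ifs at h5 with e e' e'
  exacts [iff_of_true e e', absurd (by linear_combination -h5) h2, absurd (by linear_combination h5) h2,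
    iff_of_false e e']

/-- Three-cycles. -/
abbrev Cyc (π : Equiv.Perm (Fin 4)) : Prop := ∃ o, π o = o ∧ ∀ i j, i = o ∨ j = o ∨ i = j ∨ j = π i ∨ i = π j

theorem cyc_of_perm : ∀ π ρ : Equiv.Perm (Fin 4), ((π 0 = 0 ∨ π 0 = 2) ↔ (π 1 = 0 ∨ π 1 = 2)) →
    ((ρ 0 = 0 ∨ ρ 0 = 3) ↔ (ρ 1 = 0 ∨ ρ 1 = 3)) → Cyc π ∨ Cyc ρ ∨ Cyc (ρ * π⁻¹) := by
  decide +kernel

theorem le_Mon_SU₄_odd (h : IsBar (starRingEnd F) q) (h2 : (2 : F) ≠ 0) (hq : 4 ≤ q) (hG : SMon G) (hB : Blk G) :
    G ≤ Mon (Fin 4) F := fun g hg => by_contra fun hg' => by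
  have := h.finite
  obtain ⟨a, ha⟩ := h.exists_primitiveRoot
  have a1 : a * star a = 1 := (h.norm_eq_pow a).trans ha.pow_eq_one
  have a3 := ha.pow_ne_one_of_pos_of_lt three_ne_zero (by omega)
  have a4 := ha.pow_ne_one_of_pos_of_lt four_ne_zero (by omega)
  obtain ⟨a2, a5⟩ := nonreal_of_four a1 a4
  have hF := full₄ (by simp) hG hB (bp₄ (by simp) hG hB a1 a3 a4) a1 a4
  obtain ⟨z, hz, hz'⟩ := exists_z₄ (k := (0 : Fin 4)) (l := 1) (by simp) hG hF h2 (by decide) a1 a4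
  have hc : ∀ g ∈ G, CR g := fun g hg => by_cases cr_of_mon fun hg' => by
    obtain ⟨y₁, b1, z₁, ε₁, -, b2, b3⟩ := exists_sw₄ hG hF h2 hz hz' hg hg' (j := 1) (by decide)
    obtain ⟨y₂, c1, z₂, ε₂, c0, c2, c3⟩ := exists_sw₄ hG hF h2 hz hz' hg hg' (j := 2) (by decide)
    obtain ⟨y₃, d1, z₃, ε₃, d0, d2, d3⟩ := exists_sw₄ hG hF h2 hz hz' hg hg' (j := 3) (by decide)
    obtain ⟨⟨π, hπ⟩, e⟩ := mul_mem_Mon b1.2 c1.2 (b1.sq hz) (c1.sq hz) (b3.trans c3.symm)
    obtain ⟨⟨ρ, hρ⟩, e'⟩ := mul_mem_Mon b1.2 d1.2 (b1.sq hz) (d1.sq hz) (b3.trans d3.symm)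
    have key : ∀ y y' τ, Sw G z g y → Sw G z g y' → IsMon (y' * y) τ → Cyc τ → CR g := by
      rintro y y' τ hy hy' hτ ⟨o, o1, o2⟩
      obtain ⟨b, hb, e⟩ := hy'.1
      simpa using cr_of_herm (hy.sq hz) (hy'.sq hz) hτ (hF _ (e ▸ conj_mem hb hz.memG) (hy'.notMem hg')) o1 o2
        ((Mon (Fin 4) F).inv_mem hy'.2)
    rcases cyc_of_perm π ρ (perm_of_conj₄ h2 hπ c0 b2 c2 e) (perm_of_conj₄ h2 hρ d0 b2 d2 e') with h | h | h
    · exact key _ _ _ b1 c1 hπ h
    · exact key _ _ _ b1 d1 hρ h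
    · refine key _ _ _ c1 d1 ?_ h
      have := hρ.mul hπ.inv
      rwa [_root_.mul_inv_rev, ← mul_assoc, mul_inv_cancel_right, inv_eq_of_mul_eq_one_right (c1.sq hz)] at this
  obtain ⟨t, t1, t2⟩ := exists_t₄ (by simp) hG h2 (by decide) a1 hz'
  exact false_of_cr h2 (by simp) (y := g⁻¹ * z * g)
    (by rw [show g⁻¹ * z * g * (g⁻¹ * z * g) = g⁻¹ * (z * z) * g by group, hz.sq, mul_one, inv_mul_cancel])
    (hF _ (conj_mem' hg hz.memG) fun e => hg' (hz.uniq g hg e)) (hc _ (conj_mem' hg hz.memG))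
    (by simp [add_comm]) (div_ne_zero a5 h2) (by simp [← neg_div]) (div_ne_zero (sub_ne_zero.2 a2) h2)
    (conj_add_smul t2 g) (hc _ (conj_mem' hg t1))

theorem le_Mon_SU₄ (h : IsBar (starRingEnd F) q) (hq : q ≠ 3) (hG : SMon G) (hB : Blk G) :
    G ≤ Mon (Fin 4) F := by
  by_cases h2 : (2 : F) = 0
  · exact le_Mon_SU₄_even h h2 (by simp) hG hB
  refine le_Mon_SU₄_odd h h2 (by_contra fun h4 => h2 ?_) hG hB
  have := h.two_le
  obtain rfl : q = 2 := by omega
  simpa using h.cast_q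

end four

theorem SUG_le_of_frame₄ {V : Type v} [AddCommGroup V] [Module F V] {B : V →ₛₗ[starRingEnd F] V →ₗ[F] F}
    {M : Subgroup (V ≃ₗ[F] V)} [FiniteDimensional F V] (h : IsHerm B q) (hq : q ≠ 3) {D : Fin 4 → Submodule F V} (hD : IsUDec B 1 D) (hM : M ≤ UG B)
    (hH : decStab D ⊓ SUG B ≤ M) {x : V ≃ₗ[F] V} (hx : x ∈ M) (hx' : x ∉ decStab D) : SUG B ≤ M := by
  obtain ⟨a, a1, a2, a3⟩ := h.exists_adapted hD
  have a4 : ∀ i j, B (a i 0) (a j 0) = if i = j then 1 else 0 := fun i j => by simpa using a1 (i, 0) (j, 0)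
  have hD' : ∀ i, D i = F ∙ a i 0 := fun i => by rw [← a2, Set.range_unique]; rfl
  let b : Basis (Fin 4) F V := Basis.mk (linearIndependent_of_orthonormal a4) (a3.ge.trans (Submodule.span_mono (by
    rintro _ ⟨⟨i, j⟩, rfl⟩
    exact ⟨i, by rw [Subsingleton.elim j 0]⟩)))
  let θ := b.equivFun.symm
  have h1 : ∀ i c, θ (Pi.single i c) = c • a i 0 := fun i c => by simp [θ, b, Pi.single_apply]
  have hθ : ∀ u v, B (θ u) (θ v) = star u ⬝ᵥ v := fun u v => by
    simp [θ, b, LinearMap.map_smulₛₗ, a4, dotProduct, mul_comm, starRingEnd_apply]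
  have h2 : ∀ g, g ∈ Mon (Fin 4) F → psi θ g ∈ decStab D := fun g ⟨π, hπ⟩ => ⟨π, fun i => by
    rw [hD', hD', Submodule.map_span, Set.image_singleton, ← one_smul F (a i 0), ← h1, LinearEquiv.coe_coe, psi_apply,
      hπ.mulVec_single, h1, Submodule.span_singleton_smul_eq (hπ.ne_zero i).isUnit]⟩
  have hG : SMon (M.comap (psi θ)) := fun g hg e => hH ⟨h2 g hg, mem_SUG.2 ⟨psi_mem_UG hθ g, (dt_psi g).trans e⟩⟩
  obtain ⟨g, rfl⟩ := exists_psi_eq hθ (hM hx)
  exact SUG_le_of_tan h hθ (by simp) hM hG ((le_Mon_or_tan' h.bar (by simp) hG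
    (le_Mon_SU₄ h.bar hq hG)).resolve_left fun e => hx' (h2 g (e hx)))

end CL.Uni.Fr

namespace CL.Uni

open Cfsg Cfsg.Geo

/-- Imprimitive subgroups of `SU_n(q)` of type `GU_1(q) wr S_n`. -/
theorem isMaximalIn_SU_frame₄ {F : Type*} [Field F] [Fintype F] {q : ℕ} (hF : Fintype.card F = q ^ 2) {n : ℕ}
    (hn : 3 ≤ n) (hq : q ≠ 3) (D : Fin 4 → Submodule F (Fin n → F))
    (hD : IsNondegenerateMDecomposition (hermForm n F q) 1 D) : IsMaximalIn (GU n F q ⊓ specialLinear (Fin n) F)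
      (decompositionStabilizer D ⊓ (GU n F q ⊓ specialLinear (Fin n) F)) := by
  let _ : StarRing F :=
    { star := bar hF
      star_involutive := (isBar_bar hF).bar_bar
      star_mul := fun a b => by rw [map_mul, mul_comm]
      star_add := map_add _ }
  have h : IsBar (starRingEnd F) q := ⟨(isBar_bar hF).card, fun _ => rfl⟩
  have hB := isHerm_stdB h (Fin n)
  exact isMaximalIn_SU_of h (H' := decStab D) (fun A _ => Iff.rfl)
    (hB.exists_SUG_notMem_decStab (by simp; omega) (isUDec_of h hD)) fun M h1 h2 g hg hg' =>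
      Fr.SUG_le_of_frame₄ hB hq (isUDec_of h hD) (h2.trans SUG_le_UG) h1 hg hg'

end CL.Uni
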