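/-
The stabiliser of a pair of complementary totally isotropic planes is maximal in `SU_4(q)`, `q ≥ 4`.
-/
import Cfsg.Agent.Cls.UniMaxTI
import Cfsg.Agent.Cls.SpRoot
import Cfsg.Agent.Cls.MaxMono

set_option autoImplicit false

namespace CL.Uni

open Module

universe u v

variable {F : Type u} [Field F] {q : ℕ} {σ : F →+* F} {V : Type v} [AddCommGroup V] [Module F V]
variable {B : V →ₛₗ[σ] V →ₗ[F] F} {M : Subgroup (V ≃ₗ[F] V)} {W W' : Submodule F V}

theorem IsBar.exists_fixed_ne_three (h : IsBar σ q) (hq : 4 ≤ q) (x y z : F) :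
    ∃ t : F, σ t = t ∧ t ≠ x ∧ t ≠ y ∧ t ≠ z := by
  classical
  by_contra hc
  push Not at hc
  have := h.finite
  have h1 : Nat.card {t : F // σ t = t} ≤ Nat.card ({x, y, z} : Finset F) :=
    Nat.card_le_card_of_injective (fun t => ⟨t.1, by
      have := hc t.1 t.2
      simp only [Finset.mem_insert, Finset.mem_singleton]
      tauto⟩) fun a b e => Subtype.ext (by simpa using e)
  rw [h.card_fixed, Nat.card_eq_fintype_card, Fintype.card_coe] at h1
  have := Finset.card_le_three (a := x) (b := y) (c := z)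
  omega

namespace IsHerm

variable [FiniteDimensional F V]

/-- A centre from one transvection, given the split torus. -/
theorem mem_uCen_of_torus (h : IsHerm B q) (hM : M ≤ UG B) {c : V} (hc : B c c = 0)
    (hT : ∀ s : F, s ≠ 0 → σ s = s → ∃ k ∈ M, k c = s • c) {α : F} (hα0 : α ≠ 0) (hα : σ α = -α)
    {t : V ≃ₗ[F] V} (ht : IsTv B c α t) (htM : t ∈ M) : c ∈ UCen B M := by
  have := h.bar.finite
  have sk : ∀ a : IsBar.fixedField σ, σ (a * α) = -(a * α) := fun a => by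
    rw [map_mul, hα, show σ a = a from a.2, mul_neg]
  let A : AddSubgroup (IsBar.fixedField σ) :=
    { carrier := {a | ∃ t ∈ M, IsTv B c (a * α) t}
      zero_mem' := ⟨1, M.one_mem, by simpa using isTv_zero c⟩
      add_mem' := by
        rintro a b ⟨t, ht, e⟩ ⟨t', ht', e'⟩
        exact ⟨t * t', M.mul_mem ht ht', by simpa [add_mul] using e.mul e' hc⟩
      neg_mem' := by
        rintro a ⟨t, ht, e⟩
        exact ⟨t⁻¹, M.inv_mem ht, by simpa using e.inv hc⟩ }
  refine ⟨hc, fun s g hs hg => ?_⟩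
  obtain ⟨g', hg', e⟩ := CL.Sp.mem_of_sq_mul_mem A one_ne_zero (fun a => by
    by_cases ha : a = 0
    · rw [ha]; simp
    obtain ⟨k, hk, e⟩ := hT a (by simpa using ha) a.2
    refine ⟨_, M.mul_mem (M.mul_mem hk htM) (M.inv_mem hk), ?_⟩
    have h1 := ht.conj (hM hk)
    rw [e, isTv_smul, show σ a = a from a.2] at h1
    convert h1 using 1
    push_cast
    ring) ⟨s / α, by rw [IsBar.mem_fixedField, map_div₀, hs, hα, neg_div_neg_eq]⟩
  rw [div_mul_cancel₀ _ hα0] at e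
  exact hg.unique e ▸ hg'

theorem exists_pair_torus (h : IsHerm B q) (hP : IsUPair B W W') (hL : LeviLe B M W W') {c d : V}
    (hc : c ∈ W) (hc0 : c ≠ 0) (hd : d ∈ W') (hcd : B c d = 0) {s : F} (hs0 : s ≠ 0) (hs : σ s = s) :
    ∃ k ∈ M, k c = s • c ∧ k d = d := by
  obtain ⟨f, hf, e⟩ := h.exists_dual hP (x := fun _ : Unit => c)
    (LinearIndependent.of_subsingleton () hc0) (fun _ => hc) fun _ => 1
  have e1 : B c f = 1 := e ()
  have e2 := h.flip_one e1
  have he := hP.left hc c hc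
  have hf' := hP.right hf f hf
  obtain ⟨k, d1, d2, d3, d4, d5⟩ := h.exists_diag he hf' e1 hs0
  refine ⟨k, hL k (mem_SUG.2 ⟨d1, by rw [d5, hs, mul_inv_cancel₀ hs0]⟩) (fun x hx => ?_) fun x hx => ?_,
    d2, d4 d hcd (hP.right hd f hf)⟩
  · rw [show x = (x - B f x • c) + B f x • c by abel, map_add, map_smul, d2,
      d4 _ (by simp [he, hP.left hx _ hc]) (by simp [e2])]
    exact W.add_mem (W.sub_mem hx (W.smul_mem _ hc)) (W.smul_mem _ (W.smul_mem _ hc))
  · rw [show x = (x - B c x • f) + B c x • f by abel, map_add, map_smul, d3,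
      d4 _ (by simp [e1]) (by simp [hf', hP.right hx _ hf])]
    exact W'.add_mem (W'.sub_mem hx (W'.smul_mem _ hf)) (W'.smul_mem _ (W'.smul_mem _ hf))

/-- A second family of Eichler maps on a line `⟨c, d⟩` meeting `W` and `W'`. -/
theorem mem_uCen_of_second (h : IsHerm B q) (hq : 4 ≤ q) (hP : IsUPair B W W') (hL : LeviLe B M W W')
    (hM : M ≤ UG B) {c d : V} (hc : c ∈ W) (hc0 : c ≠ 0) (hd : d ∈ W') (hcd : B c d = 0)
    {α β γ δ : F} (h0 : α * γ ≠ 0) (he : EichFam B M (α • c + β • d) (γ • c + δ • d)) :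
    c ∈ UCen B M := by
  have hcc := hP.left hc c hc
  have hdd := hP.right hd d hd
  have hdc := h.flip_zero hcd
  obtain ⟨θ, hθ⟩ := h.bar.exists_ne
  have hα : σ α ≠ 0 := (map_ne_zero σ).2 (left_ne_zero_of_mul h0)
  have hγ : γ ≠ 0 := right_ne_zero_of_mul h0
  obtain ⟨a, ha⟩ : ∃ a, a * σ α * γ = θ := ⟨θ / (σ α * γ), by field_simp⟩
  obtain ⟨g, -, hg⟩ := h.exists_eich (r := α • c + β • d) (w := a • (γ • c + δ • d)) (c := 0)
    (by simp [LinearMap.map_smulₛₗ, hcc, hdd, hcd, hdc]) (by simp [hcc, hdd, hcd, hdc])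
    (by simp [LinearMap.map_smulₛₗ, hcc, hdd, hcd, hdc])
  obtain ⟨k, hk, ek⟩ := h.exists_levi hP hL hc (W'.smul_mem (σ a * σ γ * β - a * σ α * δ) hd)
    (by simp [hcd])
  obtain ⟨ε, e1⟩ : ∃ ε : F, ∀ x, (k * g) x = x + ((θ - σ θ) * B c x) • c + (ε * B d x) • d :=
    ⟨a * σ β * δ - σ a * σ δ * β, fun x => by
      rw [LinearEquiv.mul_apply, ek, hg, ← ha]
      simp only [map_add, map_sub, LinearMap.map_smulₛₗ, LinearMap.add_apply, LinearMap.smul_apply,
        LinearMap.sub_apply, hcc, hdd, hcd, hdc, smul_eq_mul, RingHom.id_apply, map_mul, h.bar_bar]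
      module⟩
  have hkg := M.mul_mem hk (he a g hg)
  generalize k * g = y at e1 hkg
  obtain ⟨s, s1, s2, s3, s4⟩ := h.bar.exists_fixed_ne_three hq 0 1 (-1)
  obtain ⟨z, hz, z1, z2⟩ := h.exists_pair_torus hP hL hc hc0 hd hcd s2 s1
  refine h.mem_uCen_of_torus hM hcc (fun s a1 a2 => ?_) (α := (s * s - 1) * (θ - σ θ))
    (mul_ne_zero (fun e => (mul_self_eq_one_iff.1 (sub_eq_zero.1 e)).elim s3 s4)
      (sub_ne_zero.2 hθ.symm)) (by simp only [map_mul, map_sub, s1, map_one, h.bar_bar]; ring)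
    (fun x => ?_) (M.mul_mem (M.mul_mem (M.mul_mem hz hkg) (M.inv_mem hz)) (M.inv_mem hkg))
  · obtain ⟨k, hk, e, -⟩ := h.exists_pair_torus hP hL hc hc0 hd hcd a1 a2
    exact ⟨k, hk, e⟩
  · obtain ⟨x, rfl⟩ := y.surjective x
    have b1 : B c (z⁻¹ x) = s * B c x := by
      rw [← UG_apply_left (hM hz), z1]
      simp [LinearMap.map_smulₛₗ, s1]
    have b2 : B d (z⁻¹ x) = B d x := by
      rw [← UG_apply_left (hM hz), z2]
    rw [LinearEquiv.mul_apply, show y⁻¹ (y x) = x from y.symm_apply_apply x, LinearEquiv.mul_apply,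
      LinearEquiv.mul_apply, e1, e1, map_add, map_add, map_smul, map_smul, z1, z2, b1, b2,
      show z (z⁻¹ x) = x from z.apply_symm_apply x]
    simp only [map_add, map_smul, hcc, hcd, smul_eq_mul]
    module

theorem mem_span_of_perp (h : IsHerm B q) (hP : IsUPair B W W') (h2 : finrank F W' = 2) {c d z : V}
    (hc : c ∈ W) (hc0 : c ≠ 0) (hd : d ∈ W') (hd0 : d ≠ 0) (hcd : B c d = 0) (hz : z ∈ W')
    (hcz : B c z = 0) : ∃ a : F, z = a • d := by
  obtain ⟨f, hf, e⟩ := h.exists_dual hP (x := fun _ : Unit => c)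
    (LinearIndependent.of_subsingleton () hc0) (fun _ => hc) fun _ => 1
  have h1 : W' ⊓ perp B (F ∙ c) < W' := lt_of_le_of_ne inf_le_left fun e' => by
    rw [← e'] at hf
    exact one_ne_zero ((e ()).symm.trans (mem_perp_singleton.1 hf.2))
  have h3 := Submodule.finrank_lt_finrank_of_lt h1
  have h4 : (F ∙ d) = W' ⊓ perp B (F ∙ c) := Submodule.eq_of_le_of_finrank_le
    ((Submodule.span_singleton_le_iff_mem _ _).2 ⟨hd, mem_perp_singleton.2 hcd⟩)
    (by rw [finrank_span_singleton hd0]; omega)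
  obtain ⟨a, ha⟩ := Submodule.mem_span_singleton.1 (h4 ▸ ⟨hz, mem_perp_singleton.2 hcz⟩ : z ∈ F ∙ d)
  exact ⟨a, ha.symm⟩

theorem mem_pair_of_perp (h : IsHerm B q) (hP : IsUPair B W W') (h1 : finrank F W = 2)
    (h2 : finrank F W' = 2) {c d z : V} (hc : c ∈ W) (hc0 : c ≠ 0) (hd : d ∈ W') (hd0 : d ≠ 0)
    (hcd : B c d = 0) (hcz : B c z = 0) (hdz : B d z = 0) : ∃ a b : F, z = a • c + b • d := by
  obtain ⟨x, hx, y, hy, rfl⟩ := exists_add_perp_aux hP.compl z
  rw [map_add, hP.left hx c hc, zero_add] at hcz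
  rw [map_add, hP.right hy d hd, add_zero] at hdz
  obtain ⟨a, rfl⟩ := h.mem_span_of_perp hP.symm h1 hd hd0 hc hc0 (h.flip_zero hcd) hx hdz
  obtain ⟨b, rfl⟩ := h.mem_span_of_perp hP h2 hc hc0 hd hd0 hcd hy hcz
  exact ⟨a, b, rfl⟩

theorem exists_perp_pair (h : IsHerm B q) (h2 : finrank F W' = 2) (c : V) :
    ∃ d ∈ W', d ≠ 0 ∧ B c d = 0 := by
  have h1 := h.finrank_inf_perp_singleton W' c
  obtain ⟨d, hd, hd0⟩ := Submodule.exists_mem_ne_zero_of_ne_bot (p := W' ⊓ perp B (F ∙ c)) fun e => by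
    rw [e, finrank_bot] at h1; omega
  exact ⟨d, hd.1, hd0, mem_perp_singleton.1 hd.2⟩

/-- A family of Eichler maps on a line meeting `⟨c, d⟩` in a point. -/
theorem mem_uCen_of_meet (h : IsHerm B q) (hq : 4 ≤ q) (hP : IsUPair B W W') (hL : LeviLe B M W W')
    (hM : M ≤ UG B) (h1 : finrank F W = 2) (h2 : finrank F W' = 2) {c d u v : V} (hc : c ∈ W)
    (hc0 : c ≠ 0) (hd : d ∈ W') (hd0 : d ≠ 0) (hcd : B c d = 0) (huu : B u u = 0) (huv : B u v = 0)
    (hvv : B v v = 0) (hli : LinearIndependent F ![u, v]) (he : EichFam B M u v) {π ρ s t : F}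
    (hp : π • c + ρ • d = s • u + t • v) (hp0 : π • c + ρ • d ≠ 0) (hne : B u c ≠ 0 ∨ B v c ≠ 0) :
    d ∈ UCen B M := by
  have hvu := h.flip_zero huv
  have p1 : B u (π • c + ρ • d) = 0 := by simp [hp, huu, huv]
  have p2 : B v (π • c + ρ • d) = 0 := by simp [hp, hvu, hvv]
  have hρ : ρ ≠ 0 := by
    rintro rfl
    have : π ≠ 0 := by rintro rfl; simp at hp0
    simp only [zero_smul, add_zero, map_smul, smul_eq_mul, mul_eq_zero, this, false_or] at p1 p2
    tauto
  obtain ⟨a, a0, ha⟩ : ∃ a : F, a ≠ 0 ∧ a * (B u c * B c v) = σ a * (B v c * B c u) := by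
    by_cases e : B u c * B c v = 0
    · exact ⟨1, one_ne_zero, by rw [map_one, e, ← h.symm c v, ← h.symm u c, mul_comm (σ _), ← map_mul, e,
        map_zero]⟩
    · exact ⟨B v c * B c u, by rwa [← h.symm c v, ← h.symm u c, mul_comm, ← map_mul, map_ne_zero], by
        rw [map_mul, h.symm, h.symm]; ring⟩
  obtain ⟨z, hz⟩ : ∃ z, z = (a * B u c) • v - (σ a * B v c) • u := ⟨_, rfl⟩
  have z1 : B c z = 0 := by simp only [hz, map_sub, map_smul, smul_eq_mul]; linear_combination ha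
  have z2 : B d z = 0 := by
    have b1 := h.flip_zero p1
    have b2 := h.flip_zero p2
    have : B (π • c + ρ • d) z = 0 := by simp only [hz, map_sub, map_smul, b1, b2]; simp
    simpa [LinearMap.map_smulₛₗ, z1, hρ] using this
  have z0 : z ≠ 0 := fun e => by
    have := LinearIndependent.pair_iff.1 hli (-(σ a * B v c)) (a * B u c) (by rw [← e, hz]; module)
    simp only [neg_eq_zero, mul_eq_zero, a0, map_eq_zero, false_or] at this
    tauto
  obtain ⟨m, n, hmn⟩ := h.mem_pair_of_perp hP h1 h2 hc hc0 hd hd0 hcd z1 z2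
  simp only [map_add, map_smul, smul_eq_mul] at p1 p2
  have d1 : B u d = -(π / ρ) * B u c := by field_simp; linear_combination p1
  have d2 : B v d = -(π / ρ) * B v c := by field_simp; linear_combination p2
  have n0 : n ≠ 0 := by
    rintro rfl
    have b1 : B u z = 0 := by simp [hz, huu, huv]
    have b2 : B v z = 0 := by simp [hz, hvu, hvv]
    have : m ≠ 0 := by rintro rfl; simp [z0] at hmn
    simp only [hmn, zero_smul, add_zero, map_smul, smul_eq_mul, mul_eq_zero, this, false_or] at b1 b2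
    tauto
  obtain ⟨τ, t1, t2, t3, -⟩ := h.bar.exists_fixed_ne_three hq 0 (ρ / (π * n)) 0
  obtain ⟨k, -, hk⟩ := h.exists_eich huu (w := (τ * a) • v) (by simp [huv]) (c := 0) (by
    simp [LinearMap.map_smulₛₗ, hvv])
  have k1 : k c = (τ * n) • d + (1 + τ * m) • c := by
    rw [hk, show (τ * n) • d + (1 + τ * m) • c = c + τ • z by rw [hmn]; module, hz]
    simp only [LinearMap.map_smulₛₗ, LinearMap.smul_apply, map_mul, t1, smul_eq_mul]
    module
  have k2 : k d = (1 - τ * (π / ρ) * n) • d + (-(τ * (π / ρ) * m)) • c := by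
    rw [hk, show (1 - τ * (π / ρ) * n) • d + (-(τ * (π / ρ) * m)) • c = d - (τ * (π / ρ)) • z by
      rw [hmn]; module, hz]
    simp only [LinearMap.map_smulₛₗ, LinearMap.smul_apply, map_mul, t1, smul_eq_mul, d1, d2]
    module
  have h3 := EichFam.conj hM (fun a t ht => h.eich_mem_levi hP hL hc (W'.smul_mem a hd) (by simp [hcd]) ht)
    (he _ k hk)
  rw [k1, k2] at h3
  refine h.mem_uCen_of_second hq hP.symm hL.symm hM hd hd0 hc (h.flip_zero hcd)
    (mul_ne_zero (mul_ne_zero t2 n0) fun e => t3 ?_) h3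
  have : π ≠ 0 := by rintro rfl; simp at e
  field_simp at e ⊢
  linear_combination -e

theorem exists_uCen_of_mixed_two (h : IsHerm B q) (hq : 4 ≤ q) (hP : IsUPair B W W')
    (hL : LeviLe B M W W') (hM : M ≤ UG B) (h1 : finrank F W = 2) (h2 : finrank F W' = 2)
    {g : V ≃ₗ[F] V} (hg : g ∈ M) {e : V} (he : e ∈ W) (e1 : g e ∉ W) (e2 : g e ∉ W') :
    ∃ c ∈ UCen B M, c ≠ 0 ∧ (c ∈ W ∨ c ∈ W') := by
  have he0 : e ≠ 0 := by rintro rfl; exact e1 (by simp)
  obtain ⟨f, hf, hf0, hef⟩ := h.exists_perp_pair h2 e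
  have hfam : EichFam B M (g e) (g f) := EichFam.conj hM (fun a t ht =>
    h.eich_mem_levi hP hL he (W'.smul_mem a hf) (by simp [hef]) ht) hg
  have hE : B (g e) (g e) = 0 := by rw [hM hg, hP.left he e he]
  have hG : B (g f) (g f) = 0 := by rw [hM hg, hP.right hf f hf]
  have hEG : B (g e) (g f) = 0 := by rw [hM hg, hef]
  have hli : LinearIndependent F ![g e, g f] := linearIndependent_pair_of_notMem (by simpa using he0)
    fun hh => by
      obtain ⟨a, ha⟩ := Submodule.mem_span_singleton.1 hh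
      rw [← map_smul] at ha
      exact hf0 (Submodule.disjoint_def.1 hP.compl.disjoint f (g.injective ha ▸ W.smul_mem a he) hf)
  generalize g e = u at *
  generalize g f = v at *
  obtain ⟨s, t, x, hx, y, hy, hp, hp0, hxy⟩ : ∃ s t : F, ∃ x ∈ W, ∃ y ∈ W',
      x + y = s • u + t • v ∧ x + y ≠ 0 ∧ B x y = 0 := by
    obtain ⟨x, hx, y, hy, rfl⟩ := exists_add_perp_aux hP.compl u
    obtain ⟨z, hz, w, hw, rfl⟩ := exists_add_perp_aux hP.compl v
    by_cases h0 : B x y = 0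
    · exact ⟨1, 0, x, hx, y, hy, by simp, hli.ne_zero 0, h0⟩
    simp only [map_add, LinearMap.add_apply, hP.left hx x hx, hP.right hy y hy, hP.left hz z hz,
      hP.right hw w hw, hP.left hz x hx, hP.right hw y hy, zero_add, add_zero] at hE hG hEG
    have a1 : σ (B x y) = -B x y := by rw [h.symm]; linear_combination hE
    have a2 : σ (B z w) = -B z w := by rw [h.symm]; linear_combination hG
    have a3 : B z y = -σ (B x w) := by
      rw [← h.symm y z, ← map_neg]; congr 1; linear_combination hEG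
    obtain ⟨r, hr⟩ := h.bar.exists_norm_eq (a := B x w / B x y * σ (B x w / B x y) - B z w / B x y) (by
      rw [map_sub, h.bar.norm_fixed, map_div₀ σ (B z w), a1, a2, neg_div_neg_eq])
    have e : (r - B x w / B x y) • x + z + ((r - B x w / B x y) • y + w) =
        (r - B x w / B x y) • (x + y) + (1 : F) • (z + w) := by module
    refine ⟨r - B x w / B x y, 1, _, W.add_mem (W.smul_mem _ hx) hz, _,
      W'.add_mem (W'.smul_mem _ hy) hw, e, fun e' => ?_, ?_⟩
    · exact one_ne_zero (LinearIndependent.pair_iff.1 hli _ _ (e.symm.trans e')).2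
    · simp only [map_add, LinearMap.map_smulₛₗ, LinearMap.add_apply, LinearMap.smul_apply, smul_eq_mul,
        RingHom.id_apply, map_sub, map_div₀, a1, a3] at hr ⊢
      field_simp at hr ⊢
      linear_combination hr
  obtain ⟨c, hc, hc0, d, hd, hd0, hcd, π, ρ, hp'⟩ : ∃ c ∈ W, c ≠ 0 ∧ ∃ d ∈ W', d ≠ 0 ∧ B c d = 0 ∧
      ∃ π ρ : F, π • c + ρ • d = x + y := by
    by_cases hx0 : x = 0
    · obtain ⟨c, hc, hc0, e⟩ := h.exists_perp_pair h1 y
      exact ⟨c, hc, hc0, y, hy, by simpa [hx0] using hp0, h.flip_zero e, 0, 1, by simp [hx0]⟩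
    by_cases hy0 : y = 0
    · obtain ⟨d, hd, hd0, e⟩ := h.exists_perp_pair h2 x
      exact ⟨x, hx, hx0, d, hd, hd0, e, 1, 0, by simp [hy0]⟩
    · exact ⟨x, hx, hx0, y, hy, hy0, hxy, 1, 1, by simp⟩
  rw [← hp'] at hp hp0
  by_cases a1 : B u c ≠ 0 ∨ B v c ≠ 0
  · exact ⟨d, h.mem_uCen_of_meet hq hP hL hM h1 h2 hc hc0 hd hd0 hcd hE hEG hG hli hfam hp hp0 a1, hd0,
      Or.inr hd⟩
  by_cases a2 : B u d ≠ 0 ∨ B v d ≠ 0
  · exact ⟨c, h.mem_uCen_of_meet hq hP.symm hL.symm hM h2 h1 hd hd0 hc hc0 (h.flip_zero hcd) hE hEG hG hli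
      hfam (by rw [add_comm, hp]) (by rwa [add_comm]) a2, hc0, Or.inl hc⟩
  push Not at a1 a2
  obtain ⟨α, β, rfl⟩ := h.mem_pair_of_perp hP h1 h2 hc hc0 hd hd0 hcd (h.flip_zero a1.1) (h.flip_zero a2.1)
  obtain ⟨γ, δ, rfl⟩ := h.mem_pair_of_perp hP h1 h2 hc hc0 hd hd0 hcd (h.flip_zero a1.2) (h.flip_zero a2.2)
  have b1 : α ≠ 0 := by rintro rfl; exact e2 (by simpa using W'.smul_mem β hd)
  have b2 : β ≠ 0 := by rintro rfl; exact e1 (by simpa using W.smul_mem α hc)
  by_cases b3 : γ = 0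
  · have b4 : δ ≠ 0 := by rintro rfl; exact hli.ne_zero 1 (by simp [b3])
    rw [add_comm (α • c), add_comm (γ • c)] at hfam
    exact ⟨d, h.mem_uCen_of_second hq hP.symm hL.symm hM hd hd0 hc (h.flip_zero hcd) (mul_ne_zero b2 b4) hfam,
      hd0, Or.inr hd⟩
  · exact ⟨c, h.mem_uCen_of_second hq hP hL hM hc hc0 hd hcd (mul_ne_zero b1 b3) hfam, hc0, Or.inl hc⟩

theorem SUG_le_of_pair_two (h : IsHerm B q) (hq : 4 ≤ q) {D : Fin 2 → Submodule F V}
    (hP : IsUPair B (D 0) (D 1)) (hD : ∀ i, finrank F (D i) = 2) (hM : M ≤ UG B)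
    (hH : decStab D ⊓ SUG B ≤ M) {g : V ≃ₗ[F] V} (hg : g ∈ M) (hg' : g ∉ decStab D) : SUG B ≤ M := by
  have h32 : ¬ (finrank F V = 3 ∧ q = 2) := by omega
  have hL : LeviLe B M (D 0) (D 1) := fun g hg h1 h2 => hH ⟨mem_decStab_of_stab fun i => by
    fin_cases i
    · exact mem_stabSet_of_forall h1
    · exact mem_stabSet_of_forall h2, hg⟩
  obtain ⟨s, hs, s1, s2⟩ := h.exists_swap_pair hP (by omega) (hD 0) (hD 1)
  have hsM : s ∈ M := hH ⟨⟨Equiv.swap 0 1, fun i => by fin_cases i <;> simpa⟩, hs⟩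
  obtain ⟨c, hc, hc0, hcD⟩ : ∃ c ∈ UCen B M, c ≠ 0 ∧ (c ∈ D 0 ∨ c ∈ D 1) := by
    by_contra hne
    refine hg' (mem_decStab_of_le hD (fun i j e => ?_) fun i => ?_)
    · by_contra hij
      have e' : D 0 = D 1 := by fin_cases i <;> fin_cases j <;> simp_all
      have h1 := hP.compl.disjoint
      rw [e', disjoint_self] at h1
      have h2 := hD 1
      rw [h1] at h2
      simp at h2
    · have h1 : ∀ x ∈ D i, g x ∈ D 0 ∨ g x ∈ D 1 := by
        intro x hx
        by_contra h1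
        push Not at h1
        fin_cases i
        · exact hne (h.exists_uCen_of_mixed_two hq hP hL hM (hD 0) (hD 1) hg hx h1.1 h1.2)
        · obtain ⟨c, c1, c2, c3⟩ :=
            h.exists_uCen_of_mixed_two hq hP.symm hL.symm hM (hD 1) (hD 0) hg hx h1.2 h1.1
          exact hne ⟨c, c1, c2, c3.symm⟩
      by_contra h2
      push Not at h2
      obtain ⟨_, ⟨x, hx, rfl⟩, hx'⟩ := SetLike.not_le_iff_exists.1 (h2 0)
      obtain ⟨_, ⟨y, hy, rfl⟩, hy'⟩ := SetLike.not_le_iff_exists.1 (h2 1)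
      have h3 := (h1 x hx).resolve_left hx'
      have h4 := (h1 y hy).resolve_right hy'
      rcases h1 _ ((D i).add_mem hx hy) with h5 | h5
      · rw [map_add] at h5
        exact hx' (((D 0).add_mem_iff_left h4).1 h5)
      · rw [map_add] at h5
        exact hy' (((D 1).add_mem_iff_right h3).1 h5)
  rcases hcD with h1 | h1
  · exact h.SUG_le_of_pair_uCen h32 hP hL hM hsM s1 hc hc0 h1
  · exact h.SUG_le_of_pair_uCen h32 hP.symm hL.symm hM hsM s2 hc hc0 h1

end IsHerm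

open Cfsg Cfsg.Geo in
theorem isMaximalIn_SU_pair_two [Fintype F] (hF : Fintype.card F = q ^ 2) {n : ℕ} (hq : 4 ≤ q)
    (D : Fin 2 → Submodule F (Fin n → F)) (hD : IsMDecomposition 2 D)
    (hts : ∀ i, IsTotallySingularFor (hermForm n F q) (D i)) :
    IsMaximalIn (GU n F q ⊓ specialLinear (Fin n) F)
      (decompositionStabilizer D ⊓ (GU n F q ⊓ specialLinear (Fin n) F)) := by
  have h := isBar_bar hF
  have hB := isHerm_stdB h (Fin n)
  exact isMaximalIn_SU_of h (H' := decStab D) (fun A _ => Iff.rfl)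
    (hB.exists_SUG_notMem_decStab_pair (isUPair_of h hD hts) (by rw [hD.finrank_eq]))
    fun M h1 h2 g hg hg' =>
      hB.SUG_le_of_pair_two hq (isUPair_of h hD hts) hD.finrank_eq (h2.trans SUG_le_UG) h1 hg hg'

end CL.Uni
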