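import Cfsg.Agent.Cls.UniRatO

/-!
# The orthogonal subgroups of `SU`, dimension at least six
-/

set_option autoImplicit false

namespace CL.Uni

open Module Matrix Cfsg Cfsg.Geo CL.Asch
open scoped MatrixGroups

universe u v

variable {F : Type u} [Field F] {q : ℕ} {σ : F →+* F} {V : Type v} [AddCommGroup V] [Module F V]
variable {B : V →ₛₗ[σ] V →ₗ[F] F} {M : Subgroup (V ≃ₗ[F] V)}

namespace IsJ

variable {J : V →ₛₗ[σ] V}

theorem o_exists_nonsing_of (hJ : IsJ B J 1) (h : IsHerm B q) (h2 : (2 : F) ≠ 0) {U : Submodule F V}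
    (hU : ∀ u ∈ U, J u ∈ U) {v : V} (hv : v ∈ U) (hvv : B v v ≠ 0) : ∃ b ∈ U, J b = b ∧ B b b ≠ 0 := by
  by_contra hne
  push Not at hne
  have key : ∀ a ∈ U, J a = a → ∀ b ∈ U, J b = b → B a b = 0 := fun a a1 a2 b b1 b2 => by
    have := hne (a + b) (add_mem a1 b1) (by rw [map_add, a2, b2])
    simp only [map_add, LinearMap.add_apply, hne a a1 a2, hne b b1 b2, hJ.o_symm h b2 a2] at this
    exact mul_left_cancel₀ h2 (by linear_combination this)
  have k2 : ∀ a ∈ U, J a = a → B a v = 0 := fun a a1 a2 => mem_perp_singleton.1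
    (hJ.le_of_rat h.bar hU (fun b b1 b2 => mem_perp_singleton.2 (key a a1 a2 b b1 b2)) hv)
  exact hvv (mem_perp_singleton.1
    (hJ.le_of_rat h.bar hU (fun a a1 a2 => mem_perp_singleton.2 (h.flip_zero (k2 a a1 a2))) hv))

variable [FiniteDimensional F V]

theorem o_exists_nonsing_three (hJ : IsJ B J 1) (h : IsHerm B q) (h2 : (2 : F) ≠ 0) (hn : 6 ≤ finrank F V)
    {r a a' : V} (hr : J r = r) (ha : J a = a) (ha' : J a' = a') (haa : B a a' = 1) :
    ∃ b ∈ perp B (Submodule.span F {r, a, a'}), J b = b ∧ B b b ≠ 0 := by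
  obtain ⟨v, hv, hvv⟩ : ∃ v ∈ perp B (Submodule.span F {r, a, a'}), B v v ≠ 0 := by
    by_contra hne
    push Not at hne
    have h1 := h.le_perp_of_isotropic hne
    rw [h.perp_perp] at h1
    have d3 := h.finrank_add_finrank_perp (Submodule.span F {r, a, a'})
    have d4 := finrank_span_triple_le (F := F) r a a'
    have h3 := (Submodule.eq_of_le_of_finrank_le h1 (by omega)).ge (Submodule.subset_span (by simp : a' ∈ _))
    rw [mem_perp_span.1 h3 a (by simp)] at haa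
    exact zero_ne_one haa
  exact hJ.o_exists_nonsing_of h h2
    (hJ.perp_span_inv (s := {r, a, a'}) (by rintro _ (rfl | rfl | rfl) <;> simp [hr, ha, ha'])) hv hvv

theorem o_le_of_nonsing (hJ : IsJ B J 1) (h : IsHerm B q) (h2 : (2 : F) ≠ 0) (hn : 6 ≤ finrank F V)
    (hM : M ≤ UG B) (hH : JStab J ⊓ SUG B ≤ M) {r : V} (hr : J r = r) (hr0 : r ≠ 0) (hrr : B r r = 0)
    {θ : F} (hθ0 : θ ≠ 0) (hθ : σ θ = -θ) {v : V} (e2 : J v = v) (p2 : B r v = 0) (hvv : B v v ≠ 0)
    (hθv : θ • v ∈ h.eichAdd M hrr) : SUG B ≤ M := by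
  have d1 := h.finrank_add_finrank_perp (Submodule.span F {r, v})
  have d2 := finrank_span_pair_le (F := F) r v
  have d0 := finrank_span_singleton_le (F := F) r
  obtain ⟨a, a1, a2, har, a4⟩ := hJ.o_exists_sing h (F ∙ r)
    (hJ.perp_span_inv (s := {r, v}) (by rintro _ (rfl | rfl) <;> simp [hr, e2])) (by omega)
  have hra : B r a = 0 := mem_perp_span.1 a1 r (by simp)
  have hva : B v a = 0 := mem_perp_span.1 a1 v (by simp)
  have hv' : v ∉ Submodule.span F {r, a} := fun hh => by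
    obtain ⟨s, t, e⟩ := Submodule.mem_span_pair.1 hh
    exact hvv (by nth_rw 2 [← e]; simp [hva, h.flip_zero p2])
  obtain ⟨b₀, f1, f2, f3⟩ := hJ.exists_rat_ne_zero h (span_inv (s := {r, a}) (by
    rintro _ (rfl | rfl) <;> simp only [hr, a2] <;> exact Submodule.subset_span (by simp))) hv'
  have hrb : B r b₀ = 0 := mem_perp_span.1 f1 r (by simp)
  have hab : B a b₀ = 0 := mem_perp_span.1 f1 a (by simp)
  have ha : a ∈ h.eichCore M hrr := fun l => by
    have s1 : σ ((l + σ l) / 2) = (l + σ l) / 2 := by rw [map_div₀, h.bar.trace_fixed, map_ofNat]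
    have s2 : σ ((σ l - l) / (2 * θ * B v b₀)) = (σ l - l) / (2 * θ * B v b₀) := by
      rw [map_div₀, map_sub, h.bar_bar, map_mul, map_mul, hθ, map_ofNat, hJ.o_fixed e2 f2]; field_simp; ring
    obtain ⟨k, hk, e⟩ := hJ.o_eich h h2 hH a2 (smul_rat f2 s2) a4 (by simp [hab])
    have m1 := sub_mem (h.apply_mem_eichAdd hM _ hθv hk (e.fix (h.flip_zero hra)
      (by simp [LinearMap.map_smulₛₗ, h.flip_zero hrb]))) hθv
    have m2 := add_mem m1 (hJ.o_mem_eichAdd h h2 hH hr (smul_rat a2 s1) hrr (by simp [hra]))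
    convert m2 using 1
    rw [e]
    simp only [LinearMap.map_smulₛₗ, s2, h.flip_zero hva, LinearMap.smul_apply, smul_eq_mul, mul_zero,
      hJ.o_symm h f2 e2, RingHom.id_apply]
    match_scalars <;> field_simp <;> ring
  obtain ⟨y, y1, y2, y3⟩ := hJ.exists_rat_ne_zero' h hr har
  obtain ⟨a', b1, b2, b3, b4⟩ := hJ.o_partner h h2 a2 y2 a4 y3
  have hra' := b4 r hra y1
  have b5 := h.flip_one b3
  have key : ∀ b, J b = b → B r b = 0 → B a b = 0 → B a' b = 0 → b - (B b b / 2) • a' ∈ h.eichCore M hrr :=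
    fun b c1 c2 c3 c4 => by
      obtain ⟨k, hk, e⟩ := hJ.o_eich h h2 hH b1 c1 b2 c4
      have m1 := sub_mem (h.apply_mem_eichCore hM _ ha hk (e.fix (h.flip_zero hra') (h.flip_zero c2))) ha
      convert m1 using 1
      rw [e, b5, h.flip_zero c3]; module
  have key2 : ∀ b, J b = b → B r b = 0 → B a b = 0 → B a' b = 0 → b ∈ h.eichCore M hrr :=
    fun b c1 c2 c3 c4 => by
      have m1 := sub_mem (key b c1 c2 c3 c4) (key (-b) (by simp [c1]) (by simp [c2]) (by simp [c3]) (by simp [c4]))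
      refine (Submodule.smul_mem_iff _ h2).1 ?_
      convert m1 using 1
      simp only [map_neg, LinearMap.neg_apply, neg_neg]; module
  obtain ⟨b, c1, c2, c3⟩ := hJ.o_exists_nonsing_three h h2 hn hr a2 b1 b3
  have ha' : a' ∈ h.eichCore M hrr := by
    have c4 := mem_perp_span.1 c1
    have m1 := sub_mem (key2 b c2 (c4 r (by simp)) (c4 a (by simp)) (c4 a' (by simp)))
      (key b c2 (c4 r (by simp)) (c4 a (by simp)) (c4 a' (by simp)))
    rw [sub_sub_cancel] at m1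
    exact (Submodule.smul_mem_iff _ (div_ne_zero c3 h2)).1 m1
  have hall : ∀ x, B r x = 0 → x ∈ h.eichCore M hrr := fun x hx =>
    hJ.perp_le_of_rat h.bar hr (fun u u1 u2 => by
      have m1 := key2 (u - B a' u • a - B a u • a')
        (by rw [map_sub, map_sub, u2, smul_rat a2 (hJ.o_fixed b1 u2), smul_rat b1 (hJ.o_fixed a2 u2)])
        (by simp [u1, hra, hra']) (by simp [a4, b3]) (by simp [b2, b5])
      have m2 := add_mem (add_mem m1 (Submodule.smul_mem _ (B a u) ha')) (Submodule.smul_mem _ (B a' u) ha)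
      rwa [sub_add_cancel, sub_add_cancel] at m2) hx
  obtain ⟨z, -, z1, z2⟩ := hJ.exists_rat_ne_zero h (U := ⊥) (by simp) (x := r) (by simpa using hr0)
  obtain ⟨r', r1, r2, r3, -⟩ := hJ.o_partner h h2 hr z1 hrr z2
  have d5 := h.finrank_add_finrank_perp (Submodule.span F {r, r'})
  have d6 := finrank_span_pair_le (F := F) r r'
  obtain ⟨c, g1, g2, g3⟩ := hJ.o_exists_nonsing h h2
    (hJ.perp_span_inv (s := {r, r'}) (by rintro _ (rfl | rfl) <;> simp [hr, r1])) (by omega)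
  have g4 : B r c = 0 := mem_perp_span.1 g1 r (by simp)
  obtain ⟨k, hk, e⟩ := hJ.o_eich h h2 hH r1 g2 r2 (mem_perp_span.1 g1 r' (by simp))
  refine h.SUG_le_of_eichAdd (by omega) hM hrr (fun x hx => by simpa using hall x hx 1) hk ?_
  rw [e]
  simpa [hrr, g4, h.flip_zero g4, r3, h.flip_one r3, g3] using h2

theorem o_le_of_mem' (hJ : IsJ B J 1) (h : IsHerm B q) (h2 : (2 : F) ≠ 0) (hn : 6 ≤ finrank F V)
    (hM : M ≤ UG B) (hH : JStab J ⊓ SUG B ≤ M) {r : V} (hr : J r = r) (hr0 : r ≠ 0) (hrr : B r r = 0)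
    {w : V} (hw : w ∈ h.eichAdd M hrr) (hw' : w - J w ∉ F ∙ r) : SUG B ≤ M := by
  obtain ⟨θ, hθ0, hθ⟩ := h.bar.exists_trace_zero
  have hθ' : σ θ ≠ θ := fun e => hθ0 (mul_left_cancel₀ h2 (by linear_combination hθ - e))
  obtain ⟨v₁, p1, v, p2, e1, e2, rfl⟩ := hJ.exists_decomp h.bar hθ'
    (hJ.perp_span_inv (s := {r}) (by rintro _ rfl; exact hr)) (mem_perp_singleton.2 hw.1)
  rw [mem_perp_singleton] at p1 p2
  have hv : v ∉ F ∙ r := fun hh => hw' (by
    rw [map_add, e1, LinearMap.map_smulₛₗ, e2, add_sub_add_left_eq_sub]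
    exact sub_mem (Submodule.smul_mem _ _ hh) (Submodule.smul_mem _ _ hh))
  have hθv : θ • v ∈ h.eichAdd M hrr := by
    simpa using sub_mem hw (hJ.o_mem_eichAdd h h2 hH hr e1 hrr p1)
  by_cases hvv : B v v = 0
  swap
  · exact hJ.o_le_of_nonsing h h2 hn hM hH hr hr0 hrr hθ0 hθ e2 p2 hvv hθv
  obtain ⟨y, y1, y2, y3⟩ := hJ.exists_rat_ne_zero' h hr hv
  obtain ⟨a', b1, b2, b3, b4⟩ := hJ.o_partner h h2 e2 y2 hvv y3
  have hra' := b4 r p2 y1
  have key : ∀ b, J b = b → B r b = 0 → B v b = 0 → B a' b = 0 → θ • (b - (B b b / 2) • a') ∈ h.eichAdd M hrr :=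
    fun b c1 c2 c3 c4 => by
      obtain ⟨k, hk, e⟩ := hJ.o_eich h h2 hH b1 c1 b2 c4
      have m1 := sub_mem (h.apply_mem_eichAdd hM _ hθv hk (e.fix (h.flip_zero hra') (h.flip_zero c2))) hθv
      convert m1 using 1
      rw [map_smul, e, h.flip_one b3, h.flip_zero c3]; module
  obtain ⟨b, c1, c2, c3⟩ := hJ.o_exists_nonsing_three h h2 hn hr e2 b1 b3
  have c4 := mem_perp_span.1 c1 r (by simp)
  have c5 := mem_perp_span.1 c1 v (by simp)
  have c6 := mem_perp_span.1 c1 a' (by simp)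
  refine hJ.o_le_of_nonsing h h2 hn hM hH hr hr0 hrr hθ0 hθ (v := b + b) (by rw [map_add, c2]) (by simp [c4])
    (fun e => mul_ne_zero (mul_ne_zero h2 h2) c3 (by
      simp only [map_add, LinearMap.add_apply] at e; linear_combination e)) ?_
  convert sub_mem (key b c2 c4 c5 c6) (key (-b) (by simp [c2]) (by simp [c4]) (by simp [c5]) (by simp [c6])) using 1
  simp only [map_neg, LinearMap.neg_apply, neg_neg]; module

theorem o_le_of_fix (hJ : IsJ B J 1) (h : IsHerm B q) (h2 : (2 : F) ≠ 0) (hn : 6 ≤ finrank F V)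
    (hM : M ≤ UG B) (hH : JStab J ⊓ SUG B ≤ M) (hne : ¬ SUG B ≤ M) {r : V} (hr : J r = r) (hr0 : r ≠ 0)
    (hrr : B r r = 0) {x y : V} {c : F} {k : V ≃ₗ[F] V} (hk : k ∈ M) (e : IsEich B x y c k) (hx : B x r = 0)
    (hy : B y r = 0) {w : V} (h1 : B r w = 0) (h3 : B x w = 0) (h4 : B (J x) w = 0) :
    B (J y) w • J x - B y w • x ∈ F ∙ r := by
  let φ : V →ₗ[F] V :=
    { toFun := fun w => k w - J (k (J w))
      map_add' := fun a b => by simp only [map_add]; abel
      map_smul' := fun a b => by simp only [LinearMap.map_smulₛₗ, map_smul, h.bar_bar, RingHom.id_apply, smul_sub] }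
  have h5 : φ w ∈ F ∙ r := hJ.perp_le_of_rat h.bar hr (E := (F ∙ r).comap φ) (fun u u1 u2 => by
    by_contra hh
    refine hne (hJ.o_le_of_mem' h h2 hn hM hH hr hr0 hrr
      (h.apply_mem_eichAdd hM _ (hJ.o_mem_eichAdd h h2 hH hr u2 hrr u1) hk (e.fix hx hy)) fun hh' => hh ?_)
    change k u - J (k (J u)) ∈ F ∙ r
    rwa [u2]) h1
  have h6 : ∀ z, σ (B z (J w)) = B (J z) w := fun z => by rw [← one_mul (σ _), ← hJ.form, hJ.invol]
  convert h5 using 1
  change _ = k w - J (k (J w))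
  rw [e, e]
  simp only [map_sub, map_add, LinearMap.map_smulₛₗ, map_mul, h6, h3, h4, hJ.invol]
  module

theorem o_le' (hJ : IsJ B J 1) (h : IsHerm B q) (h2 : (2 : F) ≠ 0) (hn : 6 ≤ finrank F V)
    (hM : M ≤ UG B) (hH : JStab J ⊓ SUG B ≤ M) {g : V ≃ₗ[F] V} (hg : g ∈ M) (hg' : g ∉ JStab J) :
    SUG B ≤ M := by
  obtain ⟨a, a1, a2, hx⟩ : ∃ a, J a = a ∧ B a a = 0 ∧ ∀ c : F, J (g a) ≠ c • g a := by
    by_contra hne
    push Not at hne
    refine hg' (hJ.mem_JStab_of_eigen h.bar (hJ.o_span h h2 (by omega)) (fun _ hu => hu.1)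
      (fun u hu => hne u hu.1 hu.2) fun φ hφ => ?_)
    have key : ∀ u ∈ {u | J u = u ∧ B u u = 0}, ∀ v ∈ {u | J u = u ∧ B u u = 0}, B u v = 0 → u ≠ 0 → v ≠ 0 →
        ∀ a b : F, φ u = a • u → φ v = b • v → a = b := fun u hu v hv huv hu0 hv0 a b ha hb => by
      obtain ⟨c, hc⟩ := hφ (u + v) ⟨by rw [map_add, hu.1, hv.1], by simp [hu.2, hv.2, huv, h.flip_zero huv]⟩
      exact eq_of_eigen_add hu0 hv0 ha hb hc
    intro u hu v hv hu0 hv0 a b ha hb
    have d1 := h.finrank_add_finrank_perp (Submodule.span F {u, v})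
    have d2 := finrank_span_pair_le (F := F) u v
    obtain ⟨w, w1, w2, w3, w4⟩ := hJ.o_exists_sing h ⊥ (hJ.perp_span_inv (s := {u, v}) (by
      rintro _ (rfl | rfl) <;> simp [hu.1, hv.1])) (by simp; omega)
    obtain ⟨c, hc⟩ := hφ w ⟨w2, w4⟩
    have w0 : w ≠ 0 := by simpa using w3
    rw [key u hu w ⟨w2, w4⟩ (mem_perp_span.1 w1 u (by simp)) hu0 w0 a c ha hc,
      key v hv w ⟨w2, w4⟩ (mem_perp_span.1 w1 v (by simp)) hv0 w0 b c hb hc]
  by_contra hne
  have main : ∀ s : V, ∃ y, B (g a) y = 0 ∧ B s y = 0 ∧ y ∉ Submodule.span F {g a, s} ∧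
      ∃ c, ∃ k ∈ M, IsEich B (g a) y c k := fun s => by
    obtain ⟨s, rfl⟩ := g.surjective s
    have d1 := h.finrank_add_finrank_perp (Submodule.span F {a, s, J s})
    have d2 := finrank_span_triple_le (F := F) a s (J s)
    have d3 := finrank_span_pair_le (F := F) a s
    obtain ⟨b, b1, b2, b3⟩ := hJ.exists_rat_of_lt h.bar (U' := Submodule.span F {a, s})
      (hJ.perp_span_inv (s := {a, s, J s}) (by rintro _ (rfl | rfl | rfl) <;> simp [a1, hJ.invol])) (by omega)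
    have b4 := mem_perp_span.1 b1 a (by simp)
    obtain ⟨k, hk, e⟩ := hJ.o_eich h h2 hH a1 b2 a2 b4
    refine ⟨g b, by rw [hM hg, b4], by rw [hM hg, mem_perp_span.1 b1 s (by simp)], fun hh => b3 ?_, _, _,
      M.mul_mem (M.mul_mem hg hk) (M.inv_mem hg), e.conj (hM hg)⟩
    obtain ⟨c, d, e⟩ := Submodule.mem_span_pair.1 hh
    exact Submodule.mem_span_pair.2 ⟨c, d, g.injective (by rw [map_add, map_smul, map_smul, e])⟩
  have hxx : B (g a) (g a) = 0 := by rw [hM hg, a2]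
  generalize g a = x at hx main hxx
  have hx0 : x ≠ 0 := fun e => hx 0 (by simp [e])
  have hJx : B (J x) (J x) = 0 := by rw [hJ.form, hxx, map_zero, mul_zero]
  have hli : ∀ s t : F, s • J x + t • x = 0 → s = 0 ∧ t = 0 := fun s t e => by
    have hs : s = 0 := by
      by_contra hs
      exact hx (-(t / s)) (smul_right_injective V hs (by
        simp only [smul_smul, mul_neg, mul_div_cancel₀ _ hs]; linear_combination (norm := module) e))
    exact ⟨hs, by simpa [hs, hx0] using e⟩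
  by_cases hc : B x (J x) = 0
  · obtain ⟨y, y1, y2, y3, c, k, hk, e⟩ := main (J x)
    obtain ⟨w, hw, hw'⟩ := h.exists_perp_ne_zero y3
    have w1 := mem_perp_span.1 hw x (by simp)
    have w2 := mem_perp_span.1 hw (J x) (by simp)
    obtain ⟨θ, hθ0, hθ⟩ := h.bar.exists_trace_zero
    have key : ∀ s : F, s ≠ 0 → ∃ t : F, t * σ s = B (J y) w ∧ t * s = -B y w := fun s hs => by
      obtain ⟨t, ht⟩ := Submodule.mem_span_singleton.1 (hJ.o_le_of_fix h h2 hn hM hH hne (r := σ s • J x + s • x)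
        (by simp [LinearMap.map_smulₛₗ, hJ.invol, h.bar_bar, add_comm]) (fun e => hs (hli _ _ e).2)
        (by simp [LinearMap.map_smulₛₗ, hxx, hJx, hc, h.flip_zero hc]) hk e (by simp [hc, hxx])
        (by simp [h.flip_zero y1, h.flip_zero y2]) (by simp [LinearMap.map_smulₛₗ, w1, w2]) w1 w2)
      obtain ⟨e1, e2⟩ := hli (t * σ s - B (J y) w) (t * s + B y w) (by linear_combination (norm := module) ht)
      exact ⟨t, sub_eq_zero.1 e1, eq_neg_of_add_eq_zero_left e2⟩
    obtain ⟨t, e1, e2⟩ := key 1 one_ne_zero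
    obtain ⟨t', e3, e4⟩ := key θ hθ0
    rw [map_one] at e1
    rw [hθ] at e3
    exact hw' (mul_left_cancel₀ h2 (by linear_combination e2 - e1 + e3 + e4))
  · have d1 := h.finrank_add_finrank_perp (Submodule.span F {x, J x})
    have d2 := finrank_span_pair_le (F := F) x (J x)
    obtain ⟨r, r1, r2, r3, hrr⟩ := hJ.o_exists_sing h ⊥ (hJ.perp_span_inv (s := {x, J x}) (by
      rintro _ (rfl | rfl) <;> simp [hJ.invol])) (by simp; omega)
    have r4 := mem_perp_span.1 r1 x (by simp)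
    have r5 := mem_perp_span.1 r1 (J x) (by simp)
    obtain ⟨y, y1, y2, y3, c, k, hk, e⟩ := main r
    obtain ⟨w, hw, hw'⟩ := h.exists_perp_ne_zero (U := Submodule.span F {J x, x, r}) (x := y) fun hh => by
      obtain ⟨s, z, hz, rfl⟩ := Submodule.mem_span_insert.1 hh
      obtain ⟨t, t', rfl⟩ := Submodule.mem_span_pair.1 hz
      have : s = 0 := by simpa [hxx, r4, hc] using y1
      exact y3 (by simpa [this] using hz)
    obtain ⟨t, ht⟩ := Submodule.mem_span_singleton.1 (hJ.o_le_of_fix h h2 hn hM hH hne r2 (by simpa using r3) hrr hk e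
      r4 (h.flip_zero y2) (mem_perp_span.1 hw r (by simp)) (mem_perp_span.1 hw x (by simp))
      (mem_perp_span.1 hw (J x) (by simp)))
    have := congrArg (B (J x)) ht
    simp [r5, hJx, hw', h.flip_ne hc] at this

end IsJ

theorem isMaximalIn_SU_orth' [Fintype F] {n : ℕ} (hF : Fintype.card F = q ^ 2) (hn : 6 ≤ n) (hq : Odd q)
    (F₀ : Subfield F) (hcard : Fintype.card F = Nat.card F₀ ^ 2) (P : GL (Fin n) F)
    (hP : IsFormRationalStructure (hermForm n F q) F₀ 1 P) :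
    IsMaximalIn (GU n F q ⊓ specialLinear (Fin n) F)
      (subfieldSubgroup F₀ P ⊓ (GU n F q ⊓ specialLinear (Fin n) F)) := by
  have h := isBar_bar hF
  have hB := isHerm_stdB h (Fin n)
  have hσ := h.fixed_iff_mem hcard
  have : Nonempty (Fin n) := ⟨⟨0, by omega⟩⟩
  have hJ := isJ_matJ h hσ one_ne_zero (ε := 1) (by simp) (by ring) hP
  refine isMaximalIn_SU_of h (fun A _ => glEquiv_mem_JStab hσ P A) ?_ fun M h1 h2 g hg hg' =>
    hJ.o_le' hB (h.two_ne_zero hq) (by simpa using hn) (h2.trans SUG_le_UG) h1 hg hg'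
  obtain ⟨v, -, v1, v2, v3⟩ := hJ.o_exists_sing hB (U := ⊤) ⊥ (fun _ _ => trivial) (by simp; omega)
  exact hB.exists_SUG_notMem_JStab (by simp; omega) h.ne_id hJ.ne_zero hJ.form (by simpa using v2) v3 v1

end CL.Uni
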