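/-
Overgroups of the orthogonal subgroups of `SU_n(q)`, `n ≥ 4`, `q ≥ 5` odd: stabilisers of rational
isotropic points.
-/
import Cfsg.Agent.Cls.UniRatO2
import Cfsg.Agent.Cls.U4Pair

set_option autoImplicit false

namespace CL.Uni

open Module

universe u v

variable {F : Type u} [Field F] {q : ℕ} {σ : F →+* F} {V : Type v} [AddCommGroup V] [Module F V]
variable {B : V →ₛₗ[σ] V →ₗ[F] F} {M : Subgroup (V ≃ₗ[F] V)}

/-- The reflection in `v`. -/
def rf (B : V →ₛₗ[σ] V →ₗ[F] F) (v x : V) : V := x - (2 / B v v * B v x) • v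

theorem rf_of_perp {v x : V} (h : B v x = 0) : rf B v x = x := by simp [rf, h]

theorem rf_self {v : V} (h : B v v ≠ 0) : rf B v v = -v := by
  rw [rf, div_mul_cancel₀ _ h]; module

theorem rf_neg (v x : V) : rf B v (-x) = -rf B v x := by simp only [rf, map_neg]; module

theorem IsHerm.smul_apply_mem_eichAdd (h : IsHerm B q) (hM : M ≤ UG B) {r : V} (hr : B r r = 0) {w : V}
    (hw : w ∈ h.eichAdd M hr) {k : V ≃ₗ[F] V} (hk : k ∈ M) {l : F} (hkr : k r = l • r) :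
    σ l • k w ∈ h.eichAdd M hr := by
  obtain ⟨hw, c, hc, g, hg, e⟩ := hw
  have e' := e.conj (hM hk)
  rw [hkr, isEich_smul h.bar_bar] at e'
  refine ⟨?_, _, ?_, _, M.mul_mem (M.mul_mem hk hg) (M.inv_mem hk), e'⟩
  · have := hM hk r w
    rwa [hkr, hw, LinearMap.map_smulₛₗ, LinearMap.smul_apply, ← map_smul] at this
  · simp only [LinearMap.map_smulₛₗ, LinearMap.smul_apply, smul_eq_mul, hM hk w w, map_mul, h.bar_bar,
      RingHom.id_apply, ← hc]
    ring

namespace IsJ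

variable {J : V →ₛₗ[σ] V}

theorem mem_JStab_of_rat {ε : F} (hJ : IsJ B J ε) (h : IsBar σ q) {k : V ≃ₗ[F] V} {c : F} (hc : c ≠ 0)
    (hk : ∀ u, J u = u → k u = c • J (k u)) : k ∈ JStab J := by
  obtain ⟨θ, hθ⟩ := h.exists_ne
  refine ⟨c, hc, fun v => ?_⟩
  obtain ⟨x, -, y, -, e1, e2, rfl⟩ := hJ.exists_decomp h hθ (U := ⊤) (fun _ _ => trivial) (x := v) trivial
  simp only [map_add, LinearMap.map_smulₛₗ, e1, e2, map_smul, smul_add]
  rw [← hk x e1, smul_comm c, ← hk y e2]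

theorem exists_rat_smul {ε : F} (hJ : IsJ B J ε) (h : IsBar σ q) {a : V} (ha : a ≠ 0) {c : F}
    (e : J a = c • a) : ∃ s : F, s ≠ 0 ∧ J (s • a) = s • a := by
  have h1 := hJ.invol a
  rw [e, LinearMap.map_smulₛₗ, e, smul_smul] at h1
  obtain ⟨y, y0, hy⟩ := h.exists_div_bar_eq (x := c) (by
    rw [mul_comm]; exact smul_left_injective F ha (h1.trans (one_smul F a).symm))
  exact ⟨y, y0, by rw [LinearMap.map_smulₛₗ, e, smul_smul, mul_comm, ← hy]⟩

variable [FiniteDimensional F V]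

theorem o_rf (hJ : IsJ B J 1) (h : IsHerm B q) {u v : V} (hu : J u = u) (hv : J v = v) (huu : B u u ≠ 0)
    (hvv : B v v ≠ 0) : ∃ k ∈ SUG B, (∀ x, k (J x) = J (k x)) ∧ ∀ x, k x = rf B u (rf B v x) := by
  have key : ∀ u, J u = u → B u u ≠ 0 → ∃ k ∈ UG B, dt k = -1 ∧ (∀ x, k (J x) = J (k x)) ∧
      ∀ x, k x = rf B u x := fun u hu huu => by
    have e : σ (-2 / B u u) = -2 / B u u := by rw [map_div₀, h.self_fixed, map_neg, map_ofNat]
    obtain ⟨k, hk, e1, e2⟩ := h.exists_rankOne u (c := -2 / B u u) (by rw [e]; field_simp; ring)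
    exact ⟨k, hk, by rw [e2]; field_simp; ring, h.tv_comm_J hJ.form hu (by rw [e, mul_one]) e1,
      fun x => by rw [e1, rf, neg_div, neg_mul, neg_smul, sub_eq_add_neg]⟩
  obtain ⟨k, a1, a2, a3, a4⟩ := key u hu huu
  obtain ⟨k', b1, b2, b3, b4⟩ := key v hv hvv
  exact ⟨k * k', mem_SUG.2 ⟨(UG B).mul_mem a1 b1, by rw [map_mul, a2, b2]; ring⟩,
    fun x => by simp [a3, b3], fun x => by simp [a4, b4]⟩

theorem o_partner' (hJ : IsJ B J 1) (h : IsHerm B q) (h2 : (2 : F) ≠ 0) {r : V} (hr : J r = r) (hr0 : r ≠ 0)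
    (hrr : B r r = 0) : ∃ r', J r' = r' ∧ B r' r' = 0 ∧ B r r' = 1 := by
  obtain ⟨z, -, z1, z2⟩ := hJ.exists_rat_ne_zero h (U := ⊥) (by simp) (x := r) (by simpa using hr0)
  obtain ⟨r', r1, r2, r3, -⟩ := hJ.o_partner h h2 hr z1 hrr z2
  exact ⟨r', r1, r2, r3⟩

theorem o_torus (hJ : IsJ B J 1) (h : IsHerm B q) (h2 : (2 : F) ≠ 0) (hH : JStab J ⊓ SUG B ≤ M) {r : V}
    (hr : J r = r) (hr0 : r ≠ 0) (hrr : B r r = 0) {t : F} (ht0 : t ≠ 0) (ht : σ t = t) :
    ∃ k ∈ M, k r = t • r ∧ ∀ v, B r v = 0 → ∃ c : F, k v = v + c • r := by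
  obtain ⟨f, f1, f2, f3⟩ := hJ.o_partner' h h2 hr hr0 hrr
  have f4 := h.flip_one f3
  obtain ⟨k, d1, d2, d3, d4, d5⟩ := h.exists_diag hrr f2 f3 ht0
  have e : ∀ x, k x = x + ((t - 1) * B f x) • r + ((t⁻¹ - 1) * B r x) • f := fun x => by
    conv_lhs => rw [show x = (x - B f x • r - B r x • f) + B f x • r + B r x • f by abel, map_add, map_add,
      map_smul, map_smul, d2, d3, d4 _ (by simp [hrr, f3]) (by simp [f2, f4]), ht]
    module
  refine ⟨k, hH ⟨mem_JStab_of_comm fun x => ?_, mem_SUG.2 ⟨d1, by rw [d5, ht, mul_inv_cancel₀ ht0]⟩⟩, d2,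
    fun v hv => ⟨_, by rw [e, hv, mul_zero, zero_smul, add_zero]⟩⟩
  simp only [e, map_add, LinearMap.map_smulₛₗ, hr, f1, hJ.form_rat hr, hJ.form_rat f1, map_mul, map_sub,
    map_inv₀, ht, map_one, one_mul]

/-- Transitivity on rational isotropic vectors. -/
theorem o_trans (hJ : IsJ B J 1) (h : IsHerm B q) (h2 : (2 : F) ≠ 0) (hn : 3 ≤ finrank F V)
    {a b : V} (ha : J a = a) (ha0 : a ≠ 0) (haa : B a a = 0) (hb : J b = b)
    (hb0 : b ≠ 0) (hbb : B b b = 0) : ∃ k ∈ JStab J ⊓ SUG B, k a = b := by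
  have key : ∀ a b, J a = a → B a a = 0 → J b = b → B b b = 0 → B a b ≠ 0 →
      ∃ k ∈ JStab J ⊓ SUG B, k a = b := fun a b ha haa hb hbb hab => by
    obtain ⟨w, w1, w2⟩ := h.exists_perp_self_ne_zero hn a
    obtain ⟨v, v1, v2, v3⟩ := hJ.o_exists_nonsing_of h h2
      (hJ.perp_span_inv (s := {a}) (by rintro _ rfl; exact ha)) (mem_perp_singleton.2 w1) w2
    have e := hJ.o_symm h hb ha
    have e' : B (a - b) (a - b) = -(2 * B a b) := by simp [haa, hbb, e]; ring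
    obtain ⟨k, k1, k2, k3⟩ := hJ.o_rf h (u := a - b) (by simp [ha, hb]) v2
      (by rw [e']; simp [h2, hab]) v3
    refine ⟨k, ⟨mem_JStab_of_comm k2, k1⟩, ?_⟩
    rw [k3, rf_of_perp (h.flip_zero (mem_perp_singleton.1 v1)), rf, e']
    simp only [map_sub, LinearMap.sub_apply, haa, e]
    rw [show 2 / -(2 * B a b) * (0 - B a b) = 1 by field_simp; ring]
    module
  by_cases hab : B a b ≠ 0
  · exact key a b ha haa hb hbb hab
  push Not at hab
  obtain ⟨y, y1, y2, y3⟩ : ∃ y, J y = y ∧ B a y ≠ 0 ∧ B b y ≠ 0 := by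
    obtain ⟨u, -, u2, u3⟩ := hJ.exists_rat_ne_zero h (U := ⊥) (by simp) (x := a) (by simpa using ha0)
    obtain ⟨v, -, v2, v3⟩ := hJ.exists_rat_ne_zero h (U := ⊥) (by simp) (x := b) (by simpa using hb0)
    by_cases h1 : B b u = 0
    · by_cases h3 : B a v = 0
      · exact ⟨u + v, by simp [u2, v2], by simpa [h3] using u3, by simpa [h1] using v3⟩
      · exact ⟨v, v2, h3, v3⟩
    · exact ⟨u, u2, u3, h1⟩
  have e : σ (B y y / (2 * B a y)) = B y y / (2 * B a y) := by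
    rw [map_div₀, h.self_fixed, map_mul, map_ofNat, hJ.o_fixed ha y1]
  have c1 : J (y - (B y y / (2 * B a y)) • a) = y - (B y y / (2 * B a y)) • a := by
    rw [map_sub, y1, smul_rat ha e]
  have c2 : B (y - (B y y / (2 * B a y)) • a) (y - (B y y / (2 * B a y)) • a) = 0 := by
    simp only [map_sub, LinearMap.map_smulₛₗ, LinearMap.sub_apply, LinearMap.smul_apply, e, haa,
      hJ.o_symm h y1 ha, smul_eq_mul, RingHom.id_apply]
    field_simp
    ring
  obtain ⟨k, hk, k1⟩ := key a _ ha haa c1 c2 (by simpa [haa] using y2)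
  obtain ⟨k', hk', k1'⟩ := key _ b c1 c2 hb hbb (h.flip_ne (by simpa [h.flip_zero hab] using y3))
  exact ⟨k' * k, Subgroup.mul_mem _ hk' hk, by rw [LinearEquiv.mul_apply, k1, k1']⟩

theorem o_uCen_of_tv (hJ : IsJ B J 1) (h : IsHerm B q) (h2 : (2 : F) ≠ 0) (hn : 3 ≤ finrank F V)
    (hM : M ≤ UG B) (hH : JStab J ⊓ SUG B ≤ M) {r : V} (hr : J r = r) (hr0 : r ≠ 0) (hrr : B r r = 0)
    {c : F} (hc0 : c ≠ 0) (hc : σ c = -c) {t : V ≃ₗ[F] V} (ht : IsTv B r c t) (htM : t ∈ M)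
    {a : V} (ha : J a = a) (haa : B a a = 0) : a ∈ UCen B M := by
  have h1 := h.mem_uCen_of_torus hM hrr (fun s s0 s1 =>
    let ⟨k, hk, e, _⟩ := hJ.o_torus h h2 hH hr hr0 hrr s0 s1; ⟨k, hk, e⟩) hc0 hc ht htM
  rcases eq_or_ne a 0 with rfl | ha0
  · exact zero_mem_uCen
  obtain ⟨k, hk, rfl⟩ := hJ.o_trans h h2 hn hr hr0 hrr ha ha0 haa
  exact UCen.apply_mem hM h1 (hH hk)

theorem o_le_of_skew (hJ : IsJ B J 1) (h : IsHerm B q) (h2 : (2 : F) ≠ 0) (hq : 4 ≤ q)
    (hn : 4 ≤ finrank F V) (hM : M ≤ UG B) (hH : JStab J ⊓ SUG B ≤ M) {r : V} (hr : J r = r) (hr0 : r ≠ 0)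
    (hrr : B r r = 0) {θ : F} (hθ0 : θ ≠ 0) (hθ : σ θ = -θ) {v : V} (hv : J v = v) (hrv : B r v = 0)
    (hv' : v ∉ F ∙ r) (hθv : θ • v ∈ h.eichAdd M hrr) : SUG B ≤ M := by
  have hA : ∀ u, J u = u → B r u = 0 → u ∈ h.eichAdd M hrr := fun u u1 u2 =>
    hJ.o_mem_eichAdd h h2 hH hr u1 hrr u2
  have hvc : v ∈ h.eichCore M hrr := fun l => by
    have s1 : σ ((l + σ l) / 2) = (l + σ l) / 2 := by rw [map_div₀, h.bar.trace_fixed, map_ofNat]
    have s2 : σ ((l - σ l) / (2 * θ)) = (l - σ l) / (2 * θ) := by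
      rw [map_div₀, map_sub, h.bar_bar, map_mul, hθ, map_ofNat]; field_simp; ring
    have m1 : ((l - σ l) / (2 * θ) * θ) • v ∈ h.eichAdd M hrr := by
      by_cases h0 : (l - σ l) / (2 * θ) = 0
      · rw [h0, zero_mul, zero_smul]; exact zero_mem _
      obtain ⟨k, hk, k1, k2⟩ := hJ.o_torus h h2 hH hr hr0 hrr h0 s2
      obtain ⟨c, hc⟩ := k2 v hrv
      have := h.smul_apply_mem_eichAdd hM hrr hθv hk k1
      rw [s2, map_smul, hc, smul_smul, smul_add, smul_smul] at this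
      simpa only [add_sub_cancel_right] using
        sub_mem this (h.smul_self_mem_eichAdd hrr ((l - σ l) / (2 * θ) * θ * c))
    convert add_mem m1 (hA _ (smul_rat hv s1) (by simp [hrv])) using 1
    rw [← add_smul]
    congr 1
    field_simp
    ring
  have key : ∀ v, J v = v → B r v = 0 → B v v ≠ 0 → v ∈ h.eichCore M hrr → ∀ x, B r x = 0 →
      x ∈ h.eichCore M hrr := fun v hv hrv hvv hvc x hx => by
    have k1 : ∀ u, J u = u → B r u = 0 → B u u ≠ 0 → B u v ≠ 0 → u ∈ h.eichCore M hrr :=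
      fun u u1 u2 u3 u4 => by
        obtain ⟨k, k1, k2, k3⟩ := hJ.o_rf h u1 hv u3 hvv
        have m := add_mem (h.apply_mem_eichCore hM hrr hvc (hH ⟨mem_JStab_of_comm k2, k1⟩) (by
          rw [k3, rf_of_perp (h.flip_zero hrv), rf_of_perp (h.flip_zero u2)])) hvc
        rw [k3, rf_self hvv, rf_neg, rf, neg_sub, sub_add_cancel] at m
        exact (Submodule.smul_mem_iff _ (mul_ne_zero (div_ne_zero h2 u3) u4)).1 m
    refine hJ.perp_le_of_rat h.bar hr (fun u u1 u2 => ?_) hx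
    obtain ⟨w, hw⟩ : ∃ w, w = u - (B v u / B v v) • v := ⟨_, rfl⟩
    have w1 : J w = w := by
      rw [hw, map_sub, u2, smul_rat hv (by rw [map_div₀, hJ.o_fixed hv u2, h.self_fixed])]
    have w2 : B r w = 0 := by simp [hw, u1, hrv]
    have w3 : B v w = 0 := by simp [hw, hvv]
    have w4 := h.flip_zero w3
    obtain ⟨t, t1, t2, t3⟩ : ∃ t : F, σ t = t ∧ t ≠ 0 ∧ B w w + t * t * B v v ≠ 0 := by
      obtain ⟨s, s1, s2, s3, s4⟩ := h.bar.exists_fixed_ne_three hq 0 1 (-1)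
      by_cases e : B w w + 1 * 1 * B v v = 0
      · exact ⟨s, s1, s2, fun e' => (mul_self_eq_one_iff.1 (mul_right_cancel₀ hvv
          (by linear_combination e' - e))).elim s3 s4⟩
      · exact ⟨1, map_one σ, one_ne_zero, e⟩
    have m := k1 (w + t • v) (by rw [map_add, w1, smul_rat hv t1]) (by simp [w2, hrv])
      (by simpa [LinearMap.map_smulₛₗ, t1, w3, w4, mul_assoc] using t3)
      (by simp [LinearMap.map_smulₛₗ, t1, w4, t2, hvv])
    convert add_mem m (Submodule.smul_mem _ (B v u / B v v - t) hvc) using 1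
    rw [hw]; module
  obtain ⟨y, y1, y2, y3⟩ := hJ.exists_rat_ne_zero' h hr hv'
  have hall : ∀ x, B r x = 0 → x ∈ h.eichCore M hrr := by
    by_cases hvv : B v v ≠ 0
    · exact key v hv hrv hvv hvc
    push Not at hvv
    obtain ⟨v', b1, b2, b3, b4⟩ := hJ.o_partner h h2 hv y2 hvv y3
    have b5 := b4 r hrv y1
    have b6 := h.flip_one b3
    obtain ⟨-, c1, -, g1, hg1, e1⟩ := id hθv
    obtain ⟨-, c2, -, g2, hg2, e2⟩ := hA v' b1 b5
    have b7 : B r (θ • v) = 0 := by simp [hrv]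
    have e3 := e1.mul e2 hrr (h.flip_zero b7) b5
    have e4 := e2.mul e1 hrr (h.flip_zero b5) b7
    rw [add_comm v'] at e4
    have hc : σ (2 * θ) = -(2 * θ) := by rw [map_mul, map_ofNat, hθ, mul_neg]
    obtain ⟨t, -, ht⟩ := h.exists_tv hrr hc
    have htM := h.tv_mem_of_eich_eich hrr (by simp [hrv, b5]) e3 e4 (M.mul_mem hg1 hg2) (M.mul_mem hg2 hg1)
      (t := t) (by
        convert ht using 1
        simp only [LinearMap.map_smulₛₗ, LinearMap.smul_apply, smul_eq_mul, hθ, b3, b6, RingHom.id_apply]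
        ring)
    obtain ⟨s, hs, es⟩ := h.exists_tv_mem (hJ.o_uCen_of_tv h h2 (by omega) hM hH hr hr0 hrr
      (mul_ne_zero h2 hθ0) hc ht htM b1 b2) hθ
    have m := sub_mem (h.apply_mem_eichCore hM hrr hvc hs (es.fix (h.flip_zero b5))) hvc
    rw [es, add_sub_cancel_left, b6, mul_one, Submodule.smul_mem_iff _ hθ0] at m
    exact key (v + v') (by simp [hv, b1]) (by simp [hrv, b5]) (by
      simpa [hvv, b2, b3, b6, one_add_one_eq_two] using h2) (add_mem hvc m)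
  obtain ⟨r', r1, r2, r3⟩ := hJ.o_partner' h h2 hr hr0 hrr
  obtain ⟨k, hk, e⟩ := hJ.o_trans h h2 (by omega) hr hr0 hrr r1 (by rintro rfl; simp at r3) r2
  exact h.SUG_le_of_eichAdd hn hM hrr (fun x hx => by simpa using hall x hx 1) (hH hk)
    (by rw [e, r3]; exact one_ne_zero)

theorem o_le_of_mem₄ (hJ : IsJ B J 1) (h : IsHerm B q) (h2 : (2 : F) ≠ 0) (hq : 4 ≤ q)
    (hn : 4 ≤ finrank F V) (hM : M ≤ UG B) (hH : JStab J ⊓ SUG B ≤ M) {r : V} (hr : J r = r) (hr0 : r ≠ 0)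
    (hrr : B r r = 0) {w : V} (hw : w ∈ h.eichAdd M hrr) (hw' : w - J w ∉ F ∙ r) : SUG B ≤ M := by
  obtain ⟨θ, hθ0, hθ⟩ := h.bar.exists_trace_zero
  have hθ' : σ θ ≠ θ := fun e => hθ0 (mul_left_cancel₀ h2 (by linear_combination hθ - e))
  obtain ⟨v₁, p1, v, p2, e1, e2, rfl⟩ := hJ.exists_decomp h.bar hθ'
    (hJ.perp_span_inv (s := {r}) (by rintro _ rfl; exact hr)) (mem_perp_singleton.2 hw.1)
  rw [mem_perp_singleton] at p1 p2
  refine hJ.o_le_of_skew h h2 hq hn hM hH hr hr0 hrr hθ0 hθ e2 p2 (fun hh => hw' ?_) (by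
    simpa using sub_mem hw (hJ.o_mem_eichAdd h h2 hH hr e1 hrr p1))
  rw [map_add, e1, LinearMap.map_smulₛₗ, e2, add_sub_add_left_eq_sub]
  exact sub_mem (Submodule.smul_mem _ _ hh) (Submodule.smul_mem _ _ hh)

/-- A rational vector of prescribed norm orthogonal to a rational hyperbolic pair, or a singular one. -/
theorem o_universal (hJ : IsJ B J 1) (h : IsHerm B q) (hn : 4 ≤ finrank F V) {r r' : V} (hr : J r = r)
    (hr' : J r' = r') (hrr : B r r = 0) (hrr' : B r' r' = 0) (h1 : B r r' = 1) {a : F} (ha : σ a = a) :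
    ∃ w, J w = w ∧ B r w = 0 ∧ B r' w = 0 ∧ (B w w = 2 * a ∨ (w ≠ 0 ∧ B w w = 0)) := by
  have h3 := h.flip_one h1
  have d := h.finrank_add_finrank_perp (F ∙ (r' + a • r))
  have d' := finrank_span_singleton_le (F := F) (r' + a • r)
  obtain ⟨e, e1, e2, e3, e4⟩ := hJ.o_exists_sing h ⊥ (hJ.perp_span_inv (s := {r' + a • r}) (by
    rintro _ rfl; simp [hr', smul_rat hr ha])) (by simp; omega)
  rw [mem_perp_singleton] at e1
  simp only [map_add, LinearMap.map_smulₛₗ, LinearMap.add_apply, LinearMap.smul_apply, ha, smul_eq_mul] at e1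
  have t1 := hJ.o_fixed hr e2
  have t2 := hJ.o_fixed hr' e2
  by_cases t0 : B r e = 0
  · exact ⟨e, e2, t0, by simpa [t0] using e1, Or.inr ⟨by simpa using e3, e4⟩⟩
  refine ⟨(B r e)⁻¹ • e - r' + a • r, ?_, by simp [t0, h1, hrr], ?_, Or.inl ?_⟩
  · rw [map_add, map_sub, smul_rat e2 (by rw [map_inv₀, t1]), hr', smul_rat hr ha]
  · simp only [map_add, map_sub, map_smul, hrr', h3, smul_eq_mul]
    field_simp
    linear_combination e1
  · simp only [map_add, map_sub, LinearMap.map_smulₛₗ, LinearMap.add_apply, LinearMap.sub_apply,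
      LinearMap.smul_apply, smul_eq_mul, RingHom.id_apply, map_inv₀, t1, ha, e4, hrr, hrr', h1, h3,
      hJ.o_symm h e2 hr, hJ.o_symm h e2 hr']
    field_simp
    linear_combination (-2 * B r e) * e1

theorem o_le_of_tv (hJ : IsJ B J 1) (h : IsHerm B q) (h2 : (2 : F) ≠ 0) (hq : 4 ≤ q)
    (hn : 4 ≤ finrank F V) (hM : M ≤ UG B) (hH : JStab J ⊓ SUG B ≤ M) {r : V} (hr : J r = r) (hr0 : r ≠ 0)
    (hrr : B r r = 0) {c : F} (hc0 : c ≠ 0) (hc : σ c = -c) {t : V ≃ₗ[F] V} (ht : IsTv B r c t)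
    (htM : t ∈ M) : SUG B ≤ M := by
  have hU := fun a => hJ.o_uCen_of_tv h h2 (by omega) hM hH hr hr0 hrr hc0 hc ht htM (a := a)
  obtain ⟨f, f1, f2, f3⟩ := hJ.o_partner' h h2 hr hr0 hrr
  have f4 := h.flip_one f3
  have key : ∀ z ∈ UCen B M, B r z = 0 → ∀ y, J y = y → B r y = 0 →
      (c * B z y) • z - J ((c * B z y) • z) ∉ F ∙ r → SUG B ≤ M := fun z hz z1 y y1 y2 y3 => by
    obtain ⟨s, hs, es⟩ := h.exists_tv_mem hz hc
    have m0 := hJ.o_mem_eichAdd h h2 hH hr y1 hrr y2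
    have m := sub_mem (h.apply_mem_eichAdd hM hrr m0 hs (es.fix (h.flip_zero z1))) m0
    rw [es, add_sub_cancel_left] at m
    exact hJ.o_le_of_mem₄ h h2 hq hn hM hH hr hr0 hrr m y3
  have nr : ∀ w, B f w = 0 → w ∈ F ∙ r → w = 0 := fun w w1 w2 => by
    obtain ⟨a, rfl⟩ := Submodule.mem_span_singleton.1 w2
    have : a = 0 := by simpa [f4] using w1
    simp [this]
  have sing : ∀ w, J w = w → B r w = 0 → B f w = 0 → w ≠ 0 → B w w = 0 → SUG B ≤ M :=
    fun w w1 w2 w3 w4 w5 => by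
      obtain ⟨y, y1, y2, y3⟩ := hJ.exists_rat_ne_zero' h hr fun e => w4 (nr w w3 e)
      refine key w (hU w w1 w5) w2 y y2 y1 fun e => ?_
      rw [LinearMap.map_smulₛₗ, w1, map_mul, hc, hJ.o_fixed w1 y2, ← sub_smul,
        show c * B w y - -c * B w y = 2 * c * B w y by ring,
        Submodule.smul_mem_iff _ (mul_ne_zero (mul_ne_zero h2 hc0) y3)] at e
      exact w4 (nr w w3 e)
  have hc2 : σ (c⁻¹ * c⁻¹) = c⁻¹ * c⁻¹ := by rw [map_mul, map_inv₀, hc]; ring
  obtain ⟨u, u1, u2, u3, u4 | u4⟩ := hJ.o_universal h hn hr f1 hrr f2 f3 (map_one σ)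
  swap
  · exact sing u u1 u2 u3 u4.1 u4.2
  obtain ⟨w, w1, w2, w3, w4 | w4⟩ := hJ.o_universal h hn hr f1 hrr f2 f3 hc2
  swap
  · exact sing w w1 w2 w3 w4.1 w4.2
  have e1 := hJ.o_fixed u1 w1
  have e2 := hJ.o_symm h w1 u1
  have u2' := h.flip_zero u2
  have u3' := h.flip_zero u3
  have w2' := h.flip_zero w2
  have w3' := h.flip_zero w3
  have ne : ∀ a b : F, σ a = a → σ b = b → b ≠ 0 → a * a ≠ b * b * (c⁻¹ * c⁻¹) := fun a b a1 b1 b0 e => by
    have a0 : a ≠ 0 := by rintro rfl; simp [b0, hc0] at e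
    have : (c - b / a) * (c + b / a) = 0 := by field_simp at e ⊢; linear_combination e
    have h3 : σ (b / a) = b / a := by rw [map_div₀, a1, b1]
    rcases mul_eq_zero.1 this with e' | e'
    · rw [sub_eq_zero.1 e', h3] at hc
      exact hc0 (mul_left_cancel₀ h2 (by rw [sub_eq_zero.1 e']; linear_combination hc))
    · rw [eq_neg_of_add_eq_zero_left e', map_neg, h3] at hc
      exact hc0 (mul_left_cancel₀ h2 (by rw [eq_neg_of_add_eq_zero_left e']; linear_combination hc))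
  by_cases hb : B u w - 1 - c⁻¹ * c⁻¹ = 0
  · refine sing (u - w) (by simp [u1, w1]) (by simp [u2, w2]) (by simp [u3, w3]) (fun e => ?_) ?_
    · rw [sub_eq_zero.1 e, w4] at u4
      exact ne 1 1 (map_one σ) (map_one σ) one_ne_zero (mul_left_cancel₀ h2 (by linear_combination -u4))
    · simp only [map_sub, LinearMap.sub_apply, u4, w4, e2]
      linear_combination (-2) * hb
  have hu := hU (f + u - r) (by simp [f1, u1, hr]) (by
    simp [f2, f3, f4, u2, u3, u2', u3', u4, hrr]; ring)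
  have hw := hU (f + w - (c⁻¹ * c⁻¹) • r) (by rw [map_sub, map_add, f1, w1, smul_rat hr hc2]) (by
    simp only [map_sub, map_add, LinearMap.map_smulₛₗ, LinearMap.add_apply, LinearMap.sub_apply,
      LinearMap.smul_apply, hc2, f2, f3, f4, w2, w3, w2', w3', w4, hrr, smul_eq_mul, RingHom.id_apply]
    ring)
  have hd : σ (c⁻¹ / (B u w - 1 - c⁻¹ * c⁻¹)) = -(c⁻¹ / (B u w - 1 - c⁻¹ * c⁻¹)) := by
    rw [map_div₀, map_sub, map_sub, hc2, e1, map_one, map_inv₀, hc, inv_neg, neg_div]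
  have m1 := h.add_smul_mem_uCen hM hu hw hd
  rw [show B (f + u - r) (f + w - (c⁻¹ * c⁻¹) • r) = B u w - 1 - c⁻¹ * c⁻¹ by
    simp [f2, f3, f4, u2', u3', w2, w3, hrr]; ring, div_mul_cancel₀ _ hb] at m1
  have m2 := h.add_smul_mem_uCen hM (hU f f1 f2) m1 hc
  rw [show f + w - (c⁻¹ * c⁻¹) • r + c⁻¹ • (f + u - r) + (c * B f (f + w - (c⁻¹ * c⁻¹) • r +
      c⁻¹ • (f + u - r))) • f = w + c⁻¹ • u - (c⁻¹ * c⁻¹ + c⁻¹) • r by
    simp only [map_add, map_sub, map_smul, f2, f4, u3, w3, smul_eq_mul]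
    match_scalars <;> field_simp <;> ring] at m2
  refine key _ m2 (by simp [u2, w2, hrr]) u u1 u2 fun e => ?_
  have e3 : c * B (w + c⁻¹ • u - (c⁻¹ * c⁻¹ + c⁻¹) • r) u = c * B u w - 2 := by
    simp only [map_add, map_sub, LinearMap.map_smulₛₗ, LinearMap.add_apply, LinearMap.sub_apply,
      LinearMap.smul_apply, u2, u4, e2, map_inv₀, hc, smul_eq_mul]
    field_simp
    ring
  rw [e3] at e
  generalize c⁻¹ * c⁻¹ + c⁻¹ = κ at e
  have e4 := nr ((2 * c) • (B u w • w - (2 * (c⁻¹ * c⁻¹)) • u)) (by simp [u3, w3]) (by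
    convert add_mem e (Submodule.smul_mem _ ((c * B u w - 2) * κ - (-c * B u w - 2) * σ κ)
      (Submodule.mem_span_singleton_self r)) using 1
    simp only [map_add, map_sub, LinearMap.map_smulₛₗ, u1, w1, hr, map_mul, map_inv₀, hc, e1, map_ofNat]
    match_scalars <;> field_simp <;> ring)
  rw [smul_eq_zero, or_iff_right (mul_ne_zero h2 hc0), sub_eq_zero] at e4
  have e5 := congrArg (B u) e4
  have e6 := congrArg (B w) e4
  simp only [map_smul, smul_eq_mul, u4, w4, e2] at e5 e6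
  exact ne (B u w) 2 e1 (map_ofNat σ 2) h2 (by linear_combination e5)

/-- In a proper overgroup, the stabilisers of rational isotropic points normalise `J`. -/
theorem o_mem_JStab_of_fix (hJ : IsJ B J 1) (h : IsHerm B q) (h2 : (2 : F) ≠ 0) (hq : 4 ≤ q)
    (hn : 4 ≤ finrank F V) (hM : M ≤ SUG B) (hH : JStab J ⊓ SUG B ≤ M) (hne : ¬ SUG B ≤ M) {r : V}
    (hr : J r = r) (hr0 : r ≠ 0) (hrr : B r r = 0) {g : V ≃ₗ[F] V} (hg : g ∈ M) {l : F}
    (hgr : g r = l • r) : g ∈ JStab J := by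
  have hM' := hM.trans SUG_le_UG
  have hl : l ≠ 0 := by rintro rfl; simp [hr0] at hgr
  have hl' : σ l ≠ 0 := (map_ne_zero σ).2 hl
  have sk : ∀ (u : V) (κ : F), κ • r = u - J u → σ κ = -κ ∧ J (u - (κ / 2) • r) = u - (κ / 2) • r :=
    fun u κ e => by
      have h1 : σ κ = -κ := smul_left_injective F hr0 (by
        have := congrArg J e
        rw [LinearMap.map_smulₛₗ, hr, map_sub, hJ.invol] at this
        simp only [this, neg_smul, e, neg_sub])
      refine ⟨h1, ?_⟩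
      rw [map_sub, LinearMap.map_smulₛₗ, hr, map_div₀, h1, map_ofNat, show J u = u - κ • r by rw [e]; abel]
      match_scalars <;> field_simp <;> ring
  have h1 : ∀ w, J w = w → B r w = 0 → J (σ l • g w) = σ l • g w := fun w w1 w2 => by
    obtain ⟨k, hk, e⟩ := hJ.o_eich h h2 hH hr w1 hrr w2
    have m := h.smul_apply_mem_eichAdd hM' hrr (hJ.o_mem_eichAdd h h2 hH hr w1 hrr w2) hg hgr
    obtain ⟨κ, hκ⟩ := Submodule.mem_span_singleton.1 (by_contra fun hh =>
      hne (hJ.o_le_of_mem₄ h h2 hq hn hM' hH hr hr0 hrr m hh))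
    obtain ⟨s1, s2⟩ := sk _ κ hκ
    have e' := e.conj (hM' hg)
    rw [hgr, isEich_smul h.bar_bar] at e'
    have n1 : B (σ l • g w) (σ l • g w) = B w w * (l * σ l) := by
      simp only [LinearMap.map_smulₛₗ, LinearMap.smul_apply, hM' hg w w, h.bar_bar, smul_eq_mul,
        RingHom.id_apply]
      ring
    have m1 := m.1
    generalize σ l • g w = u at *
    have m2 : B r (u - (κ / 2) • r) = 0 := by simp [m1, hrr]
    obtain ⟨k', hk', e''⟩ := hJ.o_eich h h2 hH hr s2 hrr m2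
    rw [← sub_add_cancel u ((κ / 2) • r), isEich_add_smul] at e'
    obtain ⟨t, -, ht⟩ := h.exists_tv hrr s1
    by_cases h0 : κ = 0
    · simpa [h0] using s2
    refine absurd (hJ.o_le_of_tv h h2 hq hn hM' hH hr hr0 hrr h0 s1 ht (h.tv_mem_of_eich_eich hrr m2 e' e''
      (M.mul_mem (M.mul_mem hg hk) (M.inv_mem hg)) hk' ?_)) hne
    convert ht using 1
    simp only [map_sub, LinearMap.map_smulₛₗ, LinearMap.sub_apply, LinearMap.smul_apply, n1, m1, hrr,
      h.flip_zero m1, map_div₀, s1, map_ofNat, smul_zero, sub_zero]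
    field_simp
    ring
  obtain ⟨f, f1, f2, f3⟩ := hJ.o_partner' h h2 hr hr0 hrr
  have f4 : B r (σ l • g f) = 1 := by
    have := hM' hg r f
    rwa [hgr, f3, LinearMap.map_smulₛₗ, LinearMap.smul_apply, ← map_smul] at this
  obtain ⟨κ, hκ⟩ : ∃ κ : F, κ • r = σ l • g f - J (σ l • g f) := by
    rw [← Submodule.mem_span_singleton, ← h.perp_perp (F ∙ r), mem_perp]
    intro x hx
    obtain ⟨x, rfl⟩ := g.surjective x
    rw [mem_perp_singleton] at hx
    have hx' : B r x = 0 := by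
      rw [← hM' hg, hgr]; simp [LinearMap.map_smulₛₗ, hx]
    refine h.flip_zero (hJ.perp_le_of_rat h.bar hr
      (E := LinearMap.ker (B (σ l • g f - J (σ l • g f)) ∘ₗ (g : V →ₗ[F] V))) (fun w w1 w2 => ?_) hx')
    have a1 := hJ.form_rat (h1 w w2 w1) (σ l • g f)
    have a2 : B (σ l • g w) (σ l • g f) = l * σ l * B w f := by
      simp only [LinearMap.map_smulₛₗ, LinearMap.smul_apply, hM' hg w f, h.bar_bar, smul_eq_mul,
        RingHom.id_apply]
      ring
    rw [a2, map_mul, h.bar.norm_fixed, hJ.o_fixed w2 f1, one_mul, ← a2, ← sub_eq_zero, ← map_sub,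
      LinearMap.map_smulₛₗ, LinearMap.smul_apply, smul_eq_zero, h.bar_bar, or_iff_right hl] at a1
    change B _ (g w) = 0
    rw [← neg_sub, map_neg, LinearMap.neg_apply, h.flip_zero a1, neg_zero]
  obtain ⟨s1, s2⟩ := sk _ κ hκ
  have s3 : σ (-(κ / 2)) = - -(κ / 2) := by rw [map_neg, map_div₀, s1, map_ofNat, neg_div]
  obtain ⟨t, ht, et⟩ := h.exists_tv hrr s3
  have h3 : t * g ∈ JStab J := hJ.mem_JStab_of_rat h.bar (div_ne_zero hl hl') fun u hu => by
    have a1 : J (σ l • (t * g) u) = σ l • (t * g) u := by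
      have a2 := h1 (u - B r u • f) (by rw [map_sub, hu, smul_rat f1 (hJ.o_fixed hr hu)]) (by simp [f3])
      have a3 : B r (σ l • g (u - B r u • f)) = 0 := by
        have := hM' hg r (u - B r u • f)
        rw [hgr, LinearMap.map_smulₛₗ, LinearMap.smul_apply, ← map_smul] at this
        rw [this]; simp [f3]
      rw [show σ l • (t * g) u = t (σ l • g (u - B r u • f)) + B r u • t (σ l • g f) by
        simp only [LinearEquiv.mul_apply, map_sub, map_smul]; module, et.fix a3, et, f4, mul_one, neg_smul,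
        ← sub_eq_add_neg, map_add, a2, smul_rat s2 (hJ.o_fixed hr hu)]
    rw [LinearMap.map_smulₛₗ, h.bar_bar] at a1
    rw [div_eq_inv_mul, mul_smul, a1, inv_smul_smul₀ hl']
  by_cases h0 : κ = 0
  · rwa [et.unique (by simpa [h0] using isTv_zero r), one_mul] at h3
  exact absurd (hJ.o_le_of_tv h h2 hq hn hM' hH hr hr0 hrr (by simp [h0, h2]) s3 et
    ((M.mul_mem_cancel_right hg).1 (hH ⟨h3, (SUG B).mul_mem ht (hM hg)⟩))) hne

end IsJ

end CL.Uni
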