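/-
The orthogonal subgroups of `SU_4(q)` are maximal for odd `q ≥ 5`.
-/
import Cfsg.Agent.Cls.U4Orth1

set_option autoImplicit false

namespace CL.Uni

open Module Matrix Cfsg Cfsg.Geo CL.Asch
open scoped MatrixGroups

universe u v

variable {F : Type u} [Field F] {q : ℕ} {σ : F →+* F} {V : Type v} [AddCommGroup V] [Module F V]
variable {B : V →ₛₗ[σ] V →ₗ[F] F} {M : Subgroup (V ≃ₗ[F] V)} [FiniteDimensional F V]

theorem IsHerm.eq_zero_of_frame (h : IsHerm B q) (hn : finrank F V = 4) {e f u w : V} (he : B e e = 0)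
    (hf : B f f = 0) (hef : B e f ≠ 0) (u1 : B e u = 0) (u2 : B f u = 0) (u3 : B u u ≠ 0) (w1 : B e w = 0)
    (w2 : B f w = 0) (w3 : B u w = 0) (w4 : B w w ≠ 0) {y : V} (y1 : B e y = 0) (y2 : B f y = 0)
    (y3 : B u y = 0) (y4 : B w y = 0) : y = 0 := by
  have hli : LinearIndependent F ![e, f, u, w] := by
    rw [Fintype.linearIndependent_iff]
    intro a ha
    rw [Fin.sum_univ_four] at ha
    have a1 := congrArg (B e) ha
    have a2 := congrArg (B f) ha
    have a3 := congrArg (B u) ha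
    have a4 := congrArg (B w) ha
    simp [he, hf, hef, h.flip_ne hef, u1, u2, u3, w1, w2, w3, w4, h.flip_zero u1, h.flip_zero u2,
      h.flip_zero w1, h.flip_zero w2, h.flip_zero w3] at a1 a2 a3 a4
    intro i
    fin_cases i <;> assumption
  have h1 := hli.span_eq_top_of_card_eq_finrank (by simp [hn])
  have h2 : y ∈ perp B (Submodule.span F (Set.range ![e, f, u, w])) := mem_perp_span.2 (by
    rintro _ ⟨i, rfl⟩
    fin_cases i <;> assumption)
  rwa [h1, h.perp_top, Submodule.mem_bot] at h2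

namespace IsJ

variable {J J' : V →ₛₗ[σ] V}

omit [FiniteDimensional F V] in
theorem o_bil_symm (hJ : IsJ B J 1) (h : IsHerm B q) (x y : V) : B x (J y) = B y (J x) := by
  rw [← hJ.invol x, hJ.form, one_mul, h.symm, hJ.invol]

theorem o_eq_smul (hJ : IsJ B J 1) (hJ' : IsJ B J' 1) (h : IsHerm B q) (h2 : (2 : F) ≠ 0) (hq : 4 ≤ q)
    (hn : finrank F V = 4) {x : V} (hxx : B x x = 0) (hx : B x (J x) ≠ 0)
    (hP : ∀ k ∈ SUG B, (∀ y, k (J y) = J (k y)) → k x = x → ∀ v, k (J' v) = J' (k v)) :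
    ∃ μ : F, ∀ y, B x y = 0 → B (J x) y = 0 → J' y = μ • J y := by
  have hJx : B (J x) (J x) = 0 := by rw [hJ.form, hxx, map_zero, mul_zero]
  obtain ⟨u, u1, u2, u3, u4⟩ : ∃ u, B x u = 0 ∧ B (J x) u = 0 ∧ J u = u ∧ B u u ≠ 0 := by
    obtain ⟨v, v1, v2, v3⟩ := h.exists_perp_hyperbolic (by omega) hxx hJx hx (map_one σ)
    obtain ⟨u, a1, a2, a3⟩ := hJ.o_exists_nonsing_of h h2 (hJ.perp_span_inv (s := {x, J x}) (by
      rintro _ (rfl | rfl) <;> simp [hJ.invol])) (v := v) (mem_perp_span.2 (by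
        rintro _ (rfl | rfl) <;> assumption)) (by simp [v3])
    exact ⟨u, mem_perp_span.1 a1 x (by simp), mem_perp_span.1 a1 _ (by simp), a2, a3⟩
  obtain ⟨w, w1, w2, w3, w4, w5⟩ : ∃ w, B x w = 0 ∧ B (J x) w = 0 ∧ B u w = 0 ∧ J w = w ∧ B w w ≠ 0 := by
    have d := h.finrank_perp_singleton (v := u) (by rintro rfl; simp at u4)
    obtain ⟨v, v0, v1, v2, v3⟩ := h.exists_perp_hyperbolic_mem
      (h.disjoint_perp_perp (h.disjoint_perp_singleton u4)) (by omega)
      (mem_perp_singleton.2 (h.flip_zero u1)) (mem_perp_singleton.2 (h.flip_zero u2)) hxx hJx hx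
    obtain ⟨w, a1, a2, a3⟩ := hJ.o_exists_nonsing_of h h2 (hJ.perp_span_inv (s := {x, J x, u}) (by
      rintro _ (rfl | rfl | rfl) <;> simp [hJ.invol, u3])) (v := v) (mem_perp_span.2 (by
        rintro _ (rfl | rfl | rfl)
        exacts [v1, v2, mem_perp_singleton.1 v0])) (by simp [v3])
    exact ⟨w, mem_perp_span.1 a1 x (by simp), mem_perp_span.1 a1 _ (by simp),
      mem_perp_span.1 a1 _ (by simp), a2, a3⟩
  have inv : ∀ a b, B x a = 0 → J a = a → B a a ≠ 0 → B x b = 0 → J b = b → B b b ≠ 0 →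
      ∃ k ∈ UG B, (∀ y, k y = rf B a (rf B b y)) ∧ ∀ v, k (J' v) = J' (k v) := fun a b a1 a2 a3 b1 b2 b3 => by
    obtain ⟨k, k1, k2, k3⟩ := hJ.o_rf h a2 b2 a3 b3
    exact ⟨k, SUG_le_UG k1, k3, hP k k1 k2 (by
      rw [k3, rf_of_perp (h.flip_zero b1), rf_of_perp (h.flip_zero a1)])⟩
  obtain ⟨s, s1, s2, s3, s4⟩ := h.bar.exists_fixed_ne_three hq 0 1 (-1)
  have ex : ∀ a b : F, b ≠ 0 → ∃ t : F, σ t = t ∧ t ≠ 0 ∧ a + t * t * b ≠ 0 := fun a b hb => by
    by_cases e : a + 1 * 1 * b = 0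
    · exact ⟨s, s1, s2, fun e' => (mul_self_eq_one_iff.1 (mul_right_cancel₀ hb
        (by linear_combination e' - e))).elim s3 s4⟩
    · exact ⟨1, map_one σ, one_ne_zero, e⟩
  have orth : ∀ a b, B x a = 0 → J a = a → B a a ≠ 0 → B x b = 0 → J b = b → B b b ≠ 0 → B a b = 0 →
      B a (J' b) = 0 := fun a b a1 a2 a3 b1 b2 b3 hab => by
    obtain ⟨t, t1, t2, t3⟩ := ex (B a a) (B b b) b3
    have hba := h.flip_zero hab
    have n : B (a + t • b) (a + t • b) ≠ 0 := by
      simpa [LinearMap.map_smulₛₗ, t1, hab, hba, mul_assoc] using t3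
    obtain ⟨k, k1, k2, k3⟩ := inv a (a + t • b) a1 a2 a3 (by simp [a1, b1])
      (by rw [map_add, a2, smul_rat b2 t1]) n
    have e1 : k (a + t • b) = a - t • b := by
      rw [k2, rf_self n, rf_neg, rf, map_add, map_smul, hab, smul_zero, add_zero, div_mul_cancel₀ _ a3]
      module
    have e2 := k1 (a + t • b) (J' (a + t • b))
    rw [k3, e1] at e2
    simp only [map_add, map_sub, LinearMap.map_smulₛₗ, t1, LinearMap.add_apply, LinearMap.sub_apply,
      LinearMap.smul_apply, smul_eq_mul, RingHom.id_apply, hJ'.o_bil_symm h b a] at e2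
    exact mul_left_cancel₀ (mul_ne_zero (mul_ne_zero h2 h2) t2) (by linear_combination -e2)
  have w3' := h.flip_zero w3
  obtain ⟨k, k1, k2, k3⟩ := inv u w u1 u3 u4 w1 w4 w5
  have neg : ∀ y z, k y = -y → B u z = 0 → B w z = 0 → B z (J' y) = 0 := fun y z e z1 z2 => by
    have e2 := k1 z (J' y)
    rw [k3, e, k2, rf_of_perp z2, rf_of_perp z1, map_neg, map_neg] at e2
    exact mul_left_cancel₀ h2 (by linear_combination -e2)
  have ku : k u = -u := by rw [k2, rf_of_perp w3', rf_self u4]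
  have kw : k w = -w := by rw [k2, rf_self w5, rf_neg, rf_of_perp w3]
  have Z := fun {y} => h.eq_zero_of_frame hn hxx hJx hx u1 u2 u4 w1 w2 w3 w5 (y := y)
  obtain ⟨μ, hμ⟩ : ∃ μ : F, J' u = μ • u := ⟨B u (J' u) / B u u, sub_eq_zero.1 (Z
    (by simp [u1, neg u x ku (h.flip_zero u1) (h.flip_zero w1)])
    (by simp [u2, neg u _ ku (h.flip_zero u2) (h.flip_zero w2)]) (by simp [u4])
    (by simp [w3', orth w u w1 w4 w5 u1 u3 u4 w3']))⟩
  obtain ⟨ν, hν⟩ : ∃ μ : F, J' w = μ • w := ⟨B w (J' w) / B w w, sub_eq_zero.1 (Z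
    (by simp [w1, neg w x kw (h.flip_zero u1) (h.flip_zero w1)])
    (by simp [w2, neg w _ kw (h.flip_zero u2) (h.flip_zero w2)])
    (by simp [w3, orth u w u1 u3 u4 w1 w4 w5 w3]) (by simp [w5]))⟩
  have hμν : μ = ν := by
    obtain ⟨t, t1, t2, t3⟩ := ex (B u u) (B w w) w5
    have t4 : σ (t * B w w) = t * B w w := by rw [map_mul, t1, h.self_fixed]
    have := orth (u + t • w) (B u u • w - (t * B w w) • u) (by simp [u1, w1])
      (by rw [map_add, u3, smul_rat w4 t1])
      (by simpa [LinearMap.map_smulₛₗ, t1, w3, w3', mul_assoc] using t3) (by simp [u1, w1])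
      (by rw [map_sub, smul_rat w4 (h.self_fixed u), smul_rat u3 t4])
      (by
        simp only [map_sub, LinearMap.map_smulₛₗ, LinearMap.sub_apply, LinearMap.smul_apply, t4,
          h.self_fixed, w3, w3', smul_eq_mul, RingHom.id_apply]
        intro e
        exact mul_ne_zero (mul_ne_zero u4 w5) t3 (by linear_combination e))
      (by simp [LinearMap.map_smulₛₗ, t1, w3, w3']; ring)
    simp only [map_add, map_sub, LinearMap.map_smulₛₗ, LinearMap.add_apply, LinearMap.smul_apply, t1, t4,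
      h.self_fixed, hμ, hν, w3, w3', smul_eq_mul, RingHom.id_apply] at this
    exact mul_left_cancel₀ (mul_ne_zero (mul_ne_zero u4 w5) t2) (by linear_combination -this)
  refine ⟨μ, fun y y1 y2 => ?_⟩
  have e : y = (B u y / B u u) • u + (B w y / B w w) • w := sub_eq_zero.1 (Z (by simp [y1, u1, w1])
    (by simp [y2, u2, w2]) (by simp [u4, w3]) (by simp [w5, w3']))
  rw [e]
  simp only [map_add, LinearMap.map_smulₛₗ, hμ, hν, u3, w4, hμν]
  module

/-- Two orthogonal structures as in an overgroup have a common rational isotropic point. -/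
theorem o_common (hJ : IsJ B J 1) (hJ' : IsJ B J' 1) (h : IsHerm B q) (h2 : (2 : F) ≠ 0) (hq : 4 ≤ q)
    (hn : finrank F V = 4) (hP : ∀ x, x ≠ 0 → J' x = x → B x x = 0 →
      ∀ k ∈ SUG B, (∀ y, k (J y) = J (k y)) → k x = x → ∀ v, k (J' v) = J' (k v)) :
    ∃ a, a ≠ 0 ∧ B a a = 0 ∧ (∃ c : F, J a = c • a) ∧ ∃ c : F, J' a = c • a := by
  by_contra hc
  obtain ⟨s, s1, s2, s3, s4⟩ := h.bar.exists_fixed_ne_three hq 0 1 (-1)
  have ss : s * s - 1 ≠ 0 := fun e => (mul_self_eq_one_iff.1 (sub_eq_zero.1 e)).elim s3 s4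
  obtain ⟨x, x0, x1, hxx, hx⟩ : ∃ x, x ≠ 0 ∧ J' x = x ∧ B x x = 0 ∧ B x (J x) ≠ 0 := by
    by_contra hne
    push Not at hne
    have key : ∀ x, J' x = x → B x x = 0 → B x (J x) = 0 := fun x x1 x2 => by
      rcases eq_or_ne x 0 with rfl | x0
      exacts [by simp, hne x x0 x1 x2]
    obtain ⟨e, -, e1, e2, e3⟩ := hJ'.o_exists_sing h (U := ⊤) ⊥ (fun _ _ => trivial) (by simp [hn])
    have e0 : e ≠ 0 := by simpa using e2
    obtain ⟨f, f1, f2, f3⟩ := hJ'.o_partner' h h2 e1 e0 e3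
    have f4 := h.flip_one f3
    have k1 : ∀ w, J' w = w → B e w = 0 → B f w = 0 → B w (J e) = 0 := fun w w1 w2 w3 => by
      have k2 : ∀ t : F, σ t = t → t ≠ 0 → 2 * t * B w (J e) - B w w * B e (J f) -
          B w w / t * B w (J f) + B w (J w) = 0 := fun t t1 t2 => by
        have t3 : σ (B w w / (2 * t)) = B w w / (2 * t) := by
          rw [map_div₀, h.self_fixed, map_mul, map_ofNat, t1]
        have := key (t • e + w - (B w w / (2 * t)) • f)
          (by rw [map_sub, map_add, smul_rat e1 t1, w1, smul_rat f1 t3]) (by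
            simp only [map_sub, map_add, LinearMap.map_smulₛₗ, LinearMap.add_apply, LinearMap.sub_apply,
              LinearMap.smul_apply, t1, t3, e3, f2, f3, f4, w2, w3, h.flip_zero w2, h.flip_zero w3,
              smul_eq_mul, RingHom.id_apply]
            field_simp
            ring)
        simp only [map_sub, map_add, LinearMap.map_smulₛₗ, LinearMap.add_apply, LinearMap.sub_apply,
          LinearMap.smul_apply, t1, t3, smul_eq_mul, RingHom.id_apply, key e e1 e3, key f f1 f2,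
          hJ.o_bil_symm h f e, hJ.o_bil_symm h e w, hJ.o_bil_symm h f w] at this
        rw [← this]
        field_simp
        ring
      have a1 := k2 1 (map_one σ) one_ne_zero
      have a2 := k2 (-1) (by simp) (by simp)
      have a3 := k2 s s1 s2
      have a4 := k2 (-s) (by simp [s1]) (by simpa using s2)
      rw [div_neg] at a2 a4
      rw [div_one] at a1 a2
      exact mul_left_cancel₀ (mul_ne_zero (mul_ne_zero h2 h2) ss) (by
        linear_combination s * (a3 - a4) - (a1 - a2) + 2 * B w (J f) * div_mul_cancel₀ (B w w) s2)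
    have k3 : J e ∈ F ∙ e := by
      rw [← h.perp_perp (F ∙ e), mem_perp]
      intro y hy
      refine h.flip_zero (hJ'.perp_le_of_rat h.bar e1 (E := LinearMap.ker (B (J e))) (fun u u1 u2 => ?_)
        (mem_perp_singleton.1 hy))
      have := k1 (u - B f u • e) (by rw [map_sub, u2, smul_rat e1 (hJ'.o_fixed f1 u2)]) (by simp [u1, e3])
        (by simp [f4])
      exact h.flip_zero (by simpa [LinearMap.map_smulₛₗ, key e e1 e3] using this)
    obtain ⟨c, hc'⟩ := Submodule.mem_span_singleton.1 k3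
    exact hc ⟨e, e0, e3, ⟨c, hc'.symm⟩, 1, by rw [e1, one_smul]⟩
  obtain ⟨μ, hμ⟩ := hJ.o_eq_smul hJ' h h2 hq hn hxx hx (hP x x0 x1 hxx)
  have hR : ∀ y ∈ perp B (Submodule.span F {x, J x}), J y ∈ perp B (Submodule.span F {x, J x}) :=
    hJ.perp_span_inv (s := {x, J x}) (by rintro _ (rfl | rfl) <;> simp [hJ.invol])
  have mR : ∀ {z y : V}, y ∈ perp B (Submodule.span F {z, J z}) ↔ B z y = 0 ∧ B (J z) y = 0 := by
    intro z y
    rw [mem_perp_span]
    simp
  obtain ⟨y, y1, y2, y3⟩ := hJ'.exists_rat_ne_zero h (U := perp B (Submodule.span F {x, J x})) (fun u hu => by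
    rw [hμ u (mR.1 hu).1 (mR.1 hu).2]
    exact Submodule.smul_mem _ _ (hR u hu)) (x := x) fun e => h.flip_ne hx (mR.1 e).2
  obtain ⟨x', b1, b2, b3, b4⟩ := hJ'.o_partner h h2 x1 y2 hxx y3
  obtain ⟨α, β, hx'⟩ : ∃ α β : F, α • x + β • J x = x' := by
    rw [← Submodule.mem_span_pair, ← h.perp_perp (Submodule.span F {x, J x}), mem_perp]
    exact fun z hz => b4 z (h.flip_zero (mR.1 hz).1) (mem_perp.1 y1 z hz)
  have hβ : σ β ≠ 0 := by
    rw [map_ne_zero]
    rintro rfl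
    rw [← hx'] at b3
    simp [hxx] at b3
  have pJ : ∀ w, B x w = 0 → B x' w = 0 → B (J x) w = 0 := fun w w1 w2 => by
    rw [← hx'] at w2
    simpa [LinearMap.map_smulₛₗ, w1, hβ] using w2
  have pJ' : ∀ w, B x w = 0 → B (J x) w = 0 → B x' w = 0 ∧ B (J x') w = 0 := fun w w1 w2 => by
    rw [← hx']
    simp [LinearMap.map_smulₛₗ, w1, w2, hJ.invol]
  have ex : ∀ a : F, σ a = a → ∃ w, J' w = w ∧ B x w = 0 ∧ B x' w = 0 ∧ B w w = 2 * a := fun a ha => by
    obtain ⟨w, w1, w2, w3, w4 | ⟨w4, w5⟩⟩ := hJ'.o_universal h hn.ge x1 b1 hxx b2 b3 ha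
    · exact ⟨w, w1, w2, w3, w4⟩
    · have e := hμ w w2 (pJ w w2 w3)
      have hμ0 : μ ≠ 0 := by
        rintro rfl
        exact w4 (by rw [← w1, e, zero_smul])
      exact absurd ⟨w, w4, w5, ⟨μ⁻¹, by rw [eq_inv_smul_iff₀ hμ0, ← e, w1]⟩, 1, by rw [w1, one_smul]⟩ hc
  have hμ0 : μ ≠ 0 := by
    obtain ⟨w, w1, w2, w3, w4⟩ := ex 1 (map_one σ)
    rintro rfl
    rw [← w1, hμ w w2 (pJ w w2 w3), zero_smul, map_zero, mul_one] at w4
    exact h2 w4.symm
  have val : ∀ (a : F) (w : V), σ a = a → J' w = w → B x w = 0 → B x' w = 0 → B w w = 2 * a →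
      J w = μ⁻¹ • w ∧ B (x + w - a • x') (J (x + w - a • x')) =
        B x (J x) + a * (2 * μ⁻¹ - B x (J x') - B x' (J x)) + a * a * B x' (J x') := fun a w ha w1 w2 w3 w4 => by
    have w5 := pJ w w2 w3
    have e : J w = μ⁻¹ • w := by rw [eq_inv_smul_iff₀ hμ0, ← hμ w w2 w5, w1]
    refine ⟨e, ?_⟩
    simp only [map_sub, map_add, LinearMap.map_smulₛₗ, LinearMap.add_apply, LinearMap.sub_apply,
      LinearMap.smul_apply, ha, e, w2, w3, w4, h.flip_zero w5, h.flip_zero (pJ' w w2 w5).2, smul_eq_mul,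
      RingHom.id_apply]
    ring
  obtain ⟨a, ha, ha0, hne⟩ : ∃ a : F, σ a = a ∧ a ≠ 0 ∧
      B x (J x) + a * (2 * μ⁻¹ - B x (J x') - B x' (J x)) + a * a * B x' (J x') ≠ 0 := by
    by_contra hne
    push Not at hne
    have a1 := hne 1 (map_one σ) one_ne_zero
    have a2 := hne (-1) (by simp) (by simp)
    have a3 := hne s s1 s2
    exact mul_ne_zero (mul_ne_zero h2 ss) hx (by
      linear_combination (s * s + s) * a1 + (s * s - s) * a2 - 2 * a3)
  obtain ⟨w, w1, w2, w3, w4⟩ := ex a ha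
  obtain ⟨e, ev⟩ := val a w ha w1 w2 w3 w4
  have w5 := pJ w w2 w3
  have w0 : w ≠ 0 := by
    rintro rfl
    exact mul_ne_zero h2 ha0 (by simpa using w4.symm)
  rw [← ev] at hne
  generalize hz : x + w - a • x' = z at hne
  have z1 : J' z = z := by rw [← hz, map_sub, map_add, x1, w1, smul_rat b1 ha]
  have z2 : B z z = 0 := by
    rw [← hz]
    simp only [map_sub, map_add, LinearMap.map_smulₛₗ, LinearMap.add_apply, LinearMap.sub_apply,
      LinearMap.smul_apply, ha, w2, w3, w4, h.flip_zero w2, h.flip_zero w3, hxx, b2, b3, h.flip_one b3,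
      smul_eq_mul, RingHom.id_apply]
    ring
  have z0 : z ≠ 0 := by
    rintro rfl
    simp at hne
  obtain ⟨ν, hν⟩ := hJ.o_eq_smul hJ' h h2 hq hn z2 hne (hP z z0 z1 z2)
  obtain ⟨v, v1, v0⟩ : ∃ v ∈ perp B (Submodule.span F {x, J x, w}), v ≠ 0 := by
    refine Submodule.exists_mem_ne_zero_of_ne_bot fun e => ?_
    have d1 := h.finrank_add_finrank_perp (Submodule.span F {x, J x, w})
    have d2 := finrank_span_triple_le (F := F) x (J x) w
    rw [e, finrank_bot] at d1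
    omega
  have v2 := mem_perp_span.1 v1 x (by simp)
  have v3 := mem_perp_span.1 v1 (J x) (by simp)
  have v4 := mem_perp_span.1 v1 w (by simp)
  have hμν : μ = ν := by
    have e1 := hν v (by rw [← hz]; simp [LinearMap.map_smulₛₗ, v2, v4, (pJ' v v2 v3).1])
      (by rw [← hz]; simp [LinearMap.map_smulₛₗ, e, v3, v4, (pJ' v v2 v3).2])
    rw [hμ v v2 v3] at e1
    refine smul_left_injective F (fun e2 => v0 ?_) e1
    rw [← hJ.invol v, e2, map_zero]
  have hμμ : σ μ * μ = 1 := by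
    have e1 : w = μ • J w := by rw [← hμ w w2 w5, w1]
    have e2 := congrArg J e1
    rw [LinearMap.map_smulₛₗ, hJ.invol] at e2
    rw [e2, smul_smul] at e1
    exact smul_left_injective F w0 (by simp only [one_smul, mul_comm (σ μ)]; exact e1.symm)
  let E : Submodule F V := LinearMap.ker (J' - μ • J)
  have mE : ∀ {y : V}, y ∈ E ↔ J' y = μ • J y := by
    intro y
    simp [E, sub_eq_zero]
  have lt : perp B (Submodule.span F {z, J z}) < E := by
    refine lt_of_le_of_ne (fun y hy => mE.2 (hμν ▸ hν y (mR.1 hy).1 (mR.1 hy).2)) fun e' => ?_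
    have e1 := (mR.1 (e' ▸ mE.2 (hμ w w2 w5) : w ∈ perp B (Submodule.span F {z, J z}))).1
    rw [← hz] at e1
    exact mul_ne_zero h2 ha0 (by simpa [LinearMap.map_smulₛₗ, w2, w3, w4] using e1)
  obtain ⟨b, c1, c2, c3, c4⟩ := hJ.o_exists_sing h (U := E) ⊥ (fun u hu => by
    rw [mE] at hu ⊢
    have e1 := congrArg J' hu
    rw [hJ'.invol, LinearMap.map_smulₛₗ] at e1
    rw [hJ.invol]
    conv_rhs => rw [e1, smul_smul, mul_comm, hμμ, one_smul]) (by
      have d1 := Submodule.finrank_lt_finrank_of_lt lt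
      have d2 := h.finrank_add_finrank_perp (Submodule.span F {z, J z})
      have d3 := finrank_span_pair_le (F := F) z (J z)
      rw [finrank_bot]
      omega)
  exact hc ⟨b, by simpa using c3, c4, ⟨1, by rw [c2, one_smul]⟩, μ, by rw [mE.1 c1, c2]⟩

theorem o_le₄ (hJ : IsJ B J 1) (h : IsHerm B q) (h2 : (2 : F) ≠ 0) (hq : 4 ≤ q) (hn : finrank F V = 4)
    (hM : M ≤ SUG B) (hH : JStab J ⊓ SUG B ≤ M) {g : V ≃ₗ[F] V} (hg : g ∈ M) (hg' : g ∉ JStab J) :
    SUG B ≤ M := by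
  by_contra hne
  have hgU := SUG_le_UG (hM hg)
  let J' : V →ₛₗ[σ] V := (g : V →ₗ[F] V).comp (J.comp (g.symm : V →ₗ[F] V))
  have e : ∀ v, J' v = g (J (g.symm v)) := fun v => rfl
  have hs : ∀ u v, B (g.symm u) (g.symm v) = B u v := fun u v => by
    rw [← hgU, g.apply_symm_apply, g.apply_symm_apply]
  have hJ' : IsJ B J' 1 := ⟨fun v => by simp [e, hJ.invol], fun u v => by rw [e, e, hgU, hJ.form, hs], by ring⟩
  obtain ⟨a, a0, a1, ⟨c, a2⟩, c', a3⟩ := hJ.o_common hJ' h h2 hq hn fun x x0 x1 x2 k k1 k2 k3 v => by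
    have r0 : g.symm x ≠ 0 := by simpa using x0
    have r1 : J (g.symm x) = g.symm x := by rw [← g.symm_apply_apply (J _), ← e, x1]
    have r2 : (g⁻¹ * k * g) (g.symm x) = (1 : F) • g.symm x := by
      change g.symm (k (g (g.symm x))) = _
      rw [g.apply_symm_apply, k3, one_smul]
    obtain ⟨c, -, hc⟩ := hJ.o_mem_JStab_of_fix h h2 hq hn.ge hM hH hne r1 r0 (by rw [hs, x2])
      (M.mul_mem (M.mul_mem (M.inv_mem hg) (hH ⟨mem_JStab_of_comm k2, k1⟩)) hg) r2
    have c1 : c = 1 := by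
      have := hc (g.symm x)
      rw [r1, r2, one_smul, r1] at this
      exact smul_left_injective F r0 (by simp only [one_smul]; exact this.symm)
    have := congrArg g (hc (g.symm v))
    rw [c1, one_smul] at this
    change g (g.symm (k (g (J (g.symm v))))) = g (J (g.symm (k (g (g.symm v))))) at this
    rwa [g.apply_symm_apply, g.apply_symm_apply] at this
  have r0 : g.symm a ≠ 0 := by simpa using a0
  obtain ⟨s, s0, s1⟩ := hJ.exists_rat_smul h.bar a0 a2
  obtain ⟨t, t0, t1⟩ := hJ.exists_rat_smul h.bar r0 (c := c') (by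
    rw [← g.symm_apply_apply (J _), ← e, a3, map_smul])
  have t2 : B (t • g.symm a) (t • g.symm a) = 0 := by simp [LinearMap.map_smulₛₗ, hs, a1]
  obtain ⟨m, m1, m2⟩ := hJ.o_trans h h2 (by omega) s1 (smul_ne_zero s0 a0)
    (by simp [LinearMap.map_smulₛₗ, a1]) t1 (smul_ne_zero t0 r0) t2
  have := hJ.o_mem_JStab_of_fix h h2 hq hn.ge hM hH hne t1 (smul_ne_zero t0 r0) t2
    (M.mul_mem (hH m1) hg) (l := t / s) (by
      rw [LinearEquiv.mul_apply, map_smul, g.apply_symm_apply, ← m2, ← map_smul, smul_smul,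
        div_mul_cancel₀ _ s0])
  exact hg' ((Subgroup.mul_mem_cancel_left _ m1.1).1 this)

end IsJ

theorem isMaximalIn_SU_orth₄ [Fintype F] (hF : Fintype.card F = q ^ 2) (hq : Odd q) (hq' : 4 ≤ q)
    (F₀ : Subfield F) (hcard : Fintype.card F = Nat.card F₀ ^ 2) (P : GL (Fin 4) F)
    (hP : IsFormRationalStructure (hermForm 4 F q) F₀ 1 P) :
    IsMaximalIn (GU 4 F q ⊓ specialLinear (Fin 4) F)
      (subfieldSubgroup F₀ P ⊓ (GU 4 F q ⊓ specialLinear (Fin 4) F)) := by
  have h := isBar_bar hF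
  have hB := isHerm_stdB h (Fin 4)
  have hσ := h.fixed_iff_mem hcard
  have hJ := isJ_matJ h hσ one_ne_zero (ε := 1) (by simp) (by ring) hP
  refine isMaximalIn_SU_of h (fun A _ => glEquiv_mem_JStab hσ P A) ?_ fun M h1 h2 g hg hg' =>
    hJ.o_le₄ hB (h.two_ne_zero hq) hq' (by simp) h2 h1 hg hg'
  obtain ⟨v, -, v1, v2, v3⟩ := hJ.o_exists_sing hB (U := ⊤) ⊥ (fun _ _ => trivial) (by simp)
  exact hB.exists_SUG_notMem_JStab (by simp) h.ne_id hJ.ne_zero hJ.form (by simpa using v2) v3 v1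

end CL.Uni
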