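/-
The symplectic subgroup of `SU_n(q)` is maximal for `n ≥ 4`.
-/
import Cfsg.Agent.Cls.UniRat

set_option autoImplicit false

namespace CL.Uni

open Module Matrix Cfsg Cfsg.Geo CL.Asch
open scoped MatrixGroups

universe u v

variable {F : Type u} [Field F] {q : ℕ} {σ : F →+* F} {V : Type v} [AddCommGroup V] [Module F V]
variable {B : V →ₛₗ[σ] V →ₗ[F] F} {M : Subgroup (V ≃ₗ[F] V)}

namespace IsJ

variable {J : V →ₛₗ[σ] V} [FiniteDimensional F V]

/-- Rational transvections fixing `r` are transitive on the rational vectors of `r^⊥ \ ⟨r⟩`. -/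
theorem sp_move (hJ : IsJ B J (-1)) (h : IsHerm B q) (halt : ∀ u, J u = u → B u u = 0)
    (hH : JStab J ⊓ SUG B ≤ M) {r a b : V} (hr : J r = r) (ha : J a = a) (hb : J b = b)
    (hra : B r a = 0) (hrb : B r b = 0) (ha' : a ∉ F ∙ r) (hb' : b ∉ F ∙ r) :
    ∃ k ∈ M, k r = r ∧ k a = b ∧ ∀ x, k (J x) = J (k x) := by
  have key : ∀ a b, J a = a → J b = b → B r a = 0 → B r b = 0 → B b a ≠ 0 →
      ∃ k ∈ M, k r = r ∧ k a = b ∧ ∀ x, k (J x) = J (k x) := fun a b ha hb hra hrb hab => by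
    have h1 : σ (B b a) = -B b a := by
      have := hJ.form_rat hb a
      rw [ha] at this
      linear_combination this
    have h2 : σ (B b a)⁻¹ = -(B b a)⁻¹ := by rw [map_inv₀, h1, inv_neg]
    have h3 : J (b - a) = b - a := by simp [ha, hb]
    obtain ⟨t, ht, e⟩ := h.exists_tv_mem (hJ.sp_mem_uCen h halt hH h3) h2
    refine ⟨t, ht, e.fix (by simp [h.flip_zero hra, h.flip_zero hrb]), ?_,
      h.tv_comm_J hJ.form h3 (by rw [h2]; ring) e⟩
    rw [e]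
    simp [halt a ha, hab]
  obtain ⟨z, z1, z2, z3, z4⟩ : ∃ z, B r z = 0 ∧ J z = z ∧ B a z ≠ 0 ∧ B b z ≠ 0 := by
    obtain ⟨u, u1, u2, u3⟩ := hJ.exists_rat_ne_zero' h hr ha'
    obtain ⟨v, v1, v2, v3⟩ := hJ.exists_rat_ne_zero' h hr hb'
    by_cases h1 : B b u = 0
    · by_cases h2 : B a v = 0
      · exact ⟨u + v, by simp [u1, v1], by simp [u2, v2], by simpa [h2] using u3, by simpa [h1] using v3⟩
      · exact ⟨v, v1, v2, h2, v3⟩
    · exact ⟨u, u1, u2, u3, h1⟩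
  obtain ⟨k, hk, k1, k2, k3⟩ := key a z ha z2 hra z1 (h.flip_ne z3)
  obtain ⟨k', hk', k1', k2', k3'⟩ := key z b z2 hb z1 hrb z4
  exact ⟨k' * k, M.mul_mem hk' hk, by simp [k1, k1'], by simp [k2, k2'], fun x => by simp [k3, k3']⟩

theorem sp_le₄ (hJ : IsJ B J (-1)) (h : IsHerm B q) (halt : ∀ u, J u = u → B u u = 0)
    (hn : 4 ≤ finrank F V) (hM : M ≤ UG B) (hH : JStab J ⊓ SUG B ≤ M) {g : V ≃ₗ[F] V} (hg : g ∈ M)
    (hg' : g ∉ JStab J) : SUG B ≤ M := by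
  obtain ⟨u, hu, hx⟩ : ∃ u, J u = u ∧ ∀ a : F, J (g u) ≠ a • g u := by
    by_contra hne
    push Not at hne
    refine hg' (hJ.mem_JStab_of_eigen h.bar (hJ.span_rat h.bar) (fun _ hu => hu) hne
      fun φ hφ u hu v hv hu0 hv0 a b ha hb => ?_)
    obtain ⟨c, hc⟩ := hφ (u + v) (by simpa using congrArg₂ (· + ·) hu hv)
    exact eq_of_eigen_add hu0 hv0 ha hb hc
  have hxc := UCen.apply_mem hM (hJ.sp_mem_uCen h halt hH hu) hg
  generalize g u = x at hx hxc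
  obtain ⟨θ, hθ⟩ := h.bar.exists_ne
  have dec : ∀ y, B y y = 0 → ∃ y₁ y₂, J y₁ = y₁ ∧ J y₂ = y₂ ∧ y = y₁ + θ • y₂ ∧ B y₁ y₂ = 0 :=
    fun y hy => by
      obtain ⟨y₁, -, y₂, -, e1, e2, rfl⟩ := hJ.exists_decomp h.bar hθ (U := ⊤) (fun _ _ => trivial)
        (x := y) trivial
      refine ⟨y₁, y₂, e1, e2, rfl, ?_⟩
      have h1 := hJ.form_rat e1 y₂
      rw [e2, h.symm] at h1
      simp only [map_add, LinearMap.map_smulₛₗ, LinearMap.add_apply, LinearMap.smul_apply, halt _ e1,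
        halt _ e2, smul_eq_mul, RingHom.id_apply] at hy
      exact mul_left_cancel₀ (sub_ne_zero.2 hθ.symm) (by linear_combination hy - σ θ * h1)
  obtain ⟨x₁, x₂, a1, a2, rfl, a3⟩ := dec x hxc.1
  have hθ0 : θ ≠ 0 := by rintro rfl; simp at hθ
  have a4 : x₁ ∉ F ∙ (0 : V) := fun e => hx (σ θ / θ) (by
    rw [Submodule.span_zero_singleton, Submodule.mem_bot] at e
    rw [e, zero_add, LinearMap.map_smulₛₗ, a2, smul_smul, div_mul_cancel₀ _ hθ0])
  have a5 : x₂ ∉ F ∙ x₁ := fun e => by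
    obtain ⟨c, rfl⟩ := Submodule.mem_span_singleton.1 e
    rw [show x₁ + θ • c • x₁ = (1 + θ * c) • x₁ by module] at hx
    by_cases h0 : 1 + θ * c = 0
    · exact hx 0 (by simp [h0])
    · exact hx (σ (1 + θ * c) / (1 + θ * c)) (by
        rw [LinearMap.map_smulₛₗ, a1, smul_smul, div_mul_cancel₀ _ h0])
  refine h.SUG_le_of_uCen (by omega) fun y hy => ?_
  obtain ⟨y₁, y₂, b1, b2, rfl, b3⟩ := dec y hy
  by_cases b4 : y₁ ∈ F ∙ (0 : V)
  · rw [Submodule.span_zero_singleton, Submodule.mem_bot] at b4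
    rw [b4, zero_add]
    exact h.smul_mem_uCen (hJ.sp_mem_uCen h halt hH b2) θ
  by_cases b5 : y₂ ∈ F ∙ y₁
  · obtain ⟨c, rfl⟩ := Submodule.mem_span_singleton.1 b5
    rw [show y₁ + θ • c • y₁ = (1 + θ * c) • y₁ by module]
    exact h.smul_mem_uCen (hJ.sp_mem_uCen h halt hH b1) _
  obtain ⟨k, hk, -, k1, k0⟩ := hJ.sp_move h halt hH (map_zero J) a1 b1 (by simp) (by simp) a4 b4
  have hkJ : J (k x₂) = k x₂ := by rw [← k0, a2]
  obtain ⟨k', hk', k2, k3, -⟩ := hJ.sp_move h halt hH b1 hkJ b2 (by rw [← k1, hM hk, a3]) b3 (fun e => by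
    obtain ⟨c, hc⟩ := Submodule.mem_span_singleton.1 e
    rw [← k1, ← map_smul] at hc
    exact a5 (Submodule.mem_span_singleton.2 ⟨c, k.injective hc⟩)) b5
  have := UCen.apply_mem hM hxc (M.mul_mem hk' hk)
  rwa [LinearEquiv.mul_apply, map_add, map_add, map_smul, map_smul, k1, k2, k3] at this

end IsJ

theorem isMaximalIn_SU_sp₄ [Fintype F] {n : ℕ} (hF : Fintype.card F = q ^ 2) (hn : 4 ≤ n) (F₀ : Subfield F)
    (hcard : Fintype.card F = Nat.card F₀ ^ 2) {ζ : F} (hζ0 : ζ ≠ 0) (hζ : ζ + ζ ^ q = 0) (P : GL (Fin n) F)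
    (hP : IsFormRationalStructure (hermForm n F q) F₀ ζ P)
    (halt : ∀ u : Fin n → F, (∀ i, u i ∈ F₀) →
      hermForm n F q ((P : Matrix (Fin n) (Fin n) F) *ᵥ u) ((P : Matrix (Fin n) (Fin n) F) *ᵥ u) = 0) :
    IsMaximalIn (GU n F q ⊓ specialLinear (Fin n) F)
      (subfieldSubgroup F₀ P ⊓ (GU n F q ⊓ specialLinear (Fin n) F)) := by
  have h := isBar_bar hF
  have hB := isHerm_stdB h (Fin n)
  have hσ := h.fixed_iff_mem hcard
  have : Nonempty (Fin n) := ⟨⟨0, by omega⟩⟩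
  have hJ := isJ_matJ h hσ hζ0 (ε := -1) (by rw [bar_apply]; linear_combination hζ) (by ring) hP
  have halt' : ∀ u, matJ (bar hF) P u = u → stdB (bar hF) (Fin n) u u = 0 := fun u hu => by
    obtain ⟨u, rfl⟩ := exists_mulVec P u
    rw [← hermForm_eq h]
    exact halt u ((matJ_eq_self hσ P).1 hu)
  refine isMaximalIn_SU_of h (fun A _ => glEquiv_mem_JStab hσ P A) ?_ fun M h1 h2 g hg hg' =>
    hJ.sp_le₄ hB halt' (by simpa using hn) (h2.trans SUG_le_UG) h1 hg hg'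
  obtain ⟨v, -, v1, v2⟩ := hJ.exists_rat_of_lt h (U := ⊤) (U' := ⊥) (fun _ _ => trivial) (by simp; omega)
  exact hB.exists_SUG_notMem_JStab (by simp; omega) h.ne_id hJ.ne_zero hJ.form (by simpa using v2) (halt' v v1) v1

end CL.Uni
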