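/-
Overgroups of `SU_4(q₀)` in `SU_4(q)`.
-/
import Cfsg.Agent.Cls.UniSub2

set_option autoImplicit false

namespace CL.Uni

open Module Matrix Cfsg Cfsg.Geo CL.Asch
open scoped MatrixGroups

universe u v

section

variable {F : Type u} [Field F] {q : ℕ} {σ : F →+* F} {V : Type v} [AddCommGroup V] [Module F V]
variable {B : V →ₛₗ[σ] V →ₗ[F] F} [FiniteDimensional F V]

theorem IsHerm.exists_isotropic_mem' (h : IsHerm B q) {U : Submodule F V} (h2 : 2 ≤ finrank F U) :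
    ∃ x ∈ U, x ≠ 0 ∧ B x x = 0 := by
  by_cases hU : Disjoint U (perp B U)
  · exact h.exists_isotropic_mem hU h2
  · rw [Submodule.disjoint_def] at hU
    push Not at hU
    obtain ⟨x, h1, h3, h4⟩ := hU
    exact ⟨x, h1, h4, h3 x h1⟩

theorem IsHerm.exists_op (h : IsHerm B q) (hn : 4 ≤ finrank F V) {a : V} (ha0 : a ≠ 0) (ha : B a a = 0) :
    ∃ b b', OP B a b ∧ OP B a b' ∧ B b' b = 1 := by
  have := finrank_span_singleton_le (F := F) a
  obtain ⟨e, e1, f, f1, h1, h2, h3⟩ := h.exists_hyperbolic_perp (F ∙ a) (by omega)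
  rw [mem_perp_singleton] at e1 f1
  exact ⟨f, e, OP.of_dual ha0 ha h2 f1 (h.flip_zero e1) (h3.trans_ne one_ne_zero),
    OP.of_dual ha0 ha h1 e1 (h.flip_zero f1) ((h.flip_one h3).trans_ne one_ne_zero), h3⟩

theorem OP.eq_top (h : IsHerm B q) (hn : 4 ≤ finrank F V) {a b : V} (hp : OP B a b) {X : Submodule F V}
    (ha : ∀ w, B w w = 0 → B a w = 0 → w ∈ X) (hb : ∀ w, B w w = 0 → B b w = 0 → w ∈ X) (w : V) : w ∈ X := by
  obtain ⟨f, hf⟩ := h.exists_forall_eq hp.indep ![1, 0]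
  have f1 : B a f = 1 := hf 0
  simpa using X.add_mem (h.mem_of_perp_isotropic hn hp.ne hp.left ha (w := w - B a w • f) (by simp [f1]))
    (X.smul_mem (B a w) (h.mem_of_perp_isotropic hn hp.ne' hp.right hb (hf 1)))

omit [FiniteDimensional F V] in
theorem OP.exists_perp (h : IsHerm B q) {a b : V} (hp : OP B a b) (w : V) :
    ∃ z, z ≠ 0 ∧ B z z = 0 ∧ B z w = 0 ∧ ∃ α β : F, z = α • a + β • b := by
  by_cases e : B a w = 0
  · exact ⟨a, hp.ne, hp.left, e, 1, 0, by simp⟩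
  · refine ⟨_, fun e' => hp.notMem (Submodule.mem_span_singleton.2 ⟨σ (B b w / B a w), ?_⟩), ?_, ?_,
      -σ (B b w / B a w), 1, rfl⟩
    · rwa [neg_smul, one_smul, neg_add_eq_zero] at e'
    · simp [LinearMap.map_smulₛₗ, hp.left, hp.right, hp.orth, h.flip_zero hp.orth]
    · simp [LinearMap.map_smulₛₗ, h.bar_bar, e]

end

variable {F₀ F : Type u} [Field F₀] [Field F] [Algebra F₀ F] {q q₀ : ℕ} {σ : F →+* F} {σ₀ : F₀ →+* F₀}
  {W V : Type v} [AddCommGroup W] [Module F₀ W] [AddCommGroup V] [Module F V]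

theorem mem_fieldRange_of_sq' (hp : (finrank F₀ F).Prime) (hodd : Odd (finrank F₀ F)) {a : F}
    (ha : a ^ 2 ∈ (algebraMap F₀ F).fieldRange) : a ∈ (algebraMap F₀ F).fieldRange := by
  have : FiniteDimensional F₀ F := Module.finite_of_finrank_pos hp.pos
  obtain ⟨s, hs⟩ := ha
  refine CL.Sp.exists_algebraMap_of_mul_mem hp (A := Submodule.span F₀ {1, a})
    (fun e => one_ne_zero ((Submodule.mem_bot F₀).1 (e ▸ Submodule.subset_span (by simp) : (1 : F) ∈ ⊥)))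
    (fun e => ?_) fun x hx => ?_
  · have h1 := finrank_span_pair_le (F := F₀) (1 : F) a
    rw [e, finrank_top] at h1
    have := hp.two_le
    obtain ⟨k, hk⟩ := hodd
    omega
  · obtain ⟨u, v, rfl⟩ := Submodule.mem_span_pair.1 hx
    refine Submodule.mem_span_pair.2 ⟨v * s, u, ?_⟩
    simp only [Algebra.smul_def, map_mul]
    linear_combination (algebraMap F₀ F v) * hs

namespace USub

variable {B : V →ₛₗ[σ] V →ₗ[F] F} {B₀ : W →ₛₗ[σ₀] W →ₗ[F₀] F₀} {ι : W →ₛₗ[algebraMap F₀ F] V}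
  {M : Subgroup (V ≃ₗ[F] V)} [FiniteDimensional F₀ W]

theorem linearIndependent (D : USub B q B₀ q₀ ι) {κ : Type} [Fintype κ] {f : κ → W} (hf : LinearIndependent F₀ f) :
    LinearIndependent F fun i => ι (f i) := by
  classical
  refine Fintype.linearIndependent_iff.2 fun c hc i => ?_
  obtain ⟨g, hg⟩ := D.herm₀.exists_forall_eq hf (Pi.single i 1)
  have := congrArg (B (ι g)) hc
  simp only [map_sum, map_smul, D.eq, ← D.herm₀.symm (f _), hg, map_zero, smul_eq_mul] at this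
  rw [Finset.sum_eq_single i (fun j _ hj => by simp [hj]) (by simp)] at this
  simpa using this

theorem mem_fieldRange_of_dt (D : USub B q B₀ q₀ ι) {g : V ≃ₗ[F] V} (hg : dt g = 1) {l : F}
    (h : ∀ v, ∃ w, g (ι v) = l • ι w) : l ^ finrank F₀ W ∈ (algebraMap F₀ F).fieldRange := by
  let b := Module.finBasis F₀ W
  have hι : ∀ w, ι w = ∑ i, algebraMap F₀ F (b.repr w i) • ι (b i) := fun w => by
    conv_lhs => rw [← b.sum_repr w, map_sum]
    simp only [LinearMap.map_smulₛₗ]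
  let b' : Basis (Fin (finrank F₀ W)) F V := Basis.mk (D.linearIndependent b.linearIndependent) (by
    rw [← D.span, Submodule.span_le]
    rintro _ ⟨w, rfl⟩
    rw [hι]
    exact Submodule.sum_mem _ fun i _ => Submodule.smul_mem _ _ (Submodule.subset_span ⟨i, rfl⟩))
  choose w hw using h
  have := dt_eq_det_of_basis b' (g := g) (l • (algebraMap F₀ F).mapMatrix (Matrix.of fun i j => b.repr (w (b j)) i))
    fun j => by
      simp only [b', Basis.mk_apply, hw, Matrix.smul_apply, RingHom.mapMatrix_apply, map_apply, of_apply,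
        smul_eq_mul, mul_smul, ← Finset.smul_sum, ← hι]
  rw [hg, det_smul, ← RingHom.map_det, Fintype.card_fin] at this
  exact ⟨_, (map_inv₀ _ _).trans (eq_inv_of_mul_eq_one_left this.symm).symm⟩

theorem finrank_comap_le [FiniteDimensional F V] (D : USub B q B₀ q₀ ι) (U : Submodule F V) :
    finrank F₀ (U.comap ι) ≤ finrank F U := by
  let b := Module.finBasis F₀ (U.comap ι)
  have h1 := D.linearIndependent (b.linearIndependent.map' (U.comap ι).subtype (Submodule.ker_subtype _))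
  simpa using (LinearIndependent.of_comp U.subtype (v := fun i => ⟨ι (b i), (b i).2⟩) h1).fintype_card_le_finrank

theorem exists_eq_of_norm₄ (D : USub B q B₀ q₀ ι) (hn : 4 ≤ finrank F₀ W) {x : V}
    (hN : ∀ u, B₀ u u = 0 → B x (ι u) * σ (B x (ι u)) ∈ (algebraMap F₀ F).fieldRange) :
    ∃ (l : F) (v : W), x = l • ι v := by
  have fl := @D.herm₀.flip_zero
  have step : ∀ u u', B₀ u u = 0 → B₀ u' u' = 0 → B₀ u u' = 0 → B x (ι u) ≠ 0 →
      u' ∈ lineSub B ι x (B x (ι u)) := fun u u' h1 h2 h3 h4 => by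
    have T : ∀ k : F₀, algebraMap F₀ F k * (σ (B x (ι u)) * B x (ι u')) +
        algebraMap F₀ F (σ₀ k) * (B x (ι u) * σ (B x (ι u'))) ∈ (algebraMap F₀ F).fieldRange := fun k => by
      have := sub_mem (sub_mem (hN (u + k • u') (by simp [LinearMap.map_smulₛₗ, h1, h2, h3, fl h3])) (hN u h1))
        (hN (k • u') (by simp [LinearMap.map_smulₛₗ, h2]))
      convert this using 1
      simp only [map_add, LinearMap.map_smulₛₗ ι, map_smul, smul_eq_mul, map_mul, D.bar]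
      ring
    obtain ⟨θ, hθ⟩ := D.herm₀.bar.exists_ne
    have n1 : algebraMap F₀ F (θ - σ₀ θ) ≠ 0 := (_root_.map_ne_zero _).2 (sub_ne_zero.2 hθ.symm)
    have n2 : σ (B x (ι u)) ≠ 0 := (_root_.map_ne_zero σ).2 h4
    have m := div_mem (div_mem (sub_mem (T θ) (mul_mem (RingHom.mem_fieldRange_self _ (σ₀ θ)) (T 1)))
      (RingHom.mem_fieldRange_self _ (θ - σ₀ θ))) (hN u h1)
    refine ⟨_, m, ?_⟩
    simp only [map_one]
    field_simp
    rw [map_sub]; ring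
  obtain ⟨l, hl⟩ : ∃ l : F, ∀ w, w ∈ lineSub B ι x l := by
    by_cases h0 : ∃ u, B₀ u u = 0 ∧ B x (ι u) ≠ 0
    swap
    · push Not at h0
      obtain ⟨a, ha0, ha⟩ := D.herm₀.exists_isotropic (by omega)
      obtain ⟨b, -, hp, -⟩ := D.herm₀.exists_op hn ha0 ha
      exact ⟨0, hp.eq_top D.herm₀ hn (fun w a1 _ => ⟨0, zero_mem _, by simp [h0 w a1]⟩)
        fun w a1 _ => ⟨0, zero_mem _, by simp [h0 w a1]⟩⟩
    obtain ⟨u, hu, hl⟩ := h0
    obtain ⟨b, hp, hb⟩ : ∃ b, OP B₀ u b ∧ B x (ι b) ≠ 0 := by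
      obtain ⟨b, b', hp, hp', h1⟩ := D.herm₀.exists_op hn (a := u) (by rintro rfl; simp at hl) hu
      by_cases e : B x (ι b) = 0
      · exact ⟨u + b, OP.of_dual (f := b') hp.ne hu (by simp [hu, hp.right, hp.orth, fl hp.orth])
          (by simp [hu, hp.orth]) (fl hp'.orth) (by simp [h1, fl hp'.orth]), by simpa [e] using hl⟩
      · exact ⟨b, hp, e⟩
    refine ⟨B x (ι u), hp.eq_top D.herm₀ hn (fun w a1 a2 => step u w hu a1 a2 hl) fun w a1 a2 => ?_⟩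
    obtain ⟨s, hs, e1⟩ := step b w hp.right a1 a2 hb
    obtain ⟨s', hs', e2⟩ := step u b hu hp.right hp.orth hl
    exact ⟨s' * s, mul_mem hs' hs, by rw [e1, e2, mul_assoc]⟩
  exact ⟨_, D.exists_eq_smul hl⟩

theorem exists_smul_of_isotropic₄ (D : USub B q B₀ q₀ ι) (hn : 4 ≤ finrank F₀ W) {g : V ≃ₗ[F] V}
    (h : ∀ v, B₀ v v = 0 → ∃ (l : F) (w : W), g (ι v) = l • ι w) :
    ∃ l : F, l ≠ 0 ∧ ∀ v, ∃ w, g (ι v) = l • ι w := by
  obtain ⟨u₀, hu0, hu₀⟩ := D.herm₀.exists_isotropic (by omega)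
  obtain ⟨l, w₀, e₀⟩ := h u₀ hu₀
  have hne : l • ι w₀ ≠ 0 := by rw [← e₀]; simpa using D.ne_zero hu0
  let R : Submodule F₀ W :=
    { carrier := {v | ∃ w, g (ι v) = l • ι w}
      zero_mem' := ⟨0, by simp⟩
      add_mem' := by
        rintro a b ⟨w, hw⟩ ⟨w', hw'⟩
        exact ⟨w + w', by rw [map_add, map_add, hw, hw', map_add, smul_add]⟩
      smul_mem' := by
        rintro c a ⟨w, hw⟩
        exact ⟨c • w, by rw [LinearMap.map_smulₛₗ, map_smul, hw, LinearMap.map_smulₛₗ, smul_comm]⟩ }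
  obtain ⟨b, -, hp, -⟩ := D.herm₀.exists_op hn hu0 hu₀
  obtain ⟨w, hw⟩ := D.exists_smul_step h hu0 hu₀ e₀ hp.right hp.orth
  exact ⟨l, left_ne_zero_of_smul hne, hp.eq_top D.herm₀ hn (X := R)
    (fun _ a1 a2 => D.exists_smul_step h hu0 hu₀ e₀ a1 a2) fun _ a1 a2 => D.exists_smul_step h hp.ne' hp.right hw a1 a2⟩

variable [FiniteDimensional F V]

theorem tv_all (D : USub B q B₀ q₀ ι) (hn : 4 ≤ finrank F₀ W) (hM : M ≤ UG B) (hH : RatIn B ι M) {u : W}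
    (hu0 : u ≠ 0) (hu : B₀ u u = 0) {d : F} {t : V ≃ₗ[F] V} (ht : t ∈ M) (e : IsTv B (ι u) d t) (v : W)
    (hv : B₀ v v = 0) : ∃ t ∈ M, IsTv B (ι v) d t := by
  rcases eq_or_ne v 0 with rfl | hv0
  · exact ⟨1, M.one_mem, fun x => by simp⟩
  obtain ⟨k₀, hk₀, rfl⟩ := D.herm₀.exists_mem_SUG_vec (by omega) hu0 hv0 (hu.trans hv.symm)
  obtain ⟨k, hk, e'⟩ := D.exists_extend hn hH hk₀
  exact ⟨_, M.mul_mem (M.mul_mem hk ht) (M.inv_mem hk), e' u ▸ e.conj (hM hk)⟩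

theorem mem_SP_of_tv₄ (D : USub B q B₀ q₀ ι) (hn : 4 ≤ finrank F₀ W) (hM : M ≤ UG B) (hH : RatIn B ι M)
    {u : W} (hu0 : u ≠ 0) (hu : B₀ u u = 0) {d : F} (hd : σ d = -d) {t : V ≃ₗ[F] V} (ht : t ∈ M)
    (e : IsTv B (ι u) d t) : d ∈ D.SP M := fun a b hp => by
  have fl := D.herm₀.flip_zero hp.orth
  obtain ⟨t₁, h1, e1⟩ := D.tv_all hn hM hH hu0 hu ht e b hp.right
  obtain ⟨t₂, h2, e2⟩ := D.tv_all hn hM hH hu0 hu ht e (b + a) (by simp [hp.left, hp.right, hp.orth, fl])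
  obtain ⟨t₃, h3, e3⟩ := D.tv_all hn hM hH hu0 hu ht e a hp.left
  rw [map_add, ← one_smul F (ι a)] at e2
  have := (D.herm.isEich_tv_mul_inv (D.orth hp.right) (D.orth hp.orth) hd e1 e2).mul
    (isEich_zero.2 (e3.inv (D.orth hp.left))) (D.orth hp.left) (by simp [LinearMap.map_smulₛₗ, D.orth fl]) (by simp)
  exact ⟨_, M.mul_mem (M.mul_mem h2 (M.inv_mem h1)) (M.inv_mem h3), by simpa using this⟩

theorem tv_of_eichAdd (D : USub B q B₀ q₀ ι) (hn : 4 ≤ finrank F₀ W) (hM : M ≤ UG B) (hH : RatIn B ι M)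
    {a b : W} (hp : OP B₀ a b) {s : F} (hs : s • ι b ∈ D.herm.eichAdd M (D.orth hp.left)) (x : F₀) :
    ∃ t ∈ M, IsTv B (ι a) (s * algebraMap F₀ F x - σ (s * algebraMap F₀ F x)) t := by
  obtain ⟨-, d, -, g, hg, e⟩ := hs
  obtain ⟨w, hw⟩ := D.herm₀.exists_forall_eq hp.indep ![0, -σ₀ x]
  have w1 : B₀ a w = 0 := hw 0
  have w2 : B₀ w b = -x := by rw [← D.herm₀.symm, show B₀ b w = -σ₀ x from hw 1, map_neg, D.herm₀.bar_bar]
  obtain ⟨c, hc⟩ := D.herm₀.bar.exists_trace_eq (D.herm₀.self_fixed w)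
  obtain ⟨k₀, hk₀, k1⟩ := D.herm₀.exists_eich hp.left w1 hc
  obtain ⟨k, hk, e'⟩ := D.exists_extend hn hH hk₀
  obtain ⟨g', hg', e''⟩ := D.eich_sub hM hp.left hp.right hp.orth hg e hk (y := algebraMap F₀ F x • ι a)
    (by rw [e', k1.fix hp.left (D.herm₀.flip_zero w1)]) (by rw [e', k1]; simp [hp.orth, w2, LinearMap.map_smulₛₗ])
    (by simp [D.orth hp.left]) (by simp [LinearMap.map_smulₛₗ, D.orth hp.orth])
  rw [smul_smul, ← zero_add (_ • ι a), isEich_add_smul, isEich_zero, zero_add, neg_sub] at e''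
  exact ⟨g', hg', e''⟩

omit [FiniteDimensional F₀ W] [FiniteDimensional F V] in
theorem mem_of_skew (D : USub B q B₀ q₀ ι) {A : Submodule F₀ F} {s t : F}
    (h : ∀ x : F₀, (s * algebraMap F₀ F x - σ (s * algebraMap F₀ F x)) * t ∈ A) : s * t ∈ A := by
  obtain ⟨θ, hθ⟩ := D.herm₀.bar.exists_ne
  have n1 : algebraMap F₀ F (σ₀ θ - θ) ≠ 0 := (_root_.map_ne_zero _).2 (sub_ne_zero.2 hθ)
  convert A.smul_mem (σ₀ θ - θ)⁻¹ (A.sub_mem (A.smul_mem (σ₀ θ) (h 1)) (h θ)) using 1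
  simp only [Algebra.smul_def, map_inv₀, map_mul, D.bar, map_one]
  field_simp
  rw [map_sub]
  ring

theorem mem_SP_of_eichAdd₄ (D : USub B q B₀ q₀ ι) (hn : 4 ≤ finrank F₀ W) (hM : M ≤ UG B) (hH : RatIn B ι M)
    {a b : W} (hp : OP B₀ a b) {s : F} (hs : s • ι b ∈ D.herm.eichAdd M (D.orth hp.left)) : s ∈ D.SP M := by
  rw [← mul_one s]
  refine D.mem_of_skew fun x => ?_
  obtain ⟨t, ht, e⟩ := D.tv_of_eichAdd hn hM hH hp hs x
  rw [mul_one]
  exact D.mem_SP_of_tv₄ hn hM hH hp.ne hp.left (by rw [map_sub, D.herm.bar_bar, neg_sub]) ht e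

theorem mul_mem_SP₄ (D : USub B q B₀ q₀ ι) (hn : 4 ≤ finrank F₀ W) (hM : M ≤ UG B) (hH : RatIn B ι M) {s t : F}
    (hs : s ∈ D.SP M) (ht : t ∈ D.SP M) : s * t ∈ D.SP M := by
  obtain ⟨a, ha0, ha⟩ := D.herm₀.exists_isotropic (by omega)
  obtain ⟨b, b', hp, hp', h1⟩ := D.herm₀.exists_op hn ha0 ha
  obtain ⟨g, hg, e⟩ := hs a b hp
  obtain ⟨k, hk, e'⟩ := ht a b' hp'
  refine D.mem_of_skew fun x => ?_
  obtain ⟨t₁, h2, e1⟩ := D.tv_of_eichAdd hn hM hH hp ⟨by simp [D.orth hp.orth], 0,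
    by simp [LinearMap.map_smulₛₗ, D.orth hp.right], g, hg, e⟩ x
  have hd : σ (s * algebraMap F₀ F x - σ (s * algebraMap F₀ F x)) = -(s * algebraMap F₀ F x -
    σ (s * algebraMap F₀ F x)) := by rw [map_sub, D.herm.bar_bar, neg_sub]
  generalize s * algebraMap F₀ F x - σ (s * algebraMap F₀ F x) = d at e1 hd
  obtain ⟨t₂, h3, e2⟩ := D.tv_all hn hM hH ha0 ha h2 e1 b hp.right
  have e3 := e2.conj (hM hk)
  rw [show k (ι b) = ι b + (-σ t) • ι a by
    rw [e']; simp [LinearMap.map_smulₛₗ, D.eq, hp.orth, h1, sub_eq_add_neg]] at e3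
  have := D.mem_SP_of_eichAdd₄ hn hM hH hp ⟨by simp [D.orth hp.orth], _, by
    simp only [map_neg, map_mul, hd, D.herm.bar_bar, LinearMap.map_smulₛₗ, D.orth hp.right, LinearMap.smul_apply,
      smul_zero]
    ring, _, M.mul_mem (M.mul_mem (M.mul_mem hk h3) (M.inv_mem hk)) (M.inv_mem h3),
    D.herm.isEich_tv_mul_inv (D.orth hp.right) (D.orth hp.orth) hd e2 e3⟩
  simpa [D.herm.bar_bar] using neg_mem this

theorem SUG_le_of_SP₄ (D : USub B q B₀ q₀ ι) (hp : (finrank F₀ F).Prime) (hn : 4 ≤ finrank F₀ W)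
    (hn' : 4 ≤ finrank F V) (hM : M ≤ UG B) (hH : RatIn B ι M) {s : F} (hs : s ∈ D.SP M)
    (hs' : s ∉ (algebraMap F₀ F).fieldRange) : SUG B ≤ M := by
  have htop : D.SP M = ⊤ := by
    by_contra hne
    exact hs' (CL.Sp.exists_algebraMap_of_mul_mem hp
      (fun e => one_ne_zero ((Submodule.mem_bot F₀).1 (e ▸ D.one_mem_SP hH))) hne
      fun a ha => D.mul_mem_SP₄ hn hM hH ha hs)
  obtain ⟨a, ha0, ha⟩ := D.herm₀.exists_isotropic (by omega)
  obtain ⟨f, hf, haf⟩ := D.herm₀.exists_hyperbolic ha0 ha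
  obtain ⟨c, hc0, hc⟩ := D.herm₀.bar.exists_trace_zero
  obtain ⟨t, ht, e⟩ := D.exists_tv hH hf hc
  refine D.herm.SUG_le_of_eichAdd hn' hM (D.orth ha) (fun x hx => ?_) ht ?_
  · have := D.mem_of_rat haf (E := D.herm.eichCore M (D.orth ha)) (fun w hw =>
      D.herm₀.mem_of_perp_isotropic (by omega) ha0 ha (X := (D.herm.eichCore M (D.orth ha)).comap ι)
        (fun b hb hab l => ?_) hw) hx 1
    · rwa [one_smul] at this
    by_cases hba : b ∈ F₀ ∙ a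
    · obtain ⟨k, rfl⟩ := Submodule.mem_span_singleton.1 hba
      rw [LinearMap.map_smulₛₗ, smul_smul]
      exact D.herm.smul_self_mem_eichAdd _ _
    · obtain ⟨g, hg, e⟩ := (htop ▸ Submodule.mem_top : l ∈ D.SP M) a b ⟨ha0, hba, ha, hb, hab⟩
      exact ⟨by simp [D.orth hab], 0, by simp [LinearMap.map_smulₛₗ, D.orth hb], g, hg, e⟩
  · rw [e]
    simp [D.eq, ha, haf, D.herm₀.flip_one haf, hc0]

theorem mul_bar_mem (D : USub B q B₀ q₀ ι) (hn : 4 ≤ finrank F₀ W) (hM : M ≤ UG B) (hH : RatIn B ι M)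
    (hS : ∀ s ∈ D.SP M, s ∈ (algebraMap F₀ F).fieldRange) {c : F₀} (hc0 : c ≠ 0) (hc : σ₀ c = -c) {x : V}
    (hx : B x x = 0) {t : V ≃ₗ[F] V} (ht : t ∈ M) (e : IsTv B x (algebraMap F₀ F c) t) {u : W} (hu0 : u ≠ 0)
    (hu : B₀ u u = 0) (hux : B (ι u) x = 0) : ∀ w w', B₀ w w = 0 → B₀ u w = 0 → B₀ w' w' = 0 →
      B₀ u w' = 0 → B x (ι w) * σ (B x (ι w')) ∈ (algebraMap F₀ F).fieldRange := by
  have h := D.herm
  have hc' : σ (algebraMap F₀ F c) = -algebraMap F₀ F c := by rw [D.bar, hc, map_neg]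
  have hc0' : algebraMap F₀ F c ≠ 0 := (map_ne_zero _).2 hc0
  have span : ∀ w, B₀ u w = 0 → w ∈ F₀ ∙ u → B x (ι w) = 0 := fun w _ hw => by
    obtain ⟨k, rfl⟩ := Submodule.mem_span_singleton.1 hw
    simp [LinearMap.map_smulₛₗ, h.flip_zero hux]
  intro w w' w1 w2 w3 w4
  by_cases a1 : w ∈ F₀ ∙ u
  · rw [span w w2 a1, zero_mul]; exact zero_mem _
  by_cases a2 : w' ∈ F₀ ∙ u
  · rw [span w' w4 a2, map_zero, mul_zero]; exact zero_mem _
  obtain ⟨k, hk, e1⟩ := D.one_mem_SP hH u w ⟨hu0, a1, hu, w1, w2⟩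
  have e2 := e.conj (hM hk)
  rw [e1, hux, zero_smul, add_zero, mul_zero, add_zero, one_smul, sub_eq_add_neg, ← neg_smul] at e2
  have e3 := h.isEich_tv_mul_inv hx hux hc' e e2
  have m1 : (algebraMap F₀ F c * σ (-B (ι w) x)) • x ∈ h.eichAdd M (D.orth hu) :=
    ⟨by simp [hux], _, by
      simp only [map_neg, map_mul, hc', h.bar_bar, LinearMap.map_smulₛₗ, hx, LinearMap.smul_apply, smul_zero]
      ring, _, M.mul_mem (M.mul_mem (M.mul_mem hk ht) (M.inv_mem hk)) (M.inv_mem ht), e3⟩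
  obtain ⟨t', ht', e4⟩ := D.exists_tv hH w3 hc
  have m2 := sub_mem (h.apply_mem_eichAdd hM _ m1 ht' (e4.fix (D.orth (D.herm₀.flip_zero w4)))) m1
  rw [e4, add_sub_cancel_left] at m2
  have m3 := hS _ (D.mem_SP_of_eichAdd₄ hn hM hH ⟨hu0, a2, hu, w3, w4⟩ m2)
  have m4 := neg_mem (div_mem m3 (pow_mem (⟨c, rfl⟩ : algebraMap F₀ F c ∈ (algebraMap F₀ F).fieldRange) 2))
  convert m4 using 1
  rw [map_smul, map_neg, h.symm, h.symm, smul_eq_mul]
  field_simp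

theorem exists_eq_add₄ (D : USub B q B₀ q₀ ι) (hn : 4 ≤ finrank F₀ W) (hM : M ≤ UG B) (hH : RatIn B ι M)
    (hS : ∀ s ∈ D.SP M, s ∈ (algebraMap F₀ F).fieldRange) {c : F₀} (hc0 : c ≠ 0) (hc : σ₀ c = -c) {x : V}
    (hx : B x x = 0) {t : V ≃ₗ[F] V} (ht : t ∈ M) (e : IsTv B x (algebraMap F₀ F c) t) {u : W} (hu0 : u ≠ 0)
    (hu : B₀ u u = 0) (hux : B (ι u) x = 0) : ∃ (l m : F) (v : W), x = l • ι v + m • ι u := by
  have h := D.herm
  have key := D.mul_bar_mem hn hM hH hS hc0 hc hx ht e hu0 hu hux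
  obtain ⟨f, hf, huf⟩ := D.herm₀.exists_hyperbolic hu0 hu
  obtain ⟨l, hl⟩ : ∃ l : F, ∀ w, B₀ w w = 0 → B₀ u w = 0 → w ∈ lineSub B ι x l := by
    by_cases h0 : ∃ w, B₀ w w = 0 ∧ B₀ u w = 0 ∧ B x (ι w) ≠ 0
    · obtain ⟨w', w1, w2, w3⟩ := h0
      have w4 : σ (B x (ι w')) ≠ 0 := (map_ne_zero σ).2 w3
      exact ⟨(σ (B x (ι w')))⁻¹, fun w a1 a2 => ⟨_, key w w' a1 a2 w1 w2, by field_simp⟩⟩
    · push Not at h0
      exact ⟨0, fun w a1 a2 => ⟨0, zero_mem _, by simp [h0 w a1 a2]⟩⟩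
  obtain ⟨v, hv⟩ := D.exists_eq_smul (x := x - σ (B x (ι f)) • ι u) (l := l) fun w => by
    obtain ⟨s, hs, e⟩ := D.herm₀.mem_of_perp_isotropic (by omega) hu0 hu hl (w := w - B₀ u w • f) (by simp [huf])
    refine ⟨s, hs, ?_⟩
    rw [← e]
    simp only [map_sub, LinearMap.map_smulₛₗ, LinearMap.sub_apply, LinearMap.smul_apply, h.bar_bar, D.eq,
      smul_eq_mul, RingHom.id_apply]
    ring
  exact ⟨_, _, v, sub_eq_iff_eq_add.1 hv⟩

theorem exists_eq_of_perp₄ (D : USub B q B₀ q₀ ι) (hn : 4 ≤ finrank F₀ W) (hM : M ≤ UG B) (hH : RatIn B ι M)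
    (hS : ∀ s ∈ D.SP M, s ∈ (algebraMap F₀ F).fieldRange) {c : F₀} (hc0 : c ≠ 0) (hc : σ₀ c = -c) {x : V}
    (hx : B x x = 0) {t : V ≃ₗ[F] V} (ht : t ∈ M) (e : IsTv B x (algebraMap F₀ F c) t) {u : W} (hu0 : u ≠ 0)
    (hu : B₀ u u = 0) (hux : B (ι u) x = 0) : ∃ (l : F) (v : W), x = l • ι v := by
  obtain ⟨l, m, v, hv⟩ := D.exists_eq_add₄ hn hM hH hS hc0 hc hx ht e hu0 hu hux
  rcases eq_or_ne l 0 with rfl | hl
  · exact ⟨m, u, by simpa using hv⟩
  have h1 : B₀ u v = 0 := by simpa [hv, D.eq, hu, hl] using hux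
  have h2 : B₀ v v = 0 := by
    simpa [hv, LinearMap.map_smulₛₗ, D.eq, hu, hl, h1, D.herm₀.flip_zero h1] using hx
  by_cases h3 : v ∈ F₀ ∙ u
  · obtain ⟨k, rfl⟩ := Submodule.mem_span_singleton.1 h3
    exact ⟨l * algebraMap F₀ F k + m, u, by rw [hv, LinearMap.map_smulₛₗ, smul_smul, add_smul]⟩
  refine D.exists_eq_of_norm₄ hn fun w hw => ?_
  obtain ⟨z, z0, z1, z2, α, β, rfl⟩ := OP.exists_perp D.herm₀ ⟨hu0, h3, hu, h2, h1⟩ w
  exact D.mul_bar_mem hn hM hH hS hc0 hc hx ht e z0 z1 (by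
    simp [hv, LinearMap.map_smulₛₗ, D.eq, hu, h1, h2, D.herm₀.flip_zero h1]) w w hw z2 hw z2

theorem exists_eq_of_rat (D : USub B q B₀ q₀ ι) (hn : 4 ≤ finrank F₀ W) (hM : M ≤ UG B) (hH : RatIn B ι M)
    (hS : ∀ s ∈ D.SP M, s ∈ (algebraMap F₀ F).fieldRange) {m : V ≃ₗ[F] V} (hm : m ∈ M) {u u' : W} (hu0 : u ≠ 0)
    (hu : B₀ u u = 0) {μ : F} (e : m (ι u) = μ • ι u') (w : W) (hw : B₀ w w = 0) :
    ∃ (l : F) (v : W), m (ι w) = l • ι v := by
  obtain ⟨c, hc0, hc⟩ := D.herm₀.bar.exists_trace_zero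
  have step : ∀ u u' (μ : F), u ≠ 0 → B₀ u u = 0 → m (ι u) = μ • ι u' → ∀ w, B₀ w w = 0 → B₀ u w = 0 →
      ∃ (l : F) (v : W), m (ι w) = l • ι v := fun u u' μ hu0 hu e w hw huw => by
    have hne : μ • ι u' ≠ 0 := by rw [← e]; simpa using D.ne_zero hu0
    have hμ := left_ne_zero_of_smul hne
    obtain ⟨t, ht, e'⟩ := D.exists_tv hH hw hc
    have h1 := hM hm (ι u) (ι u)
    have h2 := hM hm (ι u) (ι w)
    rw [e] at h1 h2
    exact D.exists_eq_of_perp₄ hn hM hH hS hc0 hc (by rw [hM hm, D.orth hw])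
      (M.mul_mem (M.mul_mem hm ht) (M.inv_mem hm)) (e'.conj (hM hm)) (u := u') (by rintro rfl; simp at hne)
      (by simpa [LinearMap.map_smulₛₗ, D.eq, hu, hμ] using h1)
      (by simpa [LinearMap.map_smulₛₗ, D.orth huw, hμ] using h2)
  obtain ⟨b, -, hp, -⟩ := D.herm₀.exists_op hn hu0 hu
  obtain ⟨z, z0, z1, z2, α, β, rfl⟩ := hp.exists_perp D.herm₀ w
  obtain ⟨l, v, hv⟩ := step u u' μ hu0 hu e _ z1 (by simp [hu, hp.orth])
  exact step _ v l z0 z1 hv w hw z2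

theorem exists_eq_odd₄ (D : USub B q B₀ q₀ ι) (hp : (finrank F₀ F).Prime) (hodd : Odd (finrank F₀ F))
    (hn : 4 ≤ finrank F₀ W) (hM : M ≤ UG B) (hH : RatIn B ι M) (h2 : (2 : F) ≠ 0)
    (hS : ∀ s ∈ D.SP M, s ∈ (algebraMap F₀ F).fieldRange) {c : F₀} (hc0 : c ≠ 0) (hc : σ₀ c = -c) {x : V}
    (hx : B x x = 0) {t : V ≃ₗ[F] V} (ht : t ∈ M) (e : IsTv B x (algebraMap F₀ F c) t) :
    ∃ (l : F) (v : W), x = l • ι v := by
  refine D.exists_eq_of_norm₄ hn fun u hu => ?_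
  have h := D.herm
  have hc0' : algebraMap F₀ F c ≠ 0 := (_root_.map_ne_zero _).2 hc0
  have mc : algebraMap F₀ F c ∈ (algebraMap F₀ F).fieldRange := ⟨c, rfl⟩
  by_cases h0 : B x (ι u) = 0
  · rw [h0, zero_mul]; exact zero_mem _
  rw [h.symm]
  by_cases h9 : (algebraMap F₀ F c ^ 2 * (B x (ι u) * B (ι u) x)) ^ 2 = -1
  · have := div_mem (mem_fieldRange_of_sq hp hodd h9) (pow_mem mc 2)
    rwa [mul_div_cancel_left₀ _ (pow_ne_zero 2 hc0')] at this
  obtain ⟨s, hs, es⟩ := D.exists_tv hH hu hc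
  obtain ⟨g, hg, eg⟩ := h.exists_tv_of_odd h2 (D.orth hu) hx (h.flip_ne h0) hc0' hs ht es e h9
  have := div_mem (hS _ (D.mem_SP_of_tv₄ hn hM hH (by rintro rfl; simp at h0) hu (by
    rw [map_mul, map_mul, map_pow, D.bar, hc, map_neg, h.symm, h.symm]; ring) hg eg)) (pow_mem mc 3)
  rwa [mul_div_cancel_left₀ _ (pow_ne_zero 3 hc0')] at this

theorem exists_eq_even₄ (D : USub B q B₀ q₀ ι) (hp : (finrank F₀ F).Prime) (hodd : Odd (finrank F₀ F))
    (hn : finrank F₀ W = 4) (hn' : 4 ≤ finrank F V) (hM' : M ≤ SUG B) (hH : RatIn B ι M)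
    (h2 : (2 : F) = 0) (hS : ∀ s ∈ D.SP M, s ∈ (algebraMap F₀ F).fieldRange) {x : V} (hx : B x x = 0)
    {t : V ≃ₗ[F] V} (ht : t ∈ M) (e : IsTv B x 1 t) : ∃ (l : F) (v : W), x = l • ι v := by
  have h := D.herm
  have hM := hM'.trans SUG_le_UG
  have h2' : σ₀ 1 = -1 := (algebraMap F₀ F).injective (by
    rw [map_one, map_neg, map_one]; linear_combination h2)
  have A := fun {x : V} hx {t : V ≃ₗ[F] V} ht (e : IsTv B x 1 t) {u : W} =>
    D.exists_eq_of_perp₄ hn.ge hM hH hS one_ne_zero h2' hx ht (by rwa [map_one]) (u := u)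
  by_contra hne
  have sw : ∀ u, u ≠ 0 → B₀ u u = 0 → ∃ j ∈ M, ∃ (y : V) (μ : F), IsTv B y 1 j ∧ μ ≠ 0 ∧ j (ι u) = μ • x ∧
      j x = μ⁻¹ • ι u ∧ ∀ b, b ≠ 0 → B₀ b b = 0 → B (ι b) y ≠ 0 := fun u h0 hu => by
    obtain ⟨s, hs, es⟩ := D.exists_tv hH hu h2'
    obtain ⟨j, hj, y, hy, ej, μ, hμ⟩ := h.exists_tv_swap h2 hM (D.orth hu) hx
      (fun hux => hne (A hx ht e h0 hu hux)) ht hs e (by simpa using es)
    have hμ0 : μ ≠ 0 := by rintro rfl; exact D.ne_zero h0 (by simpa using hμ)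
    have j2 : j * j = 1 := (ej.mul ej hy).unique (by rw [one_add_one_eq_two, h2]; exact isTv_zero _)
    refine ⟨j, hj, y, μ, ej, hμ0, hμ, ?_, fun b b0 hb hby => ?_⟩
    · rw [eq_inv_smul_iff₀ hμ0, ← map_smul, ← hμ]
      exact LinearEquiv.congr_fun j2 _
    obtain ⟨l, v, rfl⟩ := A hy hj ej b0 hb hby
    have hl : l • ι v ≠ 0 := fun e' => hne ⟨μ⁻¹, u, by
      rw [eq_inv_smul_iff₀ hμ0, ← hμ, ej, e', smul_zero, add_zero]⟩
    have hl' := left_ne_zero_of_smul hl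
    have hv : B₀ v v = 0 := by simpa [LinearMap.map_smulₛₗ, D.eq, hl'] using hy
    obtain ⟨l', v', e'⟩ := D.exists_eq_of_rat hn.ge hM hH hS hj (u := v) (u' := v) (μ := 1)
      (by rintro rfl; simp at hl) hv (by rw [ej.fix (by simp [LinearMap.map_smulₛₗ, D.orth hv]), one_smul]) u hu
    exact hne ⟨μ⁻¹ * l', v', by rw [mul_smul, ← e', hμ, smul_smul, inv_mul_cancel₀ hμ0, one_smul]⟩
  obtain ⟨u, u0, u1⟩ := D.herm₀.exists_isotropic (by omega)
  obtain ⟨j, hj, y, μ, ej, -, j1, -⟩ := sw u u0 u1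
  obtain ⟨u', j', hj', y', μ', ej', j2, j3, hy⟩ : ∃ u', ∃ j' ∈ M, ∃ (y' : V) (μ' : F), IsTv B y' 1 j' ∧
      j' x = μ'⁻¹ • ι u' ∧ (∀ b, b ≠ 0 → B₀ b b = 0 → B (ι b) y' ≠ 0) ∧ y' ∉ F ∙ y := by
    by_contra hc
    push Not at hc
    have h1 : Submodule.span F₀ {v | B₀ v v = 0} ≤ (Submodule.span F {x, y}).comap ι :=
      Submodule.span_le.2 fun u' hu' => by
        rcases eq_or_ne u' 0 with rfl | h0
        · exact zero_mem _
        obtain ⟨j', hj', y', μ', ej', -, k1, k2, k3⟩ := sw u' h0 hu'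
        obtain ⟨c, rfl⟩ := Submodule.mem_span_singleton.1 (hc u' j' hj' y' μ' ej' k2 k3)
        rw [ej', smul_smul] at k1
        exact Submodule.mem_span_pair.2 ⟨μ', -_, by rw [← k1, neg_smul, add_neg_cancel_right]⟩
    rw [D.herm₀.span_isotropic u0 u1] at h1
    have h3 := Submodule.finrank_mono (D.span ▸ Submodule.span_le.2 (by
      rintro _ ⟨w, rfl⟩; exact h1 Submodule.mem_top) : ⊤ ≤ Submodule.span F {x, y})
    have h4 := finrank_span_pair_le (F := F) x y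
    rw [finrank_top] at h3
    omega
  have hm := M.mul_mem hj' hj
  obtain ⟨l, -, hl⟩ := D.exists_smul_of_isotropic₄ hn.ge (D.exists_eq_of_rat hn.ge hM hH hS hm u0 u1
    (u' := u') (μ := μ * μ'⁻¹) (by rw [LinearEquiv.mul_apply, j1, map_smul, j2, smul_smul]))
  obtain ⟨l, rfl⟩ : l ∈ (algebraMap F₀ F).fieldRange := mem_fieldRange_of_sq' hp hodd
    (mem_fieldRange_of_sq' hp hodd (by
      rw [← pow_mul, show 2 * 2 = finrank F₀ W from hn.symm]
      exact D.mem_fieldRange_of_dt (mem_SUG.1 (hM' hm)).2 hl))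
  have d1 := D.finrank_comap_le (Submodule.span F {y, y'})
  have d2 := finrank_span_pair_le (F := F) y y'
  have d3 := D.herm₀.finrank_add_finrank_perp ((Submodule.span F {y, y'}).comap ι)
  obtain ⟨b, b1, b0, b2⟩ := D.herm₀.exists_isotropic_mem' (U := perp B₀ ((Submodule.span F {y, y'}).comap ι))
    (by omega)
  have h3 : (j' * j)⁻¹ (ι b) - ι b = 0 := D.eq_zero fun v => by
    obtain ⟨w, hw⟩ := hl v
    have := D.orth (D.herm₀.mem_perp'.1 b1 (l • w - v) (by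
      rw [Submodule.mem_comap, map_sub, LinearMap.map_smulₛₗ, ← hw, LinearEquiv.mul_apply, ej', ej]
      exact Submodule.mem_span_pair.2 ⟨_, _, by rw [add_assoc, add_sub_cancel_left]⟩))
    rwa [map_sub, LinearMap.map_smulₛₗ, ← hw, map_sub, UG_apply_right (hM hm), ← LinearMap.sub_apply,
      ← map_sub] at this
  obtain ⟨z, z1, z2⟩ := h.exists_perp_ne_zero hy
  have h4 := UG_apply_right (hM hm) (ι b) z
  rw [sub_eq_zero.1 h3, LinearEquiv.mul_apply, ej.fix (mem_perp_singleton.1 z1), ej'] at h4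
  exact j3 b b0 b2 (by simpa [z2] using h4)

theorem SUG_le_or₄ (D : USub B q B₀ q₀ ι) (hp : (finrank F₀ F).Prime) (hodd : Odd (finrank F₀ F))
    (hn : finrank F₀ W = 4) (hn' : 4 ≤ finrank F V) (hM' : M ≤ SUG B) (hH : RatIn B ι M) :
    SUG B ≤ M ∨ ∀ g ∈ M, ∃ l : F, l ≠ 0 ∧ ∀ v, ∃ w, g (ι v) = l • ι w := by
  have hM := hM'.trans SUG_le_UG
  by_cases hS : ∀ s ∈ D.SP M, s ∈ (algebraMap F₀ F).fieldRange
  swap
  · push Not at hS
    obtain ⟨s, hs, hs'⟩ := hS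
    exact Or.inl (D.SUG_le_of_SP₄ hp hn.ge hn' hM hH hs hs')
  refine Or.inr fun g hg => D.exists_smul_of_isotropic₄ hn.ge fun v hv => ?_
  have hx : B (g (ι v)) (g (ι v)) = 0 := by rw [hM hg, D.orth hv]
  by_cases h2 : (2 : F) = 0
  · obtain ⟨t, ht, e⟩ := D.exists_tv hH hv (c := 1) ((algebraMap F₀ F).injective (by
      rw [map_one, map_neg, map_one]; linear_combination h2))
    rw [map_one] at e
    exact D.exists_eq_even₄ hp hodd hn hn' hM' hH h2 hS hx (M.mul_mem (M.mul_mem hg ht) (M.inv_mem hg)) (e.conj (hM hg))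
  · obtain ⟨c, hc0, hc⟩ := D.herm₀.bar.exists_trace_zero
    obtain ⟨t, ht, e⟩ := D.exists_tv hH hv hc
    exact D.exists_eq_odd₄ hp hodd hn.ge hM hH h2 hS hc0 hc hx (M.mul_mem (M.mul_mem hg ht) (M.inv_mem hg))
      (e.conj (hM hg))

end USub

theorem isMaximalIn_SU_subfield₄ [Fintype F] {n : ℕ} (hF : Fintype.card F = q ^ 2) (hn : n = 4) (K : Subfield F)
    {r : ℕ} (hr : r.Prime) (hro : Odd r) (hcard : Fintype.card F = Nat.card K ^ r) (P : GL (Fin n) F)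
    (hP : IsFormRationalStructure (hermForm n F q) K 1 P) :
    IsMaximalIn (GU n F q ⊓ specialLinear (Fin n) F)
      (subfieldSubgroup K P ⊓ (GU n F q ⊓ specialLinear (Fin n) F)) := by
  have h := isBar_bar hF
  have hB := isHerm_stdB h (Fin n)
  have hrk : finrank K F = r := by
    have h1 := card_eq_pow_finrank_subfield K
    rw [Nat.card_eq_fintype_card, hcard] at h1
    exact (Nat.pow_right_injective (Finite.one_lt_card (α := K)) h1).symm
  obtain ⟨τ, q₀, h₀, hτ⟩ := h.exists_restrict K (hrk ▸ hro)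
  let ι : (Fin n → K) →ₛₗ[algebraMap K F] (Fin n → F) :=
    { toFun := fun v => (P : Matrix _ _ F) *ᵥ fun i => (v i : F)
      map_add' := fun u v => by rw [← mulVec_add]; rfl
      map_smul' := fun c v => by rw [← mulVec_smul]; rfl }
  have hι : ∀ v, ι v = (P : Matrix _ _ F) *ᵥ fun i => (v i : F) := fun v => rfl
  have hmem : ∀ u v, stdB (bar hF) (Fin n) (ι u) (ι v) ∈ K := fun u v => by
    have := hP _ _ (fun i => (v i).2) (fun i => (u i).2)
    rwa [hermForm_eq h, one_mul] at this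
  let B₀ : (Fin n → K) →ₛₗ[τ] (Fin n → K) →ₗ[K] K := LinearMap.mk₂'ₛₗ τ (RingHom.id K) (fun u v => ⟨_, hmem u v⟩)
    (fun u u' v => Subtype.ext (by simp only [map_add, LinearMap.add_apply]; rfl))
    (fun c u v => Subtype.ext (by
      simp only [LinearMap.map_smulₛₗ, LinearMap.smul_apply, smul_eq_mul, Subfield.coe_mul, hτ]; rfl))
    (fun u v v' => Subtype.ext (by simp only [map_add]; rfl))
    (fun c u v => Subtype.ext (by simp only [LinearMap.map_smulₛₗ]; rfl))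
  have he : ∀ u v, stdB (bar hF) (Fin n) (ι u) (ι v) = algebraMap K F (B₀ u v) := fun u v => rfl
  have hspan : Submodule.span F (Set.range ι) = ⊤ := eq_top_iff.2 fun x _ => by
    obtain ⟨y, rfl⟩ := exists_mulVec P x
    rw [pi_eq_sum_univ' y, mulVec_sum]
    refine Submodule.sum_mem _ fun j _ => ?_
    rw [mulVec_smul]
    refine Submodule.smul_mem _ _ (Submodule.subset_span ⟨Pi.single j 1, ?_⟩)
    rw [hι]; congr 1
    ext i; by_cases hij : i = j <;> simp [hij]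
  have hB₀ : IsHerm B₀ q₀ := ⟨h₀, fun x y => Subtype.ext ((hτ _).trans (hB.symm (ι x) (ι y))), fun x hx => by
    have h1 : ι x = 0 := hB.nondeg _ fun y => by
      have : Submodule.span F (Set.range ι) ≤ LinearMap.ker (stdB (bar hF) (Fin n) (ι x)) :=
        Submodule.span_le.2 (by
          rintro _ ⟨a, rfl⟩
          change stdB (bar hF) (Fin n) (ι x) (ι a) = 0
          rw [he, hx, map_zero])
      exact this (hspan ▸ Submodule.mem_top)
    rw [hι, ← mulVec_zero (P : Matrix (Fin n) (Fin n) F)] at h1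
    ext i
    exact congrFun (mulVec_inj P h1) i⟩
  have D : USub (stdB (bar hF) (Fin n)) q B₀ q₀ ι := ⟨hB, hB₀, fun a => (hτ a).symm, he, hspan⟩
  have key : ∀ g, g ∈ (subfieldSubgroup K P).map (glEquiv (Fin n) F).toMonoidHom ↔
      ∃ l : F, l ≠ 0 ∧ ∀ v, ∃ w, g (ι v) = l • ι w := fun g => by
    rw [Subgroup.mem_map_equiv]
    exact CL.Sp.mem_subfieldSubgroup_symm_iff K P g
  refine isMaximalIn_SU_of h (H' := (subfieldSubgroup K P).map (glEquiv (Fin n) F).toMonoidHom)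
    (fun A _ => Subgroup.mem_map_iff_mem (glEquiv (Fin n) F).injective) ?_ fun M h1 h2 g hg hg' => ?_
  · obtain ⟨A, hA, hA'⟩ := SetLike.not_le_iff_exists.1 (not_SUm_le_subfield h (by omega) (by omega)
      (F₀ := K) (fun e => by
        rw [e, Nat.card_congr Subfield.topEquiv.toEquiv, Nat.card_eq_fintype_card] at hcard
        have := Nat.pow_right_injective (Fintype.one_lt_card (α := F)) ((pow_one _).trans hcard)
        exact hr.one_lt.ne this) P)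
    exact ⟨_, (glEquiv_mem_SUG h A).2 hA, fun e =>
      hA' ((Subgroup.mem_map_iff_mem (glEquiv (Fin n) F).injective).1 e)⟩
  · exact (D.SUG_le_or₄ (hrk ▸ hr) (hrk ▸ hro) (by simpa using hn) (by simp; omega) h2
      fun g hg e => h1 ⟨(key g).2 ⟨1, one_ne_zero, by simpa using e⟩, hg⟩).resolve_right
      fun e => hg' ((key g).2 (e g hg))

end CL.Uni
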