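import Cfsg.Agent.Cls.UniExt
import Cfsg.Agent.Spor.MxLane

/-!
# Codes for vectors and matrices over a field with `p²` elements
An element `x + y θ` has the code `x + p y`; vectors are numbers in base `p²`, matrices lists of rows.
-/

set_option autoImplicit false

namespace CL.Uni

open Module Matrix Cfsg Cfsg.Geo CL.Asch CL.Mx
open scoped MatrixGroups

universe u

/-- The parameters of the field `F_p(θ)`, `θ² = a + b θ`. -/
structure QP where
  p : ℕ
  a : ℕ
  b : ℕ

namespace QP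

variable (P : QP)

def Q : ℕ := P.p * P.p
def mk2 (x y : ℕ) : ℕ := x % P.p + P.p * (y % P.p)
def add (x y : ℕ) : ℕ := P.mk2 (x + y) (x / P.p + y / P.p)
noncomputable def mul (x y : ℕ) : ℕ :=
  force (x % P.p) fun r => force (x / P.p % P.p) fun i => force (y % P.p) fun s => force (y / P.p % P.p) fun j =>
    P.mk2 (r * s + P.a * (i * j)) (r * j + i * s + P.b * (i * j))
def conj (x : ℕ) : ℕ := P.mk2 (x + P.b * (x / P.p)) ((P.p - 1) * (x / P.p))
noncomputable def dot (n : ℕ) : ℕ → ℕ → ℕ :=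
  Nat.rec (motive := fun _ => ℕ → ℕ → ℕ) (fun _ _ => 0) (fun _ ih r v =>
    force (r / P.Q) fun r' => force (v / P.Q) fun v' => force (ih r' v') fun d => P.add (P.mul r v) d) n
noncomputable def hf (n : ℕ) : ℕ → ℕ → ℕ :=
  Nat.rec (motive := fun _ => ℕ → ℕ → ℕ) (fun _ _ => 0) (fun _ ih r v =>
    force (r / P.Q) fun r' => force (v / P.Q) fun v' => force (ih r' v') fun d =>
      P.add (P.mul (P.conj r) v) d) n
noncomputable def mv (n : ℕ) (M : List ℕ) (v : ℕ) : ℕ :=
  force v fun v => List.rec (motive := fun _ => ℕ) 0 (fun r _ ih => P.dot n r v + P.Q * ih) M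
noncomputable def mapF (f : ℕ → ℕ) (M : List ℕ) {α : Type} : (List ℕ → α) → α :=
  List.rec (motive := fun _ => (List ℕ → α) → α) (fun k => k [])
    (fun r _ ih k => force (f r) fun y => ih fun l => k (y :: l)) M
noncomputable def tr (n : ℕ) (M : List ℕ) : List ℕ := (List.range n).map fun j => P.mv n M (P.Q ^ j)
noncomputable def mm (n : ℕ) (M N : List ℕ) : List ℕ :=
  mapF id (P.tr n N) fun T => mapF (P.mv n T) M id
def idm (n : ℕ) : List ℕ := (List.range n).map fun j => P.Q ^ j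
noncomputable def mpow (n : ℕ) (M : List ℕ) (k : ℕ) : List ℕ :=
  Nat.rec (motive := fun _ => List ℕ) (P.idm n) (fun _ ih => P.mm n ih M) k
noncomputable def uni (n : ℕ) (M : List ℕ) : Bool :=
  mapF id (P.tr n M) fun T => (List.range n).all fun i => (List.range n).all fun j =>
    P.hf n (T.getD i 0) (T.getD j 0) == if i = j then 1 else 0
/-- the matrix with the entry `f i` in the position `(i, π i)` -/
def mon (n : ℕ) (π f : ℕ → ℕ) : List ℕ := (List.range n).map fun i => f i % P.Q * P.Q ^ π i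
noncomputable def det3 (M : List ℕ) : ℕ :=
  let e := fun i j => M.getD i 0 / P.Q ^ j
  let t := fun i j k => P.mul (e 0 i) (P.mul (e 1 j) (e 2 k))
  P.add (P.add (t 0 1 2) (P.add (t 1 2 0) (t 2 0 1)))
    (P.mul (P.p - 1) (P.add (t 0 2 1) (P.add (t 1 0 2) (t 2 1 0))))
def mask (L : List ℕ) : ℕ := L.foldr (fun s acc => acc ||| 1 <<< s) 0
/-- all the matrices of `Ms` map `L` into `L` -/
noncomputable def pres (n : ℕ) (L : List ℕ) (Ms : List (List ℕ)) : Bool :=
  force (mask L) fun m => Ms.all fun M => L.all fun s => m.testBit (P.mv n M s)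

theorem mapF_eq (f : ℕ → ℕ) (M : List ℕ) {α : Type} (k : List ℕ → α) : mapF f M k = k (M.map f) := by
  induction M generalizing k with
  | nil => rfl
  | cons r M ih =>
    show force (f r) (fun y => mapF f M fun l => k (y :: l)) = _
    rw [force_eq]
    exact ih _

theorem testBit_mask (L : List ℕ) (v : ℕ) : (mask L).testBit v ↔ v ∈ L := by
  induction L with
  | nil => simp [mask]
  | cons s L ih =>
    rw [List.mem_cons, ← ih, or_comm, show mask (s :: L) = mask L ||| 1 <<< s from rfl, Nat.testBit_or,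
      Nat.one_shiftLeft, Nat.testBit_two_pow, Bool.or_eq_true, decide_eq_true_iff, eq_comm (a := s)]

theorem mk2_lt (hp : 0 < P.p) (x y : ℕ) : P.mk2 x y < P.Q := by
  have h1 := Nat.mod_lt x hp
  have h2 := Nat.mod_lt y hp
  unfold mk2 Q
  nlinarith

end QP

variable {F : Type u} [Field F] {σ : F →+* F} {P : QP}

/-- The generator `θ` of the field with `p²` elements. -/
structure Dec (P : QP) (σ : F →+* F) where
  θ : F
  bar : IsBar σ P.p
  prime : P.p.Prime
  sq : θ * θ = P.a + P.b * θ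
  conj : σ θ = P.b - θ
  ne : σ θ ≠ θ

theorem exists_dec (P : QP) [hp : Fact P.p.Prime] (h : IsBar σ P.p)
    (h1 : ∀ r : ZMod P.p, r ^ 2 ≠ P.a + P.b * r)
    (h2 : (QuadraticAlgebra.omega : QuadraticAlgebra (ZMod P.p) P.a P.b) ^ P.p =
      ((P.b : ℕ) : QuadraticAlgebra (ZMod P.p) P.a P.b) - QuadraticAlgebra.omega)
    (h3 : (((P.b : ℕ) : QuadraticAlgebra (ZMod P.p) P.a P.b) - QuadraticAlgebra.omega : QuadraticAlgebra (ZMod P.p) P.a P.b) ≠ QuadraticAlgebra.omega) :
    Nonempty (Dec P σ) := by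
  have := h.finite
  have := Fintype.ofFinite F
  have : Fintype (QuadraticAlgebra (ZMod P.p) P.a P.b) := Fintype.ofEquiv _ (QuadraticAlgebra.equivProd _ _).symm
  have : Fact (∀ r : ZMod P.p, r ^ 2 ≠ P.a + P.b * r) := ⟨h1⟩
  let φ : QuadraticAlgebra (ZMod P.p) P.a P.b ≃+* F := FiniteField.ringEquivOfCardEq (by
    rw [Fintype.card_congr (QuadraticAlgebra.equivProd _ _), h.fintype_card, Fintype.card_prod, ZMod.card, sq])
  have h4 : σ (φ QuadraticAlgebra.omega) = P.b - φ QuadraticAlgebra.omega := by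
    rw [h.apply, ← map_pow, h2, map_sub, map_natCast]
  refine ⟨φ QuadraticAlgebra.omega, h, hp.out, ?_, h4, fun e => h3 (φ.injective ?_)⟩
  · rw [← map_natCast φ, ← map_natCast φ, ← map_mul, ← map_mul, ← map_add]
    congr 1
    ext <;> simp
  · rw [map_sub, map_natCast, ← h4, e]

namespace Dec

variable (D : Dec P σ)

/-- The field element with the code `x`. -/
def dec (x : ℕ) : F := (x : F) + ((x / P.p : ℕ) : F) * D.θ
def decV (n v : ℕ) : Fin n → F := fun i => D.dec (v / P.Q ^ (i : ℕ))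
def decM (n : ℕ) (M : List ℕ) : Matrix (Fin n) (Fin n) F := Matrix.of fun i => D.decV n (M.getD i 0)

include D in
theorem cast_p : (P.p : F) = 0 := D.bar.cast_q

include D in
theorem charP : CharP F P.p := (CharP.charP_iff_prime_eq_zero D.prime).2 D.cast_p

include D in
theorem cast_mod (x : ℕ) : ((x % P.p : ℕ) : F) = x := by
  conv_rhs => rw [← Nat.mod_add_div x P.p, Nat.cast_add, Nat.cast_mul, D.cast_p, zero_mul, add_zero]

include D in
theorem Q_pos : 0 < P.Q := Nat.mul_pos D.prime.pos D.prime.pos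

theorem dec_mk2 (x y : ℕ) : D.dec (P.mk2 x y) = x + y * D.θ := by
  rw [dec, QP.mk2, Nat.add_mul_div_left _ _ D.prime.pos, Nat.div_eq_of_lt (Nat.mod_lt _ D.prime.pos)]
  simp [D.cast_mod, D.cast_p]

theorem dec_add_mul (x y : ℕ) : D.dec (x + P.Q * y) = D.dec x := by
  rw [dec, dec, QP.Q, mul_assoc, Nat.add_mul_div_left _ _ D.prime.pos]
  simp [D.cast_p]

theorem dec_mod (x : ℕ) : D.dec (x % P.Q) = D.dec x := by
  conv_rhs => rw [← Nat.mod_add_div x P.Q, dec_add_mul]

theorem dec_zero : D.dec 0 = 0 := by simp [dec]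

theorem dec_of_lt {x : ℕ} (hx : x < P.p) : D.dec x = x := by simp [dec, Nat.div_eq_of_lt hx]

theorem dec_one : D.dec 1 = 1 := by rw [D.dec_of_lt D.prime.one_lt, Nat.cast_one]

theorem dec_neg_one : D.dec (P.p - 1) = -1 := by
  rw [D.dec_of_lt (Nat.sub_one_lt D.prime.ne_zero), Nat.cast_pred D.prime.pos, D.cast_p, zero_sub]

theorem dec_add (x y : ℕ) : D.dec (P.add x y) = D.dec x + D.dec y := by
  rw [QP.add, dec_mk2]
  simp only [dec, Nat.cast_add]
  ring

theorem dec_mul (x y : ℕ) : D.dec (P.mul x y) = D.dec x * D.dec y := by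
  simp only [QP.mul, force_eq]
  rw [dec_mk2]
  simp only [dec, Nat.cast_add, Nat.cast_mul, D.cast_mod]
  linear_combination (-((x / P.p : ℕ) : F) * ((y / P.p : ℕ) : F)) * D.sq

theorem dec_conj (x : ℕ) : D.dec (P.conj x) = σ (D.dec x) := by
  rw [QP.conj, dec_mk2]
  simp only [dec, Nat.cast_add, Nat.cast_mul, map_add, map_mul, map_natCast, D.conj,
    Nat.cast_pred D.prime.pos, D.cast_p]
  ring

theorem dec_inj {x y : ℕ} (hx : x < P.Q) (hy : y < P.Q) (h : D.dec x = D.dec y) : x = y := by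
  have := D.charP
  have h1 := congrArg σ h
  simp only [dec, map_add, map_mul, map_natCast] at h h1
  have h2 : ((x / P.p : ℕ) : F) = (y / P.p : ℕ) :=
    mul_right_cancel₀ (sub_ne_zero.2 D.ne) (by linear_combination h1 - h)
  have h3 : ((x % P.p : ℕ) : F) = (y % P.p : ℕ) := by
    rw [D.cast_mod, D.cast_mod]; linear_combination h - D.θ * h2
  rw [← Nat.mod_add_div x P.p, ← Nat.mod_add_div y P.p,
    CharP.natCast_injOn_Iio F P.p (Nat.mod_lt _ D.prime.pos) (Nat.mod_lt _ D.prime.pos) h3,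
    CharP.natCast_injOn_Iio F P.p (Nat.div_lt_of_lt_mul hx) (Nat.div_lt_of_lt_mul hy) h2]

theorem dec_surj (y : F) : ∃ x < P.Q, D.dec x = y := by
  have := D.bar.finite
  obtain ⟨x, hx⟩ := ((Nat.bijective_iff_injective_and_card (fun x : Fin P.Q => D.dec x)).2
    ⟨fun a b e => Fin.ext (D.dec_inj a.2 b.2 e), by simp [D.bar.card, QP.Q, pow_two]⟩).2 y
  exact ⟨x, x.2, hx⟩

theorem decV_succ (n v : ℕ) : D.decV (n + 1) v = Fin.cons (D.dec v) (D.decV n (v / P.Q)) := by
  funext i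
  refine Fin.cases (by simp [decV]) (fun i => ?_) i
  simp [decV, Nat.div_div_eq_div_mul, pow_succ']

theorem decV_inj {n u v : ℕ} (hu : u < P.Q ^ n) (hv : v < P.Q ^ n) (h : D.decV n u = D.decV n v) : u = v := by
  induction n generalizing u v with
  | zero => simp at hu hv; omega
  | succ n ih =>
    rw [decV_succ, decV_succ, Fin.cons_inj] at h
    rw [pow_succ'] at hu hv
    have h1 : u / P.Q = v / P.Q := ih (Nat.div_lt_of_lt_mul hu) (Nat.div_lt_of_lt_mul hv) h.2
    have h2 : u % P.Q = v % P.Q := D.dec_inj (Nat.mod_lt _ D.Q_pos) (Nat.mod_lt _ D.Q_pos)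
      (by rw [dec_mod, dec_mod, h.1])
    rw [← Nat.mod_add_div u P.Q, h1, h2, Nat.mod_add_div]

theorem decV_surj {n : ℕ} (y : Fin n → F) : ∃ v < P.Q ^ n, D.decV n v = y := by
  induction n with
  | zero => exact ⟨0, by simp, Subsingleton.elim _ _⟩
  | succ n ih =>
    obtain ⟨v, hv, e⟩ := ih (Fin.tail y)
    obtain ⟨x, hx, e'⟩ := D.dec_surj (y 0)
    refine ⟨x + P.Q * v, by rw [pow_succ']; nlinarith, ?_⟩
    rw [decV_succ, dec_add_mul, Nat.add_mul_div_left _ _ D.Q_pos, Nat.div_eq_of_lt hx, zero_add, e, e',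
      Fin.cons_self_tail]

theorem dec_dot (n r v : ℕ) : D.dec (P.dot n r v) = D.decV n r ⬝ᵥ D.decV n v := by
  induction n generalizing r v with
  | zero => exact D.dec_zero
  | succ n ih =>
    rw [decV_succ, decV_succ, dotProduct, Fin.sum_univ_succ]
    simp only [Fin.cons_zero, Fin.cons_succ]
    rw [← dotProduct, ← ih, ← dec_mul, ← dec_add]
    simp only [QP.dot, force_eq]

theorem dec_hf (n r v : ℕ) : D.dec (P.hf n r v) = stdB σ (Fin n) (D.decV n r) (D.decV n v) := by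
  rw [stdB_apply]
  induction n generalizing r v with
  | zero => exact D.dec_zero
  | succ n ih =>
    rw [decV_succ, decV_succ, Fin.sum_univ_succ]
    simp only [Fin.cons_zero, Fin.cons_succ]
    rw [← ih, ← dec_conj, ← dec_mul, ← dec_add]
    simp only [QP.hf, force_eq]

include D in
theorem dot_lt (n r v : ℕ) : P.dot n r v < P.Q := by
  cases n with
  | zero => exact D.Q_pos
  | succ n => simp only [QP.dot, force_eq]; exact P.mk2_lt D.prime.pos _ _

theorem dec_mv (n : ℕ) (M : List ℕ) (v i : ℕ) :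
    D.dec (P.mv n M v / P.Q ^ i) = D.dec (P.dot n (M.getD i 0) v) := by
  simp only [QP.mv, force_eq]
  induction M generalizing i with
  | nil => simp [dec_dot, dec_zero, decV, dotProduct]
  | cons r M ih =>
    cases i with
    | zero => simp [dec_add_mul]
    | succ i =>
      rw [pow_succ', ← Nat.div_div_eq_div_mul, Nat.add_mul_div_left _ _ D.Q_pos,
        Nat.div_eq_of_lt (D.dot_lt n r v), zero_add, ih]
      rfl

theorem decV_mv (n : ℕ) (M : List ℕ) (v : ℕ) : D.decV n (P.mv n M v) = D.decM n M *ᵥ D.decV n v :=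
  funext fun i => (D.dec_mv n M v i).trans (D.dec_dot n _ v)

theorem decV_mul_pow {n : ℕ} (c : ℕ) (j : Fin n) :
    D.decV n (c % P.Q * P.Q ^ (j : ℕ)) = Pi.single j (D.dec c) := by
  funext i
  rcases lt_trichotomy (i : ℕ) j with h | h | h
  · obtain ⟨k, hk⟩ := Nat.exists_eq_add_of_lt h
    rw [Pi.single_eq_of_ne (Fin.ne_of_lt h), decV, hk, add_assoc, pow_add, mul_left_comm,
      Nat.mul_div_cancel_left _ (pow_pos D.Q_pos _), pow_succ', mul_left_comm, ← zero_add (P.Q * _),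
      dec_add_mul, dec_zero]
  · obtain rfl := Fin.ext h
    rw [Pi.single_eq_same, decV, Nat.mul_div_cancel _ (pow_pos D.Q_pos _), dec_mod]
  · obtain ⟨k, hk⟩ := Nat.exists_eq_add_of_lt h
    rw [Pi.single_eq_of_ne (Fin.ne_of_gt h), decV, hk, add_assoc, pow_add, mul_comm (c % P.Q),
      Nat.mul_div_mul_left _ _ (pow_pos D.Q_pos _), Nat.div_eq_of_lt, dec_zero]
    exact (Nat.mod_lt _ D.Q_pos).trans_le (Nat.le_self_pow (by omega) _)

theorem decV_pow {n : ℕ} (j : Fin n) : D.decV n (P.Q ^ (j : ℕ)) = Pi.single j 1 := by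
  have h1 : 1 < P.Q := by have := D.prime.two_le; unfold QP.Q; nlinarith
  rw [← D.dec_one, ← decV_mul_pow, Nat.mod_eq_of_lt h1, one_mul]

theorem decM_row (n : ℕ) (M : List ℕ) (i : Fin n) : D.decM n M i = D.decV n (M.getD i 0) := rfl

theorem decM_range (n : ℕ) (f : ℕ → ℕ) (i : Fin n) : D.decM n ((List.range n).map f) i = D.decV n (f i) := by
  simp [decM_row, List.getD_eq_getElem?_getD]

theorem decM_tr (n : ℕ) (M : List ℕ) : D.decM n (P.tr n M) = (D.decM n M)ᵀ := by
  ext i j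
  rw [QP.tr, decM_range, decV_mv, decV_pow]
  simp

theorem decM_mm (n : ℕ) (M N : List ℕ) : D.decM n (P.mm n M N) = D.decM n M * D.decM n N := by
  ext i j
  have h2 : D.decM n (P.mm n M N) i = D.decV n (P.mv n (P.tr n N) (M.getD i 0)) := by
    simp only [QP.mm, QP.mapF_eq, List.map_id, id, decM_row, List.getD_eq_getElem?_getD,
      List.getElem?_map]
    cases M[(i : ℕ)]? with
    | none => rw [decV_mv]; funext k; simp [decV, dec_zero, mulVec, dotProduct]
    | some r => rfl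
  rw [h2, decV_mv, decM_tr, mulVec_transpose]
  rfl

theorem decM_idm (n : ℕ) : D.decM n (P.idm n) = 1 := by
  ext i j
  rw [QP.idm, decM_range, decV_pow, one_apply, Pi.single_apply]
  simp [eq_comm]

theorem decM_mpow (n : ℕ) (M : List ℕ) (k : ℕ) : D.decM n (P.mpow n M k) = D.decM n M ^ k := by
  induction k with
  | zero => exact D.decM_idm n
  | succ k ih => rw [pow_succ, ← ih, ← decM_mm]; rfl

theorem decM_mon {n : ℕ} {π f : ℕ → ℕ} (τ : Fin n → Fin n) (hτ : ∀ i : Fin n, π i = τ i) (i j : Fin n) :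
    D.decM n (P.mon n π f) i j = if j = τ i then D.dec (f i) else 0 := by
  rw [QP.mon, decM_range, hτ, decV_mul_pow, Pi.single_apply]

theorem det_decM_three (M : List ℕ) : (D.decM 3 M).det = D.dec (P.det3 M) := by
  simp only [det_fin_three, QP.det3, dec_add, dec_mul, dec_neg_one, decM, decV, of_apply]
  simp
  ring

theorem decM_inj {n : ℕ} {M N : List ℕ} (hM : M.length = n) (hN : N.length = n) (hM' : ∀ r ∈ M, r < P.Q ^ n)
    (hN' : ∀ r ∈ N, r < P.Q ^ n) (h : D.decM n M = D.decM n N) : M = N :=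
  List.ext_getElem (hM.trans hN.symm) fun i h1 h2 => D.decV_inj (hM' _ (List.getElem_mem h1))
    (hN' _ (List.getElem_mem h2)) (by
      simpa [decM_row, List.getD_eq_getElem?_getD, h1, h2] using congrFun h ⟨i, hM ▸ h1⟩)

theorem exists_GU {n : ℕ} {M : List ℕ} (h : P.uni n M = true) :
    ∃ A ∈ GU n F P.p, (A : Matrix (Fin n) (Fin n) F) = D.decM n M := by
  have hB := isHerm_stdB D.bar (Fin n)
  obtain ⟨g, hg, e⟩ := hB.exists_mem_UG (toLin' (D.decM n M)) (hB.isometry_of_basis (Pi.basisFun F (Fin n)) _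
    fun i j => by
      simp only [QP.uni, QP.mapF_eq, List.map_id, List.all_eq_true, List.mem_range, beq_iff_eq] at h
      have h1 := congrArg D.dec (h i i.2 j j.2)
      have h2 : ∀ i : Fin n, D.decV n ((P.tr n M).getD i 0) = D.decM n M *ᵥ Pi.single i 1 := fun i => by
        rw [show D.decV n ((P.tr n M).getD i 0) = D.decM n (P.tr n M) i from rfl, QP.tr, decM_range, decV_mv,
          decV_pow]
      rw [dec_hf, h2, h2] at h1
      rw [toLin'_apply, toLin'_apply, Pi.basisFun_apply, Pi.basisFun_apply, h1, stdB_single_left,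
        Pi.single_apply]
      simp only [Fin.ext_iff, eq_comm (a := (i : ℕ))]
      split_ifs
      exacts [D.dec_one, D.dec_zero])
  obtain ⟨A, rfl⟩ := (glEquiv (Fin n) F).surjective g
  exact ⟨A, (glEquiv_mem_UG D.bar A).1 hg, toLin'.injective e⟩

theorem exists_SU_three {M : List ℕ} (h : P.uni 3 M = true) (hd : P.det3 M = 1) :
    ∃ A ∈ SUm 3 F P.p, (A : Matrix (Fin 3) (Fin 3) F) = D.decM 3 M := by
  obtain ⟨A, hA, e⟩ := D.exists_GU h
  exact ⟨A, ⟨hA, mem_specialLinear_iff_det.2 (by rw [e, det_decM_three, hd, dec_one])⟩, e⟩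

theorem pow_eq_one {n : ℕ} {M : List ℕ} {A : GL (Fin n) F} (e : (A : Matrix (Fin n) (Fin n) F) = D.decM n M)
    {k : ℕ} (hk : P.mpow n M k = P.idm n) : A ^ k = 1 :=
  Units.ext (by rw [Units.val_pow_eq_pow_val, e, ← decM_mpow, hk, decM_idm, Units.val_one])

theorem exists_SU_of_pow {n : ℕ} {M : List ℕ} (h : P.uni n M = true) {k : ℕ} (hk : P.mpow n M k = P.idm n)
    (hc : k.Coprime (P.p + 1)) : ∃ A ∈ SUm n F P.p, (A : Matrix (Fin n) (Fin n) F) = D.decM n M := by
  obtain ⟨A, hA, e⟩ := D.exists_GU h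
  refine ⟨A, ⟨hA, mem_specialLinear_iff_det.2 ?_⟩, e⟩
  have h1 := (isHerm_stdB D.bar (Fin n)).dt_norm ((glEquiv_mem_UG D.bar A).2 hA)
  rw [dt_glEquiv, D.bar.norm_eq_pow] at h1
  have h2 : (A : Matrix (Fin n) (Fin n) F).det ^ k = 1 := by
    rw [← det_pow, ← Units.val_pow_eq_pow_val, D.pow_eq_one e hk, Units.val_one, det_one]
  have := pow_gcd_eq_one.2 ⟨h2, h1⟩
  rwa [hc, pow_one] at this

theorem ne_of_mv {n : ℕ} {M N : List ℕ} (v : ℕ) (h1 : P.mv n M v < P.Q ^ n) (h2 : P.mv n N v < P.Q ^ n)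
    (h : P.mv n M v ≠ P.mv n N v) : D.decM n M ≠ D.decM n N :=
  fun e => h (D.decV_inj h1 h2 (by rw [decV_mv, decV_mv, e]))

/-- The stabiliser of the set of vectors with codes in `L`. -/
noncomputable def stab (n : ℕ) (L : List ℕ) : Subgroup (GL (Fin n) F) :=
  (stabSet F {v | ∃ s ∈ L, v = D.decV n s}).comap (glEquiv (Fin n) F).toMonoidHom

theorem mem_stab {n : ℕ} {L : List ℕ} {Ms : List (List ℕ)} (h : P.pres n L Ms = true) {M : List ℕ}
    (hM : M ∈ Ms) {A : GL (Fin n) F} (e : (A : Matrix (Fin n) (Fin n) F) = D.decM n M) : A ∈ D.stab n L := by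
  have := D.bar.finite
  simp only [QP.pres, force_eq, List.all_eq_true, QP.testBit_mask] at h
  have h1 : Set.MapsTo (glEquiv (Fin n) F A) {v | ∃ s ∈ L, v = D.decV n s} {v | ∃ s ∈ L, v = D.decV n s} := by
    rintro _ ⟨s, hs, rfl⟩
    exact ⟨_, h M hM s hs, by rw [decV_mv, glEquiv_apply, e]⟩
  have h2 := ((Set.toFinite _).injOn_iff_bijOn_of_mapsTo h1).1 (glEquiv (Fin n) F A).injective.injOn
  refine fun v => ⟨fun hv => h1 hv, fun hv => ?_⟩
  obtain ⟨w, hw, e'⟩ := h2.surjOn hv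
  rwa [← (glEquiv (Fin n) F A).injective e']

theorem not_SUm_le_stab {n : ℕ} (hn : 3 ≤ n) {L : List ℕ} (hL : ∀ s ∈ L, s < P.Q ^ n) {u w : ℕ} (hu : u ∈ L)
    (hw : w ∉ L) (hw' : w < P.Q ^ n) (hu0 : u ≠ 0) (hw0 : w ≠ 0) (h : P.hf n u u = P.hf n w w) :
    ¬ SUm n F P.p ≤ D.stab n L := by
  have h0 : ∀ {s}, s < P.Q ^ n → s ≠ 0 → D.decV n s ≠ 0 := fun hs hs0 e =>
    hs0 (D.decV_inj hs (pow_pos D.Q_pos _) (e.trans (funext fun i => by simp [decV, dec_zero])))
  obtain ⟨g, hg, e⟩ := (isHerm_stdB D.bar (Fin n)).exists_mem_SUG_vec (by simpa using hn) (h0 (hL u hu) hu0)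
    (h0 hw' hw0) (by rw [← dec_hf, ← dec_hf, h])
  refine not_SUm_le_of D.bar (H' := stabSet F {v | ∃ s ∈ L, v = D.decV n s}) (fun A hA => hA) ⟨g, hg, fun hg' => hw ?_⟩
  obtain ⟨s, hs, e'⟩ := (hg' _).1 ⟨u, hu, rfl⟩
  rwa [D.decV_inj hw' (hL s hs) (e.symm.trans e')]

end Dec

end CL.Uni
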