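import Cfsg.Agent.Cls.UniCode
import Cfsg.Agent.Cls.UniConj

/-!
# Stabilisers of coded sets of points; coded generators of the monomial group
-/

set_option autoImplicit false

namespace CL.Uni

open Module Matrix Cfsg Cfsg.Geo CL.Asch CL.Mx
open scoped MatrixGroups

universe u

namespace QP

variable (P : QP)

noncomputable def smul (n c : ℕ) : ℕ → ℕ :=
  Nat.rec (motive := fun _ => ℕ → ℕ) (fun _ => 0) (fun _ ih v => force (v / P.Q) fun v' => P.mul c v + P.Q * ih v') n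
noncomputable def lead (n : ℕ) : ℕ → ℕ :=
  Nat.rec (motive := fun _ => ℕ → ℕ) (fun _ => 0) (fun _ ih v => force (v % P.Q) fun r =>
    Nat.rec (motive := fun _ => ℕ) (ih (v / P.Q)) (fun _ _ => r) r) n
/-- all the matrices of `Ms` map the points of `L` to points of `L`; `it` is a table of inverses -/
noncomputable def presP (n it : ℕ) (L : List ℕ) (Ms : List (List ℕ)) : Bool :=
  force (mask L) fun m => Ms.all fun M => mapF id M fun M => L.all fun s => force (P.mv n M s) fun w =>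
    force (it / P.Q ^ P.lead n w % P.Q) fun c => c != 0 && m.testBit (P.smul n c w)
noncomputable def notP (n : ℕ) (L : List ℕ) (w : ℕ) : Bool :=
  L.all fun s => (List.range P.Q).all fun c => P.smul n c s != w
def dg (n i x : ℕ) : List ℕ := P.mon n id fun j => if j = i then x else if j = 0 then P.conj x else 1
def sw (n i j : ℕ) : List ℕ :=
  P.mon n (fun k => if k = i then j else if k = j then i else k) fun k => if k = i then P.p - 1 else 1
noncomputable def frameGens (n : ℕ) : List (List ℕ) :=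
  (((List.range n).filter (· != 0)).flatMap fun i =>
    ((List.range P.Q).filter fun x => P.mul x (P.conj x) == 1).map (P.dg n i)) ++
  (List.range n).flatMap fun i => ((List.range n).filter (· != i)).map (P.sw n i)
noncomputable def closed (n : ℕ) (Ls : List (List ℕ)) : Bool :=
  Ls.elem (P.idm n) && Ls.all fun M => Ls.all fun N => mapF id (P.mm n M N) fun C => Ls.elem C

theorem mul_lt (hp : 0 < P.p) (x y : ℕ) : P.mul x y < P.Q := by
  simp only [mul, force_eq]; exact P.mk2_lt hp _ _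

end QP

variable {F : Type u} [Field F] {σ : F →+* F} {P : QP}

namespace Dec

variable (D : Dec P σ)

theorem dec_ne_zero {x : ℕ} (hx : x % P.Q ≠ 0) : D.dec x ≠ 0 := fun e =>
  hx (D.dec_inj (Nat.mod_lt _ D.Q_pos) D.Q_pos (by rw [dec_mod, e, dec_zero]))

theorem decV_smul (n c v : ℕ) : D.decV n (P.smul n c v) = D.dec c • D.decV n v := by
  induction n generalizing v with
  | zero => exact Subsingleton.elim _ _
  | succ n ih =>
    have : P.smul (n + 1) c v = P.mul c v + P.Q * P.smul n c (v / P.Q) := by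
      simp only [QP.smul, force_eq]
    rw [this, decV_succ, decV_succ, dec_add_mul, Nat.add_mul_div_left _ _ D.Q_pos,
      Nat.div_eq_of_lt (P.mul_lt D.prime.pos _ _), zero_add, ih, dec_mul]
    funext i
    refine Fin.cases rfl (fun i => rfl) i

include D in
theorem smul_lt (n c v : ℕ) : P.smul n c v < P.Q ^ n := by
  induction n generalizing v with
  | zero => exact Nat.one_pos
  | succ n ih =>
    have : P.smul (n + 1) c v = P.mul c v + P.Q * P.smul n c (v / P.Q) := by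
      simp only [QP.smul, force_eq]
    have h1 := P.mul_lt D.prime.pos c v
    have h2 := ih (v / P.Q)
    rw [this, pow_succ']
    nlinarith

/-- The stabiliser of the set of points with codes in `L`. -/
noncomputable def stabP (n : ℕ) (L : List ℕ) : Subgroup (GL (Fin n) F) :=
  (stabSet F {v | ∃ s ∈ L, ∃ c : F, c ≠ 0 ∧ v = c • D.decV n s}).comap (glEquiv (Fin n) F).toMonoidHom

theorem mem_stabP_of {n : ℕ} {L : List ℕ} {A : GL (Fin n) F}
    (h : ∀ s ∈ L, ∃ s' ∈ L, ∃ c : F, c ≠ 0 ∧ (A : Matrix (Fin n) (Fin n) F) *ᵥ D.decV n s = c • D.decV n s') :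
    A ∈ D.stabP n L := by
  have := D.bar.finite
  have h1 : Set.MapsTo (glEquiv (Fin n) F A) {v | ∃ s ∈ L, ∃ c : F, c ≠ 0 ∧ v = c • D.decV n s}
      {v | ∃ s ∈ L, ∃ c : F, c ≠ 0 ∧ v = c • D.decV n s} := by
    rintro _ ⟨s, hs, c, hc, rfl⟩
    obtain ⟨s', hs', c', hc', e⟩ := h s hs
    exact ⟨s', hs', c * c', mul_ne_zero hc hc', by rw [map_smul, glEquiv_apply, e, smul_smul]⟩
  have h2 := ((Set.toFinite _).injOn_iff_bijOn_of_mapsTo h1).1 (glEquiv (Fin n) F A).injective.injOn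
  refine fun v => ⟨fun hv => h1 hv, fun hv => ?_⟩
  obtain ⟨w, hw, e'⟩ := h2.surjOn hv
  rwa [← (glEquiv (Fin n) F A).injective e']

theorem scal_mem_stabP {n : ℕ} (L : List ℕ) (c : Fˣ) : scal (Fin n) c ∈ D.stabP n L :=
  D.mem_stabP_of fun s hs => ⟨s, hs, c, c.ne_zero, by rw [coe_scal, smul_mulVec, one_mulVec]⟩

theorem mem_stabP {n it : ℕ} {L : List ℕ} {Ms : List (List ℕ)} (h : P.presP n it L Ms = true) {M : List ℕ}
    (hM : M ∈ Ms) {A : GL (Fin n) F} (e : (A : Matrix (Fin n) (Fin n) F) = D.decM n M) : A ∈ D.stabP n L := by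
  simp only [QP.presP, force_eq, List.all_eq_true, QP.testBit_mask, QP.mapF_eq, List.map_id, Bool.and_eq_true,
    bne_iff_ne] at h
  refine D.mem_stabP_of fun s hs => ?_
  obtain ⟨h1, h2⟩ := h M hM s hs
  have h3 := D.dec_ne_zero (x := it / P.Q ^ P.lead n (P.mv n M s) % P.Q) (by rwa [Nat.mod_mod])
  exact ⟨_, h2, _, inv_ne_zero h3, by rw [decV_smul, decV_mv, e, smul_smul, inv_mul_cancel₀ h3, one_smul]⟩

theorem not_SUm_le_stabP {n : ℕ} (hn : 3 ≤ n) {L : List ℕ} {u w : ℕ} (hu : u ∈ L) (hu' : u < P.Q ^ n)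
    (hw : P.notP n L w = true) (hw' : w < P.Q ^ n) (hu0 : u ≠ 0) (hw0 : w ≠ 0) (h : P.hf n u u = P.hf n w w) :
    ¬ SUm n F P.p ≤ D.stabP n L := by
  have h0 : ∀ {s}, s < P.Q ^ n → s ≠ 0 → D.decV n s ≠ 0 := fun hs hs0 e =>
    hs0 (D.decV_inj hs (pow_pos D.Q_pos _) (e.trans (funext fun i => by simp [decV, dec_zero])))
  obtain ⟨g, hg, e⟩ := (isHerm_stdB D.bar (Fin n)).exists_mem_SUG_vec (by simpa using hn) (h0 hu' hu0)
    (h0 hw' hw0) (by rw [← dec_hf, ← dec_hf, h])
  refine not_SUm_le_of D.bar (H' := stabSet F {v | ∃ s ∈ L, ∃ c : F, c ≠ 0 ∧ v = c • D.decV n s})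
    (fun A hA => hA) ⟨g, hg, fun hg' => ?_⟩
  obtain ⟨s, hs, c, -, e'⟩ := (hg' _).1 ⟨u, hu, 1, one_ne_zero, (one_smul _ _).symm⟩
  obtain ⟨x, hx, rfl⟩ := D.dec_surj c
  simp only [QP.notP, List.all_eq_true, List.mem_range, bne_iff_ne] at hw
  exact hw s hs x hx (D.decV_inj (D.smul_lt _ _ _) hw' (by rw [decV_smul, ← e', e]))

theorem frame_diag {n it : ℕ} [NeZero n] {L : List ℕ} (h : P.presP n it L (P.frameGens n) = true)
    (hu : (P.frameGens n).all (P.uni n) = true) (i : Fin n) (x : F) (hi : i ≠ 0) (hx : x * σ x = 1) :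
    ∃ A ∈ D.stabP n L, (A : Matrix (Fin n) (Fin n) F) =
      diagonal fun j => if j = i then x else if j = 0 then σ x else 1 := by
  obtain ⟨y, hy, rfl⟩ := D.dec_surj x
  have h1 : 1 < P.Q := by have := D.prime.two_le; unfold QP.Q; nlinarith
  have hm : P.dg n i y ∈ P.frameGens n := by
    refine List.mem_append_left _ (List.mem_flatMap.2 ⟨i, by simpa using hi, List.mem_map_of_mem ?_⟩)
    rw [List.mem_filter, List.mem_range, beq_iff_eq]
    exact ⟨hy, D.dec_inj (P.mul_lt D.prime.pos _ _) h1 (by rw [dec_mul, dec_conj, hx, dec_one])⟩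
  obtain ⟨A, -, e⟩ := D.exists_GU (List.all_eq_true.1 hu _ hm)
  refine ⟨A, D.mem_stabP h hm e, e.trans ?_⟩
  ext k l
  rw [QP.dg, D.decM_mon id (fun _ => rfl), diagonal_apply]
  simp only [id, eq_comm (a := l), Fin.val_inj, Fin.val_eq_zero_iff]
  split_ifs <;> simp [dec_conj, dec_one]

theorem frame_swap {n it : ℕ} {L : List ℕ} (h : P.presP n it L (P.frameGens n) = true)
    (hu : (P.frameGens n).all (P.uni n) = true) (i j : Fin n) (hij : i ≠ j) :
    ∃ A ∈ D.stabP n L, ∀ k l, (A : Matrix (Fin n) (Fin n) F) k l =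
      if l = Equiv.swap i j k then (if k = i then -1 else 1) else 0 := by
  have hm : P.sw n i j ∈ P.frameGens n :=
    List.mem_append_right _ (List.mem_flatMap.2 ⟨i, by simp, List.mem_map_of_mem (by
      simpa [Fin.val_inj] using hij.symm)⟩)
  obtain ⟨A, -, e⟩ := D.exists_GU (List.all_eq_true.1 hu _ hm)
  refine ⟨A, D.mem_stabP h hm e, fun k l => ?_⟩
  rw [e, QP.sw, D.decM_mon (Equiv.swap i j) (fun k => by
    simp only [Equiv.swap_apply_def, Fin.val_inj]; split_ifs <;> rfl)]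
  simp only [Fin.val_inj]
  split_ifs <;> simp [dec_neg_one, dec_one]

theorem not_max_frame {n it : ℕ} [NeZero n] {E : Fin n → Submodule F (Fin n → F)}
    (hE : IsNondegenerateMDecomposition (hermForm n F P.p) 1 E) {L : List ℕ}
    (h : P.presP n it L (P.frameGens n) = true) (hu : (P.frameGens n).all (P.uni n) = true) {C : List ℕ}
    (hC : P.presP n it L [C] = true) (hC' : ∃ A ∈ SUm n F P.p, (A : Matrix (Fin n) (Fin n) F) = D.decM n C)
    (j k : Fin n) (hjk : j ≠ k) (hj : C.getD j 0 % P.Q ≠ 0) (hk : C.getD k 0 % P.Q ≠ 0)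
    (h3 : ¬ SUm n F P.p ≤ D.stabP n L) :
    ¬ IsMaximalIn (SUm n F P.p) (decompositionStabilizer E ⊓ SUm n F P.p) := by
  obtain ⟨A, hA, e⟩ := hC'
  refine CL.Uni.not_max_frame D.bar hE (D.frame_diag h hu) (D.frame_swap h hu)
    ⟨A, ⟨D.mem_stabP hC (by simp) e, hA⟩, j, k, hjk, ?_, ?_⟩ h3
  · simpa [e, decM, decV] using D.dec_ne_zero hj
  · simpa [e, decM, decV] using D.dec_ne_zero hk

/-- The group of the matrices with codes in a list closed under multiplication. -/
def lsub (n : ℕ) (Ls : List (List ℕ)) (h : P.closed n Ls = true) : Subgroup (GL (Fin n) F) :=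
  have h1 : ∃ M ∈ Ls, ((1 : GL (Fin n) F) : Matrix (Fin n) (Fin n) F) = D.decM n M := by
    simp only [QP.closed, Bool.and_eq_true, List.elem_eq_mem, decide_eq_true_eq] at h
    exact ⟨_, h.1, (D.decM_idm n).symm⟩
  have h2 : ∀ {A C : GL (Fin n) F}, (∃ M ∈ Ls, (A : Matrix (Fin n) (Fin n) F) = D.decM n M) →
      (∃ M ∈ Ls, (C : Matrix (Fin n) (Fin n) F) = D.decM n M) →
      ∃ M ∈ Ls, ((A * C : GL (Fin n) F) : Matrix (Fin n) (Fin n) F) = D.decM n M := by
    rintro A C ⟨M, hM, e⟩ ⟨N, hN, e'⟩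
    simp only [QP.closed, Bool.and_eq_true, List.elem_eq_mem, decide_eq_true_eq, List.all_eq_true,
      QP.mapF_eq, List.map_id] at h
    exact ⟨_, h.2 M hM N hN, by rw [Units.val_mul, e, e', decM_mm]⟩
  { carrier := {A | ∃ M ∈ Ls, (A : Matrix (Fin n) (Fin n) F) = D.decM n M}
    one_mem' := h1
    mul_mem' := h2
    inv_mem' := fun {A} hA => by
      have := D.bar.finite
      have h3 : ∀ k : ℕ, ∃ M ∈ Ls, ((A ^ k : GL (Fin n) F) : Matrix (Fin n) (Fin n) F) = D.decM n M := fun k => by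
        induction k with
        | zero => exact h1
        | succ k ih => rw [pow_succ]; exact h2 ih hA
      have h4 : A⁻¹ = A ^ (orderOf A - 1) := by
        rw [inv_eq_iff_mul_eq_one, ← pow_succ', Nat.sub_add_cancel (orderOf_pos A), pow_orderOf_eq_one]
      show ∃ M ∈ Ls, _
      rw [h4]
      exact h3 _ }

theorem mem_lsub {n : ℕ} {Ls : List (List ℕ)} {h : P.closed n Ls = true} {A : GL (Fin n) F} :
    A ∈ D.lsub n Ls h ↔ ∃ M ∈ Ls, (A : Matrix (Fin n) (Fin n) F) = D.decM n M := Iff.rfl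

theorem orderOf_eq {n : ℕ} {M : List ℕ} {A : GL (Fin n) F} (e : (A : Matrix (Fin n) (Fin n) F) = D.decM n M)
    {l : ℕ} (hl : l.Prime) (h1 : P.mpow n M l = P.idm n) (v : ℕ) (h2 : P.mv n M v < P.Q ^ n) (h3 : v < P.Q ^ n)
    (h4 : P.mv n M v ≠ v) : orderOf A = l := by
  have := Fact.mk hl
  refine orderOf_eq_prime (D.pow_eq_one e h1) fun e' => h4 (D.decV_inj h2 h3 ?_)
  rw [decV_mv, ← e, e', Units.val_one, one_mulVec]

theorem conj_mem_zpowers {n : ℕ} {X Y : List ℕ} {x y : GL (Fin n) F}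
    (ex : (x : Matrix (Fin n) (Fin n) F) = D.decM n X) (ey : (y : Matrix (Fin n) (Fin n) F) = D.decM n Y)
    {i : ℕ} (h : P.mm n Y X = P.mm n (P.mpow n X i) Y) : y * x * y⁻¹ ∈ Subgroup.zpowers x := by
  rw [show y * x = x ^ i * y from Units.ext (by
    rw [Units.val_mul, Units.val_mul, Units.val_pow_eq_pow_val, ex, ey, ← decM_mpow, ← decM_mm, ← decM_mm, h]),
    mul_inv_cancel_right]
  exact Subgroup.npow_mem_zpowers x i

theorem conj_notMem_zpowers {n : ℕ} {X Y : List ℕ} {x y : GL (Fin n) F}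
    (ex : (x : Matrix (Fin n) (Fin n) F) = D.decM n X) (ey : (y : Matrix (Fin n) (Fin n) F) = D.decM n Y)
    {l : ℕ} (hl : orderOf x = l) (hl0 : 0 < l) (v : ℕ) (h1 : P.mv n Y (P.mv n X v) < P.Q ^ n)
    (h : ∀ i < l, P.mv n (P.mpow n X i) (P.mv n Y v) < P.Q ^ n ∧
      P.mv n (P.mpow n X i) (P.mv n Y v) ≠ P.mv n Y (P.mv n X v)) : y * x * y⁻¹ ∉ Subgroup.zpowers x := by
  classical
  rw [(isOfFinOrder_iff_pow_eq_one.2 ⟨l, hl0, hl ▸ pow_orderOf_eq_one x⟩).mem_zpowers_iff_mem_range_orderOf,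
    Finset.mem_image, hl]
  rintro ⟨i, hi, e⟩
  obtain ⟨h2, h3⟩ := h i (Finset.mem_range.1 hi)
  refine h3 (D.decV_inj h2 h1 ?_)
  simp only [decV_mv, decM_mpow, ← ex, ← ey, mulVec_mulVec, ← Units.val_pow_eq_pow_val, ← Units.val_mul, e,
    inv_mul_cancel_right]

end Dec

end CL.Uni
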