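import Cfsg.Agent.Cls.UniCode2

/-!
# Coded certificates for the non-maximality of field, orthogonal and extraspecial subgroups
-/

set_option autoImplicit false

namespace CL.Uni

open Module Matrix Cfsg Cfsg.Geo CL.Asch CL.Mx
open scoped MatrixGroups

universe u v

namespace QP

variable (P : QP)

noncomputable def wf (n : ℕ) (Ls : List (List ℕ)) : Bool :=
  Ls.all fun M => M.length == n && M.all (· < P.Q ^ n) && P.uni n M
noncomputable def isRat (n v : ℕ) : Bool := (List.range n).all fun j => P.conj (v / P.Q ^ j) == v / P.Q ^ j % P.Q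
/-- all rational similarities preserve the set of points `L` -/
noncomputable def orthChk (it : ℕ) (L : List ℕ) : Bool :=
  mapF id ((List.range (P.Q ^ 3)).filter (P.isRat 3)) fun U => U.all fun a => force (P.hf 3 a a) fun m =>
    m == 0 || U.all fun b => P.hf 3 b b != m || P.hf 3 a b != 0 || U.all fun c =>
      P.hf 3 c c != m || P.hf 3 a c != 0 || P.hf 3 b c != 0 || P.presP 3 it L [P.tr 3 [a, b, c]]
/-- the table `T` contains an orthonormal basis for every rational diagonal form -/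
noncomputable def onbChk (T : List (ℕ × List ℕ)) : Bool :=
  mapF id ((List.range P.Q).filter fun x => x != 0 && P.conj x == x) fun U =>
    U.all fun x => U.all fun y => U.all fun z => T.any fun t =>
      (List.range 3).all fun i => (List.range 3).all fun j =>
        P.hf 3 (t.2.getD i 0) (P.mv 3 (P.mon 3 id ([x, y, z].getD · 0)) (t.2.getD j 0)) == (if i = j then 1 else 0) &&
        P.conj (t.2.getD i 0 / P.Q ^ j) == P.mul t.1 (t.2.getD i 0 / P.Q ^ j)
/-- the elements `m d` (`d` diagonal) conjugating `b` into `R` preserve the set of points `L` -/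
noncomputable def extChk (it : ℕ) (L : List ℕ) (R Ms : List (List ℕ)) (b : List ℕ) (v : ℕ) : Bool :=
  mapF id ((List.range P.Q).filter fun x => P.mul x (P.conj x) == 1) fun U =>
    Ms.all fun m => U.all fun x => U.all fun y =>
      mapF id (P.mm 3 m (P.mon 3 id ([x, y, P.conj (P.mul x y)].getD · 0))) fun A =>
        force (P.mv 3 A (P.mv 3 b v)) fun w => force (P.mv 3 A v) fun w' =>
          R.all (fun r => P.mv 3 r w' != w) || P.presP 3 it L [A]

theorem mm_length (n : ℕ) (M N : List ℕ) : (P.mm n M N).length = M.length := by simp [mm, mapF_eq]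

theorem conj_lt (hp : 0 < P.p) (x : ℕ) : P.conj x < P.Q := P.mk2_lt hp _ _

end QP

variable {F : Type u} [Field F] {σ : F →+* F} {P : QP} {q : ℕ}

theorem IsJ.exists_orthogonal {V : Type v} [AddCommGroup V] [Module F V] [FiniteDimensional F V]
    {B : V →ₛₗ[σ] V →ₗ[F] F} {J : V →ₛₗ[σ] V} (hJ : IsJ B J 1) (h : IsHerm B q) (h2 : (2 : F) ≠ 0) {k : ℕ}
    (hk : k ≤ finrank F V) : ∃ v : Fin k → V, (∀ i, J (v i) = v i) ∧ (∀ i, B (v i) (v i) ≠ 0) ∧
      ∀ i j, i ≠ j → B (v i) (v j) = 0 := by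
  induction k with
  | zero => exact ⟨Fin.elim0, by simp⟩
  | succ k ih =>
    obtain ⟨v, v1, v2, v3⟩ := ih (by omega)
    have hU : ∀ u ∈ Submodule.span F (Set.range v), J u ∈ Submodule.span F (Set.range v) :=
      span_inv (by rintro _ ⟨i, rfl⟩; rw [v1]; exact Submodule.subset_span ⟨i, rfl⟩)
    have hd : finrank F (Submodule.span F (Set.range v)) ≤ k := (finrank_range_le_card v).trans (Fintype.card_fin k).le
    obtain ⟨w, w1, w2, w3⟩ : ∃ w ∈ perp B (Submodule.span F (Set.range v)), J w = w ∧ B w w ≠ 0 := by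
      obtain ⟨u, u1, u2, u3⟩ := hJ.exists_rat_of_lt h.bar (U' := ⊥) (hJ.perp_inv hU) (by
        have := h.finrank_perp (Submodule.span F (Set.range v))
        simp only [finrank_bot]
        omega)
      obtain ⟨w, w1, w2, w3⟩ := hJ.exists_rat_ne_zero h hU (x := u) fun hu => u3 (by
        obtain ⟨c, rfl⟩ := (Submodule.mem_span_range_iff_exists_fun F).1 hu
        have : ∀ j, c j = 0 := fun j => by
          have := u1 (v j) (Submodule.subset_span ⟨j, rfl⟩)
          rw [map_sum, Finset.sum_eq_single j (fun i _ hi => by simp [v3 j i hi.symm]) (by simp)] at this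
          simpa [v2 j] using this
        simp [this])
      by_cases h1 : B u u = 0
      · by_cases h3 : B w w = 0
        · refine ⟨u + w, add_mem u1 w1, by rw [map_add, u2, w2], ?_⟩
          simp only [map_add, LinearMap.add_apply, h1, h3, hJ.o_symm h w2 u2, zero_add, add_zero, ← two_mul]
          exact mul_ne_zero h2 w3
        · exact ⟨w, w1, w2, h3⟩
      · exact ⟨u, u1, u2, h1⟩
    have w4 : ∀ i, B (v i) w = 0 := fun i => w1 _ (Submodule.subset_span ⟨i, rfl⟩)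
    refine ⟨Fin.cons w v, fun i => Fin.cases w2 v1 i, fun i => Fin.cases w3 v2 i, fun i j => ?_⟩
    refine Fin.cases (Fin.cases (fun e => absurd rfl e) (fun j _ => h.flip_zero (w4 j)) j)
      (fun i => Fin.cases (fun _ => w4 i) (fun j e => v3 i j fun e' => e (e' ▸ rfl)) j) i

theorem det_eq_one_of_trace {x : Matrix (Fin 3) (Fin 3) F} (h6 : (6 : F) ≠ 0) (h1 : x.trace = 0)
    (h3 : x ^ 3 = 1) : x.det = 1 := by
  have key : 6 * x.det = x.trace ^ 3 - 3 * x.trace * (x * x).trace + 2 * (x ^ 3).trace := by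
    simp only [pow_succ, pow_zero, one_mul, det_fin_three, trace_fin_three, mul_apply, Fin.sum_univ_three]
    ring
  rw [h1, h3, trace_one] at key
  exact mul_left_cancel₀ h6 (by rw [key]; simp; norm_num)

namespace Dec

variable (D : Dec P σ)

include D in
theorem mv_lt {n k : ℕ} {M : List ℕ} (h : M.length = k) (v : ℕ) : P.mv n M v < P.Q ^ k := by
  subst h
  simp only [QP.mv, force_eq]
  induction M with
  | nil => exact Nat.one_pos
  | cons r M ih =>
    have := D.dot_lt n r v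
    rw [List.length_cons, pow_succ']
    nlinarith

include D in
theorem hf_lt (n r v : ℕ) : P.hf n r v < P.Q := by
  cases n with
  | zero => exact D.Q_pos
  | succ n => simp only [QP.hf, force_eq]; exact P.mk2_lt D.prime.pos _ _

include D in
theorem one_lt_Q : 1 < P.Q := by have := D.prime.two_le; unfold QP.Q; nlinarith

theorem decM_diag (n : ℕ) (f : ℕ → ℕ) : D.decM n (P.mon n id f) = diagonal fun i : Fin n => D.dec (f i) := by
  ext i j
  rw [D.decM_mon id (fun _ => rfl), diagonal_apply]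
  simp only [id, eq_comm (a := j)]

theorem card_lsub {n : ℕ} {Ls : List (List ℕ)} (h : P.closed n Ls = true) (hw : P.wf n Ls = true)
    (hd : Ls.Nodup) : Nat.card (D.lsub n Ls h) = Ls.length := by
  simp only [QP.wf, List.all_eq_true, Bool.and_eq_true, beq_iff_eq, decide_eq_true_eq] at hw
  choose f hf e using fun M : {M // M ∈ Ls.toFinset} => D.exists_GU (hw M.1 (List.mem_toFinset.1 M.2)).2
  rw [← List.toFinset_card_of_nodup hd, ← Fintype.card_coe, ← Nat.card_eq_fintype_card]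
  refine (Nat.card_eq_of_bijective (fun M => (⟨f M, M.1, List.mem_toFinset.1 M.2, e M⟩ : D.lsub n Ls h))
    ⟨fun M N hMN => Subtype.ext ?_, ?_⟩).symm
  · have h1 := hw M.1 (List.mem_toFinset.1 M.2)
    have h2 := hw N.1 (List.mem_toFinset.1 N.2)
    exact D.decM_inj h1.1.1 h2.1.1 h1.1.2 h2.1.2 (by rw [← e, ← e, show f M = f N from congrArg Subtype.val hMN])
  · rintro ⟨A, M, hM, e'⟩
    exact ⟨⟨M, List.mem_toFinset.2 hM⟩, Subtype.ext (Units.ext ((e _).trans e'.symm))⟩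

theorem not_max_of_card {n it : ℕ} {H : Subgroup (GL (Fin n) F)} (hH : IsMaximalIn (SUm n F P.p) H) {l p a : ℕ}
    (hl : l.Prime) (hp : p.Prime) (hlp : l ≠ p) (hd : Nat.card H ∣ l * p ^ a)
    (hl2 : ¬ l * l ∣ Nat.card (SUm n F P.p)) (hsyl : ∀ i ≤ a, p ^ i % l = 1 → i = 0) {L X Z : List ℕ}
    {Ts : List (List ℕ)} (hS : ∀ M ∈ X :: Z :: Ts, ∃ A ∈ SUm n F P.p, (A : Matrix (Fin n) (Fin n) F) = D.decM n M)
    (hK : P.presP n it L (X :: Z :: Ts) = true) (h1 : P.mpow n X l = P.idm n) (h2 : P.mv n X 1 < P.Q ^ n)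
    (h3 : 1 < P.Q ^ n) (h4 : P.mv n X 1 ≠ 1) (hT : P.closed n Ts = true) (hw : P.wf n Ts = true) (hnd : Ts.Nodup)
    (hlen : Ts.length = p ^ a) (hN : ∀ T ∈ Ts, ∃ i < l, P.mm n T X = P.mm n (P.mpow n X i) T)
    (h5 : P.mv n Z (P.mv n X 1) < P.Q ^ n) (h6 : ∀ i < l, P.mv n (P.mpow n X i) (P.mv n Z 1) < P.Q ^ n ∧
      P.mv n (P.mpow n X i) (P.mv n Z 1) ≠ P.mv n Z (P.mv n X 1)) (h7 : ¬ SUm n F P.p ≤ D.stabP n L) : False := by
  have := D.bar.finite
  obtain ⟨x, hx, ex⟩ := hS X (by simp)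
  obtain ⟨z, hz, ez⟩ := hS Z (by simp)
  have ho := D.orderOf_eq ex hl h1 1 h2 h3 h4
  have hle : D.lsub n Ts hT ≤ (D.stabP n L ⊓ SUm n F P.p) ⊓ Subgroup.normalizer (Subgroup.zpowers x : Set _) := by
    rintro A ⟨T, hT', e⟩
    obtain ⟨C, hC, e'⟩ := hS T (by simp [hT'])
    obtain rfl : A = C := Units.ext (e.trans e'.symm)
    obtain ⟨i, -, hi⟩ := hN T hT'
    refine ⟨⟨D.mem_stabP hK (by simp [hT']) e, hC⟩, Subgroup.mem_normalizer_fintype ?_⟩
    rintro _ ⟨k, rfl⟩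
    have := Subgroup.zpow_mem _ (D.conj_mem_zpowers ex e hi) k
    rwa [conj_zpow] at this
  exact CL.Uni.not_max_of_card (N := (D.stabP n L ⊓ SUm n F P.p) ⊓
    Subgroup.normalizer (Subgroup.zpowers x : Set _)) hH hl hp hlp hd hl2 hsyl ho
    ⟨⟨D.mem_stabP hK (by simp) ex, hx⟩, Subgroup.le_normalizer (Subgroup.mem_zpowers x)⟩ inf_le_left
    (fun y hy => (hy.2 x).1 (Subgroup.mem_zpowers x))
    (by rw [← hlen, ← D.card_lsub hT hw hnd]; exact Subgroup.card_dvd_of_le hle)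
    ⟨D.mem_stabP hK (by simp) ez, hz⟩ (D.conj_notMem_zpowers ex ez ho hl.pos 1 h5 h6) h7

theorem eq_of_dec_hf {n u v x : ℕ} (hx : x < P.Q) (h : stdB σ (Fin n) (D.decV n u) (D.decV n v) = D.dec x) :
    P.hf n u v = x := D.dec_inj (D.hf_lt _ _ _) hx (by rw [dec_hf, h])

theorem mem_stabP_of_rat {it : ℕ} {L : List ℕ} (h : P.orthChk it L = true) {A : GL (Fin 3) F}
    (hA : A ∈ GU 3 F P.p) {d : F} (hd : d ≠ 0)
    (hr : ∀ i j, σ (d * (A : Matrix (Fin 3) (Fin 3) F) i j) = d * (A : Matrix (Fin 3) (Fin 3) F) i j) :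
    A ∈ D.stabP 3 L := by
  choose c c1 c2 using fun j => D.decV_surj (d • (A : Matrix (Fin 3) (Fin 3) F) *ᵥ Pi.single j 1)
  have c3 : ∀ j, c j ∈ (List.range (P.Q ^ 3)).filter (P.isRat 3) := fun j => by
    simp only [List.mem_filter, List.mem_range, QP.isRat, List.all_eq_true, beq_iff_eq]
    refine ⟨c1 j, fun i hi => D.dec_inj (P.conj_lt D.prime.pos _) (Nat.mod_lt _ D.Q_pos) ?_⟩
    have := congrFun (c2 j) ⟨i, hi⟩
    simp only [decV, mulVec_single_one, Pi.smul_apply, col_apply, smul_eq_mul] at this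
    rw [dec_conj, dec_mod, this, hr]
  obtain ⟨m, hm, em⟩ := D.dec_surj (σ d * d)
  have c4 : ∀ i j, P.hf 3 (c i) (c j) = if i = j then m else 0 := fun i j => by
    refine D.eq_of_dec_hf (by split_ifs; exacts [hm, D.Q_pos]) ?_
    have := (glEquiv_mem_UG D.bar A).2 hA (Pi.single i 1) (Pi.single j 1)
    rw [glEquiv_apply, glEquiv_apply, stdB_single_left, Pi.single_apply] at this
    rw [c2, c2, map_smul, LinearMap.map_smulₛₗ, LinearMap.smul_apply, this]
    split_ifs <;> simp [em, dec_zero, mul_comm]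
  have m0 : m ≠ 0 := by
    rintro rfl
    exact mul_ne_zero ((map_ne_zero σ).2 hd) hd (em.symm.trans D.dec_zero)
  simp only [QP.orthChk, QP.mapF_eq, List.map_id, force_eq, List.all_eq_true, Bool.or_eq_true, beq_iff_eq,
    bne_iff_ne] at h
  have h1 := (((h _ (c3 0)).resolve_left (by simpa [c4] using m0) _ (c3 1)).resolve_left (by simp [c4]) _
    (c3 2)).resolve_left (by simp [c4])
  rw [← (D.stabP 3 L).mul_mem_cancel_left (D.scal_mem_stabP L (Units.mk0 d hd))]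
  refine D.mem_stabP h1 (List.mem_singleton_self _) ?_
  ext i j
  rw [decM_tr, transpose_apply, show D.decM 3 [c 0, c 1, c 2] j = D.decV 3 (c j) by fin_cases j <;> rfl, c2]
  simp [coe_scal]

include D in
theorem exists_onb {T : List (ℕ × List ℕ)} (h : P.onbChk T = true) (h2 : (2 : F) ≠ 0)
    {J : (Fin 3 → F) →ₛₗ[σ] (Fin 3 → F)} (hJ : IsJ (stdB σ (Fin 3)) J 1) :
    ∃ g ∈ GU 3 F P.p, ∃ l : F, l ≠ 0 ∧ ∀ u, J ((g : Matrix (Fin 3) (Fin 3) F) *ᵥ u) =
      l • (g : Matrix (Fin 3) (Fin 3) F) *ᵥ fun i => σ (u i) := by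
  have hB := isHerm_stdB D.bar (Fin 3)
  obtain ⟨v, v1, v2, v3⟩ := hJ.exists_orthogonal hB h2 (k := 3) (by simp)
  choose x x1 x2 using fun i => D.dec_surj (stdB σ (Fin 3) (v i) (v i))
  have x3 : ∀ i, x i ∈ (List.range P.Q).filter fun x => x != 0 && P.conj x == x := fun i => by
    simp only [List.mem_filter, List.mem_range, Bool.and_eq_true, bne_iff_ne, beq_iff_eq]
    exact ⟨x1 i, fun e => v2 i (by rw [← x2, e, dec_zero]), D.dec_inj (P.conj_lt D.prime.pos _) (x1 i)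
      (by rw [dec_conj, x2, hB.self_fixed])⟩
  simp only [QP.onbChk, QP.mapF_eq, List.map_id, List.all_eq_true, List.any_eq_true, Bool.and_eq_true,
    beq_iff_eq, List.mem_range] at h
  obtain ⟨⟨l, S⟩, -, hS⟩ := h _ (x3 0) _ (x3 1) _ (x3 2)
  obtain ⟨g, hg, e⟩ := exists_GU_of_orthonormal D.bar (a := fun i => ∑ k, D.decM 3 S i k • v k) fun i j => by
    have h1 := congrArg D.dec (hS i i.2 j j.2).1
    rw [dec_hf, decV_mv, stdB_apply, decM_diag] at h1
    simp only [Fin.val_inj, apply_ite D.dec, dec_one, dec_zero] at h1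
    rw [← h1]
    simp only [map_sum, LinearMap.map_smulₛₗ, LinearMap.sum_apply, LinearMap.smul_apply, smul_eq_mul,
      RingHom.id_apply, mulVec_diagonal, decM_row, Fin.sum_univ_three]
    simp [v3, x2]
    ring
  have hl : ∀ i k : Fin 3, σ (D.decM 3 S i k) = D.dec l * D.decM 3 S i k := fun i k => by
    have := congrArg D.dec (hS i i.2 k k.2).2
    rwa [dec_conj, dec_mul] at this
  have e1 : ∀ i, J ((g : Matrix (Fin 3) (Fin 3) F) *ᵥ Pi.single i 1) =
      D.dec l • (g : Matrix (Fin 3) (Fin 3) F) *ᵥ Pi.single i 1 := fun i => by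
    simp only [e, map_sum, LinearMap.map_smulₛₗ, hl, v1, Finset.smul_sum, smul_smul]
  refine ⟨g, hg, D.dec l, fun h0 => ?_, fun u => ?_⟩
  · have := congrArg J (e1 0)
    rw [hJ.invol, h0, zero_smul, map_zero, ← mulVec_zero (g : Matrix (Fin 3) (Fin 3) F)] at this
    simpa using congrFun (mulVec_inj g this) 0
  · rw [pi_eq_sum_univ' u, pi_eq_sum_univ' fun i => σ _]
    simp only [mulVec_sum, mulVec_smul, map_sum, LinearMap.map_smulₛₗ, e1, Finset.smul_sum, smul_comm (D.dec l)]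
    simp [Pi.single_apply]

theorem not_max_orth [Fintype F] {T : List (ℕ × List ℕ)} (hT : P.onbChk T = true) (h2 : (2 : F) ≠ 0) {it : ℕ}
    {L : List ℕ} (h : P.orthChk it L = true) {C : List ℕ} (hC : P.presP 3 it L [C] = true)
    (hC' : ∃ A ∈ SUm 3 F P.p, (A : Matrix (Fin 3) (Fin 3) F) = D.decM 3 C) (i j k l : Fin 3)
    (hr : P.mul (C.getD i 0 / P.Q ^ (j : ℕ)) (P.conj (C.getD k 0 / P.Q ^ (l : ℕ))) ≠
      P.mul (C.getD k 0 / P.Q ^ (l : ℕ)) (P.conj (C.getD i 0 / P.Q ^ (j : ℕ))))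
    (h3 : ¬ SUm 3 F P.p ≤ D.stabP 3 L) {F₀ : Subfield F} (hc : Fintype.card F = Nat.card F₀ ^ 2)
    {R : GL (Fin 3) F} (hR : IsFormRationalStructure (hermForm 3 F P.p) F₀ 1 R) :
    ¬ IsMaximalIn (SUm 3 F P.p) (subfieldSubgroup F₀ R ⊓ SUm 3 F P.p) := fun hH => by
  have hσ := D.bar.fixed_iff_mem hc
  obtain ⟨g, hg, m, m0, e⟩ := D.exists_onb hT h2 (isJ_matJ D.bar hσ one_ne_zero (by simp) (one_mul 1) hR)
  have key : ∀ A : GL (Fin 3) F, g * A * g⁻¹ ∈ subfieldSubgroup F₀ R → ∃ c : F, c ≠ 0 ∧ ∀ i j,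
      (A : Matrix (Fin 3) (Fin 3) F) i j = c * σ ((A : Matrix (Fin 3) (Fin 3) F) i j) := fun A hA => by
    obtain ⟨c, c0, hc⟩ := (glEquiv_mem_JStab hσ R _).2 hA
    refine ⟨c, c0, fun i j => ?_⟩
    have h1 := hc ((g : Matrix (Fin 3) (Fin 3) F) *ᵥ Pi.single j 1)
    simp only [glEquiv_apply, e, Units.val_mul, ← mulVec_mulVec, gl_inv_mulVec, mulVec_smul] at h1
    rw [smul_comm c, ← mulVec_smul _ c] at h1
    have h4 := congrFun (mulVec_inj g (smul_right_injective _ m0 h1)) i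
    rwa [show (fun i => σ ((Pi.single j 1 : Fin 3 → F) i)) = Pi.single j 1 from funext fun i => by
      simp [Pi.single_apply, apply_ite σ], mulVec_single_one] at h4
  refine not_max_of_conj hH (g := g⁻¹) (conj_mem_SUm ((GU 3 F P.p).inv_mem hg)) (fun A hA => ?_) ?_ h3
  · have hS := (conj_mem_SUm ((GU 3 F P.p).inv_mem hg) A).1 hA.2
    obtain ⟨c, c0, hc⟩ := key (g⁻¹ * A * g⁻¹⁻¹) (by simpa [mul_assoc] using hA.1)
    generalize g⁻¹ * A * g⁻¹⁻¹ = A at hS hc
    have h1 : c * σ c = 1 := by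
      by_contra hne
      refine one_ne_zero (α := F) ((mem_specialLinear_iff_det.1 hS.2).symm.trans ?_)
      rw [show (A : Matrix (Fin 3) (Fin 3) F) = 0 from Matrix.ext fun i j => ?_, det_zero]
      have h4 := congrArg σ (hc i j)
      rw [map_mul, D.bar.bar_bar] at h4
      exact (mul_left_eq_self₀.1 (by linear_combination -hc i j - c * h4)).resolve_left hne
    obtain ⟨y, y0, hy⟩ := D.bar.exists_div_bar_eq h1
    refine D.mem_stabP_of_rat h hS.1 (d := σ y) ((map_ne_zero σ).2 y0) fun i j => ?_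
    rw [map_mul, D.bar.bar_bar]
    linear_combination σ ((A : Matrix (Fin 3) (Fin 3) F) i j) * hy - σ y * hc i j
  · obtain ⟨A, hA, eA⟩ := hC'
    refine ⟨A, ⟨D.mem_stabP hC (by simp) eA, hA⟩, fun hh => hr ?_⟩
    obtain ⟨c, -, hc⟩ := key A (by simpa using hh.1)
    refine D.dec_inj (P.mul_lt D.prime.pos _ _) (P.mul_lt D.prime.pos _ _) ?_
    have h1 := hc i j
    have h4 := hc k l
    rw [eA] at h1 h4
    rw [dec_mul, dec_mul, dec_conj, dec_conj]
    change D.decM 3 C i j * σ (D.decM 3 C k l) = D.decM 3 C k l * σ (D.decM 3 C i j)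
    linear_combination σ (D.decM 3 C k l) * h1 - σ (D.decM 3 C i j) * h4

theorem mem_stabP_of_conj {it v : ℕ} {L b : List ℕ} {Rs Ms : List (List ℕ)} {f : ℕ → ℕ}
    (hw : ∀ M ∈ Rs ++ Ms, M.length = 3 ∧ P.uni 3 M = true ∧ P.det3 M = 1)
    (hf : ∀ i < 3, ∀ j < 3, f i % P.Q = f j % P.Q → i = j)
    (h1 : ∀ r ∈ Rs, (∃ c < P.Q, r = P.mon 3 id fun _ => c) ∨ ∃ m ∈ Ms, P.mm 3 m (P.mon 3 id f) = P.mm 3 r m)
    (h2 : P.extChk it L Rs Ms b v = true) {A : GL (Fin 3) F} (hA : A ∈ SUm 3 F P.p)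
    (ha : ∃ r ∈ Rs, (A : Matrix (Fin 3) (Fin 3) F) * D.decM 3 (P.mon 3 id f) = D.decM 3 r * A)
    (hb : ∃ r ∈ Rs, (A : Matrix (Fin 3) (Fin 3) F) * D.decM 3 b = D.decM 3 r * A) : A ∈ D.stabP 3 L := by
  have hf' : ∀ i j : Fin 3, D.dec (f i) = D.dec (f j) → i = j := fun i j e => Fin.ext (hf i i.2 j j.2
    (D.dec_inj (Nat.mod_lt _ D.Q_pos) (Nat.mod_lt _ D.Q_pos) (by rwa [dec_mod, dec_mod])))
  obtain ⟨r, hr, e⟩ := ha
  obtain ⟨c, -, rfl⟩ | ⟨m, hm, e1⟩ := h1 r hr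
  · rw [decM_diag, decM_diag, ← smul_eq_diagonal_mul, smul_eq_mul_diagonal, Units.mul_right_inj] at e
    exact absurd (hf' 0 1 (by simpa using (congrFun₂ e 0 0).trans (congrFun₂ e 1 1).symm)) (by decide)
  obtain ⟨M, hM, eM⟩ := D.exists_SU_three (hw m (by simp [hm])).2.1 (hw m (by simp [hm])).2.2
  obtain ⟨B, rfl⟩ : ∃ B, A = M * B := ⟨M⁻¹ * A, by simp⟩
  have hB := ((SUm 3 F P.p).mul_mem_cancel_left hM).1 hA
  have e2 := congrArg (D.decM 3) e1
  rw [decM_mm, decM_mm, ← eM] at e2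
  rw [Units.val_mul, ← mul_assoc, ← e2, mul_assoc, mul_assoc, Units.mul_right_inj, decM_diag] at e
  have e3 : (B : Matrix (Fin 3) (Fin 3) F) = diagonal fun i => (B : Matrix (Fin 3) (Fin 3) F) i i := by
    ext i j
    rcases eq_or_ne i j with rfl | hij
    · simp
    · have := congrFun₂ e i j
      rw [mul_diagonal, diagonal_mul, mul_comm] at this
      rw [diagonal_apply_ne _ hij]
      exact (mul_eq_mul_right_iff.1 this).resolve_left fun e => hij (hf' _ _ e).symm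
  choose x x1 x2 using fun i => D.dec_surj ((B : Matrix (Fin 3) (Fin 3) F) i i)
  have x3 : ∀ i, D.dec (x i) * σ (D.dec (x i)) = 1 := fun i => by
    have := (glEquiv_mem_UG D.bar B).2 hB.1 (Pi.single i 1) (Pi.single i 1)
    rw [glEquiv_apply, e3, diagonal_mulVec_single, ← x2] at this
    simpa [stdB_apply, Pi.single_apply, apply_ite σ, mul_comm] using this
  have x4 : ∀ i, x i ∈ (List.range P.Q).filter fun x => P.mul x (P.conj x) == 1 := fun i => by
    rw [List.mem_filter, List.mem_range, beq_iff_eq]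
    exact ⟨x1 i, D.dec_inj (P.mul_lt D.prime.pos _ _) D.one_lt_Q (by rw [dec_mul, dec_conj, x3, dec_one])⟩
  have e4 : ((M * B : GL (Fin 3) F) : Matrix (Fin 3) (Fin 3) F) =
      D.decM 3 (P.mm 3 m (P.mon 3 id ([x 0, x 1, P.conj (P.mul (x 0) (x 1))].getD · 0))) := by
    have hd := mem_specialLinear_iff_det.1 hB.2
    rw [e3, det_diagonal, Fin.prod_univ_three, ← x2, ← x2, ← x2] at hd
    rw [decM_mm, Units.val_mul, eM, decM_diag, e3]
    congr 2
    funext i
    fin_cases i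
    · exact (x2 0).symm
    · exact (x2 1).symm
    · change (B : Matrix (Fin 3) (Fin 3) F) 2 2 = D.dec (P.conj (P.mul (x 0) (x 1)))
      rw [dec_conj, dec_mul, map_mul, ← x2]
      linear_combination (σ (D.dec (x 0)) * σ (D.dec (x 1))) * hd - D.dec (x 2) * x3 1 -
        D.dec (x 2) * D.dec (x 1) * σ (D.dec (x 1)) * x3 0
  simp only [QP.extChk, QP.mapF_eq, List.map_id, force_eq, List.all_eq_true, Bool.or_eq_true, bne_iff_ne] at h2
  refine D.mem_stabP ((h2 m hm _ (x4 0) _ (x4 1)).resolve_left fun h3 => ?_) (List.mem_singleton_self _) e4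
  obtain ⟨r', hr', e'⟩ := hb
  refine h3 r' hr' (D.decV_inj (n := 3) (D.mv_lt (hw r' (by simp [hr'])).1 _)
    (D.mv_lt ((P.mm_length _ _ _).trans (hw m (by simp [hm])).1) _) ?_)
  simp only [decV_mv, ← e4, mulVec_mulVec, e']

theorem not_max_extra (h6 : (6 : F) ≠ 0) {it v : ℕ} {L b C : List ℕ} {Rs Ms : List (List ℕ)} {f : ℕ → ℕ}
    (hw : ∀ M ∈ Rs ++ Ms, M.length = 3 ∧ P.uni 3 M = true ∧ P.det3 M = 1)
    (hf : ∀ i < 3, ∀ j < 3, f i % P.Q = f j % P.Q → i = j)
    (h1 : ∀ r ∈ Rs, (∃ c < P.Q, r = P.mon 3 id fun _ => c) ∨ ∃ m ∈ Ms, P.mm 3 m (P.mon 3 id f) = P.mm 3 r m)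
    (h2 : P.extChk it L Rs Ms b v = true) (hcl : P.closed 3 Rs = true) (hw' : P.wf 3 Rs = true) (hnd : Rs.Nodup)
    (hlen : Rs.length = 27) (hS : ¬ 81 ∣ Nat.card (SUm 3 F P.p)) (ha : P.mon 3 id f ∈ Rs) (hb : b ∈ Rs)
    (hC : P.presP 3 it L [C] = true) (hC1 : C.length = 3 ∧ P.uni 3 C = true ∧ P.det3 C = 1)
    (hC2 : ∀ r ∈ Rs, P.mv 3 r (P.mv 3 C v) ≠ P.mv 3 C (P.mv 3 b v)) (h3 : ¬ SUm 3 F P.p ≤ D.stabP 3 L)
    {R : Subgroup (GL (Fin 3) F)} (hR : IsSymplecticTypeGroup 3 R) (hirr : ActsAbsolutelyIrreducibly (matrixSet R))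
    (hU : R ≤ GU 3 F P.p) (hcard : Nat.card R = 27) (hZ : Nat.card (Subgroup.center R) = 3) :
    ¬ IsMaximalIn (SUm 3 F P.p) (subgroupNormalizer R ⊓ SUm 3 F P.p) := fun hH => by
  have := D.bar.finite
  have := Fact.mk Nat.prime_three
  have hRS : R ≤ SUm 3 F P.p := fun x hx => ⟨hU hx, mem_specialLinear_iff_det.2 (by
    have e : x ^ 3 = 1 := by
      have := Monoid.pow_exponent_eq_one (⟨x, hx⟩ : R)
      rw [hR.exponent_eq] at this
      exact congrArg Subtype.val this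
    have e' : (x : Matrix (Fin 3) (Fin 3) F) ^ 3 = 1 := by rw [← Units.val_pow_eq_pow_val, e, Units.val_one]
    by_cases hs : x ∈ scalars (Fin 3) F
    · obtain ⟨u, rfl⟩ := hs
      change ((scal (Fin 3) u : GL (Fin 3) F) : Matrix (Fin 3) (Fin 3) F) ^ 3 = 1 at e'
      change ((scal (Fin 3) u : GL (Fin 3) F) : Matrix (Fin 3) (Fin 3) F).det = 1
      rw [coe_scal] at e' ⊢
      simpa [smul_pow] using congrFun₂ e' 0 0
    · exact det_eq_one_of_trace h6 ((isHeis_of_symplecticType hR hirr hZ).trace_eq_zero hx hs) e')⟩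
  have c0 := (D.card_lsub hcl hw' hnd).trans hlen
  have hgl : ∀ r ∈ Rs, ∃ A ∈ D.lsub 3 Rs hcl ⊓ SUm 3 F P.p, (A : Matrix (Fin 3) (Fin 3) F) = D.decM 3 r :=
    fun r hr => by
      obtain ⟨A, hA, e⟩ := D.exists_SU_three (hw r (by simp [hr])).2.1 (hw r (by simp [hr])).2.2
      exact ⟨A, ⟨⟨r, hr, e⟩, hA⟩, e⟩
  obtain ⟨g, hg, e⟩ := exists_conj_le_of_pGroup hR.pGroup (IsPGroup.of_card (n := 3) c0) hRS (by
    rintro A ⟨r, hr, e⟩
    obtain ⟨A', hA', e'⟩ := hgl r hr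
    exact Units.ext (e'.trans e.symm) ▸ hA'.2) (by rwa [c0])
  have e1 : R.map (MulAut.conj g).toMonoidHom = D.lsub 3 Rs hcl :=
    Subgroup.eq_of_le_of_card_ge (by rintro _ ⟨y, hy, rfl⟩; exact e y hy)
      (by rw [c0, Subgroup.card_map_of_injective (MulAut.conj g).injective, hcard])
  have key : ∀ A : GL (Fin 3) F, g⁻¹ * A * g ∈ subgroupNormalizer R → ∀ r ∈ Rs, ∃ r' ∈ Rs,
      (A : Matrix (Fin 3) (Fin 3) F) * D.decM 3 r = D.decM 3 r' * A := fun A hA r hr => by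
    obtain ⟨y, ⟨hy, -⟩, ey⟩ := hgl r hr
    rw [← e1] at hy
    obtain ⟨y, hy, rfl⟩ := hy
    obtain ⟨r', hr', e'⟩ := e _ ((hA y).1 hy)
    refine ⟨r', hr', ?_⟩
    rw [← ey, ← e', ← Units.val_mul, ← Units.val_mul]
    simp [mul_assoc]
  refine not_max_of_conj hH (conj_mem_SUm hg.1) (fun A hA => ?_) ?_ h3
  · have h4 := key (g * A * g⁻¹) (by simpa [mul_assoc] using hA.1)
    exact D.mem_stabP_of_conj hw hf h1 h2 ((conj_mem_SUm hg.1 A).1 hA.2) (h4 _ ha) (h4 _ hb)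
  · obtain ⟨A, hA, eA⟩ := D.exists_SU_three hC1.2.1 hC1.2.2
    refine ⟨A, ⟨D.mem_stabP hC (by simp) eA, hA⟩, fun hh => ?_⟩
    obtain ⟨r, hr, e'⟩ := key A hh.1 b hb
    refine hC2 r hr (D.decV_inj (n := 3) (D.mv_lt (hw r (by simp [hr])).1 _) (D.mv_lt hC1.1 _) ?_)
    simp only [decV_mv, ← eA, mulVec_mulVec, e']

end Dec

end CL.Uni
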