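import Cfsg.Agent.Cls.UniCode3
import Cfsg.Agent.Cls.UniEx1

/-!
# Some subgroups of `SU_3(3)`, `SU_3(5)` and `SU_5(2)` that are not maximal
-/

set_option autoImplicit false

namespace CL.Uni

open Module Matrix Cfsg Cfsg.Geo

universe u

variable {F : Type u} [Field F] {σ : F →+* F}

def onb3 : List (ℕ × List ℕ) := [(1, [81, 9, 1]), (6, [324, 40, 76]), (6, [36, 328, 652]), (1, [90, 171, 1]), (6,
  [360, 684, 4]), (1, [9, 82, 163]), (1, [81, 10, 19]), (6, [324, 36, 4])]

def onb5 : List (ℕ × List ℕ) := [(1, [625, 25, 1]), (4, [3125, 130, 505]), (4, [6250, 130, 505]), (1, [1250, 25,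
  1]), (4, [125, 3130, 12505]), (1, [1300, 1925, 1]), (1, [675, 2550, 1]), (4, [125, 6255, 9380]), (4, [6375, 6505,
  9755]), (1, [1275, 1900, 1]), (1, [650, 2525, 1]), (4, [3250, 3380, 12880]), (1, [625, 50, 1]), (4, [3125, 255,
  380]), (4, [6250, 255, 380]), (1, [1250, 50, 1]), (4, [3250, 12625, 5]), (1, [25, 1252, 1877]), (1, [25, 627,
  2502]), (4, [6375, 9500, 5]), (1, [625, 52, 77]), (4, [3125, 125, 5]), (4, [6250, 125, 5]), (1, [1250, 52, 77]),
  (1, [625, 27, 102]), (4, [3125, 250, 5]), (4, [6250, 250, 5]), (1, [1250, 27, 102]), (4, [3375, 12750, 5]), (1,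
  [650, 677, 2577]), (1, [1275, 1302, 1952]), (4, [6500, 9625, 5]), (4, [3250, 12625, 10]), (1, [25, 1251, 1876]),
  (1, [25, 626, 2501]), (4, [6375, 9500, 10]), (1, [625, 51, 76]), (4, [3125, 125, 10]), (4, [6250, 125, 10]), (1,
  [1250, 51, 76]), (1, [625, 26, 101]), (4, [3125, 250, 10]), (4, [6250, 250, 10]), (1, [1250, 26, 101]), (4, [3375,
  12750, 10]), (1, [650, 676, 2576]), (1, [1275, 1301, 1951]), (4, [6500, 9625, 10]), (1, [625, 25, 2]), (4, [3125,
  135, 510]), (4, [6250, 135, 510]), (1, [1250, 25, 2]), (4, [125, 3135, 12510]), (1, [1300, 1925, 2]), (1, [675,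
  2550, 2]), (4, [125, 6260, 9385]), (4, [6375, 6510, 9760]), (1, [1275, 1900, 2]), (1, [650, 2525, 2]), (4, [3250,
  3385, 12885]), (1, [625, 50, 2]), (4, [3125, 260, 385]), (4, [6250, 260, 385]), (1, [1250, 50, 2])]

def L105 : List ℕ := [1, 25, 26, 101, 301, 326, 426, 451, 625, 626, 650, 651, 676, 701, 726, 876, 1001, 1276, 1301,
  1326, 1351, 1901, 1926, 1951, 1976, 2501, 2525, 2526, 2551, 2576, 2601, 2751, 2876, 3251, 3626, 3976, 4076, 4176,
  4276, 4701, 4801, 5301, 5451, 5776, 5926, 6076, 6226, 6276, 6351, 7226, 7276, 7501, 7525, 7701, 7726, 7826, 7926,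
  8026, 8051, 8126, 8150, 8276, 8301, 8426, 8576, 8701, 8726, 9026, 9226, 9401, 9476, 10276, 10476, 10626, 10650,
  10776, 10801, 10926, 11076, 11201, 11226, 11251, 11275, 11451, 11476, 11576, 11676, 11776, 11801, 12226, 12276,
  12626, 13001, 13276, 13426, 13576, 13726, 14051, 14201, 14701, 14801, 15226, 15326, 15426, 15526]

def L36 : List ℕ := [751, 976, 1101, 1126, 3151, 3426, 4576, 4751, 5176, 5201, 6501, 6801, 7176, 7301, 7626, 7776,
  7901, 7976, 8776, 9176, 9551, 9751, 10301, 10426, 10901, 10976, 11026, 11126, 11901, 12176, 12526, 12926, 14001,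
  14326, 14926, 14951]

def R27 : List (List ℕ) := [[1, 25, 625], [1, 300, 10625], [1, 425, 7500], [12, 25, 10625], [12, 300, 7500], [12,
  425, 625], [17, 25, 7500], [17, 300, 625], [17, 425, 10625], [25, 625, 1], [25, 7500, 17], [25, 10625, 12], [300,
  625, 17], [300, 7500, 12], [300, 10625, 1], [425, 625, 12], [425, 7500, 1], [425, 10625, 17], [625, 1, 25], [625,
  12, 425], [625, 17, 300], [7500, 1, 425], [7500, 12, 300], [7500, 17, 25], [10625, 1, 300], [10625, 12, 25],
  [10625, 17, 425]]

def M24 : List (List ℕ) := [[4557, 5382, 9582], [9557, 5183, 5207], [5182, 5215, 4582], [5182, 9757, 9565], [4557,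
  9558, 5190], [9557, 9590, 4565], [9557, 4757, 9758], [5182, 4558, 5383], [4557, 4590, 4758], [6510, 14335, 14935],
  [14635, 6835, 14972], [14010, 14960, 14648], [14010, 6522, 14347], [6510, 14647, 14023], [14635, 14022, 14310],
  [14635, 14948, 6523], [14010, 14323, 6810], [6510, 6823, 6847], [1, 25, 625], [4, 2500, 100], [100, 4, 2500], [25,
  625, 1], [625, 1, 25], [2500, 100, 4]]

def L55 : List ℕ := [13, 17, 49, 52, 68, 80, 85, 93, 129, 132, 149, 153, 173, 181, 189, 217, 221, 245, 253, 257,
  260, 281, 285, 301, 309, 313, 325, 389, 393, 417, 420, 461, 569, 573, 581, 585, 609, 649, 660, 692, 737, 772, 784,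
  793, 797, 821, 829, 852, 865, 909, 916, 932, 993, 996, 1012]

def L21 : List ℕ := [19, 82, 90, 199, 208, 226, 235, 307, 334, 370, 397, 415, 460, 469, 523, 577, 613, 640, 658,
  676, 685]

def it5 : ℕ := 77403555602585291404272377833626900

theorem card_SUm_five_two (h : IsBar σ 2) : Nat.card (SUm 5 F 2) = 13685760 := by
  have := card_SUm (n := 5) h (by decide)
  rw [show guOrder 2 5 = (2 + 1) * 13685760 by decide +kernel] at this
  omega

theorem card_SUm_three_three (h : IsBar σ 3) : Nat.card (SUm 3 F 3) = 6048 := by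
  have := card_SUm (n := 3) h (by decide)
  rw [show guOrder 3 3 = (3 + 1) * 6048 by decide +kernel] at this
  omega

theorem card_SUm_three_five (h : IsBar σ 5) : Nat.card (SUm 3 F 5) = 378000 := by
  have := card_SUm (n := 3) h (by decide)
  rw [show guOrder 5 3 = (5 + 1) * 378000 by decide +kernel] at this
  omega

theorem not_max_field_five_two (h : IsBar σ 2) {A : Subalgebra F (Matrix (Fin 5) (Fin 5) F)}
    (hA : IsFieldSubalgebra 5 A) : ¬ IsMaximalIn (SUm 5 F 2) (subalgebraNormalizer A ⊓ SUm 5 F 2) := fun hH => by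
  obtain ⟨D⟩ := dec2 h
  obtain ⟨c, c1, c2, c3⟩ := card_dvd_of_field h (by decide) hA
  rw [card_SUm_five_two h] at c2
  exact D.not_max_of_card (it := 180) hH (l := 11) (p := 5) (a := 1) (by norm_num) (by norm_num) (by decide)
    (c3.trans ((Nat.mul_dvd_mul_left 5 (Nat.dvd_gcd c1 c2)).trans (by decide +kernel)))
    (by rw [show Nat.card (SUm 5 F P2.p) = _ from card_SUm_five_two h]; decide) (by decide +kernel) (L := L55)
    (X := [925, 489, 415, 501, 991]) (Z := [840, 707, 16, 73, 270])
    (Ts := [[1, 4, 16, 64, 256], [197, 42, 731, 271, 734], [305, 861, 775, 578, 1018], [941, 701, 284, 546, 880],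
      [997, 792, 518, 580, 745]])
    (fun M hM => D.exists_SU_of_pow (k := 110) (by revert M; decide +kernel) (by revert M; decide +kernel)
      (by decide +kernel))
    (by decide +kernel) (by decide +kernel) (by decide +kernel) (by decide +kernel) (by decide +kernel)
    (by decide +kernel) (by decide +kernel) (by decide +kernel) (by decide +kernel) (by decide +kernel)
    (by decide +kernel) (by decide +kernel) (D.not_SUm_le_stabP (u := 13) (w := 513) (by decide)
      (by decide +kernel) (by decide +kernel) (by decide +kernel) (by decide +kernel) (by decide) (by decide)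
      (by decide +kernel))

theorem not_max_field_three_three (h : IsBar σ 3) {A : Subalgebra F (Matrix (Fin 3) (Fin 3) F)}
    (hA : IsFieldSubalgebra 3 A) : ¬ IsMaximalIn (SUm 3 F 3) (subalgebraNormalizer A ⊓ SUm 3 F 3) := fun hH => by
  obtain ⟨D⟩ := dec3 h
  obtain ⟨c, c1, c2, c3⟩ := card_dvd_of_field h (by decide) hA
  rw [card_SUm_three_three h] at c2
  exact D.not_max_of_card (it := 341458668) hH (l := 7) (p := 3) (a := 1) (by norm_num) (by norm_num) (by decide)
    (c3.trans ((Nat.mul_dvd_mul_left 3 (Nat.dvd_gcd c1 c2)).trans (by decide +kernel)))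
    (by rw [show Nat.card (SUm 3 F P3.p) = _ from card_SUm_three_three h]; decide) (by decide +kernel) (L := L21)
    (X := [387, 6, 603]) (Z := [667, 659, 50]) (Ts := [[1, 9, 81], [429, 677, 77], [669, 461, 53]])
    (fun M hM => D.exists_SU_three (by revert M; decide +kernel) (by revert M; decide +kernel))
    (by decide +kernel) (by decide +kernel) (by decide +kernel) (by decide +kernel) (by decide +kernel)
    (by decide +kernel) (by decide +kernel) (by decide +kernel) (by decide +kernel) (by decide +kernel)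
    (by decide +kernel) (by decide +kernel) (D.not_SUm_le_stabP (u := 19) (w := 4) (by decide)
      (by decide +kernel) (by decide +kernel) (by decide +kernel) (by decide +kernel) (by decide) (by decide)
      (by decide +kernel))

theorem not_le_L105 (D : Dec P5 σ) : ¬ SUm 3 F 5 ≤ D.stabP 3 L105 :=
  D.not_SUm_le_stabP (u := 1) (w := 6252) (by decide) (by decide +kernel) (by decide +kernel) (by decide +kernel)
    (by decide +kernel) (by decide) (by decide) (by decide +kernel)

theorem not_max_field_three_five (h : IsBar σ 5) {A : Subalgebra F (Matrix (Fin 3) (Fin 3) F)}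
    (hA : IsFieldSubalgebra 3 A) : ¬ IsMaximalIn (SUm 3 F 5) (subalgebraNormalizer A ⊓ SUm 3 F 5) := fun hH => by
  obtain ⟨D⟩ := dec5 h
  obtain ⟨c, c1, c2, c3⟩ := card_dvd_of_field h (by decide) hA
  rw [card_SUm_three_five h] at c2
  exact D.not_max_of_card (it := it5) hH (l := 7) (p := 3) (a := 2) (by norm_num) (by norm_num) (by decide)
    (c3.trans ((Nat.mul_dvd_mul_left 3 (Nat.dvd_gcd c1 c2)).trans (by decide +kernel)))
    (by rw [show Nat.card (SUm 3 F P5.p) = _ from card_SUm_three_five h]; decide) (by decide +kernel) (L := L105)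
    (X := [1549, 12514, 2156]) (Z := [14772, 9958, 13972]) (Ts := [[12, 300, 7500], [136, 10084, 10071],
      [289, 13049, 12731], [4366, 1345, 7150], [1, 25, 625], [355, 12027, 12478], [1945, 6169, 9100],
      [13369, 15166, 3250], [17, 425, 10625]])
    (fun M hM => D.exists_SU_three (by revert M; decide +kernel) (by revert M; decide +kernel))
    (by decide +kernel) (by decide +kernel) (by decide +kernel) (by decide +kernel) (by decide +kernel)
    (by decide +kernel) (by decide +kernel) (by decide +kernel) (by decide +kernel) (by decide +kernel)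
    (by decide +kernel) (by decide +kernel) (not_le_L105 D)

theorem not_max_frame_three_five (h : IsBar σ 5) {E : Fin 3 → Submodule F (Fin 3 → F)}
    (hE : IsNondegenerateMDecomposition (hermForm 3 F 5) 1 E) :
    ¬ IsMaximalIn (SUm 3 F 5) (decompositionStabilizer E ⊓ SUm 3 F 5) := by
  obtain ⟨D⟩ := dec5 h
  exact D.not_max_frame (it := it5) (L := L105) (C := [14772, 9958, 13972]) hE
    (by decide +kernel) (by decide +kernel) (by decide +kernel)
    (D.exists_SU_three (by decide +kernel) (by decide +kernel)) 0 1 (by decide)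
    (by decide +kernel) (by decide +kernel) (not_le_L105 D)

theorem not_max_orth_three [Fintype F] (h : IsBar σ 3) {F₀ : Subfield F} (hc : Fintype.card F = Nat.card F₀ ^ 2)
    {R : GL (Fin 3) F} (hR : IsFormRationalStructure (hermForm 3 F 3) F₀ 1 R) :
    ¬ IsMaximalIn (SUm 3 F 3) (subfieldSubgroup F₀ R ⊓ SUm 3 F 3) := by
  obtain ⟨D⟩ := dec3 h
  exact D.not_max_orth (T := onb3) (by decide +kernel) (h.two_ne_zero (by decide)) (it := 341458668)
    (L := [1, 9, 81]) (by decide +kernel) (C := [3, 54, 81]) (by decide +kernel)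
    (D.exists_SU_three (by decide +kernel) (by decide +kernel)) 0 0 2 2 (by decide +kernel)
    (D.not_SUm_le_stabP (u := 1) (w := 40) (by decide) (by decide +kernel) (by decide +kernel) (by decide +kernel)
      (by decide +kernel) (by decide) (by decide) (by decide +kernel)) hc hR

theorem not_max_orth_five [Fintype F] (h : IsBar σ 5) {F₀ : Subfield F} (hc : Fintype.card F = Nat.card F₀ ^ 2)
    {R : GL (Fin 3) F} (hR : IsFormRationalStructure (hermForm 3 F 5) F₀ 1 R) :
    ¬ IsMaximalIn (SUm 3 F 5) (subfieldSubgroup F₀ R ⊓ SUm 3 F 5) := by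
  obtain ⟨D⟩ := dec5 h
  exact D.not_max_orth (T := onb5) (by decide +kernel) (h.two_ne_zero (by decide)) (it := it5)
    (L := L105) (by decide +kernel) (C := [1731, 1531, 12516]) (by decide +kernel)
    (D.exists_SU_three (by decide +kernel) (by decide +kernel)) 0 0 0 1 (by decide +kernel) (not_le_L105 D) hc hR

theorem not_max_extra_five (h : IsBar σ 5) {R : Subgroup (GL (Fin 3) F)} (hR : IsSymplecticTypeGroup 3 R)
    (hirr : ActsAbsolutelyIrreducibly (matrixSet R)) (hU : R ≤ GU 3 F 5) (hcard : Nat.card R = 27)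
    (hZ : Nat.card (Subgroup.center R) = 3) : ¬ IsMaximalIn (SUm 3 F 5) (subgroupNormalizer R ⊓ SUm 3 F 5) := by
  obtain ⟨D⟩ := dec5 h
  refine D.not_max_extra (fun e => one_ne_zero (α := F) ?_) (it := it5) (v := 650) (L := L36) (b := [25, 625, 1])
    (C := [671, 13892, 7462]) (Rs := R27) (Ms := M24) (f := ([1, 12, 17].getD · 0)) (by decide +kernel)
    (by decide +kernel) (by decide +kernel) (by decide +kernel) (by decide +kernel) (by decide +kernel)
    (by decide +kernel) (by decide +kernel)
    (by rw [show Nat.card (SUm 3 F P5.p) = _ from card_SUm_three_five h]; decide) (by decide +kernel)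
    (by decide +kernel) (by decide +kernel) (by decide +kernel) (by decide +kernel)
    (D.not_SUm_le_stabP (u := 751) (w := 1251) (by decide) (by decide +kernel) (by decide +kernel)
      (by decide +kernel) (by decide +kernel) (by decide) (by decide) (by decide +kernel)) hR hirr hU hcard hZ
  have := h.cast_q
  push_cast at this
  linear_combination e - this

end CL.Uni
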