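import Cfsg.Agent.Cls.UniExt
import Cfsg.Agent.Cls.OrthExt4

/-!
# Overgroups of `SU_d(K)` in `SU_{dr}(F)`, part 1

The setting, the unipotent radical of the stabiliser of an isotropic `K`-point, the Levi lemma and the trace trick.
-/

set_option autoImplicit false
set_option linter.unusedSectionVars false

namespace CL.Uni

open Module CL.TrTr

universe u v w

variable {F : Type u} [Field F] {q : ℕ} {σ : F →+* F} {V : Type v} [AddCommGroup V] [Module F V]
  {K : Type w} [Field K] [Algebra F K] [Module K V] [IsScalarTower F K V]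

theorem IsBar.dt_eq_one_of_cube (h : IsBar σ q) [FiniteDimensional F V] {g : V ≃ₗ[F] V}
    (hg : ∀ v, g (g (g v - v) - (g v - v)) = g (g v - v) - (g v - v)) : dt g = 1 := by
  have := h.finite
  have := Fintype.ofFinite F
  cases subsingleton_or_nontrivial V
  · rw [Subsingleton.elim g 1, map_one]
  obtain ⟨p, f, hp, hc, hf, hq⟩ := h.exists_prime_pow
  have : Fact p.Prime := ⟨hp⟩
  have : CharP (End F V) p := charP_of_injective_algebraMap (algebraMap F (End F V)).injective p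
  have h1 : ((g : End F V) - 1) ^ 3 = 0 := LinearMap.ext fun v => by
    simpa [pow_succ, sub_eq_zero] using hg v
  have h2 : (g : End F V) ^ q ^ 2 = 1 := by
    have h3 : 3 ≤ q ^ 2 := by have := h.two_le; nlinarith
    have := sub_pow_char_pow_of_commute p (f * 2) (Commute.one_right (g : End F V))
    rwa [pow_mul, ← hq, pow_eq_zero_of_le h3 h1, one_pow, eq_comm, sub_eq_zero] at this
  have h3 := congrArg LinearMap.det h2
  rwa [map_pow, map_one, ← h.fintype_card, FiniteField.pow_card, ← dt_apply] at h3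

theorem aut_eq_one_of_sq [Finite K] (hr : Odd (finrank F K)) {φ : K ≃ₐ[F] K}
    (h : ∀ k, φ (φ k - k) = φ k - k) : φ = 1 := by
  have : Finite F := Finite.of_injective _ (algebraMap F K).injective
  ext k
  have h1 : ∀ n : ℕ, (φ ^ n) k = k + n * (φ k - k) := fun n => by
    induction n with
    | zero => simp
    | succ n ih => rw [pow_succ', AlgEquiv.mul_apply, ih, map_add, map_mul, map_natCast, h]; push_cast; ring
  have h2 := h1 (finrank F K)
  obtain ⟨m, hm⟩ := hr
  rw [← IsGalois.card_aut_eq_finrank, pow_card_eq_one', IsGalois.card_aut_eq_finrank, hm] at h2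
  have h3 := h (k * k)
  have h4 := h k
  simp only [map_sub, map_mul] at h3 h4
  push_cast at h2
  rw [AlgEquiv.one_apply] at h2 ⊢
  have h5 : (φ k - k) ^ 2 = 0 := by
    rw [sub_eq_iff_eq_add] at h4
    rw [h4] at h3
    linear_combination (-(φ k - k)) * h2 - m * h3
  exact sub_eq_zero.1 (pow_eq_zero_iff two_ne_zero |>.1 h5)

variable (K) in
/-- The automorphisms which are semilinear over `K`. -/
def semiK : Subgroup (V ≃ₗ[F] V) where
  carrier := {g | ∃ φ : K ≃ₐ[F] K, ∀ (k : K) x, g (k • x) = φ k • g x}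
  one_mem' := ⟨1, fun _ _ => rfl⟩
  mul_mem' := by
    rintro a b ⟨φ, hφ⟩ ⟨ψ, hψ⟩
    exact ⟨φ * ψ, fun k v => by rw [LinearEquiv.mul_apply, hψ, hφ]; rfl⟩
  inv_mem' := by
    rintro a ⟨φ, hφ⟩
    refine ⟨φ⁻¹, fun k v => a.injective ?_⟩
    rw [hφ, ← AlgEquiv.mul_apply, mul_inv_cancel, AlgEquiv.one_apply]
    simp

theorem inv_app_app (g : V ≃ₗ[F] V) (x : V) : g⁻¹ (g x) = x := g.symm_apply_apply x

theorem app_inv_app (g : V ≃ₗ[F] V) (x : V) : g (g⁻¹ x) = x := g.apply_symm_apply x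

variable {B : V →ₛₗ[σ] V →ₗ[F] F} {ρ : K →+* K} {C : V →ₛₗ[ρ] V →ₗ[K] K}

/-- The unipotent radical of the stabiliser of the `K`-point spanned by `u`. -/
structure InR (C : V →ₛₗ[ρ] V →ₗ[K] K) (u : V) (g : V ≃ₗ[F] V) : Prop where
  fix : ∀ k : K, g (k • u) = k • u
  mov : ∀ d, C u d = 0 → ∃ k : K, g d = d + k • u

/-- The centre of the unipotent radical. -/
def InZ (C : V →ₛₗ[ρ] V →ₗ[K] K) (u : V) (z : V ≃ₗ[F] V) : Prop := ∀ d, C u d = 0 → z d = d

/-- An Eichler map over `K`. -/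
def KEich (C : V →ₛₗ[ρ] V →ₗ[K] K) (u w : V) (c : K) (g : V ≃ₗ[F] V) : Prop :=
  ∀ x, g x = x + C u x • w - (C w x + c * C u x) • u

/-- A transvection over `K`. -/
def KTv (C : V →ₛₗ[ρ] V →ₗ[K] K) (u : V) (c : K) (g : V ≃ₗ[F] V) : Prop := ∀ x, g x = x + (c * C u x) • u

theorem KEich.smul {u w : V} {c : K} {g : V ≃ₗ[F] V} (h : KEich C u w c g) (k : K) (x : V) :
    g (k • x) = k • g x := by
  rw [h, h, map_smul, map_smul, smul_eq_mul, smul_eq_mul]; module

theorem KTv.smul {u : V} {c : K} {g : V ≃ₗ[F] V} (h : KTv C u c g) (k : K) (x : V) : g (k • x) = k • g x := by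
  rw [h, h, map_smul, smul_eq_mul]; module

theorem KEich.perp {u w : V} {c : K} {g : V ≃ₗ[F] V} (h : KEich C u w c g) {d : V} (hd : C u d = 0) :
    g d = d + (-C w d) • u := by
  rw [h, hd]; module

namespace UExt

variable (D : UExt B C q) [FiniteDimensional F V]
include D

theorem finiteDimensional : FiniteDimensional K V := Module.Finite.of_restrictScalars_finite F K V

theorem finiteDimensional' : FiniteDimensional F K :=
  have := D.finite
  Module.Finite.of_finite

theorem ext {x y x' y' : V} (h : ∀ k : K, B x (k • y) = B x' (k • y')) : C x y = C x' y' :=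
  have := D.finite
  eq_of_trace_mul (F := F) fun k => by rw [← D.smul_right, ← D.smul_right, h]

theorem ext' {x y x' y' : V} (h : ∀ k : K, B (k • x) y = B (k • x') y') : C x y = C x' y' := by
  rw [← D.herm.symm, ← D.herm.symm y']
  exact congrArg ρ (D.ext fun k => by rw [← D.base.symm, h, D.base.symm])

theorem eq_zero {x y : V} (h : ∀ k : K, B (k • x) y = 0) : C x y = 0 :=
  (D.ext' (x' := x) (y' := 0) fun k => by rw [h, map_zero]).trans (map_zero _)

theorem of_zero {x y : V} (h : C x y = 0) (k k' : K) : B (k • x) (k' • y) = 0 := by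
  rw [D.smul_left, map_smul, h, smul_zero, mul_zero, map_zero]

theorem mem_semiK [Nontrivial V] {g : V ≃ₗ[F] V} (h : KSemi K g) : g ∈ semiK K :=
  have := D.finiteDimensional'
  h.exists_aut

theorem eq_zero_of_skew {a : K} {θ : F} (hθ : σ θ ≠ θ) (h : ρ a = -a) (h' : ρ (θ • a) = -(θ • a)) : a = 0 := by
  rw [Algebra.smul_def, map_mul, D.rho, h] at h'
  refine (mul_eq_zero.1 (show (algebraMap F K (σ θ) - algebraMap F K θ) * a = 0 by
    linear_combination -h')).resolve_left fun e => hθ ((algebraMap F K).injective (sub_eq_zero.1 e))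

theorem exists_decomp {θ : F} (hθ : σ θ ≠ θ) {ε : K} (hε : ε * ε = 1) (hε' : ρ ε = ε) (c : K) :
    ∃ a b : K, ρ a = ε * a ∧ ρ b = ε * b ∧ c = a + θ • b := by
  have hθ' : algebraMap F K θ - ρ (algebraMap F K θ) ≠ 0 := fun e =>
    hθ ((algebraMap F K).injective (by rw [← D.rho, (sub_eq_zero.1 e).symm]))
  obtain ⟨b, hb⟩ : ∃ b, b * (algebraMap F K θ - ρ (algebraMap F K θ)) = c - ε * ρ c := ⟨_, div_mul_cancel₀ _ hθ'⟩
  have hb' : ρ b = ε * b := mul_right_cancel₀ hθ' (by
    have := congrArg ρ hb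
    simp only [map_mul, map_sub, D.herm.bar_bar, hε'] at this
    linear_combination -this - ε * hb + ρ c * hε)
  refine ⟨c - θ • b, b, ?_, hb', (sub_add_cancel _ _).symm⟩
  rw [Algebra.smul_def, map_sub, map_mul, hb']
  linear_combination ε * hb - ρ c * hε

theorem exists_smul_of_perp {u x : V} (h : ∀ d, C u d = 0 → C d x = 0) : ∃ k : K, x = k • u := by
  have := D.finiteDimensional
  have h1 : x ∈ perp C (perp C (K ∙ u)) := fun d hd => h d (mem_perp_singleton.1 hd)
  rw [D.herm.perp_perp, Submodule.mem_span_singleton] at h1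
  exact h1.imp fun _ e => e.symm

/-- An isometry fixing the `K`-point of `u` pointwise preserves the pairing with `u`. -/
theorem app_of_fix {u : V} {g : V ≃ₗ[F] V} (hg : g ∈ UG B) (h : ∀ k : K, g (k • u) = k • u) (v : V) :
    C u (g v) = C u v := D.ext' fun k => by rw [← h, hg, h]

theorem perp_app {u : V} {g : V ≃ₗ[F] V} (hg : g ∈ UG B) (hL : ∀ k : K, ∃ k' : K, g (k' • u) = k • u) {d : V}
    (hd : C u d = 0) : C u (g d) = 0 := D.eq_zero fun k => by
  obtain ⟨k', e⟩ := hL k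
  rw [← e, hg, D.smul_left, hd, mul_zero, map_zero]

theorem dt_of_inR {u : V} {g : V ≃ₗ[F] V} (hg : g ∈ UG B) (h : InR C u g) : dt g = 1 :=
  D.base.bar.dt_eq_one_of_cube fun v => by
    obtain ⟨k, hk⟩ := h.mov (g v - v) (by rw [map_sub, D.app_of_fix hg h.fix, sub_self])
    rw [hk, add_sub_cancel_left, h.fix]

theorem exists_alpha {u y : V} (hy : C u y = 1) {z : V ≃ₗ[F] V} (hg : z ∈ UG B) (hz : InZ C u z) :
    ∃ α : K →ₗ[F] K, ∀ x, z x = x + α (C u x) • u := by
  let α : K →ₗ[F] K := (C y).restrictScalars F ∘ₗ ((z : V →ₗ[F] V) - LinearMap.id) ∘ₗ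
    (LinearMap.toSpanSingleton K V y).restrictScalars F
  have h1 : ∀ a : K, z (a • y) = a • y + α a • u := fun a => by
    obtain ⟨k, hk⟩ := D.exists_smul_of_perp (u := u) (x := z (a • y) - a • y) fun d hd => by
      rw [map_sub, sub_eq_zero]
      exact D.ext' fun k => by
        rw [← hz (k • d) (by rw [map_smul, hd, smul_zero]), hg, hz _ (by rw [map_smul, hd, smul_zero])]
    have : α a = k := by
      change C y (z (a • y) - a • y) = k
      rw [hk, map_smul, D.herm.flip_one hy, smul_eq_mul, mul_one]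
    rw [this, ← hk, add_sub_cancel]
  refine ⟨α, fun v => ?_⟩
  have := hz (v - C u v • y) (by rw [map_sub, map_smul, hy, smul_eq_mul]; ring)
  rw [map_sub, h1] at this
  linear_combination (norm := module) this

theorem skew_of_alpha {u y : V} (hu : C u u = 0) (hy : C u y = 1) {z : V ≃ₗ[F] V} (hg : z ∈ UG B) {α : K → K}
    (hz : ∀ x, z x = x + α (C u x) • u) (a b : K) :
    Algebra.trace F K (ρ (α a) * b) + Algebra.trace F K (α b * ρ a) = 0 := by
  have := hg (a • y) (b • y)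
  rw [hz, hz, map_smul, map_smul, hy, smul_eq_mul, smul_eq_mul, mul_one, mul_one, map_add, map_add,
    LinearMap.add_apply, LinearMap.add_apply, D.of_zero hu, D.smul_left (α a), D.smul_right (α b),
    LinearMap.map_smulₛₗ C, LinearMap.smul_apply, map_smul (C u), hy, D.herm.flip_one hy] at this
  simpa [add_assoc] using this

theorem skew_of_kTv {u : V} (hu : C u u = 0) (hu0 : u ≠ 0) {z : V ≃ₗ[F] V} (hg : z ∈ UG B) {c : K}
    (hz : KTv C u c z) : ρ c = -c := by
  have := D.finite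
  obtain ⟨y, hy⟩ := D.herm.exists_eq_one hu0
  refine eq_of_trace_mul (F := F) fun k => ?_
  have := D.skew_of_alpha hu hy hg (α := fun a => c * a) hz 1 k
  rw [mul_neg, map_neg, eq_neg_iff_add_eq_zero, mul_comm k, mul_comm k]
  simpa using this

variable {M : Subgroup (V ≃ₗ[F] V)} (hM : semiK K ⊓ SUG B ≤ M)
include hM

theorem res_mem {g : V ≃ₗ[K] V} (hg : g ∈ SUG C) : g.restrictScalars F ∈ M :=
  hM ⟨⟨1, fun k x => map_smul g k x⟩, D.restrictScalars_mem_SUG hg⟩

theorem exists_kTv {u : V} (hu : C u u = 0) {c : K} (hc : ρ c = -c) : ∃ g ∈ M, KTv C u c g := by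
  have := D.finiteDimensional
  obtain ⟨g, h1, h2⟩ := D.herm.exists_tv hu hc
  exact ⟨_, D.res_mem hM h1, h2⟩

theorem exists_kEich {u w : V} (hu : C u u = 0) (hw : C u w = 0) : ∃ c, ∃ g ∈ M, KEich C u w c g := by
  have := D.finiteDimensional
  obtain ⟨c, hc⟩ := D.herm.bar.exists_trace_eq (D.herm.self_fixed w)
  obtain ⟨g, h1, h2⟩ := D.herm.exists_eich hu hw hc
  exact ⟨c, _, D.res_mem hM h1, h2⟩

/-- Transitivity on isotropic `K`-points. -/
theorem exists_move {u u' : V} (hu : C u u = 0) (hu0 : u ≠ 0) (hu' : C u' u' = 0) (hu0' : u' ≠ 0) :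
    ∃ t ∈ SUG C, ∃ c : K, c ≠ 0 ∧ t u = c • u' := by
  have := D.finiteDimensional
  obtain ⟨g, hg, e⟩ := D.herm.exists_mem_UG_vec hu0 hu0' (hu.trans hu'.symm)
  obtain ⟨y, hy, huy⟩ := D.herm.exists_hyperbolic hu0 hu
  obtain ⟨a, ha, ha'⟩ := D.herm.bar.exists_div_bar_eq (D.herm.dt_norm (inv_mem hg))
  obtain ⟨s, hs, s1, -, -, s2⟩ := D.herm.exists_diag hu hy huy ha
  refine ⟨g * s, mem_SUG.2 ⟨mul_mem hg hs, ?_⟩, a, ha, by rw [LinearEquiv.mul_apply, s1, map_smul, e]⟩
  have h1 : ρ a ≠ 0 := (map_ne_zero ρ).2 ha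
  rw [map_mul, s2, show a * (ρ a)⁻¹ = dt g⁻¹ by rw [mul_inv_eq_iff_eq_mul₀ h1]; exact ha', ← map_mul,
    mul_inv_cancel, map_one]

variable (hH : M ≤ SUG B) {u : V} (hu : C u u = 0) (hu0 : u ≠ 0) (hI : ∀ z ∈ M, InZ C u z → ∃ c, KTv C u c z)
include hH hu hu0 hI

/-- If `M` meets the centre of the radical in `K`-transvections, it meets the radical in `K`-linear maps. -/
theorem klin_of_inR {g : V ≃ₗ[F] V} (hg : g ∈ M) (h : InR C u g) (k : K) (v : V) : g (k • v) = k • g v := by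
  obtain ⟨y, -, hy⟩ := D.herm.exists_hyperbolic hu0 hu
  have hgU := (hH hg).1
  have hn : C u (g y - y) = 0 := by rw [map_sub, D.app_of_fix hgU h.fix, sub_self]
  have key : ∀ w, C u w = 0 → ∀ k : K, g w = w + k • u → ρ (k + C (g y - y) w) = -(k + C (g y - y) w) :=
    fun w hw k hk => by
      obtain ⟨c, E, hE, hE'⟩ := D.exists_kEich hM hu hw
      have hEu : ∀ k : K, E (k • u) = k • u := fun k => by
        rw [hE'.smul, hE'.perp hu, D.herm.flip_zero hw, neg_zero, zero_smul, add_zero]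
      obtain ⟨a, ha⟩ := hI (g * E * (E * g)⁻¹) (mul_mem (mul_mem hg hE) (inv_mem (mul_mem hE hg))) fun d hd => by
        obtain ⟨d, rfl⟩ := (E * g).surjective d
        rw [LinearEquiv.mul_apply, D.app_of_fix (hH hE).1 hEu, D.app_of_fix hgU h.fix] at hd
        obtain ⟨k, hk⟩ := h.mov d hd
        rw [LinearEquiv.mul_apply _ _⁻¹, inv_app_app, LinearEquiv.mul_apply, LinearEquiv.mul_apply, hk, map_add, hEu,
          hE'.perp hd, map_add, h.fix, hk]
        abel
      have h1 := D.skew_of_kTv hu hu0 (hH (mul_mem (mul_mem hg hE) (inv_mem (mul_mem hE hg)))).1 ha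
      have h2 := ha ((E * g) y)
      rw [LinearEquiv.mul_apply _ _⁻¹, inv_app_app, LinearEquiv.mul_apply, LinearEquiv.mul_apply,
        D.app_of_fix (hH hE).1 hEu, D.app_of_fix hgU h.fix, hy, ← sub_add_cancel (g y) y, map_add E, hE'.perp hn,
        hE' y, hy, one_smul, map_sub, map_add, h.fix, hk] at h2
      have h3 : a = k + C w (g y - y) := smul_left_injective K hu0 (by linear_combination (norm := module) -h2)
      rw [h3, map_add, D.herm.symm] at h1
      rw [map_add, D.herm.symm]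
      linear_combination h1
  obtain ⟨c, E, hE, hE'⟩ := D.exists_kEich hM hu hn
  obtain ⟨θ, hθ⟩ := D.base.bar.exists_ne
  obtain ⟨a, ha⟩ := hI (E⁻¹ * g) (mul_mem (inv_mem hE) hg) fun d hd => by
    obtain ⟨k, hk⟩ := h.mov d hd
    have h1 := key (θ • d) (by rw [← algebraMap_smul K, map_smul, hd, smul_zero]) (θ • k)
      (by rw [map_smul, hk, smul_add, smul_assoc])
    rw [← algebraMap_smul K θ d, map_smul, algebraMap_smul, ← smul_add] at h1
    have h2 := D.eq_zero_of_skew hθ (key d hd k hk) h1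
    rw [LinearEquiv.mul_apply, hk, eq_neg_of_add_eq_zero_left h2, ← hE'.perp hd, inv_app_app]
  rw [← mul_inv_cancel_left E g, LinearEquiv.mul_apply, LinearEquiv.mul_apply E, ha.smul, hE'.smul]

omit hM hH hu0 hI in
/-- A map commuting with the transvections and Eichler maps at `u` acts as a scalar on the graded pieces. -/
theorem scalar_of_comm {y : V} (hy : C u y = 1) (f : V →ₗ[F] V)
    (h1 : ∀ c, ρ c = -c → ∃ t : V ≃ₗ[F] V, KTv C u c t ∧ ∀ v, f (t v) = t (f v))
    (h2 : ∀ w, C u w = 0 → ∃ c, ∃ t : V ≃ₗ[F] V, KEich C u w c t ∧ ∀ v, f (t v) = t (f v)) :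
    (∀ c : K, f (c • u) = (C u (f y) * c) • u) ∧ (∀ v, C u (f v) = C u (f y) * C u v) ∧
      ∀ d, C u d = 0 → ∃ k : K, f d = C u (f y) • d + k • u := by
  have hu0 : u ≠ 0 := fun e => by simp [e] at hy
  have h3 : ∀ c : K, ρ c = -c → ∀ v, f ((c * C u v) • u) = (c * C u (f v)) • u := fun c hc v => by
    obtain ⟨t, ht, e⟩ := h1 c hc
    have := e v
    rwa [ht, ht, map_add, add_right_inj] at this
  have h4 : ∀ c : K, f (c • u) = (C u (f y) * c) • u := fun c => by
    obtain ⟨θ, hθ⟩ := D.base.bar.exists_ne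
    obtain ⟨a, b, ha, hb, rfl⟩ := D.exists_decomp hθ (ε := -1) (by ring) (by simp) c
    have e1 := h3 a (by rwa [neg_one_mul] at ha) y
    have e2 := h3 b (by rwa [neg_one_mul] at hb) y
    rw [hy, mul_one] at e1 e2
    rw [add_smul, smul_assoc, map_add, f.map_smul θ, e1, e2, Algebra.smul_def, ← algebraMap_smul K θ]
    module
  have h5 : ∀ v, C u (f v) = C u (f y) * C u v := fun v => by
    obtain ⟨c, hc0, hc⟩ := D.herm.bar.exists_trace_zero
    have := h3 c hc v
    rw [h4] at this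
    exact mul_left_cancel₀ hc0 (by linear_combination -smul_left_injective K hu0 this)
  refine ⟨h4, h5, fun d hd => ?_⟩
  obtain ⟨k, hk⟩ := D.exists_smul_of_perp (u := u) (x := f d - C u (f y) • d) fun w hw => by
    obtain ⟨c, t, ht, e⟩ := h2 w hw
    have := e d
    rw [ht.perp hd, ht.perp (by rw [h5, hd, mul_zero]), map_add, h4, add_right_inj] at this
    rw [map_sub, map_smul, smul_eq_mul]
    linear_combination smul_left_injective K hu0 this
  exact ⟨k, by rw [← hk, add_sub_cancel]⟩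

/-- The Levi lemma. -/
theorem mem_semiK_of_stab {g : V ≃ₗ[F] V} (hg : g ∈ M) (hL : ∀ k : K, ∃ k' : K, g (k • u) = k' • u) :
    g ∈ semiK K := by
  have : Nontrivial V := ⟨⟨u, 0, hu0⟩⟩
  have := D.finite
  have hgU := (hH hg).1
  obtain ⟨y, hyy, hy⟩ := D.herm.exists_hyperbolic hu0 hu
  have hy' := D.herm.flip_one hy
  choose s hs using hL
  have hs' : ∀ k : K, ∃ k' : K, g (k' • u) = k • u := fun k => by
    obtain ⟨k', rfl⟩ := Finite.injective_iff_surjective.1 (show Function.Injective s from fun a b e =>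
      smul_left_injective K hu0 (g.injective (by rw [hs, hs, e]))) k
    exact ⟨k', hs k'⟩
  have hp : ∀ {d}, C u d = 0 → C u (g d) = 0 := D.perp_app hgU hs'
  have huu : ∀ k : K, C u (k • u) = 0 := fun k => by rw [map_smul, hu, smul_zero]
  have key : ∀ κ : K, ∃ a : K, (∀ c : K, g (κ • c • u) = a • g (c • u)) ∧
      (∀ v, C u (g (κ • v)) = a * C u (g v)) ∧ ∀ d, C u d = 0 → ∃ k : K, g (κ • d) = a • g d + k • u := fun κ => by
    let f : V →ₗ[F] V := (g : V →ₗ[F] V) ∘ₗ (LinearMap.lsmul K V κ).restrictScalars F ∘ₗ (g⁻¹ : V ≃ₗ[F] V)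
    have hf : ∀ v, f (g v) = g (κ • v) := fun v => congrArg (fun t => g (κ • t)) (inv_app_app g v)
    have h0 : ∀ t ∈ M, (∀ d, C u d = 0 → ∃ k : K, t d = d + (k • u) ∧ (∀ a : K, d = a • u → k = 0)) →
        ∀ v, f (t v) = t (f v) := fun t ht h v => by
      obtain ⟨v, rfl⟩ := g.surjective v
      have := D.klin_of_inR hM hH hu hu0 hI (mul_mem (mul_mem (inv_mem hg) ht) hg) ⟨fun k => ?_, fun d hd => ?_⟩ κ v
      · rw [hf, ← app_inv_app g (t (g (κ • v)))]
        exact congrArg g this.symm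
      · obtain ⟨a, ha, ha'⟩ := h _ (huu (s k))
        rw [LinearEquiv.mul_apply, LinearEquiv.mul_apply, hs, ha, ha' _ rfl, zero_smul, add_zero, ← hs, inv_app_app]
      · obtain ⟨a, ha, -⟩ := h _ (hp hd)
        obtain ⟨k, hk⟩ := hs' a
        exact ⟨k, by rw [LinearEquiv.mul_apply, LinearEquiv.mul_apply, ha, map_add, ← hk, inv_app_app, inv_app_app]⟩
    obtain ⟨a, b, c⟩ := D.scalar_of_comm hu hy f (fun c hc => by
      obtain ⟨t, ht, e⟩ := D.exists_kTv hM hu hc
      exact ⟨t, e, h0 t ht fun d hd => ⟨0, by rw [e, hd, mul_zero], fun _ _ => rfl⟩⟩) fun w hw => by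
      obtain ⟨c, t, ht, e⟩ := D.exists_kEich hM hu hw
      exact ⟨c, t, e, h0 t ht fun d hd => ⟨_, e.perp hd, fun a ha => by
        rw [ha, map_smul, D.herm.flip_zero hw, smul_zero, neg_zero]⟩⟩
    exact ⟨_, fun k => by rw [← hf, hs, a, mul_smul], fun v => by rw [← hf, b], fun d hd => by
      rw [← hf]; exact c _ (hp hd)⟩
  let pL : V →ₗ[K] V := (C y).smulRight u
  let pL' : V →ₗ[K] V := (C u).smulRight y
  let pD : V →ₗ[K] V := LinearMap.id - pL - pL'
  have eD : ∀ v, pD v = v - C y v • u - C u v • y := fun _ => rfl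
  have mD : ∀ v, C u (pD v) = 0 ∧ C y (pD v) = 0 := fun v => by simp [eD, hu, hy, hy', hyy]
  have uD : ∀ k : K, pD (k • u) = 0 := fun k => by simp [eD, hu, hy']
  have dD : ∀ d, C u d = 0 → d = pD d + C y d • u := fun d hd => by rw [eD, hd]; module
  let f : V →ₗ[F] V := (g : V →ₗ[F] V) ∘ₗ pL.restrictScalars F +
    pD.restrictScalars F ∘ₗ (g : V →ₗ[F] V) ∘ₗ pD.restrictScalars F + pL'.restrictScalars F ∘ₗ (g : V →ₗ[F] V)
  have ef : ∀ v, f v = g (C y v • u) + pD (g (pD v)) + C u (g v) • y := fun _ => rfl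
  have hB : ∀ (a b a' b' : K) (d d' : V), C u d = 0 ∧ C y d = 0 → C u d' = 0 ∧ C y d' = 0 →
      B (a • u + d + b • y) (a' • u + d' + b' • y) = B (a • u) (b' • y) + B d d' + B (b • y) (a' • u) :=
    fun a b a' b' d d' h h' => by
      simp [D.eq, hu, hyy, h.1, h.2, h'.1, h'.2, D.herm.flip_zero h.1, D.herm.flip_zero h.2, hy, hy', mul_comm]
  have hB' : ∀ (k : K) v, B (k • u) (C u v • y) = B (k • u) v := fun k v => by
    rw [D.smul_left, D.smul_left, map_smul, hy, smul_eq_mul, mul_one]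
  obtain ⟨h, hhU, hh⟩ := D.base.exists_mem_UG f fun v v' => by
    have e1 : B (pD (g (pD v))) (pD (g (pD v'))) = B (pD v) (pD v') := by
      rw [← hgU (pD v)]
      conv_rhs => rw [dD _ (hp (mD v).1), dD _ (hp (mD v').1)]
      simp [D.eq, hu, (mD _).1, D.herm.flip_zero (mD _).1]
    have e2 : ∀ v, v = C y v • u + pD v + C u v • y := fun v => by rw [eD]; module
    rw [ef, ef, hs, hs, hB _ _ _ _ _ _ (mD _) (mD _), e1, hB', ← D.base.symm (_ • u) (_ • y), hB', ← hs, ← hs, hgU,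
      hgU]
    conv_rhs => rw [e2 v, e2 v', hB _ _ _ _ _ _ (mD _) (mD _), hB', ← D.base.symm (_ • u) (_ • y), hB']
  replace hh : ∀ v, h v = f v := LinearMap.congr_fun hh
  have hsemi : h ∈ semiK K := D.mem_semiK fun κ => by
    obtain ⟨σ, a, b, c⟩ := key κ
    refine ⟨σ, fun v => ?_⟩
    obtain ⟨k, hk⟩ := c _ (mD v).1
    rw [hh, hh, ef, ef, map_smul (C y), smul_eq_mul, mul_smul, a, b, map_smul pD, hk, map_add, uD, map_smul pD]
    module
  have hu' : ∀ k : K, h (k • u) = g (k • u) := fun k => by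
    rw [hh, ef, uD, hp (huu k), map_smul (C y), hy']
    simp
  have hρ : InR C u (h⁻¹ * g) := ⟨fun k => by rw [LinearEquiv.mul_apply, ← hu', inv_app_app], fun d hd => by
    obtain ⟨k, hk⟩ := hs' (C y (g (pD d)))
    refine ⟨k, h.injective ?_⟩
    rw [LinearEquiv.mul_apply, app_inv_app, map_add, hu', hk, hh, ef, hp hd]
    conv_lhs => rw [dD d hd, map_add, dD _ (hp (mD d).1)]
    module⟩
  have hhH : h ∈ M := hM ⟨hsemi, mem_SUG.2 ⟨hhU, by
    have := D.dt_of_inR (mul_mem (inv_mem hhU) hgU) hρ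
    rwa [map_mul, (mem_SUG.1 (hH hg)).2, mul_one, map_inv, inv_eq_one] at this⟩⟩
  have := mul_mem hsemi (show h⁻¹ * g ∈ semiK K from
    ⟨1, D.klin_of_inR hM hH hu hu0 hI (mul_mem (inv_mem hhH) hg) hρ⟩)
  rwa [mul_inv_cancel_left] at this

/-- An element of `M` mapping a `K`-point onto an isotropic `K`-point is semilinear. -/
theorem mem_semiK_of_point {g : V ≃ₗ[F] V} (hg : g ∈ M) {u' : V} (hu0' : u' ≠ 0)
    (hL : ∀ k : K, ∃ k' : K, g (k • u') = k' • u) : g ∈ semiK K := by
  have hu' : C u' u' = 0 := D.eq_zero fun k => by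
    obtain ⟨a, ha⟩ := hL k
    obtain ⟨b, hb⟩ := hL 1
    rw [one_smul] at hb
    rw [← (hH hg).1, ha, hb, D.of_zero hu]
  obtain ⟨t, ht, c, -, hc⟩ := D.exists_move hM hu hu0 hu' hu0'
  have := mul_mem (D.mem_semiK_of_stab hM hH hu hu0 hI (mul_mem hg (D.res_mem hM ht)) fun k => by
    rw [LinearEquiv.mul_apply, LinearEquiv.restrictScalars_apply, map_smul, hc, smul_smul]; exact hL _)
    (inv_mem (show t.restrictScalars F ∈ semiK K from ⟨1, fun k x => map_smul t k x⟩))
  rwa [mul_inv_cancel_right] at this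

/-- If a conjugate of a transvection is semilinear, the conjugating element is semilinear. -/
theorem mem_semiK_of_conj (hr : Odd (finrank F K)) {g t : V ≃ₗ[F] V} (hg : g ∈ M) {c : K} (hc : c ≠ 0)
    (ht : KTv C u c t) (h : g⁻¹ * t * g ∈ semiK K) : g ∈ semiK K := by
  have := D.finite
  obtain ⟨φ, hφ⟩ := h
  have h0 : g⁻¹ u ≠ 0 := fun e => hu0 ((g⁻¹).map_eq_zero_iff.1 e)
  have h1 : ∀ k : K, (g⁻¹ * t * g) (g⁻¹ (k • u)) = g⁻¹ (k • u) := fun k => by
    rw [LinearEquiv.mul_apply, LinearEquiv.mul_apply, app_inv_app, ht.smul, ht, hu, mul_zero, zero_smul, add_zero]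
  have h2 : ∀ v, (g⁻¹ * t * g) v - v = g⁻¹ ((c * C u (g v)) • u) := fun v => by
    rw [LinearEquiv.mul_apply, LinearEquiv.mul_apply, ht, map_add, inv_app_app, add_sub_cancel_left]
  have h3 : (g⁻¹ * t * g) (g⁻¹ u) = g⁻¹ u := by simpa using h1 1
  obtain rfl : φ = 1 := aut_eq_one_of_sq hr fun k => smul_left_injective K h0 (by
    have h4 := h2 (k • g⁻¹ u)
    rw [hφ, h3, ← sub_smul] at h4
    have h5 := hφ (φ k - k) (g⁻¹ u)
    rw [h3, h4, h1, ← h4] at h5
    exact h5.symm)
  obtain ⟨y, hy⟩ := D.herm.exists_eq_one hu0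
  refine D.mem_semiK_of_point hM hH hu hu0 hI hg h0 fun k => ⟨c * C u (g (k • g⁻¹ (c⁻¹ • y))), ?_⟩
  have h4 := h2 (g⁻¹ (c⁻¹ • y))
  rw [app_inv_app, map_smul (C u), hy, smul_eq_mul, mul_one, mul_inv_cancel₀ hc, one_smul] at h4
  rw [← h4, smul_sub, ← app_inv_app g (_ • u), ← h2, hφ, AlgEquiv.one_apply]

end UExt

/-- The invariant form of degree four over the fixed field of `σ`. -/
noncomputable def UExt.four (D : UExt B C q) :
    MultilinearMap (IsBar.fixedField σ) (fun _ : Fin 4 => V) (IsBar.fixedField σ) :=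
  MultilinearMap.mk' (fun v => Algebra.trace (IsBar.fixedField σ) F
      (Algebra.trace F K (C (v 0) (v 1) * C (v 2) (v 3))))
    (fun v i x y => by fin_cases i <;> simp [add_mul, mul_add])
    (fun v i c x => by
      have h1 : ∀ x y, C (c • x) y = c.1 • C x y := fun x y => by
        rw [Subfield.smul_def, ← algebraMap_smul K, LinearMap.map_smulₛₗ, D.rho, c.2, LinearMap.smul_apply,
          algebraMap_smul]
        rfl
      have h2 : ∀ x y, C x (c • y) = c.1 • C x y := fun x y => by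
        rw [Subfield.smul_def, ← algebraMap_smul K, map_smul, algebraMap_smul]
      have h3 : ∀ k : K, Algebra.trace (IsBar.fixedField σ) F (Algebra.trace F K (c.1 • k)) =
          c * Algebra.trace (IsBar.fixedField σ) F (Algebra.trace F K k) := fun k => by
        rw [map_smul (Algebra.trace F K)]
        exact map_smul (Algebra.trace (IsBar.fixedField σ) F) c _
      fin_cases i <;> simp [h1, h2, ← h3])

variable (F V) in
/-- Restriction of scalars to a subfield. -/
def resHom (R : Subfield F) : (V ≃ₗ[F] V) →* (V ≃ₗ[R] V) :=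
  MonoidHom.mk' (fun g => g.restrictScalars R) fun _ _ => rfl

/-- The flag defined by an isotropic `K`-point. -/
def kflag (R : Subfield F) (C : V →ₛₗ[ρ] V →ₗ[K] K) (u : V) : ℕ → Submodule R V
  | 0 => ⊤
  | 1 => ((LinearMap.ker (C u)).restrictScalars F).restrictScalars R
  | _ + 2 => ⊥

namespace UExt

variable (D : UExt B C q) [FiniteDimensional F V]
include D

theorem fix_four_iff [Nontrivial V] {g : V ≃ₗ[F] V} (hg : g ∈ UG B) :
    mrep (Fin 4) (resHom F V _) g D.four = D.four ↔ g ∈ semiK K := by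
  have := D.base.bar.finite
  rw [← inv_mem_iff]
  replace hg := inv_mem hg
  constructor
  · intro h
    refine D.mem_semiK fun k => ?_
    obtain ⟨a, ha⟩ := exists_ne (0 : V)
    obtain ⟨b, hb⟩ := D.herm.exists_eq_one ha
    refine ⟨C (g⁻¹ a) (g⁻¹ (k • b)), fun v => D.base.ext_right fun w => ?_⟩
    obtain ⟨w, rfl⟩ := g⁻¹.surjective w
    rw [hg, D.smul_right, D.smul_right]
    refine eq_of_trace_mul (F := IsBar.fixedField σ) fun c => ?_
    have := DFunLike.congr_fun h ![a, k • b, w, c • v]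
    change Algebra.trace _ F (Algebra.trace F K (C (g⁻¹ a) (g⁻¹ (k • b)) * C (g⁻¹ w) (g⁻¹ (c • v)))) =
      Algebra.trace _ F (Algebra.trace F K (C a (k • b) * C w (c • v))) at this
    rw [map_smul g⁻¹ c, ← algebraMap_smul K c, ← algebraMap_smul K c, map_smul (C _), map_smul (C _), map_smul (C _),
      algebraMap_smul, algebraMap_smul, mul_smul_comm, mul_smul_comm, map_smul (Algebra.trace F K),
      map_smul (Algebra.trace F K), hb, smul_eq_mul k, mul_one] at this
    exact this.symm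
  · rintro ⟨φ, hφ⟩
    ext v
    change ((Algebra.trace _ F (Algebra.trace F K (C (g⁻¹ (v 0)) (g⁻¹ (v 1)) * C (g⁻¹ (v 2)) (g⁻¹ (v 3)))) :
      IsBar.fixedField σ) : F) = _
    rw [D.apply_semi hg hφ, D.apply_semi hg hφ, ← map_mul, Algebra.trace_eq_of_algEquiv]
    rfl

variable {M : Subgroup (V ≃ₗ[F] V)} (hM : semiK K ⊓ SUG B ≤ M) (hH : M ≤ SUG B)
  (hr : Odd (finrank F K)) (h3 : 3 ≤ finrank F K)
include hM hH hr h3

theorem sum_mem_mfil {u : V} (hu : C u u = 0) (hu0 : u ≠ 0) (hI : ∀ z ∈ M, InZ C u z → ∃ c, KTv C u c z)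
    (O : Finset (MultilinearMap (IsBar.fixedField σ) (fun _ : Fin 4 => V) (IsBar.fixedField σ)))
    (hO : ∀ φ, φ ∈ O ↔ (∃ h ∈ M, mrep (Fin 4) (resHom F V _) h D.four = φ) ∧ φ ≠ D.four) :
    ∑ φ ∈ O, φ ∈ mfil (Fin 4) (kflag (IsBar.fixedField σ) C u) 2 := by
  have : Nontrivial V := ⟨⟨u, 0, hu0⟩⟩
  have := D.finite
  obtain ⟨p, f, hp, hpF, hf, hq⟩ := D.base.bar.exists_prime_pow
  have : Fact p.Prime := ⟨hp⟩
  have hpK : (p : K) = 0 := by rw [← map_natCast (algebraMap F K), CharP.cast_eq_zero, map_zero]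
  let A : AddSubgroup K :=
    { carrier := {c | ρ c = -c}
      zero_mem' := by simp
      add_mem' := fun {a b} (ha : ρ a = -a) (hb : ρ b = -b) => show ρ (a + b) = _ by rw [map_add, ha, hb, neg_add]
      neg_mem' := fun {a} (ha : ρ a = -a) => show ρ (-a) = _ by rw [map_neg, ha] }
  choose E hEM hE using fun a : A => D.exists_kTv hM hu a.2
  have hE0 : E 0 = 1 := LinearEquiv.ext fun x => by rw [hE]; simp
  have hEa : ∀ a b, E (a + b) = E a * E b := fun a b => LinearEquiv.ext fun x => by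
    rw [LinearEquiv.mul_apply, hE, hE, hE, map_add, map_smul, hu, AddSubgroup.coe_add]
    module
  have hEi : ∀ a, (E a)⁻¹ = E (-a) := fun a => by rw [inv_eq_iff_mul_eq_one, ← hEa, add_neg_cancel, hE0]
  have U := unip_mrep (ι := Fin 4) (resHom F V (IsBar.fixedField σ)) E hE0 hEa
    (Vf := kflag (IsBar.fixedField σ) C u) (fun a j v hv => by
      rw [hEi]
      change E (-a) v - v ∈ _
      rw [hE, add_sub_cancel_left]
      match j, hv with
      | 0, _ => exact show C u _ = 0 by rw [map_smul, hu, smul_zero]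
      | 1, hv => exact show _ = (0 : V) by rw [show C u v = 0 from hv, mul_zero, zero_smul]
      | _ + 2, hv => exact show _ = (0 : V) by rw [show v = 0 from hv, map_zero, mul_zero, zero_smul]) 5
  have hEx : ∀ a, mrep (Fin 4) (resHom F V _) (E a) D.four = D.four := fun a =>
    (D.fix_four_iff (hH (hEM a)).1).2 ⟨1, (hE a).smul⟩
  refine U.sum_invariant_mem p (fun a => Subtype.ext (by simp [hpK])) 3 O (fun a φ hφ => ?_) fun φ hφ => ?_
  · obtain ⟨⟨h, hh, rfl⟩, hne⟩ := (hO φ).1 hφ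
    refine (hO _).2 ⟨⟨E a * h, mul_mem (hEM a) hh, by rw [map_mul]; rfl⟩, fun e => hne ?_⟩
    simpa using congrArg (mrep (Fin 4) (resHom F V (IsBar.fixedField σ)) (E a)⁻¹) (e.trans (hEx a).symm)
  obtain ⟨⟨g, hg, rfl⟩, hne⟩ := (hO φ).1 hφ
  have hst : U.stab (mrep (Fin 4) (resHom F V _) g D.four) = ⊥ := eq_bot_iff.2 fun a ha => by
    by_contra h0
    refine hne ((D.fix_four_iff (hH hg).1).2 (D.mem_semiK_of_conj hM hH hu hu0 hI hr hg
      (fun e => h0 (Subtype.ext e)) (hE a) ((D.fix_four_iff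
        (hH (mul_mem (mul_mem (inv_mem hg) (hEM a)) hg)).1).1 ?_)))
    rw [map_mul, map_mul, End.mul_apply, End.mul_apply, U.mem_stab.1 ha]
    simp
  refine ⟨0, 3, fun a v h1 h2 => ?_, ?_, by have := hp.two_le; omega⟩
  · obtain ⟨i, hi⟩ : ∃ i, 2 ≤ a i := by
      by_contra h
      push Not at h
      have := h 0
      have := h 1
      have := h 2
      have := h 3
      rw [Fin.sum_univ_four] at h2
      omega
    obtain ⟨k, hk⟩ := Nat.exists_eq_add_of_le' hi
    have := h1 i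
    rw [hk] at this
    exact MultilinearMap.map_coord_zero _ i this
  · rw [hst, AddSubgroup.index_bot, show Nat.card A = q ^ finrank F K from D.herm.bar.card_trace_zero, hq, ← pow_mul]
    exact Nat.pow_le_pow_right hp.pos (by nlinarith)

theorem le_semiK (h2 : 2 ≤ finrank K V)
    (hI : ∀ u, C u u = 0 → u ≠ 0 → ∀ z ∈ M, InZ C u z → ∃ c, KTv C u c z) : M ≤ semiK K := by
  have := D.finiteDimensional
  obtain ⟨u, -, hu0, hu⟩ := D.herm.exists_isotropic_mem (U := ⊤) (by rw [D.herm.perp_top]; exact disjoint_bot_right)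
    (by rwa [finrank_top])
  obtain ⟨y, hyy, hy⟩ := D.herm.exists_hyperbolic hu0 hu
  have hy0 : y ≠ 0 := fun e => by simp [e] at hy
  have : Nontrivial V := ⟨⟨u, 0, hu0⟩⟩
  have := D.base.finite_equiv
  intro g hg
  refine (D.fix_four_iff (hH hg).1).1 (fixed_of_sum_eq_zero _ M _ (fun O hO => ?_) g hg)
  refine eq_zero_of_mfil (k := 1) (eq_top_iff.2 fun v _ => ?_) (by simp)
    (D.sum_mem_mfil hM hH hr h3 hu hu0 (hI u hu hu0) O hO) (D.sum_mem_mfil hM hH hr h3 hyy hy0 (hI y hyy hy0) O hO)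
  rw [← sub_add_cancel v (C u v • y)]
  exact add_mem (Submodule.subset_span ⟨1, 0, le_rfl, show C u _ = 0 by simp [hy], trivial⟩)
    (Submodule.subset_span ⟨0, 1, le_rfl, trivial, show C y _ = 0 by simp [hyy]⟩)

end UExt

end CL.Uni
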