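import Cfsg.Agent.Cls.UniExt2

/-!
# Overgroups of `SU_d(K)` in `SU_{dr}(F)`, part 2

A subgroup meeting the centre of a unipotent radical in more than `K`-transvections contains `SU`.
-/

set_option autoImplicit false
set_option linter.unusedSectionVars false

namespace CL.Uni

open Module CL.Sp

universe u v w

variable {F : Type u} [Field F] {q : ℕ} {σ : F →+* F} {V : Type v} [AddCommGroup V] [Module F V]
  {K : Type w} [Field K] [Algebra F K] [Module K V] [IsScalarTower F K V]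
  {B : V →ₛₗ[σ] V →ₗ[F] F} {ρ : K →+* K} {C : V →ₛₗ[ρ] V →ₗ[K] K}

theorem IsBar.exists_fixed_decomp (h : IsBar σ q) {θ : F} (hθ : σ θ ≠ θ) (c : F) :
    ∃ a b : F, σ a = a ∧ σ b = b ∧ c = a + θ * b := by
  have hθ' : θ - σ θ ≠ 0 := sub_ne_zero.2 hθ.symm
  obtain ⟨b, hb⟩ : ∃ b, b * (θ - σ θ) = c - σ c := ⟨_, div_mul_cancel₀ _ hθ'⟩
  have hb' : σ b = b := mul_right_cancel₀ hθ' (by
    have := congrArg σ hb
    simp only [map_mul, map_sub, h.bar_bar] at this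
    linear_combination -this - hb)
  refine ⟨c - θ * b, b, ?_, hb', (sub_add_cancel _ _).symm⟩
  rw [map_sub, map_mul, hb']
  linear_combination hb

theorem IsBar.exists_sq_or_double (h : IsBar σ q) {c : F} (hc : σ c = c) :
    ∃ e, σ e = e ∧ (c = e * e ∨ c = e + e) := by
  have := h.finite
  by_cases h2 : (2 : F) = 0
  · have : CharP F 2 := CharTwo.of_one_ne_zero_of_two_eq_zero one_ne_zero h2
    obtain ⟨e, rfl⟩ := surjective_frobenius F 2 c
    rw [frobenius_def, map_pow] at hc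
    exact ⟨e, (frobenius F 2).injective hc, Or.inl (sq e)⟩
  · exact ⟨c / 2, by rw [map_div₀, hc, map_ofNat], Or.inr (by field_simp; ring)⟩

/-- The maps `α` such that `x ↦ x + α (C u x) u` lies in `M`. -/
def zAdd (C : V →ₛₗ[ρ] V →ₗ[K] K) (M : Subgroup (V ≃ₗ[F] V)) {u : V} (hu : C u u = 0) :
    AddSubgroup (K →ₗ[F] K) where
  carrier := {α | ∃ z ∈ M, ∀ x, z x = x + α (C u x) • u}
  zero_mem' := ⟨1, M.one_mem, fun x => by simp⟩
  add_mem' := by
    rintro α β ⟨z, hz, e⟩ ⟨z', hz', e'⟩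
    refine ⟨z * z', mul_mem hz hz', fun x => ?_⟩
    rw [LinearEquiv.mul_apply, e, e', map_add, map_smul, hu, smul_zero, add_zero, LinearMap.add_apply]
    module
  neg_mem' := by
    rintro α ⟨z, hz, e⟩
    refine ⟨z⁻¹, inv_mem hz, fun x => z.injective ?_⟩
    rw [app_inv_app, e, map_add, map_smul, hu, smul_zero, add_zero, LinearMap.neg_apply]
    module

/-- The sums `α₁ + θ α₂`. -/
def YSet (Z : AddSubgroup (K →ₗ[F] K)) (θ : F) : Set (K →ₗ[F] K) := {β | ∃ α₁ ∈ Z, ∃ α₂ ∈ Z, β = α₁ + θ • α₂}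

namespace UExt

variable (D : UExt B C q) [FiniteDimensional F V] {M : Subgroup (V ≃ₗ[F] V)} {u : V} (hu : C u u = 0)

theorem conj_mem_zAdd {g : V ≃ₗ[F] V} (hg : g ∈ M) {s s' : K →ₗ[F] K} (hs : ∀ k : K, g (k • u) = s k • u)
    (hs' : ∀ x, C u (g⁻¹ x) = s' (C u x)) {α : K →ₗ[F] K} (hα : α ∈ zAdd C M hu) :
    s ∘ₗ α ∘ₗ s' ∈ zAdd C M hu := by
  obtain ⟨z, hz, e⟩ := hα
  refine ⟨g * z * g⁻¹, mul_mem (mul_mem hg hz) (inv_mem hg), fun x => ?_⟩
  rw [LinearEquiv.mul_apply, LinearEquiv.mul_apply, e, map_add, app_inv_app, hs, hs']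
  rfl

theorem torus_mem_zAdd {g : V ≃ₗ[K] V} (hg : g ∈ UG C) (hgM : g.restrictScalars F ∈ M) {κ : K} (hκ : g u = κ • u)
    {α : K →ₗ[F] K} (hα : α ∈ zAdd C M hu) : κ • α ∘ₗ LinearMap.mulLeft F (ρ κ) ∈ zAdd C M hu :=
  conj_mem_zAdd hu hgM (s := LinearMap.mulLeft F κ) (fun k => by
    rw [LinearEquiv.restrictScalars_apply, map_smul, hκ, smul_smul, mul_comm]; rfl) (fun x => by
    change C u (g⁻¹ x) = ρ κ * C u x
    rw [← UG_apply_left hg, hκ, LinearMap.map_smulₛₗ, LinearMap.smul_apply, smul_eq_mul]) hα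

variable (hu0 : u ≠ 0) (hM : semiK K ⊓ SUG B ≤ M)
include D hu0 hM

theorem sq_mem_zAdd {κ : K} (hκ : ρ κ = κ) {α : K →ₗ[F] K} (hα : α ∈ zAdd C M hu) :
    κ • α ∘ₗ LinearMap.mulLeft F κ ∈ zAdd C M hu := by
  have := D.finiteDimensional
  by_cases h0 : κ = 0
  · rw [h0, zero_smul]; exact zero_mem _
  obtain ⟨y, hyy, hy⟩ := D.herm.exists_hyperbolic hu0 hu
  obtain ⟨g, hg, e, -⟩ := D.herm.exists_diag_TG hu hyy hy h0 hκ
  have := torus_mem_zAdd hu (D.herm.TG_le_SUG hg).1 (D.res_mem hM (D.herm.TG_le_SUG hg)) e hα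
  rwa [hκ] at this

theorem polar_mem_zAdd {κ κ' : K} (hκ : ρ κ = κ) (hκ' : ρ κ' = κ') {α : K →ₗ[F] K} (hα : α ∈ zAdd C M hu) :
    κ • α ∘ₗ LinearMap.mulLeft F κ' + κ' • α ∘ₗ LinearMap.mulLeft F κ ∈ zAdd C M hu := by
  convert sub_mem (sub_mem (D.sq_mem_zAdd hu hu0 hM (κ := κ + κ') (by rw [map_add, hκ, hκ']) hα)
    (D.sq_mem_zAdd hu hu0 hM hκ hα)) (D.sq_mem_zAdd hu hu0 hM hκ' hα) using 1
  ext x
  simp [add_mul]
  ring

theorem smul_mem_zAdd {c : F} (hc : σ c = c) {α : K →ₗ[F] K} (hα : α ∈ zAdd C M hu) : c • α ∈ zAdd C M hu := by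
  obtain ⟨e, he, h | h⟩ := D.base.bar.exists_sq_or_double hc
  · convert D.sq_mem_zAdd hu hu0 hM (κ := algebraMap F K e) (by rw [D.rho, he]) hα using 1
    ext x
    simp [h, ← Algebra.smul_def, mul_smul]
  · convert D.polar_mem_zAdd hu hu0 hM (κ := algebraMap F K e) (by rw [D.rho, he]) (map_one ρ) hα using 1
    ext x
    simp [h, ← Algebra.smul_def, add_smul]

/-- The span of `zAdd`. -/
def ySub {θ : F} (hθ : σ θ ≠ θ) : Submodule F (K →ₗ[F] K) where
  carrier := YSet (zAdd C M hu) θ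
  zero_mem' := ⟨0, zero_mem _, 0, zero_mem _, by simp⟩
  add_mem' := by
    rintro _ _ ⟨a, ha, b, hb, rfl⟩ ⟨a', ha', b', hb', rfl⟩
    exact ⟨a + a', add_mem ha ha', b + b', add_mem hb hb', by module⟩
  smul_mem' := by
    rintro c _ ⟨α, hα, β, hβ, rfl⟩
    obtain ⟨a, b, ha, hb, e⟩ := D.base.bar.exists_fixed_decomp hθ c
    obtain ⟨a', b', ha', hb', e'⟩ := D.base.bar.exists_fixed_decomp hθ (c * θ)
    refine ⟨a • α + a' • β, add_mem (D.smul_mem_zAdd hu hu0 hM ha hα) (D.smul_mem_zAdd hu hu0 hM ha' hβ),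
      b • α + b' • β, add_mem (D.smul_mem_zAdd hu hu0 hM hb hα) (D.smul_mem_zAdd hu hu0 hM hb' hβ), ?_⟩
    rw [smul_add, smul_smul, e']
    conv_lhs => rw [e]
    module

variable {θ : F} (hθ : σ θ ≠ θ)

theorem mem_ySub {α : K →ₗ[F] K} (hα : α ∈ zAdd C M hu) : α ∈ D.ySub hu hu0 hM hθ :=
  ⟨α, hα, 0, zero_mem _, by simp⟩

theorem comp_mem_ySub {s s' : K →ₗ[F] K} (h : ∀ α ∈ zAdd C M hu, s ∘ₗ α ∘ₗ s' ∈ D.ySub hu hu0 hM hθ)
    {β : K →ₗ[F] K} (hβ : β ∈ D.ySub hu hu0 hM hθ) : s ∘ₗ β ∘ₗ s' ∈ D.ySub hu hu0 hM hθ := by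
  obtain ⟨a, ha, b, hb, rfl⟩ := hβ
  rw [LinearMap.add_comp, LinearMap.comp_add, LinearMap.smul_comp, LinearMap.comp_smul]
  exact add_mem (h a ha) (Submodule.smul_mem _ θ (h b hb))

theorem sq_mem_ySub (κ : K) {β : K →ₗ[F] K} (hβ : β ∈ D.ySub hu hu0 hM hθ) :
    κ • β ∘ₗ LinearMap.mulLeft F κ ∈ D.ySub hu hu0 hM hθ := by
  refine D.comp_mem_ySub hu hu0 hM hθ (s := LinearMap.mulLeft F κ) (fun α hα => ?_) hβ
  obtain ⟨a, b, ha, hb, rfl⟩ := D.exists_decomp hθ (ε := 1) (by ring) (by simp) κ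
  rw [one_mul] at ha hb
  convert add_mem (add_mem (D.mem_ySub hu hu0 hM hθ (D.sq_mem_zAdd hu hu0 hM ha hα))
    (Submodule.smul_mem _ θ (D.mem_ySub hu hu0 hM hθ (D.polar_mem_zAdd hu hu0 hM ha hb hα))))
    (Submodule.smul_mem _ (θ * θ) (D.mem_ySub hu hu0 hM hθ (D.sq_mem_zAdd hu hu0 hM hb hα))) using 1
  ext x
  simp [add_mul, mul_add, mul_smul]
  abel

omit hu in
theorem exists_torus (hu : C u u = 0) (h3 : 3 ≤ finrank F K) (hex : 3 ≤ finrank K V ∨ ¬ (q = 2 ∧ finrank F K = 3)) :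
    ∃ κ : K, κ ≠ 0 ∧ (¬ ∃ c : F, algebraMap F K c = ρ κ * κ⁻¹) ∧
      ∃ g ∈ UG C, g.restrictScalars F ∈ M ∧ g u = κ • u := by
  have := D.finiteDimensional
  have := D.finite
  have hq := D.base.bar.two_le
  obtain ⟨y, hyy, hy⟩ := D.herm.exists_hyperbolic hu0 hu
  obtain ⟨ζ, hζ⟩ := D.herm.bar.exists_primitiveRoot
  have h1 : ζ * ρ ζ = 1 := by rw [D.herm.bar.norm_eq_pow, hζ.pow_eq_one]
  have key : ∀ n : ℕ, n * (q + 1) < q ^ finrank F K + 1 → n ≠ 0 → ∃ κ : K, κ ≠ 0 ∧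
      (¬ ∃ c : F, algebraMap F K c = ρ κ * κ⁻¹) ∧ ∃ g ∈ UG C, g u = κ • u ∧ dt g = ζ ^ n := fun n hn hn0 => by
    have h2 : ζ ^ n * ρ (ζ ^ n) = 1 := by rw [map_pow, ← mul_pow, h1, one_pow]
    obtain ⟨κ, hκ, e⟩ := D.herm.bar.exists_div_bar_eq h2
    have hκ' : ρ κ ≠ 0 := (map_ne_zero ρ).2 hκ
    obtain ⟨g, hg, g1, -, -, g2⟩ := D.herm.exists_diag hu hyy hy hκ
    refine ⟨κ, hκ, fun ⟨c, hc⟩ => ?_, g, hg, g1, by rw [g2, mul_inv_eq_iff_eq_mul₀ hκ']; exact e⟩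
    have h4 : algebraMap F K c * ζ ^ n = 1 := by rw [hc, mul_right_comm, mul_comm (ρ κ), ← e, mul_inv_cancel₀ hκ]
    have h5 : algebraMap F K (c ^ (q + 1)) = 1 := by
      have := congrArg ρ h4
      rw [map_mul, map_one] at this
      rw [← D.base.bar.norm_eq_pow, map_mul, ← D.rho]
      linear_combination (-(algebraMap F K c * ρ (algebraMap F K c))) * h2 +
        (ρ (algebraMap F K c) * ρ (ζ ^ n)) * h4 + this
    have h6 := congrArg (· ^ (q + 1)) h4
    simp only [mul_pow, ← map_pow, h5, one_mul, one_pow, ← pow_mul] at h6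
    exact absurd (Nat.le_of_dvd (by positivity) (hζ.dvd_of_pow_eq_one _ h6)) (by omega)
  have h7 : q ^ 3 ≤ q ^ finrank F K := Nat.pow_le_pow_right (by omega) h3
  rcases hex with hex | hex
  · obtain ⟨κ, hκ, h2, g, hg, g1, g2⟩ := key 1 (by nlinarith [Nat.pow_le_pow_left hq 2]) one_ne_zero
    obtain ⟨w, -, w1, -, w2⟩ := D.herm.exists_perp_hyperbolic_mem (U := ⊤)
      (by rw [D.herm.perp_top]; exact disjoint_bot_right) (by rwa [finrank_top]) trivial trivial hu hyy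
      (by rw [hy]; exact one_ne_zero)
    obtain ⟨s, hs, -, s1, s2⟩ := D.herm.exists_reflection (v := w) (by rw [w2]; exact one_ne_zero) (a := ρ ζ)
      (by rw [D.herm.bar_bar, mul_comm, h1])
    refine ⟨κ, hκ, h2, g * s, mul_mem hg hs, D.res_mem hM (mem_SUG.2 ⟨mul_mem hg hs, ?_⟩), ?_⟩
    · rw [map_mul, g2, s2, pow_one, h1]
    · rw [LinearEquiv.mul_apply, s1 u (D.herm.flip_zero w1), g1]
  · obtain ⟨κ, hκ, h2, g, hg, g1, g2⟩ := key (q + 1) (by
      by_cases h : q = 2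
      · have : 2 ^ 4 ≤ 2 ^ finrank F K := Nat.pow_le_pow_right (by omega) (by omega)
        subst h
        omega
      · have : 3 * q ^ 2 ≤ q ^ 3 := by rw [pow_succ' q 2]; exact Nat.mul_le_mul_right _ (by omega)
        nlinarith) (by omega)
    refine ⟨κ, hκ, h2, g, hg, hM ⟨⟨1, fun k x => map_smul g k x⟩, mem_SUG.2 ⟨D.restrictScalars_mem_UG hg, ?_⟩⟩, g1⟩
    apply (algebraMap F K).injective
    rw [dt_restrictScalars, g2, map_pow, ← D.base.bar.norm_eq_pow, map_mul, ← D.rho,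
      FiniteField.algebraMap_norm_eq_pow, map_pow, ← mul_pow, h1, one_pow, map_one]

variable (hp : (finrank F K).Prime) (h3 : 3 ≤ finrank F K) (hex : 3 ≤ finrank K V ∨ ¬ (q = 2 ∧ finrank F K = 3))
include hp h3 hex

theorem smul_mem_ySub (k : K) {β : K →ₗ[F] K} (hβ : β ∈ D.ySub hu hu0 hM hθ) : k • β ∈ D.ySub hu hu0 hM hθ := by
  by_cases h0 : k = 0
  · rw [h0, zero_smul]; exact zero_mem _
  let S : Subalgebra F K :=
    { carrier := {k | ∀ β ∈ D.ySub hu hu0 hM hθ, β ∘ₗ LinearMap.mulLeft F k ∈ D.ySub hu hu0 hM hθ}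
      mul_mem' := fun {a b} ha hb β hβ => by rw [LinearMap.mulLeft_mul]; exact hb _ (ha β hβ)
      add_mem' := fun {a b} ha hb β hβ => by
        convert add_mem (ha β hβ) (hb β hβ) using 1
        ext x
        simp [add_mul]
      algebraMap_mem' := fun c β hβ => by
        convert Submodule.smul_mem _ c hβ using 1
        ext x
        simp [← Algebra.smul_def] }
  obtain ⟨κ, hκ, h1, g, hg, hgM, e⟩ := D.exists_torus hu0 hM hu h3 hex
  have h2 : ρ κ * κ⁻¹ ∈ S := fun β hβ => by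
    convert D.sq_mem_ySub hu hu0 hM hθ κ⁻¹ (D.comp_mem_ySub hu hu0 hM hθ (s := LinearMap.mulLeft F κ)
      (fun α hα => D.mem_ySub hu hu0 hM hθ (torus_mem_zAdd hu hg hgM e hα)) hβ) using 1
    ext x
    simp [hκ, mul_assoc]
  have h4 : S = ⊤ := ((Subalgebra.isSimpleOrder_of_finrank_prime F K hp).eq_bot_or_eq_top S).resolve_left fun e' =>
    h1 (Algebra.mem_bot.1 (e' ▸ h2))
  convert (show k⁻¹ ∈ S from h4 ▸ Algebra.mem_top) _ (D.sq_mem_ySub hu hu0 hM hθ k hβ) using 1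
  ext x
  simp [h0]

theorem id_mem_ySub : LinearMap.id ∈ D.ySub hu hu0 hM hθ := by
  obtain ⟨c, hc0, hc⟩ := D.herm.bar.exists_trace_zero
  obtain ⟨t, ht, e⟩ := D.exists_kTv hM hu hc
  have := D.smul_mem_ySub hu hu0 hM hθ hp h3 hex c⁻¹ (D.mem_ySub hu hu0 hM hθ (α := c • LinearMap.id)
    ⟨t, ht, fun x => e x⟩)
  rwa [inv_smul_smul₀ hc0] at this

theorem exists_kill (hH : M ≤ SUG B) (hI : ∃ z ∈ M, InZ C u z ∧ ¬ ∃ c, KTv C u c z) {γ : K} (hγ : γ ≠ 0) :
    ∃ α ∈ zAdd C M hu, α ≠ 0 ∧ α γ = 0 := by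
  have := D.finite
  have := D.base.bar.finite
  obtain ⟨θ, hθ⟩ := D.base.bar.exists_ne
  obtain ⟨y, hy⟩ := D.herm.exists_eq_one hu0
  obtain ⟨z, hz, h1, h2⟩ := hI
  obtain ⟨α₀, hα₀⟩ := D.exists_alpha hy (hH hz).1 h1
  by_contra h
  push Not at h
  choose a ha b hb e using fun p : K × K => show p.1 • LinearMap.id + p.2 • α₀ ∈ YSet (zAdd C M hu) θ from
    add_mem (D.smul_mem_ySub hu hu0 hM hθ hp h3 hex _ (D.id_mem_ySub hu hu0 hM hθ hp h3 hex))
      (D.smul_mem_ySub hu hu0 hM hθ hp h3 hex _ (D.mem_ySub hu hu0 hM hθ ⟨z, hz, hα₀⟩))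
  have h4 : ∀ α ∈ zAdd C M hu, ∀ β ∈ zAdd C M hu, α γ = β γ → α = β := fun α hα β hβ e => by
    by_contra hne
    exact h _ (sub_mem hα hβ) (sub_ne_zero.2 hne) (by rw [LinearMap.sub_apply, e, sub_self])
  have h5 : Function.Injective fun p : K × K => (a p γ, b p γ) := fun p p' hp => by
    have h6 := (e p).trans (by rw [h4 _ (ha p) _ (ha p') (congrArg Prod.fst hp),
      h4 _ (hb p) _ (hb p') (congrArg Prod.snd hp), ← e p'])
    have h7 : ∀ x, p.1 * x + p.2 * α₀ x = p'.1 * x + p'.2 * α₀ x := LinearMap.congr_fun h6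
    have h8 : p.2 = p'.2 := by
      by_contra hne
      refine h2 ⟨(p'.1 - p.1) / (p.2 - p'.2), fun x => ?_⟩
      rw [hα₀, div_mul_eq_mul_div, (eq_div_iff (sub_ne_zero.2 hne)).2 
        (show α₀ (C u x) * (p.2 - p'.2) = (p'.1 - p.1) * C u x by linear_combination h7 (C u x))]
    exact Prod.ext (by simpa [h8] using h7 1) h8
  obtain ⟨c, hc⟩ := D.base.bar.exists_trace_one
  obtain ⟨k, hk⟩ := exists_tau_mul (Algebra.trace_ne_zero F K) ((map_ne_zero ρ).2 hγ) c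
  obtain ⟨p, hp⟩ := Finite.injective_iff_surjective.1 h5 (k, 0)
  obtain ⟨z', hz', e'⟩ := ha p
  have h9 := D.skew_of_alpha hu hy (hH hz').1 e' γ γ
  rw [show a p γ = k from congrArg Prod.fst hp, ← D.herm.bar_bar γ, ← map_mul, D.trace_rho, D.herm.bar_bar, hk,
    add_comm, hc] at h9
  exact one_ne_zero h9

theorem scalar_of_trace_notMem (hH : M ≤ SUG B)
    (hT : Algebra.linearMap F K ∘ₗ Algebra.trace F K ∉ D.ySub hu hu0 hM hθ) {g : V ≃ₗ[F] V} (hg : g ∈ M)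
    (hL : ∀ k : K, ∃ k' : K, g (k • u) = k' • u) :
    ∃ φ : K ≃ₐ[F] K, ∀ κ k : K, g ((κ * k) • u) = φ κ • g (k • u) := by
  have := D.finite
  have := D.base.bar.finite
  obtain ⟨y, hy⟩ := D.herm.exists_eq_one hu0
  have h1 : ∀ g ∈ M, (∀ k : K, ∃ k' : K, g (k • u) = k' • u) → (∀ k : K, ∃ k' : K, g⁻¹ (k • u) = k' • u) →
      ∃ s s' : K →ₗ[F] K, (∀ k : K, g (k • u) = s k • u) ∧ (∀ x, C u (g⁻¹ x) = s' (C u x)) ∧
        ∀ β ∈ D.ySub hu hu0 hM hθ, s ∘ₗ β ∘ₗ s' ∈ D.ySub hu hu0 hM hθ := fun g hg h h' => by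
    let s : K →ₗ[F] K := (C y).restrictScalars F ∘ₗ (g : V →ₗ[F] V) ∘ₗ
      (LinearMap.toSpanSingleton K V u).restrictScalars F
    let s' : K →ₗ[F] K := (C u).restrictScalars F ∘ₗ ((g⁻¹ : V ≃ₗ[F] V) : V →ₗ[F] V) ∘ₗ
      (LinearMap.toSpanSingleton K V y).restrictScalars F
    have a1 : ∀ k : K, g (k • u) = s k • u := fun k => by
      obtain ⟨k', e⟩ := h k
      change _ = C y (g (k • u)) • u
      rw [e, map_smul, D.herm.flip_one hy, smul_eq_mul, mul_one]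
    have a2 : ∀ x, C u (g⁻¹ x) = s' (C u x) := fun x => by
      have := D.perp_app (inv_mem (hH hg).1) (fun k => ⟨s k, by rw [← a1, inv_app_app]⟩) (d := x - C u x • y)
        (by simp [hy])
      rwa [map_sub, map_sub, sub_eq_zero] at this
    exact ⟨s, s', a1, a2, fun β => D.comp_mem_ySub hu hu0 hM hθ fun α hα =>
      D.mem_ySub hu hu0 hM hθ (conj_mem_zAdd hu hg a1 a2 hα)⟩
  have hL' : ∀ k : K, ∃ k' : K, g⁻¹ (k • u) = k' • u := fun k => by
    choose s hs using hL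
    obtain ⟨k', rfl⟩ := Finite.injective_iff_surjective.1 (show Function.Injective s from fun a b e =>
      smul_left_injective K hu0 (g.injective (by rw [hs, hs, e]))) k
    exact ⟨k', by rw [← hs, inv_app_app]⟩
  obtain ⟨s, s', a1, a2, a3⟩ := h1 g hg hL hL'
  obtain ⟨t, t', b1, b2, b3⟩ := h1 g⁻¹ (inv_mem hg) hL' hL
  have c1 : ∀ k, t (s k) = k := fun k => smul_left_injective K hu0 (by beta_reduce; rw [← b1, ← a1, inv_app_app])
  have c2 : ∀ k, t' (s' k) = k := fun k => by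
    have := b2 (g⁻¹ (k • y))
    rwa [a2, inv_inv, app_inv_app, map_smul, hy, smul_eq_mul, mul_one, eq_comm] at this
  let e : K ≃ₗ[F] K := LinearEquiv.ofInjectiveEndo s (Function.LeftInverse.injective c1)
  have := D.finiteDimensional'
  obtain ⟨φ, hφ⟩ := KSemi.exists_aut (K := K) (g := e) fun κ => by
    by_contra hn
    refine hT (CL.Cls.trace_mem_of_not_linear hp
      { carrier := D.ySub hu hu0 hM hθ
        zero_mem' := zero_mem _
        add_mem' := add_mem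
        smul_mem' := fun k _ => D.smul_mem_ySub hu hu0 hM hθ hp h3 hex k }
      (D.id_mem_ySub hu hu0 hM hθ hp h3 hex) (s := s ∘ₗ LinearMap.mulLeft F κ ∘ₗ t) (fun ⟨c, hc⟩ => hn ⟨c, fun k => ?_⟩)
      fun ν hν => ?_)
    · have := hc (s k)
      rwa [LinearMap.comp_apply, LinearMap.comp_apply, c1] at this
    · change _ ∈ D.ySub hu hu0 hM hθ
      convert a3 _ (D.smul_mem_ySub hu hu0 hM hθ hp h3 hex κ (b3 ν hν)) using 1
      ext x
      simp [c2]
  exact ⟨φ, fun κ k => by rw [a1, a1, smul_smul]; exact congrArg (· • u) (hφ κ k)⟩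

theorem trace_mem_ySub (hH : M ≤ SUG B)
    (hI : ∀ u, C u u = 0 → u ≠ 0 → ∃ z ∈ M, InZ C u z ∧ ¬ ∃ c, KTv C u c z) :
    Algebra.linearMap F K ∘ₗ Algebra.trace F K ∈ D.ySub hu hu0 hM hθ := by
  by_contra hT
  have := D.finite
  have := D.base.bar.finite
  have := D.finiteDimensional
  have hr : Odd (finrank F K) := hp.odd_of_ne_two (by omega)
  obtain ⟨y, hyy, hy⟩ := D.herm.exists_hyperbolic hu0 hu
  have hy' := D.herm.flip_one hy
  have hy0 : y ≠ 0 := fun e => by simp [e] at hy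
  let N : Subgroup (V ≃ₗ[F] V) :=
    { carrier := {g | g ∈ M ∧ ∀ d, C u d = 0 → C y d = 0 → g d = d}
      one_mem' := ⟨M.one_mem, fun _ _ _ => rfl⟩
      mul_mem' := fun {a b} ha hb => ⟨mul_mem ha.1 hb.1, fun d h h' => by
        rw [LinearEquiv.mul_apply, hb.2 d h h', ha.2 d h h']⟩
      inv_mem' := fun {a} ha => ⟨inv_mem ha.1, fun d h h' => a.injective (by rw [app_inv_app, ha.2 d h h'])⟩ }
  have huk : ∀ k : K, C u (k • u) = 0 := fun k => by rw [map_smul, hu, smul_zero]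
  have hyk : ∀ k : K, C y (k • u) = k := fun k => by rw [map_smul, hy', smul_eq_mul, mul_one]
  have huk' : ∀ k : K, C u (k • y) = k := fun k => by rw [map_smul, hy, smul_eq_mul, mul_one]
  obtain ⟨W, hW⟩ : ∃ W, MaxMeet N (kline F K u) W := by
    obtain ⟨β, ⟨z, hz, e⟩, h0, h1⟩ := D.exists_kill hyy hy0 hM hp h3 hex hH (hI y hyy hy0) one_ne_zero
    refine exists_maxMeet ⟨z, ⟨hz, fun d _ hd => by rw [e, hd, map_zero, zero_smul, add_zero]⟩, rfl⟩
      (fun e' => h0 (LinearMap.ext fun a => ?_)) ((Submodule.ne_bot_iff _).2 ⟨u, ⟨⟨u, self_mem_kline u, ?_⟩,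
        self_mem_kline u⟩, hu0⟩)
    · obtain ⟨k, hk⟩ := mem_kline.1 (e'.le ⟨a • u, smul_mem_kline a u, rfl⟩)
      have := congrArg (C u) (show k • u = z (a • u) from hk)
      rwa [huk, e, hyk, map_add, huk, huk', zero_add, eq_comm] at this
    · exact (e u).trans (by rw [hy', h1, zero_smul, add_zero])
  obtain ⟨h, hh, hWe⟩ := hW.mem
  have hWm : ∀ w, w ∈ W ↔ ∃ k : K, h (k • u) = w := fun w => by
    rw [hWe]
    exact ⟨fun ⟨_, ⟨k, e⟩, e'⟩ => ⟨k, by rw [← e', ← e]; rfl⟩, fun ⟨k, e⟩ => ⟨k • u, ⟨k, rfl⟩, e⟩⟩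
  have hWL : ∀ w ∈ W, C u w = 0 → w ∈ kline F K u := fun w hw h0 => by
    obtain ⟨k, hk⟩ := D.exists_smul_of_perp (u := u) (x := w) fun d hd => by
      obtain ⟨k, rfl⟩ := (hWm w).1 hw
      have h1 : C (d - C y d • u) (h (k • u)) = 0 := D.eq_zero fun κ => by
        rw [← hh.2 (κ • (d - C y d • u)) (by simp [hd, hu]) (by simp [hy']), (hH hh.1).1, D.of_zero]
        exact D.herm.flip_zero (by simp [hd, hu])
      rwa [map_sub, LinearMap.sub_apply, LinearMap.map_smulₛₗ, LinearMap.smul_apply, h0, smul_zero, sub_zero] at h1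
    exact ⟨k, hk.symm⟩
  obtain ⟨w₀, hw₀, hw₀'⟩ := SetLike.not_le_iff_exists.1 hW.not_le
  have hγ : C u w₀ ≠ 0 := fun e => hw₀' (hWL w₀ hw₀ e)
  have key : ∀ α ∈ zAdd C M hu, α (C u w₀) • u ∈ W → ∀ w ∈ W, α (C u w) = 0 := by
    rintro α ⟨z, hz, e⟩ h1
    have hzu : ∀ k : K, z (k • u) = k • u := fun k => by rw [e, huk, map_zero, zero_smul, add_zero]
    have h2 := hW.apply_mem (g := z) ⟨hz, fun d hd _ => by rw [e, hd, map_zero, zero_smul, add_zero]⟩
      (fun v hv => by obtain ⟨k, rfl⟩ := mem_kline.1 hv.2; rw [hzu]; exact hv.1) hw₀ hw₀'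
      (by rw [e]; exact add_mem hw₀ h1)
    obtain ⟨φ, hφ⟩ := D.scalar_of_trace_notMem hu hu0 hM hθ hp h3 hex hH hT
      (mul_mem (mul_mem (inv_mem hh.1) hz) hh.1) fun k => by
        obtain ⟨k', hk'⟩ := (hWm _).1 (h2 _ ((hWm _).2 ⟨k, rfl⟩))
        exact ⟨k', by rw [LinearEquiv.mul_apply, LinearEquiv.mul_apply, ← hk', inv_app_app]⟩
    obtain ⟨v, hv, hv0⟩ := (Submodule.ne_bot_iff _).1 hW.ne_bot
    obtain ⟨k, rfl⟩ := (hWm v).1 hv.1
    have hk0 : k • u ≠ 0 := fun e => hv0 (by rw [e, map_zero])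
    have h4 : (h⁻¹ * z * h) (k • u) = k • u := by
      obtain ⟨a, ha⟩ := mem_kline.1 hv.2
      rw [LinearEquiv.mul_apply, LinearEquiv.mul_apply, ← ha, hzu, ha, inv_app_app]
    have h5 : ∀ x, (h⁻¹ * z * h) ((h⁻¹ * z * h) x - x) = (h⁻¹ * z * h) x - x := fun x => by
      simp only [LinearEquiv.mul_apply]
      rw [e (h x), map_add, inv_app_app, add_sub_cancel_left, app_inv_app, hzu]
    obtain rfl : φ = 1 := aut_eq_one_of_sq hr fun κ => smul_left_injective K hk0 (by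
      have h6 := h5 ((κ * k) • u)
      rw [hφ, h4, mul_smul, ← sub_smul, smul_smul, hφ, h4, mul_smul] at h6
      exact h6)
    intro w hw
    obtain ⟨a, rfl⟩ := (hWm w).1 hw
    have h6 := hφ (a / k) k
    rw [h4, AlgEquiv.one_apply, smul_smul, div_mul_cancel₀ _ (left_ne_zero_of_smul hk0), LinearEquiv.mul_apply,
      LinearEquiv.mul_apply, e, map_add, inv_app_app, add_eq_left, LinearEquiv.map_eq_zero_iff] at h6
    exact (smul_eq_zero.1 h6).resolve_right hu0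
  have hrL : finrank F (kline F K u) = finrank F K := finrank_kline hu0
  have h1 : finrank F K ≤ 2 * finrank F ↥(W ⊓ kline F K u) := by
    obtain ⟨α, hα, h0, h1⟩ := D.exists_kill hu hu0 hM hp h3 hex hH (hI u hu hu0) hγ
    have h2 := key α hα (by rw [h1, zero_smul]; exact zero_mem _)
    obtain ⟨z, hz, e⟩ := hα
    obtain ⟨s, hs0, hs⟩ := D.herm.bar.exists_trace_zero
    obtain ⟨g, hg, g1, -, g2⟩ := D.herm.exists_weyl hu hyy hy hs0 hs
    have h4 : kline F K y ∈ Orb N (kline F K u) := ⟨g.restrictScalars F,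
      ⟨D.res_mem hM (D.herm.TG_le_SUG hg), g2⟩, (Submodule.eq_of_le_of_finrank_le (by
        rintro _ ⟨_, ⟨k, rfl⟩, rfl⟩
        exact ⟨k * -s⁻¹, by change (k * -s⁻¹) • y = g (k • u); rw [map_smul, g1, smul_smul]⟩)
        (by rw [LinearEquiv.finrank_map_eq, hrL, finrank_kline hy0])).symm⟩
    have h5 := hW.max _ (orb_map h4 (h := z) ⟨hz, fun d hd _ => by rw [e, hd, map_zero, zero_smul, add_zero]⟩) _ h4
      fun e' => h0 (LinearMap.ext fun a => by
        obtain ⟨k, hk⟩ := mem_kline.1 (e'.le ⟨a • y, smul_mem_kline a y, rfl⟩)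
        have := congrArg (C y) (show k • y = z (a • y) from hk)
        rw [e, huk', map_add, hyk] at this
        simpa [hyy] using this.symm)
    let π : W →ₗ[F] V := ((C u).smulRight y).restrictScalars F ∘ₗ W.subtype
    have h6 := π.finrank_range_add_finrank_ker
    have h7 : finrank F (LinearMap.range π) ≤ _ := Submodule.finrank_mono (t := (kline F K y).map (z : V →ₗ[F] V) ⊓
      kline F K y) (by
        rintro _ ⟨w, rfl⟩
        refine ⟨⟨C u w • y, smul_mem_kline _ y, ?_⟩, smul_mem_kline _ y⟩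
        change z (C u w • y) = C u w • y
        rw [e, huk', h2 w w.2, zero_smul, add_zero])
    have h8 : finrank F ((LinearMap.ker π).map W.subtype) ≤ _ := Submodule.finrank_mono (t := W ⊓ kline F K u) (by
      rintro _ ⟨w, hw, rfl⟩
      exact ⟨w.2, hWL w w.2 ((smul_eq_zero.1 (show C u w • y = 0 from hw)).resolve_right hy0)⟩)
    rw [Submodule.finrank_map_subtype_eq] at h8
    rw [orb_finrank hW.mem, hrL] at h6
    omega
  have h2 := Nat.card_le_card_of_injective (α := {c : K // ρ c = -c} × ↥(W ⊓ kline F K u)) (β := K)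
    (fun p => p.1.1 * C u w₀ + C y p.2) fun p p' e => by
      obtain ⟨a, ha⟩ := mem_kline.1 p.2.2.2
      obtain ⟨a', ha'⟩ := mem_kline.1 p'.2.2.2
      obtain ⟨t, ht, e'⟩ := D.exists_kTv hM hu (c := p.1.1 - p'.1.1) (by rw [map_sub, p.1.2, p'.1.2]; ring)
      simp only [← ha, ← ha', hyk] at e
      have h4 := key ((p.1.1 - p'.1.1) • LinearMap.id) ⟨t, ht, fun x => e' x⟩ (by
        rw [show ((p.1.1 - p'.1.1) • LinearMap.id : K →ₗ[F] K) (C u w₀) = a' - a by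
          simp only [LinearMap.smul_apply, LinearMap.id_apply, smul_eq_mul]; linear_combination e, sub_smul, ha, ha']
        exact sub_mem p'.2.2.1 p.2.2.1) w₀ hw₀
      have h5 : p.1.1 = p'.1.1 := sub_eq_zero.1 ((mul_eq_zero.1 h4).resolve_right hγ)
      exact Prod.ext (Subtype.ext h5) (Subtype.ext (by rw [← ha, ← ha', show a = a' from add_left_cancel (h5 ▸ e)]))
  have := Module.finite_of_finite F (M := ↥(W ⊓ kline F K u))
  rw [Nat.card_prod, D.herm.bar.card_trace_zero, D.herm.bar.card, Module.natCard_eq_pow_finrank (K := F),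
    D.base.bar.card, ← pow_mul, ← pow_mul, ← pow_add, Nat.pow_le_pow_iff_right D.base.bar.two_le] at h2
  obtain ⟨m, hm⟩ := hr
  omega

omit hθ in
include hu in
theorem mem_uCen (hH : M ≤ SUG B) (hI : ∀ u, C u u = 0 → u ≠ 0 → ∃ z ∈ M, InZ C u z ∧ ¬ ∃ c, KTv C u c z) :
    u ∈ UCen B M := by
  have := D.finite
  obtain ⟨θ, hθ⟩ := D.base.bar.exists_ne
  obtain ⟨y, hy⟩ := D.herm.exists_eq_one hu0
  refine D.base.mem_uCen_of (by rw [D.eq, hu, map_zero]) fun c g hc hg _ => ?_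
  obtain ⟨α, ⟨z, hz, e⟩, β, ⟨z', hz', e'⟩, h⟩ :=
    Submodule.smul_mem _ c (D.trace_mem_ySub hu hu0 hM hθ hp h3 hex hH hI)
  replace h : ∀ a, algebraMap F K (c * Algebra.trace F K a) = α a + θ • β a := fun a => by
    simpa [Algebra.smul_def] using LinearMap.congr_fun h a
  have h1 : ∀ b, β b = 0 := fun b => eq_of_trace_mul (F := F) fun k => by
    obtain ⟨a, rfl⟩ := D.herm.bar.bijective.2 k
    have h2 := D.skew_of_alpha hu hy (hH hz).1 e a b
    have h4 := D.skew_of_alpha hu hy (hH hz').1 e' a b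
    rw [eq_sub_of_add_eq (h a).symm, eq_sub_of_add_eq (h b).symm, Algebra.smul_def, map_sub, map_mul ρ, D.rho, D.rho,
      sub_mul, sub_mul, map_sub, map_sub, mul_assoc, smul_mul_assoc, ← Algebra.smul_def, ← Algebra.smul_def,
      ← Algebra.smul_def, map_smul, map_smul, map_smul, map_smul, D.trace_rho, map_mul, hc] at h2
    simp only [smul_eq_mul] at h2
    rw [mul_zero, map_zero, mul_comm]
    exact mul_left_cancel₀ (sub_ne_zero.2 hθ) (by linear_combination h2 + σ θ * h4)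
  rwa [show g = z from LinearEquiv.ext fun x => by
    rw [hg, e, ← add_zero (α _), ← smul_zero θ, ← h1 (C u x), ← h, algebraMap_smul, D.eq]]

omit hu hu0 hθ in
theorem SUG_le (h2 : 2 ≤ finrank K V) (hH : M ≤ SUG B)
    (hI : ∀ u, C u u = 0 → u ≠ 0 → ∃ z ∈ M, InZ C u z ∧ ¬ ∃ c, KTv C u c z) : SUG B ≤ M := by
  have := D.finite
  have := D.base.bar.finite
  have := D.finiteDimensional
  have hU := hH.trans SUG_le_UG
  have h0 : ∀ v, C v v = 0 → v ∈ UCen B M := fun v hv => by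
    by_cases h : v = 0
    · rw [h]; exact zero_mem_uCen
    · exact D.mem_uCen hv h hM hp h3 hex hH hI
  obtain ⟨u, -, hu0, hu⟩ := D.herm.exists_isotropic_mem (U := ⊤) (by rw [D.herm.perp_top]; exact disjoint_bot_right)
    (by rwa [finrank_top])
  obtain ⟨y, hyy, hy⟩ := D.herm.exists_hyperbolic hu0 hu
  have hsm : ∀ {v : V}, C v v = 0 → ∀ k : K, C (k • v) (k • v) = 0 := fun hv k => by simp [hv]
  have h1 : ∀ p ∈ UCen B M, B u p = 0 → (∀ a : F, p + a • u ∈ UCen B M) → p ∈ D.base.eichSub (h0 u hu) :=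
    fun p hp hup h => ⟨hup, fun a => by
      obtain ⟨c, hc0, hc⟩ := D.base.bar.exists_trace_zero
      obtain ⟨t, ht, e⟩ := D.base.exists_tv_mem hp hc
      obtain ⟨t', ht', e'⟩ := D.base.exists_tv_mem (h (σ (a / c))) hc
      have h4 := D.base.isEich_tv_mul_inv hp.1 hup hc e e'
      rw [D.base.bar_bar, mul_div_cancel₀ _ hc0] at h4
      refine D.base.eichIn_of_mem (h0 u hu) (by simp [hup]) ?_ h4 (mul_mem ht' (inv_mem ht))
      simp [hp.1, hc, D.base.bar_bar, mul_comm]⟩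
  have hB : ∀ k : K, B u (k • u) = 0 := fun k => by rw [D.smul_right, hu, mul_zero, map_zero]
  have h4 : ∀ k : K, k • u ∈ D.base.eichSub (h0 u hu) := fun k => h1 _ (h0 _ (hsm hu k)) (hB k) fun a => by
    rw [← algebraMap_smul K a, ← add_smul]; exact h0 _ (hsm hu _)
  have h5 : ∀ k : K, Algebra.trace F K k = 0 → k • y ∈ D.base.eichSub (h0 u hu) := fun k hk => by
    by_cases hk0 : k = 0
    · rw [hk0, zero_smul]; exact zero_mem _
    have h6 : B u (k • y) = 0 := by rw [D.smul_right, hy, mul_one, hk]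
    refine h1 _ (h0 _ (hsm hyy k)) h6 fun a => ?_
    obtain ⟨b, hb⟩ := exists_tau_mul (Algebra.trace_ne_zero F K) hk0 (-a)
    obtain ⟨c, -, g, hg, e⟩ := D.base.exists_eich_mem (h0 u hu).1 (hB (ρ b)) (by simpa using (h4 (ρ b)).2 1)
    have := UCen.apply_mem hU (h0 _ (hsm hyy k)) hg
    rwa [e, h6, D.smul_left, D.herm.bar_bar, map_smul, hy, smul_eq_mul, mul_one, hb, zero_smul, add_zero, mul_zero,
      add_zero, neg_smul, sub_neg_eq_add] at this
  have h6 : ∀ d, C u d = 0 → d ∈ D.base.eichSub (h0 u hu) := fun d hd => by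
    have := D.finiteDimensional'
    obtain ⟨k, hk, hk0⟩ := Submodule.exists_mem_ne_zero_of_ne_bot (LinearMap.ker_ne_bot_of_finrank_lt
      (f := Algebra.trace F K) (by rw [finrank_self]; omega))
    obtain ⟨c, g, hg, e⟩ := D.exists_kEich hM hu (w := k⁻¹ • d) (by rw [map_smul, hd, smul_zero])
    have h7 := D.base.apply_mem_eichSub hU (h0 u hu) (h5 k hk) hg (by
      rw [e.perp hu, D.herm.flip_zero (by rw [map_smul, hd, smul_zero]), neg_zero, zero_smul, add_zero])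
    rw [e, map_smul (C u), hy, smul_eq_mul, mul_one, smul_inv_smul₀ hk0] at h7
    have h8 := sub_mem ((Submodule.sub_mem_iff_left _ (h4 _)).1 h7) (h5 k hk)
    rwa [add_sub_cancel_left] at h8
  obtain ⟨k, hk⟩ := exists_tau_mul (Algebra.trace_ne_zero F K) (one_ne_zero (α := K)) 1
  refine D.base.SUG_le_of_eich (fun h => ?_) hU (h0 u hu) (fun w hw => ?_) (h0 _ (hsm hyy k))
    (by rw [D.smul_right, hy, hk]; exact one_ne_zero)
  · have := finrank_mul_finrank F K V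
    nlinarith [h.1]
  · have := add_mem (h6 (w - C u w • y) (by simp [hy])) (h5 (C u w) (by rw [← D.eq, hw]))
    simpa using this.2 1

omit hu hu0 hθ in
theorem SUG_le_or (h2 : 2 ≤ finrank K V) (hH : M ≤ SUG B) : SUG B ≤ M ∨ M ≤ semiK K := by
  by_cases hI : ∀ u, C u u = 0 → u ≠ 0 → ∀ z ∈ M, InZ C u z → ∃ c, KTv C u c z
  · exact Or.inr (D.le_semiK hM hH (hp.odd_of_ne_two (by omega)) h3 h2 hI)
  simp only [not_forall] at hI
  obtain ⟨u₀, hu₀, hu₀', z, hz, hZ, hz'⟩ := hI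
  refine Or.inl (D.SUG_le hM hp h3 hex h2 hH fun u hu hu0 => ?_)
  obtain ⟨t, ht, c, hc0, hc⟩ := D.exists_move hM hu hu0 hu₀ hu₀'
  have h1 : ∀ x, C u x = ρ c * C u₀ (t x) := fun x => by
    rw [← ht.1, hc, LinearMap.map_smulₛₗ, LinearMap.smul_apply, smul_eq_mul]
  refine ⟨(t.restrictScalars F)⁻¹ * z * t.restrictScalars F,
    mul_mem (mul_mem (inv_mem (D.res_mem hM ht)) hz) (D.res_mem hM ht), fun d hd => ?_, fun ⟨a, ha⟩ =>
      hz' ⟨a * ρ c * c, fun x => ?_⟩⟩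
  · rw [h1, mul_eq_zero, map_eq_zero] at hd
    rw [LinearEquiv.mul_apply, LinearEquiv.mul_apply, hZ (t.restrictScalars F d) (hd.resolve_left hc0), inv_app_app]
  · obtain ⟨x, rfl⟩ := t.surjective x
    have := congrArg (t.restrictScalars F) (ha x)
    rw [LinearEquiv.mul_apply, LinearEquiv.mul_apply, app_inv_app, LinearEquiv.restrictScalars_apply,
      LinearEquiv.restrictScalars_apply, map_add, map_smul, hc, h1] at this
    rw [this]
    module

end UExt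

theorem SUG_le_of_aSemi {K : Type w} [Field K] [Algebra F K] [FiniteDimensional F V] (h : IsHerm B q)
    (φ : K →ₐ[F] Module.End F V) (hadj : ∀ k : K, ∃ k' : K, ∀ x y, B (φ k x) y = B x (φ k' y))
    (hp : (finrank F K).Prime) (h3 : 3 ≤ finrank F K) (h2 : 2 * finrank F K ≤ finrank F V)
    (hex : ¬ (q = 2 ∧ finrank F V = 6)) {M : Subgroup (V ≃ₗ[F] V)} (hM : ∀ g ∈ SUG B, ASemi φ g → g ∈ M)
    (hH : M ≤ SUG B) : SUG B ≤ M ∨ ∀ g ∈ M, ASemi φ g := by
  let _ : Module K V := Module.compHom _ φ.toRingHom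
  have : IsScalarTower F K V := ⟨fun c k v => by
    change φ (c • k) v = c • φ k v
    rw [map_smul]; rfl⟩
  have : FiniteDimensional F K := Module.finite_of_finrank_pos hp.pos
  have : Nontrivial V := Module.nontrivial_of_finrank_pos (R := F) (by omega)
  obtain ⟨ρ, C, D⟩ := h.exists_uExt (K := K) hadj
  have hn := finrank_mul_finrank F K V
  have h2' : 2 ≤ finrank K V := Nat.le_of_mul_le_mul_left (by rw [hn, mul_comm]; exact h2) hp.pos
  refine (D.SUG_le_or (fun g ⟨⟨ψ, hψ⟩, hg⟩ => hM g hg fun k => ⟨ψ k, hψ k⟩) hp h3 ?_ h2' hH).imp id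
    fun hle g hg k => (hle hg).elim fun ψ hψ => ⟨ψ k, hψ k⟩
  by_contra hc
  push Not at hc
  exact hex ⟨hc.2.1, by rw [← hn, hc.2.2]; omega⟩

section matrix

open Matrix Cfsg Cfsg.Geo CL.Asch

/-- Maximality of the normaliser of an adjoint-closed extension field of odd prime degree `r < n`. -/
theorem isMaximalIn_SU_ext [Fintype F] (hF : Fintype.card F = q ^ 2) {n r : ℕ} (hr : r.Prime) (h3 : 3 ≤ r)
    (hn : 2 * r ≤ n) (hex : ¬ (q = 2 ∧ n = 6)) {A : Subalgebra F (Matrix (Fin n) (Fin n) F)}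
    (hA : IsFieldSubalgebra r A) (hadj : IsAdjointClosedFor (hermForm n F q) A) :
    IsMaximalIn (GU n F q ⊓ specialLinear (Fin n) F)
      (subalgebraNormalizer A ⊓ (GU n F q ⊓ specialLinear (Fin n) F)) := by
  have h := isBar_bar hF
  have hB := isHerm_stdB h (Fin n)
  have : Nonempty (Fin n) := ⟨⟨0, by omega⟩⟩
  let _ : Field A := (isFld_of hA).isField.toField
  have h1 : ∀ g, glEquiv (Fin n) F g ∈ (subalgebraNormalizer A).map (glEquiv (Fin n) F).toMonoidHom ↔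
      g ∈ subalgebraNormalizer A := fun g => Subgroup.mem_map_iff_mem (glEquiv (Fin n) F).injective
  refine isMaximalIn_SU_of h (fun g _ => h1 g) ?_ fun M hM hH g hg hg' => ?_
  · by_contra hc
    push Not at hc
    exact not_SUm_le_field h (by omega) (by omega) hA fun g hg => (h1 g).1 (hc _ ((glEquiv_mem_SUG h g).2 hg))
  refine (SUG_le_of_aSemi (K := A) hB (Matrix.toLinAlgEquiv'.toAlgHom.comp A.val) (fun k => ?_)
    (hA.finrank_eq ▸ hr) (hA.finrank_eq ▸ h3) (by rw [hA.finrank_eq]; simpa using hn) (by simpa using hex)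
    (fun g hg hs => ?_) hH).resolve_right fun hs => hg' ?_
  · obtain ⟨k', hk', e⟩ := hadj k.1 k.2
    refine ⟨⟨k', hk'⟩, fun x y => ?_⟩
    rw [← hB.symm, ← hB.symm _ x, ← hermForm_eq h, ← hermForm_eq h]
    exact congrArg _ (e x y)
  · obtain ⟨g, rfl⟩ := (glEquiv (Fin n) F).surjective g
    exact hM ⟨(h1 g).2 ((mem_subalgebraNormalizer_iff_semi g).2 hs), hg⟩
  · obtain ⟨g, rfl⟩ := (glEquiv (Fin n) F).surjective g
    exact (h1 g).2 ((mem_subalgebraNormalizer_iff_semi g).2 (hs _ hg))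

end matrix

end CL.Uni
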