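import Cfsg.Agent.Cls.UniConj

/-!
# Frames in unitary groups, I: monomial matrices, small rank perturbations of the identity
-/

set_option autoImplicit false

namespace CL.Uni.Fr

open Matrix

section group

variable {Γ : Type*} [Group Γ] {z z' : Γ}

theorem inv_pow_mul (h : z * z = 1) (h' : z' * z' = 1) (k : ℕ) : ((z * z') ^ k)⁻¹ * z = z * (z * z') ^ k := by
  have h1 : z * (z * z') * z⁻¹ = (z * z')⁻¹ := by
    rw [← mul_assoc, h, one_mul, _root_.mul_inv_rev, inv_eq_of_mul_eq_one_right h']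
  rw [← inv_pow, ← h1, conj_pow, inv_mul_cancel_right]

theorem exists_swap {K : Subgroup Γ} (hz : z ∈ K) (hz' : z' ∈ K) (h : z * z = 1) (h' : z' * z' = 1)
    (ho : Odd (orderOf (z * z'))) : ∃ u ∈ K, u * z * u⁻¹ * z * (u * z * u⁻¹) = z' := by
  obtain ⟨m, hm⟩ := ho
  have h1 : ∀ c : Γ, c ^ (2 * m + 1) = 1 → c ^ (m + 1) * c ^ (m + 1) = c := fun c hc => by
    rw [← pow_add, show m + 1 + (m + 1) = 2 * m + 1 + 1 by ring, pow_succ, hc, one_mul]
  have h2 : (z * z') ^ (2 * m + 1) = 1 := hm ▸ pow_orderOf_eq_one _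
  refine ⟨((z * z') ^ ((m + 1) * (m + 1)))⁻¹, K.inv_mem (K.pow_mem (K.mul_mem hz hz') _), ?_⟩
  rw [inv_inv, inv_pow_mul h h', mul_assoc z, pow_mul, h1 _ (by rw [← pow_mul, mul_comm, pow_mul, h2, one_pow]),
    mul_assoc, mul_assoc, ← mul_assoc z z, h, one_mul, h1 _ h2, ← mul_assoc, h, one_mul]

theorem exists_conj_refl {K : Subgroup Γ} (hz : z ∈ K) {g : Γ} (hg : g ∈ K) (h : z * z = 1) (e : z' = g * z * g⁻¹)
    (k : ℕ) : ∃ u ∈ K, z * (z * z') ^ k = u * z * u⁻¹ := by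
  have h' : z' * z' = 1 := by rw [e, conj_mul, h, mul_one, mul_inv_cancel]
  have hc : ∀ j, ((z * z') ^ j)⁻¹ ∈ K := fun j =>
    K.inv_mem (K.pow_mem (K.mul_mem hz (e ▸ K.mul_mem (K.mul_mem hg hz) (K.inv_mem hg))) _)
  obtain ⟨j, rfl | rfl⟩ := Nat.even_or_odd' k
  · exact ⟨_, hc j, by rw [inv_inv, inv_pow_mul h h', mul_assoc, ← pow_add, two_mul]⟩
  · refine ⟨_, K.mul_mem (hc j) hg, ?_⟩
    have h2 : ∀ a : Γ, a * z' = a * z * (z * z') := fun a => by rw [mul_assoc, ← mul_assoc z, h, one_mul]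
    rw [_root_.mul_inv_rev, inv_inv, show ∀ a b : Γ, a * g * z * (g⁻¹ * b) = a * (g * z * g⁻¹) * b from
      fun a b => by group, ← e, h2 (_⁻¹), inv_pow_mul h h', mul_assoc, mul_assoc, ← pow_succ', ← pow_add]
    congr 2
    ring

theorem exists_central [Finite Γ] {K : Subgroup Γ} (hz : z ∈ K) {g : Γ} (hg : g ∈ K) (h : z * z = 1)
    (e : z' = g * z * g⁻¹) (ho : ¬ Odd (orderOf (z * z'))) : ∃ (m : ℕ) (w : Γ), w = (z * z') ^ m ∧ w ≠ 1 ∧
      w * w = 1 ∧ w * z = z * w ∧ w * z' = z' * w ∧ (∃ u ∈ K, w * z = u * z * u⁻¹) ∧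
      ∃ u ∈ K, w * z' = u * z * u⁻¹ := by
  have h' : z' * z' = 1 := by rw [e, conj_mul, h, mul_one, mul_inv_cancel]
  obtain ⟨m, hm⟩ := Nat.not_odd_iff_even.1 ho
  have h0 := orderOf_pos (z * z')
  have h1 : (z * z') ^ m * (z * z') ^ m = 1 := by rw [← pow_add, ← hm, pow_orderOf_eq_one]
  have h2 : (z * z') ^ m * z = z * (z * z') ^ m := by
    rw [← inv_pow_mul h h', inv_eq_of_mul_eq_one_right h1]
  have h3 : z' = z * (z * z') := by rw [← mul_assoc, h, one_mul]
  have h4 : (z * z') ^ m * z' = z * (z * z') ^ (m + 1) := by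
    rw [pow_succ, ← mul_assoc, ← h2, mul_assoc, ← h3]
  refine ⟨m, _, rfl, pow_ne_one_of_lt_orderOf (by omega) (by omega), h1, h2, ?_,
    h2 ▸ exists_conj_refl hz hg h e m, h4 ▸ exists_conj_refl hz hg h e _⟩
  rw [h4, pow_succ', ← mul_assoc, ← h3]

/-- An involution fixing only the coset `H` in `G / H`. -/
structure Uq (G H : Subgroup Γ) (z : Γ) : Prop where
  memG : z ∈ G
  memH : z ∈ H
  sq : z * z = 1
  uniq : ∀ g ∈ G, g⁻¹ * z * g ∈ H → g ∈ H

theorem Uq.exists_swap {G H K : Subgroup Γ} (hz : Uq G H z) (hK : K ≤ G) {a b : Γ} (ha : a ∈ G) (hb : b ∈ G)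
    (h1 : a * z * a⁻¹ ∈ K) (h2 : b * z * b⁻¹ ∈ K) (ho : Odd (orderOf (a * z * a⁻¹ * (b * z * b⁻¹)))) :
    ∃ u ∈ K, ∃ y, y = u * a * z * (u * a)⁻¹ ∧ y * (a * z * a⁻¹) * y = b * z * b⁻¹ ∧ b⁻¹ * y * a ∈ H := by
  have hs : ∀ a : Γ, a * z * a⁻¹ * (a * z * a⁻¹) = 1 := fun a => by rw [conj_mul, hz.sq, mul_one, mul_inv_cancel]
  obtain ⟨u, hu, e⟩ := Fr.exists_swap h1 h2 (hs a) (hs b) ho
  have e1 : u * (a * z * a⁻¹) * u⁻¹ = u * a * z * (u * a)⁻¹ := by group
  rw [e1] at e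
  refine ⟨u, hu, _, rfl, e, H.inv_mem_iff.1 (hz.uniq _ (G.inv_mem (G.mul_mem (G.mul_mem (G.inv_mem hb) ?_) ha)) ?_)⟩
  · exact G.mul_mem (G.mul_mem (G.mul_mem (hK hu) ha) hz.memG) (G.inv_mem (G.mul_mem (hK hu) ha))
  · have e2 := inv_eq_of_mul_eq_one_right (hs (u * a))
    generalize u * a * z * (u * a)⁻¹ = y at e e2
    rw [inv_inv, show b⁻¹ * y * a * z * (b⁻¹ * y * a)⁻¹ = b⁻¹ * (y * (a * z * a⁻¹) * y⁻¹) * b by group, e2, e]
    simpa [mul_assoc] using hz.memH

theorem mem_of_pow_four [Finite Γ] {K : Subgroup Γ} {x : Γ} (ho : Odd (orderOf x)) (h : x ^ 4 ∈ K) : x ∈ K :=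
  Subgroup.zpowers_le.2 h (mem_zpowers_pow_iff.2 ((Nat.coprime_two_left.2 ho).pow_left 2))

end group

universe u

variable {F : Type u} [Field F] [StarRing F] {ι : Type} [Fintype ι] [DecidableEq ι]

/-- The unitary matrices. -/
abbrev U (ι : Type) [Fintype ι] [DecidableEq ι] (F : Type u) [Field F] [StarRing F] := unitary (Matrix ι ι F)

theorem inv_apply (g : U ι F) (i j : ι) : (g⁻¹).1 i j = star (g.1 j i) := rfl

theorem col_orth (g : U ι F) (i j : ι) : ∑ k, star (g.1 k i) * g.1 k j = if i = j then 1 else 0 :=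
  (congrFun₂ g.2.1 i j).trans (one_apply ..)

theorem row_orth (g : U ι F) (i j : ι) : ∑ k, g.1 i k * star (g.1 j k) = if i = j then 1 else 0 :=
  (congrFun₂ g.2.2 i j).trans (one_apply ..)

theorem inv_mulVec (g : U ι F) (v : ι → F) : (g⁻¹).1 *ᵥ g.1 *ᵥ v = v := by
  rw [mulVec_mulVec, ← Submonoid.coe_mul, inv_mul_cancel, OneMemClass.coe_one, one_mulVec]

theorem mulVec_inv (g : U ι F) (v : ι → F) : g.1 *ᵥ (g⁻¹).1 *ᵥ v = v := by
  simpa only [inv_inv] using inv_mulVec g⁻¹ v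

theorem mul_mulVec (g h : U ι F) (v : ι → F) : (g * h).1 *ᵥ v = g.1 *ᵥ h.1 *ᵥ v := by
  rw [mulVec_mulVec, Submonoid.coe_mul]

theorem ip_mulVec (g : U ι F) (u v : ι → F) : star (g.1 *ᵥ u) ⬝ᵥ g.1 *ᵥ v = star u ⬝ᵥ v := by
  rw [star_mulVec, ← dotProduct_mulVec]
  exact congrArg _ (inv_mulVec g v)

theorem norm_of_col {g : U ι F} {i j : ι} (h : ∀ k, k ≠ i → g.1 k j = 0) : star (g.1 i j) * g.1 i j = 1 := by
  have := col_orth g j j
  rwa [if_pos rfl, Finset.sum_eq_single i (fun k _ hk => by simp [h k hk]) (by simp)] at this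

theorem row_of_col {g : U ι F} {i j : ι} (h : ∀ k, k ≠ i → g.1 k j = 0) (k : ι) (hk : k ≠ j) : g.1 i k = 0 := by
  have h1 := col_orth g j k
  rw [if_neg hk.symm, Finset.sum_eq_single i (fun k _ hk => by simp [h k hk]) (by simp)] at h1
  exact (mul_eq_zero.1 h1).resolve_left (left_ne_zero_of_mul_eq_one (norm_of_col h))

theorem mul_apply_of_col (g : U ι F) {h : U ι F} {k j : ι} (hh : ∀ i, i ≠ k → h.1 i j = 0) (i : ι) :
    (g * h).1 i j = g.1 i k * h.1 k j := by
  rw [Submonoid.coe_mul, mul_apply, Finset.sum_eq_single k (fun l _ hl => by simp [hh l hl]) (by simp)]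

theorem mul_apply_of_row {g : U ι F} (h : U ι F) {k i : ι} (hg : ∀ j, j ≠ k → g.1 i j = 0) (j : ι) :
    (g * h).1 i j = g.1 i k * h.1 k j := by
  rw [Submonoid.coe_mul, mul_apply, Finset.sum_eq_single k (fun l _ hl => by simp [hg l hl]) (by simp)]

/-- `g` is monomial with the permutation `π`. -/
def IsMon (g : U ι F) (π : Equiv.Perm ι) : Prop := ∀ i j, i ≠ π j → g.1 i j = 0

theorem IsMon.mul {g h : U ι F} {π ρ : Equiv.Perm ι} (hg : IsMon g π) (hh : IsMon h ρ) : IsMon (g * h) (π * ρ) :=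
  fun i j e => by rw [mul_apply_of_col g (hh · j), hg i _ e, zero_mul]

theorem IsMon.inv {g : U ι F} {π : Equiv.Perm ι} (hg : IsMon g π) : IsMon g⁻¹ π⁻¹ :=
  fun i j e => by rw [inv_apply, hg j i fun e' => e (by simp [e']), star_zero]

theorem IsMon.norm {g : U ι F} {π : Equiv.Perm ι} (hg : IsMon g π) (j : ι) :
    star (g.1 (π j) j) * g.1 (π j) j = 1 := norm_of_col (hg · j)

theorem IsMon.ne_zero {g : U ι F} {π : Equiv.Perm ι} (hg : IsMon g π) (j : ι) : g.1 (π j) j ≠ 0 :=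
  right_ne_zero_of_mul_eq_one (hg.norm j)

theorem IsMon.eq {g : U ι F} {π : Equiv.Perm ι} (hg : IsMon g π) {i j : ι} (h : g.1 i j ≠ 0) : π j = i :=
  by_contra fun e => h (hg i j (Ne.symm e))

theorem IsMon.mulVec_single {g : U ι F} {π : Equiv.Perm ι} (hg : IsMon g π) (j : ι) :
    g.1 *ᵥ Pi.single j 1 = Pi.single (π j) (g.1 (π j) j) := by
  funext i
  rw [mulVec_single_one, col_apply]
  rcases eq_or_ne i (π j) with rfl | h
  · simp
  · rw [hg i j h, Pi.single_eq_of_ne h]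

/-- The monomial unitary matrices. -/
def Mon (ι : Type) [Fintype ι] [DecidableEq ι] (F : Type u) [Field F] [StarRing F] : Subgroup (U ι F) where
  carrier := {g | ∃ π, IsMon g π}
  one_mem' := ⟨1, fun _ _ h => one_apply_ne h⟩
  mul_mem' := fun ⟨_, hg⟩ ⟨_, hh⟩ => ⟨_, hg.mul hh⟩
  inv_mem' := fun ⟨_, hg⟩ => ⟨_, hg.inv⟩

theorem mem_Mon_of_col {g : U ι F} (h : ∀ j, ∃ i, ∀ k, k ≠ i → g.1 k j = 0) : g ∈ Mon ι F := by
  choose f hf using h
  have hi : Function.Injective f := fun j j' e => by_contra fun hne =>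
    right_ne_zero_of_mul_eq_one (norm_of_col (hf j')) (e ▸ row_of_col (hf j) j' (Ne.symm hne))
  exact ⟨Equiv.ofBijective f (Finite.injective_iff_bijective.1 hi), fun i j e => hf j i e⟩

/-- The stabiliser of a coordinate line. -/
def Lst (j : ι) : Subgroup (U ι F) where
  carrier := {g | ∀ i, i ≠ j → g.1 i j = 0}
  one_mem' _ h := one_apply_ne h
  mul_mem' := fun {g _} hg hh i e => by rw [mul_apply_of_col g hh, hg i e, zero_mul]
  inv_mem' := fun hg i e => by rw [inv_apply, row_of_col hg i e, star_zero]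

/-- The elements moving vectors only in the direction of `P`. -/
def Sup (P : Submodule F (ι → F)) : Subgroup (U ι F) where
  carrier := {g | ∀ v, g.1 *ᵥ v - v ∈ P}
  one_mem' v := by simp
  mul_mem' := fun {g h} hg hh v => by simpa [mul_mulVec] using P.add_mem (hg (h.1 *ᵥ v)) (hh v)
  inv_mem' := fun {g} hg v => by simpa [mulVec_inv] using P.neg_mem (hg ((g⁻¹).1 *ᵥ v))

/-- An element of `G` mapping a coordinate line to a coordinate line is monomial. -/
def Blk (G : Subgroup (U ι F)) : Prop := ∀ g ∈ G, ∀ i j, (∀ k, k ≠ i → g.1 k j = 0) → g ∈ Mon ι F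

/-- `G` contains the monomial matrices of determinant one. -/
def SMon (G : Subgroup (U ι F)) : Prop := ∀ g ∈ Mon ι F, g.1.det = 1 → g ∈ G

theorem exists_mon (π : Equiv.Perm ι) {s : ι → F} (hs : ∀ i, s i * star (s i) = 1) :
    ∃ g : U ι F, IsMon g π ∧ (∀ j, g.1 (π j) j = s j) ∧ g.1.det = (Equiv.Perm.sign π : ℤ) * ∏ i, s i := by
  let A : Matrix ι ι F := (diagonal s).submatrix π.symm id
  have hA : ∀ i j, A i j = if i = π j then s j else 0 := fun i j => by
    simp only [A, submatrix_apply, id, diagonal_apply, Equiv.symm_apply_eq]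
    split_ifs with h
    exacts [by rw [h, Equiv.symm_apply_apply], rfl]
  refine ⟨⟨A, mem_unitaryGroup_iff'.2 ?_⟩, fun i j e => by simp [hA, e], fun j => by simp [hA], ?_⟩
  · ext i j
    simp only [mul_apply, star_apply, hA, one_apply]
    rw [Finset.sum_eq_single (π i) (fun k _ hk => by simp [hk]) (by simp)]
    by_cases h : i = j
    · simp [h, mul_comm, hs]
    · simp [h]
  · change A.det = _
    rw [det_permute, det_diagonal, Equiv.Perm.sign_symm]

theorem exists_diag {s : ι → F} (hs : ∀ i, s i * star (s i) = 1) : ∃ g : U ι F, IsMon g 1 ∧ g.1 = diagonal s := by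
  obtain ⟨g, h1, h2, -⟩ := exists_mon 1 hs
  refine ⟨g, h1, Matrix.ext fun i j => ?_⟩
  rcases eq_or_ne i j with rfl | h
  · exact (h2 i).trans (diagonal_apply_eq _ _).symm
  · rw [h1 i j h, diagonal_apply_ne _ h]

/-- a monomial matrix of determinant one with given permutation and with given entries except in column `o` -/
theorem SMon.exists_mon {G : Subgroup (U ι F)} (hG : SMon G) (π : Equiv.Perm ι) (o : ι) {s : ι → F}
    (hs : ∀ i, s i * star (s i) = 1) : ∃ g ∈ G, IsMon g π ∧ ∀ j, j ≠ o → g.1 (π j) j = s j := by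
  let d : F := (Equiv.Perm.sign π : ℤ) * ∏ i, s i
  have hd : d * star d = 1 := by
    have h1 : ((Equiv.Perm.sign π : ℤ) : F) * (Equiv.Perm.sign π : ℤ) = 1 := by
      rw [← Int.cast_mul, ← Units.val_mul, Int.units_mul_self]; simp
    simp only [d, star_mul', star_intCast, star_prod]
    rw [mul_mul_mul_comm, h1, one_mul, ← Finset.prod_mul_distrib]
    simp [hs]
  obtain ⟨g, h1, h2, h3⟩ := Fr.exists_mon π (s := fun i => s i * if i = o then star d else 1) fun i => by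
    split_ifs
    · rw [star_mul' (s i), star_star, mul_mul_mul_comm, hs, one_mul, mul_comm, hd]
    · simp [hs]
  refine ⟨g, hG g ⟨π, h1⟩ ?_, h1, fun j hj => by simp [h2, hj]⟩
  rw [h3, Finset.prod_mul_distrib, ← mul_assoc, Finset.prod_ite_eq', if_pos (Finset.mem_univ _), hd]

theorem IsMon.conj_diag {g x : U ι F} {π : Equiv.Perm ι} (hg : IsMon g π) {s : ι → F} (hx : x.1 = diagonal s) :
    (g * x * g⁻¹).1 = diagonal (s ∘ π.symm) := by
  ext i j
  obtain ⟨j, rfl⟩ := π.surjective j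
  rw [mul_apply_of_col (k := j) _ (fun k hk => hg.inv k _ (by simpa using hk)), Submonoid.coe_mul, hx,
    mul_diagonal, inv_apply]
  rcases eq_or_ne i (π j) with rfl | h
  · simp only [diagonal_apply_eq, Function.comp, Equiv.symm_apply_apply]
    linear_combination s j * hg.norm j
  · rw [hg i j h, diagonal_apply_ne _ h, zero_mul, zero_mul]

/-- The rank one matrix `v v^*`. -/
def R (v : ι → F) : Matrix ι ι F := vecMulVec v (star v)

omit [Fintype ι] [DecidableEq ι] in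
theorem R_apply (v : ι → F) (i j : ι) : R v i j = v i * star (v j) := rfl

theorem R_mulVec (v u : ι → F) : R v *ᵥ u = (star v ⬝ᵥ u) • v := by
  rw [R, vecMulVec_mulVec]; simp

theorem conj_R (g : U ι F) (v : ι → F) : g.1 * R v * (g⁻¹).1 = R (g.1 *ᵥ v) := by
  rw [R, R, mul_vecMulVec, vecMulVec_mul, star_mulVec]; rfl

/-- `x = 1 + α v v^* + β w w^*` -/
def Rk (x : U ι F) (α : F) (v : ι → F) (β : F) (w : ι → F) : Prop := x.1 = 1 + α • R v + β • R w

variable {x : U ι F} {α β : F} {v w : ι → F}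

theorem Rk.conj (hx : Rk x α v β w) (g : U ι F) : Rk (g * x * g⁻¹) α (g.1 *ᵥ v) β (g.1 *ᵥ w) := by
  have : g.1 * (g⁻¹).1 = 1 := g.2.2
  rw [Rk, Submonoid.coe_mul, Submonoid.coe_mul, hx]
  simp only [mul_add, add_mul, mul_one, this, Matrix.mul_smul, Matrix.smul_mul, conj_R]

theorem Rk.conj' (hx : Rk x α v β w) (g : U ι F) : Rk (g⁻¹ * x * g) α ((g⁻¹).1 *ᵥ v) β ((g⁻¹).1 *ᵥ w) := by
  simpa using hx.conj g⁻¹

theorem Rk.apply (hx : Rk x α v β w) (i j : ι) :
    x.1 i j = (if i = j then 1 else 0) + α * (v i * star (v j)) + β * (w i * star (w j)) := by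
  rw [hx]; simp [R_apply, one_apply]

theorem Rk.mulVec (hx : Rk x α v β w) (u : ι → F) :
    x.1 *ᵥ u = u + (α * star v ⬝ᵥ u) • v + (β * star w ⬝ᵥ u) • w := by
  rw [hx]; simp [add_mulVec, smul_mulVec, R_mulVec, smul_smul]

theorem Rk.mem_Sup (hx : Rk x α v β w) : x ∈ Sup (Submodule.span F {v, w}) := fun u => by
  rw [hx.mulVec, add_assoc, add_sub_cancel_left]
  exact Submodule.mem_span_pair.2 ⟨_, _, rfl⟩

theorem rk_of_diag {k l : ι} (hkl : k ≠ l) {a b : F}
    (hx : x.1 = diagonal fun i => if i = k then a else if i = l then b else 1) :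
    Rk x (a - 1) (Pi.single k 1) (b - 1) (Pi.single l 1) := by
  rw [Rk, hx]
  ext i j
  simp only [diagonal_apply, Matrix.add_apply, one_apply, Matrix.smul_apply, R_apply, Pi.single_apply, smul_eq_mul]
  split_ifs <;> simp_all

theorem SMon.exists_t {G : Subgroup (U ι F)} (hG : SMon G) {k l : ι} (hkl : k ≠ l) {a : F} (ha : a * star a = 1) :
    ∃ x ∈ G, IsMon x 1 ∧ x.1 = diagonal (fun i => if i = k then a else if i = l then star a else 1) ∧
      Rk x (a - 1) (Pi.single k 1) (star a - 1) (Pi.single l 1) := by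
  obtain ⟨x, h1, h2⟩ := exists_diag (s := fun i => if i = k then a else if i = l then star a else 1) fun i => by
    split_ifs <;> simp [ha, mul_comm (star a)]
  refine ⟨x, hG x ⟨1, h1⟩ ?_, h1, h2, rk_of_diag hkl h2⟩
  rw [h2, det_diagonal, ← Finset.mul_prod_erase _ _ (Finset.mem_univ k),
    ← Finset.mul_prod_erase _ _ (Finset.mem_erase.2 ⟨hkl.symm, Finset.mem_univ l⟩), Finset.prod_eq_one]
  · simp [hkl.symm, ha]
  · simp +contextual

theorem exists_d (k : ι) {a : F} (ha : a * star a = 1) : ∃ x : U ι F, IsMon x 1 ∧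
    x.1 = diagonal (fun i => if i = k then a else 1) ∧ Rk x (a - 1) (Pi.single k 1) 0 0 := by
  obtain ⟨x, h1, h2⟩ := exists_diag (s := fun i => if i = k then a else 1) fun i => by split_ifs <;> simp [ha]
  refine ⟨x, h1, h2, ?_⟩
  rw [Rk, h2]
  ext i j
  simp only [diagonal_apply, Matrix.add_apply, one_apply, Matrix.smul_apply, R_apply, Pi.single_apply, smul_eq_mul]
  split_ifs <;> simp_all

omit [Fintype ι] [DecidableEq ι] [StarRing F] in
theorem exists_two_ne_zero (i₀ : ι) (h : ∀ i, ¬ ∀ k, k ≠ i → v k = 0) : ∃ i l, i ≠ l ∧ v i ≠ 0 ∧ v l ≠ 0 := by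
  have h1 := h i₀
  push Not at h1
  obtain ⟨l, -, hl⟩ := h1
  have h2 := h l
  push Not at h2
  obtain ⟨i, hi, hi'⟩ := h2
  exact ⟨i, l, hi, hi', hl⟩

omit [DecidableEq ι] in
theorem card_le_of_orth {κ : Type} [Fintype κ] (u : κ → ι → F) (S : Finset ι) (h0 : ∀ a, ∀ i ∉ S, u a i = 0)
    (h1 : ∀ a b, a ≠ b → star (u a) ⬝ᵥ u b = 0) (h2 : ∀ a, star (u a) ⬝ᵥ u a ≠ 0) : Fintype.card κ ≤ S.card := by
  have hl : LinearIndependent F fun a => fun i : S => u a i := by
    refine Fintype.linearIndependent_iff.2 fun c hc a => ?_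
    have h3 : ∑ b, c b • u b = 0 := funext fun i => by
      by_cases hi : i ∈ S
      · simpa using congrFun hc ⟨i, hi⟩
      · simp [h0 _ i hi]
    have h4 := congrArg (star (u a) ⬝ᵥ ·) h3
    simp only [dotProduct_sum, dotProduct_smul, dotProduct_zero] at h4
    rw [Finset.sum_eq_single a (fun b _ hb => by simp [h1 a b hb.symm]) (by simp)] at h4
    exact (mul_eq_zero.1 h4).resolve_right (h2 a)
  simpa using hl.fintype_card_le_finrank

variable {q : ℕ}

theorem exists_nonreal (h : IsBar (starRingEnd F) q) : ∃ a : F, a * star a = 1 ∧ star a ≠ a := by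
  obtain ⟨a, ha⟩ := h.exists_primitiveRoot
  have h1 : a * star a = 1 := (h.norm_eq_pow a).trans ha.pow_eq_one
  have := h.two_le
  exact ⟨a, h1, fun e => ha.pow_ne_one_of_pos_of_lt two_ne_zero (by omega) (by rw [sq, ← h1, e])⟩

theorem exists_two_nonreal (h : IsBar (starRingEnd F) q) (hq : 4 ≤ q) : ∃ a b : F, a * star a = 1 ∧ star a ≠ a ∧
    b * star b = 1 ∧ star b ≠ b ∧ a + star a ≠ b + star b := by
  obtain ⟨a, ha⟩ := h.exists_primitiveRoot
  have h1 : a * star a = 1 := (h.norm_eq_pow a).trans ha.pow_eq_one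
  have h2 : ∀ k, k ≠ 0 → k < 5 → a ^ k ≠ 1 := fun k h0 hk => ha.pow_ne_one_of_pos_of_lt h0 (by omega)
  refine ⟨a, a * a, h1, fun e => h2 2 (by omega) (by omega) (by rw [sq, ← h1, e]), ?_, fun e => ?_, fun e => ?_⟩
  · rw [star_mul', mul_mul_mul_comm, h1, one_mul]
  · rw [star_mul'] at e
    exact h2 4 (by omega) (by omega) (by linear_combination (-a ^ 2) * e + (a * star a + 1) * h1)
  · rw [star_mul'] at e
    have : (a ^ 1 - 1) * (a ^ 3 - 1) = 0 := by linear_combination (-a ^ 2) * e + (a - a * star a - 1) * h1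
    rcases mul_eq_zero.1 this with h | h
    exacts [h2 1 (by omega) (by omega) (sub_eq_zero.1 h), h2 3 (by omega) (by omega) (sub_eq_zero.1 h)]

end CL.Uni.Fr
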