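import Cfsg.Agent.Cls.UniFr1

/-!
# Frames in unitary groups, II: overgroups of the full monomial group
-/

set_option autoImplicit false

namespace CL.Uni.Fr

open Matrix

universe u

variable {F : Type u} [Field F] [StarRing F] {ι : Type} [Fintype ι] [DecidableEq ι] {q : ℕ}
variable {G : Subgroup (U ι F)} {x z : U ι F} {α β κ : F} {v w r : ι → F}

theorem Rk.zero_right (hx : Rk x α v 0 w) (w' : ι → F) : Rk x α v 0 w' := by simpa [Rk] using hx

theorem Rk.symm (hx : Rk x α v β w) : Rk x β w α v := by rw [Rk, hx, add_right_comm]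

theorem Blk.of_rk (hB : Blk G) (hG : x ∈ G) (hx : Rk x α v β w) {j : ι} (hv : v j = 0) (hw : w j = 0) :
    x ∈ Mon ι F := hB x hG j j fun k hk => by simp [hx.apply, hk, hv, hw]

theorem Blk.two_ne_zero (hB : Blk G) {g : U ι F} (hg : g ∈ G) (hg' : g ∉ Mon ι F) (k : ι) :
    ∃ i l, i ≠ l ∧ g.1 k i ≠ 0 ∧ g.1 k l ≠ 0 :=
  exists_two_ne_zero k fun i hi => hg' ((Mon ι F).inv_mem_iff.1 (hB _ (G.inv_mem hg) i k fun m hm => by
    rw [inv_apply, hi m hm, star_zero]))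

theorem inv_mulVec_single (g : U ι F) (k i : ι) : ((g⁻¹).1 *ᵥ Pi.single k 1) i = star (g.1 k i) := by
  rw [mulVec_single_one, col_apply, inv_apply]

theorem conj_mem' {g : U ι F} (hg : g ∈ G) (hx : x ∈ G) : g⁻¹ * x * g ∈ G :=
  G.mul_mem (G.mul_mem (G.inv_mem hg) hx) hg

theorem conj_mem {g : U ι F} (hg : g ∈ G) (hx : x ∈ G) : g * x * g⁻¹ ∈ G :=
  G.mul_mem (G.mul_mem hg hx) (G.inv_mem hg)

theorem full (h : IsBar (starRingEnd F) q) (hM : Mon ι F ≤ G) (hB : Blk G) {g : U ι F} (hg : g ∈ G)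
    (hg' : g ∉ Mon ι F) (k j : ι) : g.1 k j ≠ 0 := fun h0 => by
  obtain ⟨a, ha, ha'⟩ := exists_nonreal h
  obtain ⟨d, d1, -, d2⟩ := exists_d k ha
  have h1 := d2.conj' g
  obtain ⟨π, hπ⟩ := hB.of_rk (conj_mem' hg (hM ⟨1, d1⟩)) h1 (j := j) (by simp [inv_apply, h0]) (by simp)
  obtain ⟨i, l, hil, hi, hl⟩ := hB.two_ne_zero hg hg' k
  have a1 : a - 1 ≠ 0 := fun e => ha' (by rw [sub_eq_zero.1 e, star_one])
  have h2 := hπ l l (hπ.eq (i := i) (j := l) (by simp [h1.apply, hil, inv_apply, hi, hl, a1]) ▸ hil.symm)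
  have h3 := congrArg star h2
  simp [h1.apply, inv_apply] at h2 h3
  have : (star a - a) * (star (g.1 k l) * g.1 k l) = 0 := by linear_combination h3 - h2
  simp [sub_eq_zero, ha', hl] at this

/-- The cross ratios of the entries are real. -/
def CR (x : U ι F) : Prop := ∀ i i' j j', i ≠ i' →
  star (x.1 i j * x.1 i' j' * star (x.1 i j') * star (x.1 i' j)) = x.1 i j * x.1 i' j' * star (x.1 i j') * star (x.1 i' j)

theorem cr_of_mon (hx : x ∈ Mon ι F) : CR x := fun i i' j j' h => by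
  obtain ⟨π, hπ⟩ := hx
  by_cases e : i = π j
  · simp [hπ i' j (e ▸ h.symm)]
  · simp [hπ i j e]

theorem cr_of_rk (hx : Rk x κ v 0 0) (hκ : star κ = κ) (hv : ∀ i, v i ≠ 0) {m : U ι F} (hm : m ∈ Mon ι F) :
    CR (x * m) := fun i i' j j' _ => by
  obtain ⟨π, hπ⟩ := hm
  have : ∀ i k, ∃ t, star t = t ∧ x.1 i k = t * (v i * star (v k)) := fun i k => by
    have h1 := hv i
    have h2 := star_ne_zero.2 h1
    rw [hx.apply]
    split_ifs with e
    · exact ⟨(v i * star (v i))⁻¹ + κ, by simp [hκ, mul_comm], by rw [← e]; field_simp; ring⟩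
    · exact ⟨κ, hκ, by ring⟩
  choose t h1 h2 using this
  simp only [mul_apply_of_col x (hπ · _), h2, star_mul', h1, star_star]
  ring

theorem exists_rk_mul (hB : Blk G) (hz : Uq G (Mon ι F) z) (hz' : Rk z κ r 0 0) {g k : U ι F} (hg : g ∈ G)
    (hg' : g ∉ Mon ι F) (hk : k ∈ G) (hk' : k ∈ Mon ι F) (ho : Odd (orderOf (z * (g * k * z * (g * k)⁻¹)))) :
    ∃ y ∈ G, ∃ m ∈ Mon ι F, ∃ v, Rk y κ v 0 0 ∧ (∀ i, v i ≠ 0) ∧ g = y * m := by
  obtain ⟨u, hu, y, e1, -, e2⟩ := hz.exists_swap le_rfl G.one_mem (G.mul_mem hg hk) (by simpa using hz.memG)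
    (conj_mem (G.mul_mem hg hk) hz.memG) (by simpa using ho)
  have hy : y ∈ G := e1 ▸ conj_mem (G.mul_mem hu G.one_mem) hz.memG
  have h1 := (e1 ▸ hz'.conj (u * 1) : Rk y _ _ _ _).zero_right 0
  have h2 : g = y * ((((g * k)⁻¹ * y * 1)⁻¹) * k⁻¹) := by group
  have h3 := (Mon ι F).mul_mem ((Mon ι F).inv_mem e2) ((Mon ι F).inv_mem hk')
  exact ⟨y, hy, _, h3, _, h1, fun i hi => hg' (h2 ▸ (Mon ι F).mul_mem (hB.of_rk hy h1 hi rfl) h3), h2⟩

theorem exists_three (h3 : 3 ≤ Fintype.card ι) : ∃ i j k : ι, i ≠ j ∧ i ≠ k ∧ j ≠ k :=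
  Fintype.two_lt_card_iff.1 h3

theorem exists_notMem {s : Finset ι} (h : s.card < Fintype.card ι) : ∃ i, i ∉ s :=
  by_contra fun hne => h.not_ge ((Finset.card_le_card fun i _ => by_contra fun hi => hne ⟨i, hi⟩ :
    Finset.univ.card ≤ s.card))

theorem le_Mon_of_cr (h : IsBar (starRingEnd F) q) (h3 : 3 ≤ Fintype.card ι) (hM : Mon ι F ≤ G) (hB : Blk G)
    (hc : ∀ g ∈ G, CR g) : G ≤ Mon ι F := fun g hg => by_contra fun hg' => by
  obtain ⟨a, ha, ha'⟩ := exists_nonreal h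
  obtain ⟨i, j, k, hij, hik, hjk⟩ := exists_three h3
  obtain ⟨d, d1, -, d2⟩ := exists_d i ha
  have h1 := d2.conj g
  have h2 := hc _ (conj_mem hg (hM ⟨1, d1⟩)) i j j k hij
  have h4 := full h hM hB hg hg'
  have a1 : a - 1 ≠ 0 := fun e => ha' (by rw [sub_eq_zero.1 e, star_one])
  simp only [h1.apply, mulVec_single_one, col_apply, hij, hik, hjk, if_true, if_false, zero_add, zero_mul, add_zero,
    star_mul', star_add, star_star, star_one, star_sub] at h2
  have : (star a - a) * ((a - 1) * star (a - 1) * (g.1 i i * star (g.1 i i)) * (g.1 j i * star (g.1 j i)) *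
    (g.1 k i * star (g.1 k i))) = 0 := by rw [star_sub, star_one]; linear_combination h2
  simp [sub_eq_zero, ha', h4, sub_eq_zero.not.1 a1] at this
  exact ha' (by rw [this, ← star_star a, this, star_one])

theorem Uq.diag (hz : Uq G (Mon ι F) z) {s : ι → F} (hs : z.1 = diagonal s) {y u : U ι F} (hy : y ∈ G)
    (hu : u ∈ G) (h1 : y * z = z * y) (h2 : y * z = u * z * u⁻¹) :
    ∃ π : Equiv.Perm ι, y.1 = diagonal fun i => s (π.symm i) * s i := by
  have h3 : y ∈ Mon ι F := hz.uniq y hy (by rw [mul_assoc, ← h1, inv_mul_cancel_left]; exact hz.memH)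
  obtain ⟨π, hπ⟩ := (Mon ι F).inv_mem_iff.1 (hz.uniq _ (G.inv_mem hu)
    (by rw [inv_inv, ← h2]; exact (Mon ι F).mul_mem h3 hz.memH))
  refine ⟨π, ?_⟩
  rw [show y = u * z * u⁻¹ * z by rw [← h2, mul_assoc, hz.sq, mul_one], Submonoid.coe_mul, hπ.conj_diag hs, hs,
    diagonal_mul_diagonal]
  rfl

theorem eig_of_diag {g y : U ι F} {s : ι → F} (hy : y.1 = diagonal s) {i : ι}
    (h : ∀ k, k ≠ i → (g⁻¹ * y * g).1 k i = 0) (m : ι) : s m * g.1 m i = g.1 m i * (g⁻¹ * y * g).1 i i := by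
  rw [← mul_apply_of_col g h, ← mul_assoc, ← mul_assoc, mul_inv_cancel, one_mul, Submonoid.coe_mul, hy,
    diagonal_mul]

/-- A commuting pair of conjugates gives an element diagonal for both frames. -/
theorem Uq.exists_diag [Finite F] (hz : Uq G (Mon ι F) z) {s : ι → F} (hs : z.1 = diagonal s) {g : U ι F}
    (hg : g ∈ G) (ho : ¬ Odd (orderOf (z * (g * z * g⁻¹)))) : ∃ y : U ι F, y ≠ 1 ∧
      (∃ π : Equiv.Perm ι, y.1 = diagonal fun i => s (π.symm i) * s i) ∧ IsMon (g⁻¹ * y * g) 1 := by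
  obtain ⟨m, y, e, y1, -, y2, y3, ⟨u, hu, y4⟩, u', hu', y5⟩ := exists_central hz.memG hg hz.sq rfl ho
  have hy : y ∈ G := e ▸ G.pow_mem (G.mul_mem hz.memG (conj_mem hg hz.memG)) m
  obtain ⟨π, hπ⟩ := hz.diag hs (conj_mem' hg hy) (G.mul_mem (G.inv_mem hg) hu')
    (by rw [← mul_left_cancel_iff (a := g), ← mul_right_cancel_iff (a := g⁻¹)]; simpa [mul_assoc] using y3)
    (by rw [← mul_left_cancel_iff (a := g), ← mul_right_cancel_iff (a := g⁻¹)]; simpa [mul_assoc] using y5)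
  exact ⟨y, y1, hz.diag hs hy hu y2 y4, fun i j hij => by rw [hπ]; exact diagonal_apply_ne _ hij⟩

theorem le_Mon_odd (h : IsBar (starRingEnd F) q) (h2 : (2 : F) ≠ 0) (h3 : 3 ≤ Fintype.card ι)
    (hM : Mon ι F ≤ G) (hB : Blk G) : G ≤ Mon ι F := by
  have := h.finite
  obtain ⟨i, j, k, hij, hik, hjk⟩ := exists_three h3
  obtain ⟨z, z1, z2, z3⟩ := exists_d i (a := (-1 : F)) (by simp)
  have hz : Uq G (Mon ι F) z := ⟨hM ⟨1, z1⟩, ⟨1, z1⟩, Subtype.ext (by
    rw [Submonoid.coe_mul, z2, diagonal_mul_diagonal]; ext a b; simp [diagonal_apply, one_apply, ite_mul]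
    split_ifs <;> simp), fun g hg ⟨π, hπ⟩ => by_contra fun hg' => by
      have h4 := full h hM hB hg hg'
      have h5 : (-1 - 1 : F) ≠ 0 := fun e => h2 (by linear_combination -e)
      exact hij ((hπ.eq (i := i) (j := k) (by simp [(z3.conj' g).apply, hik, inv_apply, h4, h5])).symm.trans
        (hπ.eq (by simp [(z3.conj' g).apply, hjk, inv_apply, h4, h5])))⟩
  refine le_Mon_of_cr h h3 hM hB fun g hg => by_cases cr_of_mon fun hg' => ?_
  obtain ⟨y, -, m, hm, v, h4, h5, rfl⟩ := exists_rk_mul hB hz z3 hg hg' G.one_mem (Mon ι F).one_mem (by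
    rw [mul_one]
    by_contra ho
    obtain ⟨y, y1, ⟨π, y2⟩, y3⟩ := hz.exists_diag z2 hg ho
    obtain ⟨o, ho⟩ := exists_notMem (s := {i, π i}) (Finset.card_le_two.trans_lt h3)
    have h4 := fun m => mul_right_cancel₀ (full h hM hB hg hg' m i)
      ((eig_of_diag y2 (y3 · i) m).trans (mul_comm _ _))
    simp only [Finset.mem_insert, Finset.mem_singleton, not_or] at ho
    refine y1 (Subtype.ext (y2.trans ?_))
    have h5 := h4 o
    simp only [ho, Equiv.symm_apply_eq, if_false, mul_one] at h5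
    simp only [h4, ← h5]
    exact diagonal_one)
  exact cr_of_rk h4 (by simp) h5 hm

section even

variable {k l : ι}

theorem SMon.exists_tau (hG : SMon G) (h2 : (2 : F) = 0) (hkl : k ≠ l) :
    ∃ z ∈ G, IsMon z (Equiv.swap k l) ∧ z * z = 1 ∧ Rk z 1 (Pi.single k 1 + Pi.single l 1) 0 0 := by
  obtain ⟨z, z1, z2, z3⟩ := Fr.exists_mon (F := F) (Equiv.swap k l) (s := 1) (by simp)
  have h1 : (1 : F) + 1 = 0 := by linear_combination h2
  refine ⟨z, hG z ⟨_, z1⟩ (by simp [z3, hkl]; linear_combination -h2), z1, Subtype.ext ?_, ?_⟩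
  · ext i j
    rw [mul_apply_of_col _ (z1 · j), z2, OneMemClass.coe_one, one_apply]
    split_ifs with e
    · simpa [e] using z2 (Equiv.swap k l j)
    · simp [z1 i (Equiv.swap k l j) (by simpa using e)]
  · ext i j
    have : z.1 i j = if i = Equiv.swap k l j then 1 else 0 := by
      split_ifs with e
      exacts [e ▸ z2 j, z1 i j e]
    simp only [this, Matrix.add_apply, one_apply, Matrix.smul_apply, R_apply, Pi.add_apply, Pi.single_apply,
      Equiv.swap_apply_def]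
    split_ifs <;> simp_all

theorem fix_of_comm (h2 : (2 : F) = 0) (hz : Rk z 1 r 0 0) {y : U ι F} (hy : y * y = 1) (hc : y * z = z * y)
    (hu : star r ⬝ᵥ v ≠ 0) : y.1 *ᵥ r = r := by
  have h1 := congrArg (fun x : U ι F => x.1 *ᵥ v) hc
  simp only [mul_mulVec, hz.mulVec, zero_mul, zero_smul, add_zero, one_mul, mulVec_add, mulVec_smul,
    add_right_inj] at h1
  obtain ⟨c, hc⟩ : ∃ c : F, y.1 *ᵥ r = c • r :=
    ⟨(star r ⬝ᵥ v)⁻¹ * _, by rw [mul_smul, ← h1, smul_smul, inv_mul_cancel₀ hu, one_smul]⟩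
  have h3 := congrArg (fun x : U ι F => x.1 *ᵥ r) hy
  simp only [mul_mulVec, hc, mulVec_smul, smul_smul, OneMemClass.coe_one, one_mulVec] at h3
  have h4 : c * c = 1 := smul_left_injective F (fun e : r = 0 => hu (by simp [e])) (h3.trans (one_smul _ _).symm)
  rw [hc, show c = 1 from sub_eq_zero.1 (mul_self_eq_zero.1 (by linear_combination h4 + (1 - c) * h2)), one_smul]

theorem odd_of_ne_zero [Finite F] (h2 : (2 : F) = 0) (hz : Rk z 1 r 0 0) (hz2 : z * z = 1)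
    (hr : star r ⬝ᵥ r = 0) {g : U ι F} (hg : star r ⬝ᵥ g.1 *ᵥ r ≠ 0) : Odd (orderOf (z * (g * z * g⁻¹))) := by
  by_contra ho
  obtain ⟨m, y, e, y1, y2, y3, y4, -⟩ := exists_central (K := ⊤) trivial (g := g) trivial hz2 rfl ho
  have hz' := (hz.conj g).zero_right 0
  have hg' : star (g.1 *ᵥ r) ⬝ᵥ r ≠ 0 := by rwa [star_dotProduct, star_ne_zero]
  have h3 : y ∈ Sup (Submodule.span F {r, g.1 *ᵥ r}) := e ▸ pow_mem (mul_mem (hz.zero_right _).mem_Sup
    (hz'.zero_right r).symm.mem_Sup) m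
  have h4 : ∀ u, y.1 *ᵥ u = u → ∀ v, star u ⬝ᵥ (y.1 *ᵥ v - v) = 0 := fun u hu v => by
    rw [dotProduct_sub, ← ip_mulVec y u v, hu, sub_self]
  refine y1 (Subtype.ext (toLin'.injective (LinearMap.ext fun v => ?_)))
  obtain ⟨a, b, hab⟩ := Submodule.mem_span_pair.1 (h3 v)
  have h5 := h4 _ (fix_of_comm h2 hz y2 y3 hg) v
  have h6 := h4 _ (fix_of_comm h2 hz' y2 y4 hg') v
  rw [← hab] at h5 h6
  simp only [dotProduct_add, dotProduct_smul, hr, ip_mulVec, smul_eq_mul, mul_zero, zero_add, add_zero,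
    mul_eq_zero, hg, hg', or_false] at h5 h6
  simpa [h5, h6, eq_comm, sub_eq_zero] using hab

theorem exists_perm_pair (hkl : k ≠ l) {i j : ι} (hij : i ≠ j) : ∃ π : Equiv.Perm ι, π k = i ∧ π l = j :=
  ⟨Equiv.swap (Equiv.swap k i l) j * Equiv.swap k i, by
    rw [Equiv.Perm.mul_apply, Equiv.swap_apply_left, Equiv.swap_apply_of_ne_of_ne _ hij]
    rw [ne_comm, Ne, Equiv.swap_apply_eq_iff, Equiv.swap_apply_right]
    exact hkl.symm, by simp⟩

theorem ip_pair (h2 : (2 : F) = 0) (hkl : k ≠ l) :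
    star (Pi.single k 1 + Pi.single l 1 : ι → F) ⬝ᵥ (Pi.single k 1 + Pi.single l 1) = 0 := by
  simp [hkl, hkl.symm, Pi.single_apply]
  linear_combination h2

theorem SMon.uq_of_fix (hG : SMon G) (h2 : (2 : F) = 0) (h3 : 3 ≤ Fintype.card ι) (hkl : k ≠ l)
    (hf : ∀ g ∈ G, g.1 *ᵥ (Pi.single k 1 + Pi.single l 1) = Pi.single k 1 + Pi.single l 1 → g ∈ Mon ι F) :
    ∃ z, Uq G (Mon ι F) z ∧ Rk z 1 (Pi.single k 1 + Pi.single l 1) 0 0 := by
  obtain ⟨z, z1, z2, z3, z4⟩ := hG.exists_tau h2 hkl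
  refine ⟨z, ⟨z1, ⟨_, z2⟩, z3, fun g hg ⟨π, hπ⟩ => ?_⟩, z4⟩
  have h1 := z4.conj' g
  have h4 := (ip_mulVec g⁻¹ _ _).trans (ip_pair h2 hkl)
  have h5 := mulVec_inv g (Pi.single k 1 + Pi.single l 1)
  generalize (g⁻¹).1 *ᵥ (Pi.single k 1 + Pi.single l 1) = w at h1 h4 h5
  obtain ⟨i, j, hij, hi, hj⟩ := exists_two_ne_zero (v := w) k fun i hi => by
    rw [dotProduct, Finset.sum_eq_single i (fun m _ hm => by simp [hi m hm]) (by simp)] at h4
    have : w = 0 := funext fun m => by_cases (fun e : m = i => by simpa [e] using h4) (hi m)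
    simpa [this, hkl] using congrFun h5 k
  have h6 : ∀ {i j}, i ≠ j → w i ≠ 0 → w j ≠ 0 → π j = i := fun hij hi hj =>
    hπ.eq (by simp [h1.apply, hij, hi, hj])
  have h7 : ∀ {i j}, i ≠ j → w i ≠ 0 → w j ≠ 0 → w j * star (w j) = 1 := fun {i j} hij hi hj => by
    have := hπ j j (h6 hij hi hj ▸ hij.symm)
    simp only [h1.apply, if_true] at this
    linear_combination this - h2
  obtain ⟨ρ, rfl, rfl⟩ := exists_perm_pair hkl hij
  obtain ⟨o, ho⟩ := exists_notMem (s := {k, l}) (Finset.card_le_two.trans_lt h3)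
  simp only [Finset.mem_insert, Finset.mem_singleton, not_or] at ho
  obtain ⟨m, m1, m2, m3⟩ := hG.exists_mon ρ o (s := fun a => if a = k then w (ρ k) else if a = l then w (ρ l) else 1)
    fun a => by split_ifs; exacts [h7 hij.symm hj hi, h7 hij hi hj, by simp]
  refine ((Mon ι F).mul_mem_cancel_right ⟨ρ, m2⟩).1 (hf _ (G.mul_mem hg m1) ?_)
  rw [mul_mulVec, ← h5, h5, mulVec_add, m2.mulVec_single, m2.mulVec_single, m3 k (Ne.symm ho.1),
    m3 l (Ne.symm ho.2), ← h5]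
  congr 1
  funext a
  by_cases e1 : a = ρ k
  · simp [e1, hij]
  · by_cases e2 : a = ρ l
    · simp [e2, hij.symm, hkl.symm]
    · simp only [Pi.add_apply, Pi.single_eq_of_ne e1, Pi.single_eq_of_ne e2, add_zero]
      exact by_contra fun e => e1 ((h6 e2 (Ne.symm e) hj).symm.trans (h6 hij hi hj))

theorem SMon.exists_rk_mul (h : IsBar (starRingEnd F) q) (hG : SMon G) (hB : Blk G) (h2 : (2 : F) = 0)
    (h3 : 3 ≤ Fintype.card ι) (hkl : k ≠ l) (hz : Uq G (Mon ι F) z)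
    (hz' : Rk z 1 (Pi.single k 1 + Pi.single l 1) 0 0) {g : U ι F} (hg : g ∈ G) (hg' : g ∉ Mon ι F) :
    ∃ y ∈ G, ∃ m ∈ Mon ι F, ∃ v, Rk y 1 v 0 0 ∧ (∀ i, v i ≠ 0) ∧ g = y * m := by
  have := h.finite
  obtain ⟨a, ha, ha'⟩ := exists_nonreal h
  obtain ⟨o, ho⟩ := exists_notMem (s := {k, l}) (Finset.card_le_two.trans_lt h3)
  simp only [Finset.mem_insert, Finset.mem_singleton, not_or] at ho
  obtain ⟨t, t1, t2, t3, -⟩ := hG.exists_t (Ne.symm ho.1) ha
  have h1 : ∀ u, star (Pi.single k 1 + Pi.single l 1) ⬝ᵥ g.1 *ᵥ u =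
      star ((g⁻¹).1 *ᵥ (Pi.single k 1 + Pi.single l 1)) ⬝ᵥ u := fun u => by rw [← ip_mulVec g⁻¹, inv_mulVec]
  by_cases h4 : star (Pi.single k 1 + Pi.single l 1) ⬝ᵥ (g * 1).1 *ᵥ (Pi.single k 1 + Pi.single l 1) = 0
  · refine Fr.exists_rk_mul hB hz hz' hg hg' t1 ⟨1, t2⟩ (odd_of_ne_zero h2 hz' hz.sq (ip_pair h2 hkl) fun h5 => ?_)
    refine hg' (hz.uniq g hg (hB.of_rk (conj_mem' hg hz.memG) (hz'.conj' g) (j := k) ?_ (by simp)))
    rw [mul_one, h1] at h4
    rw [mul_mulVec, h1, t3] at h5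
    generalize (g⁻¹).1 *ᵥ (Pi.single k 1 + Pi.single l 1) = w at h4 h5
    simp [mulVec_add, diagonal_mulVec_single, hkl.symm, Ne.symm ho.2] at h4 h5
    have : star (w k) * (a - 1) = 0 := by linear_combination h5 - h4
    exact star_eq_zero.1 ((mul_eq_zero.1 this).resolve_right fun e => ha' (by rw [sub_eq_zero.1 e, star_one]))
  · exact Fr.exists_rk_mul hB hz hz' hg hg' G.one_mem (Mon ι F).one_mem
      (odd_of_ne_zero h2 hz' hz.sq (ip_pair h2 hkl) h4)

theorem le_Mon_even (h : IsBar (starRingEnd F) q) (h2 : (2 : F) = 0) (h3 : 3 ≤ Fintype.card ι)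
    (hM : Mon ι F ≤ G) (hB : Blk G) (hkl : k ≠ l)
    (hf : ∀ g ∈ G, g.1 *ᵥ (Pi.single k 1 + Pi.single l 1) = Pi.single k 1 + Pi.single l 1 → g ∈ Mon ι F) :
    G ≤ Mon ι F := by
  have hG : SMon G := fun g hg _ => hM hg
  obtain ⟨z, hz, hz'⟩ := hG.uq_of_fix h2 h3 hkl hf
  refine le_Mon_of_cr h h3 hM hB fun g hg => by_cases cr_of_mon fun hg' => ?_
  obtain ⟨y, -, m, hm, v, h4, h5, rfl⟩ := hG.exists_rk_mul h hB h2 h3 hkl hz hz' hg hg'
  exact cr_of_rk h4 (star_one F) h5 hm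

theorem eq_of_fix (h2 : (2 : F) = 0) (hkl : k ≠ l) {g : U ι F} {c : F}
    (hg : g.1 *ᵥ (Pi.single k 1 + Pi.single l 1) = c • (Pi.single k 1 + Pi.single l 1)) {j : ι} (hk : j ≠ k)
    (hl : j ≠ l) : g.1 l j = g.1 k j := by
  have h1 := ip_mulVec g (Pi.single k 1 + Pi.single l 1) (Pi.single j 1)
  have h3 : c ≠ 0 := by
    rintro rfl
    simpa [hkl] using congrFun ((inv_mulVec g _).symm.trans (congrArg _ hg)) k
  rw [hg] at h1
  simp [hk, hl, h3, Pi.single_apply, ← mul_add] at h1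
  linear_combination h1 - g.1 k j * h2

theorem le_Mon_of_four (h : IsBar (starRingEnd F) q) (h4 : 4 ≤ Fintype.card ι) (hM : Mon ι F ≤ G) (hB : Blk G) :
    G ≤ Mon ι F := by
  by_cases h2 : (2 : F) = 0
  swap
  · exact le_Mon_odd h h2 (by omega) hM hB
  obtain ⟨k, l, j, hkl, hkj, hlj⟩ := exists_three (ι := ι) (by omega)
  refine le_Mon_even h h2 (by omega) hM hB hkl fun g hg e => by_contra fun hg' => ?_
  obtain ⟨a, ha, ha'⟩ := exists_nonreal h
  obtain ⟨o, ho⟩ := exists_notMem (s := {k, l, j}) (Finset.card_le_three.trans_lt h4)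
  simp only [Finset.mem_insert, Finset.mem_singleton, not_or] at ho
  obtain ⟨d, d1, d2⟩ := exists_diag (s := fun i => if i = k then 1 else if i = l then 1 else a) fun i => by
    split_ifs <;> simp [ha]
  have h1 : (g⁻¹ * d * g).1 *ᵥ Pi.single j 1 =
      a • Pi.single j 1 + (g.1 k j * (1 - a)) • (Pi.single k 1 + Pi.single l 1) := by
    rw [mul_mulVec, mul_mulVec, ← e, ← mulVec_smul g.1, ← inv_mulVec g (a • _ + _), mulVec_add, mulVec_smul,
      mulVec_smul, mulVec_smul, e, e, d2]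
    congr 1
    funext i
    have := eq_of_fix h2 hkl (e.trans (one_smul _ _).symm) hkj.symm hlj.symm
    simp only [mulVec_diagonal, mulVec_single_one, col_apply, Pi.add_apply, Pi.smul_apply, Pi.single_apply]
    split_ifs <;> simp_all <;> ring
  have h5 : ∀ i, (g⁻¹ * d * g).1 i j = _ := fun i => by
    simpa only [mulVec_single_one, col_apply] using congrFun h1 i
  obtain ⟨π, hπ⟩ : g⁻¹ * d * g ∈ Mon ι F := by_contra fun hne =>
    full h hM hB (conj_mem' hg (hM ⟨1, d1⟩)) hne o j (by simp [h5, ho])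
  have h7 : π j = j := hπ.eq (by
    simpa [h5, hkj.symm, hlj.symm] using left_ne_zero_of_mul_eq_one ha)
  have h6 := hπ k j (h7.symm ▸ hkj)
  simp [h5, hkj, hkl, full h hM hB hg hg', sub_eq_zero] at h6
  exact ha' (by rw [← h6, star_one])

end even

end CL.Uni.Fr
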