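import Cfsg.Agent.Cls.UniFr2

/-!
# Frames in unitary groups, III: overgroups of the monomial group of determinant one
-/

set_option autoImplicit false

namespace CL.Uni.Fr

open Matrix

universe u

variable {F : Type u} [Field F] [StarRing F] {ι : Type} [Fintype ι] [DecidableEq ι] {q : ℕ}
variable {G : Subgroup (U ι F)} {g x z : U ι F} {a : F} {v w r : ι → F} {π : Equiv.Perm ι} {k l : ι}

theorem rk_moved (hx : Rk x (a - 1) v (star a - 1) w) (hπ : IsMon x π) (ha : a * star a = 1) (ha' : star a ≠ a) :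
    (∀ i, π i ≠ i → v i * star (v i) * (2 - a - star a) = 1) ∧
      ∀ i m, i ≠ m → π m ≠ i → π i ≠ m → v i * star (v m) = 0 := by
  have h0 := sub_ne_zero.2 ha'
  refine ⟨fun i hi => ?_, fun i m him h1 h2 => ?_⟩
  · have h1 := hπ i i hi.symm
    have h2 := congrArg star h1
    simp only [hx.apply, if_true, star_add, star_mul', star_sub, star_star, star_one, star_zero] at h1 h2
    have : v i * star (v i) = w i * star (w i) := mul_left_cancel₀ h0 (by linear_combination h2 - h1)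
    linear_combination -h1 - (star a - 1) * this
  · have h3 := hπ i m h1.symm
    have h4 := congrArg star (hπ m i h2.symm)
    simp only [hx.apply, him, him.symm, if_false, star_add, star_mul', star_sub, star_star, star_one,
      star_zero] at h3 h4
    have h5 : v i * star (v m) = w i * star (w m) := mul_left_cancel₀ h0 (by linear_combination h4 - h3)
    have h6 : (a - 1) * (star a - 1) ≠ 0 := mul_ne_zero (fun e => ha' (by rw [sub_eq_zero.1 e, star_one]))
      fun e => ha' (by rw [sub_eq_zero.1 e, ← star_star a, sub_eq_zero.1 e, star_one])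
    exact (mul_eq_zero.1 (by linear_combination -h3 - (star a - 1) * h5 + v i * star (v m) * ha)).resolve_left h6

theorem rk_supp (hx : Rk x (a - 1) v (star a - 1) w) (hπ : IsMon x π) (ha : a * star a = 1) (ha' : star a ≠ a)
    (hv : ∃ i l, i ≠ l ∧ v i ≠ 0 ∧ v l ≠ 0) (i : ι) : v i ≠ 0 ↔ π i ≠ i := by
  obtain ⟨h1, h2⟩ := rk_moved hx hπ ha ha'
  refine ⟨fun hi e => ?_, fun hi => left_ne_zero_of_mul (left_ne_zero_of_mul_eq_one (h1 i hi))⟩
  obtain ⟨m, hm, hm'⟩ : ∃ m, i ≠ m ∧ v m ≠ 0 := by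
    obtain ⟨j, l, hjl, hj, hl⟩ := hv
    rcases eq_or_ne i j with rfl | h
    exacts [⟨l, hjl, hl⟩, ⟨j, h, hj⟩]
  simpa [hi, hm'] using h2 i m hm (fun e' => hm (π.injective (e.trans e'.symm))) (e.symm ▸ hm)

open Classical in
theorem row_supp (hG : SMon G) (hB : Blk G) (hg : g ∈ G) (hg' : g ∉ Mon ι F) {j : ι} (hkl : k ≠ l)
    (h1 : g.1 k j = 0) (h2 : g.1 l j = 0) (ha : a * star a = 1) (ha' : star a ≠ a) :
    (∀ i, g.1 k i = 0 → g.1 l i = 0) ∧ (Finset.univ.filter (g.1 k · ≠ 0)).card ≤ 3 ∧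
      ((Finset.univ.filter (g.1 k · ≠ 0)).card = 3 → a + star a = -1) := by
  obtain ⟨t, t1, -, -, t2⟩ := hG.exists_t hkl ha
  have hx := t2.conj' g
  obtain ⟨π, hπ⟩ := hB.of_rk (conj_mem' hg t1) hx (j := j) (by simp [inv_apply, h1]) (by simp [inv_apply, h2])
  have h3 : ∀ k, ∃ i l, i ≠ l ∧ ((g⁻¹).1 *ᵥ Pi.single k 1) i ≠ 0 ∧ ((g⁻¹).1 *ᵥ Pi.single k 1) l ≠ 0 := fun k => by
    simpa only [inv_mulVec_single, star_ne_zero] using hB.two_ne_zero hg hg' k
  have h4 := rk_supp hx hπ ha ha' (h3 k)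
  have h5 := rk_supp (a := star a) (by simpa only [star_star] using hx.symm) hπ (by rw [star_star, mul_comm, ha])
    (by rw [star_star]; exact ha'.symm) (h3 l)
  obtain ⟨h6, h7⟩ := rk_moved hx hπ ha ha'
  simp only [inv_mulVec_single, star_ne_zero, star_star] at h4 h5 h6 h7
  refine ⟨fun i hi => by_contra fun e => (h4 i).2 ((h5 i).1 e) hi, ?_, fun e => ?_⟩
  · obtain ⟨i, -, -, hi, -⟩ := hB.two_ne_zero hg hg' k
    refine (Finset.card_le_card (t := {i, π i, π.symm i}) fun m hm => by_contra fun hm' => ?_).trans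
      Finset.card_le_three
    simp only [Finset.mem_insert, Finset.mem_singleton, not_or, Equiv.eq_symm_apply] at hm'
    simpa [hi, (Finset.mem_filter.1 hm).2] using h7 i m (Ne.symm hm'.1) hm'.2.2 (Ne.symm hm'.2.1)
  · have h8 := row_orth g k k
    rw [if_pos rfl, ← Finset.sum_filter_of_ne (p := (g.1 k · ≠ 0)) fun i _ => left_ne_zero_of_mul] at h8
    have h9 := congrArg (· * (2 - a - star a)) h8
    simp only [Finset.sum_mul] at h9
    rw [Finset.sum_congr rfl (g := fun _ => (1 : F)) fun i hi => by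
      rw [mul_comm (g.1 k i)]; exact h6 i ((h4 i).1 (Finset.mem_filter.1 hi).2), Finset.sum_const, e] at h9
    simp only [nsmul_eq_mul, Nat.cast_ofNat] at h9
    linear_combination h9

/-- No column of a non-monomial element has two zeros. -/
def BP (G : Subgroup (U ι F)) : Prop := ∀ g ∈ G, ∀ j k l, k ≠ l → g.1 k j = 0 → g.1 l j = 0 → g ∈ Mon ι F

theorem bp (h : IsBar (starRingEnd F) q) (hn : 7 ≤ Fintype.card ι ∨ 5 ≤ Fintype.card ι ∧ 3 ≤ q) (hG : SMon G)
    (hB : Blk G) : BP G := fun g hg j k l hkl h1 h2 => by_contra fun hg' => by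
  classical
  obtain ⟨a, ha⟩ := h.exists_primitiveRoot
  have a1 : a * star a = 1 := (h.norm_eq_pow a).trans ha.pow_eq_one
  have := h.two_le
  have a2 : star a ≠ a := fun e => ha.pow_ne_one_of_pos_of_lt two_ne_zero (by omega) (by rw [sq, ← a1, e])
  obtain ⟨c, c1, c2, c3⟩ : ∃ c, 2 * c < Fintype.card ι ∧ 2 ≤ c ∧ ∀ n ≤ 3, (n = 3 → a + star a = -1) → n ≤ c := by
    rcases hn with hn | hn
    · exact ⟨3, by omega, by omega, fun _ h _ => h⟩
    · refine ⟨2, by omega, le_rfl, fun n h1 h2 => by_contra fun h3 => ha.pow_ne_one_of_pos_of_lt three_ne_zero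
        (by omega) ?_⟩
      linear_combination (a ^ 2 - a) * h2 (by omega) - (a - 1) * a1
  have h3 := row_supp hG hB hg hg' hkl h1 h2 a1 a2
  have h4 := c3 _ h3.2.1 h3.2.2
  have h5 := Finset.card_filter_add_card_filter_not (s := Finset.univ) (g.1 k · ≠ 0)
  rw [Finset.card_univ] at h5
  have h6 : ∀ m ∈ Finset.univ.filter (¬ g.1 k · ≠ 0), (g⁻¹).1 m k = 0 := fun m hm => by
    rw [inv_apply, not_not.1 (Finset.mem_filter.1 hm).2, star_zero]
  generalize Finset.univ.filter (¬ g.1 k · ≠ 0) = T at h5 h6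
  obtain ⟨m, hm, m', hm', hmm⟩ := Finset.one_lt_card.1 (show 1 < T.card by omega)
  have h7 := fun m' hm' hmm => row_supp hG hB (G.inv_mem hg) (mt (Mon ι F).inv_mem_iff.1 hg') hmm (h6 m hm)
    (h6 m' hm') a1 a2
  have h8 := c3 _ (h7 m' hm' hmm).2.1 (h7 m' hm' hmm).2.2
  have h9 := card_le_of_orth (fun b : T => (g⁻¹).1 b) (Finset.univ.filter ((g⁻¹).1 m · ≠ 0)) (fun b i hi => by
    have hi' : (g⁻¹).1 m i = 0 := by simpa using hi
    rcases eq_or_ne m b with e | e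
    exacts [e ▸ hi', (h7 b b.2 e).1 i hi']) (fun b b' e => by
      simpa [dotProduct, mul_comm, Subtype.coe_ne_coe.2 e.symm] using row_orth g⁻¹ b' b) fun b => by
      simpa [dotProduct, mul_comm] using (row_orth g⁻¹ b b).trans_ne (by simp)
  rw [Fintype.card_coe] at h9
  omega

/-- The elements of `C` act on the coordinates in `I`. -/
def Cut (C : Subgroup (U ι F)) (I : Finset ι) : Prop :=
  ∀ g ∈ C, ∀ h ∈ C, ∀ i ∈ I, ∀ m ∈ I, ∑ j ∈ Iᶜ, g.1 i j * h.1 j m = 0

section cut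

variable {C : Subgroup (U ι F)} {I : Finset ι}

theorem Cut.mul (hC : Cut C I) (g h : C) : (g * h).1.1.submatrix ((↑) : I → ι) ((↑) : I → ι) =
    g.1.1.submatrix ((↑) : I → ι) ((↑) : I → ι) * h.1.1.submatrix ((↑) : I → ι) ((↑) : I → ι) := by
  ext i m
  simp only [submatrix_apply, mul_apply, Subgroup.coe_mul, Submonoid.coe_mul]
  rw [← Finset.sum_add_sum_compl I, hC _ g.2 _ h.2 _ i.2 _ m.2, add_zero, ← Finset.sum_coe_sort]

/-- The action on the coordinates in `I`. -/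
def Cut.res (hC : Cut C I) : C →* U I F where
  toFun g := ⟨g.1.1.submatrix (↑) (↑), (hC.mul g⁻¹ g).symm.trans (by simp [submatrix_one _ Subtype.val_injective]),
    (hC.mul g g⁻¹).symm.trans (by simp [submatrix_one _ Subtype.val_injective])⟩
  map_one' := Subtype.ext (submatrix_one _ Subtype.val_injective)
  map_mul' g h := Subtype.ext (hC.mul g h)

theorem Cut.transfer (hC : Cut C I) (h1 : ∀ g π, IsMon g π → (∀ k ∉ I, π k = k ∧ g.1 k k = 1) →
      ∃ g' ∈ C, ∀ i ∈ I, ∀ j ∈ I, g'.1 i j = g.1 i j)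
    (h2 : ∀ g ∈ C, ∀ i ∈ I, ∀ j ∈ I, (∀ k ∈ I, k ≠ i → g.1 k j = 0) → g ∈ Mon ι F) :
    Mon I F ≤ hC.res.range ∧ Blk hC.res.range ∧ (I.Nonempty → hC.res.range ≤ Mon I F → C ≤ Mon ι F) := by
  refine ⟨?_, ?_, fun ⟨j, hj⟩ h g hg => ?_⟩
  · rintro x ⟨π, hπ⟩
    obtain ⟨g, g1, g2, -⟩ := exists_mon (Equiv.Perm.ofSubtype π)
      (s := fun i => if h : i ∈ I then x.1 (π ⟨i, h⟩) ⟨i, h⟩ else 1) fun i => by
        split_ifs
        exacts [(mul_comm _ _).trans (hπ.norm _), by simp]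
    obtain ⟨g', hg', e⟩ := h1 g _ g1 fun k hk => by
      have := Equiv.Perm.ofSubtype_apply_of_not_mem π hk
      exact ⟨this, by simpa [this, hk] using g2 k⟩
    refine ⟨⟨g', hg'⟩, Subtype.ext (Matrix.ext fun i j => (e _ i.2 _ j.2).trans ?_)⟩
    rcases eq_or_ne i (π j) with rfl | hij
    · simpa using g2 j
    · rw [hπ i j hij, g1 i j (by simpa using Subtype.coe_ne_coe.2 hij)]
  · rintro _ ⟨g, rfl⟩ i j h
    obtain ⟨π, hπ⟩ := h2 _ g.2 _ i.2 _ j.2 fun k hk e => h ⟨k, hk⟩ fun e' => e (congrArg Subtype.val e')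
    refine mem_Mon_of_col fun m => ?_
    by_cases hm : π m ∈ I
    · exact ⟨⟨_, hm⟩, fun k hk => hπ _ _ fun e => hk (Subtype.ext e)⟩
    · exact ⟨m, fun k _ => hπ _ _ fun e => hm (e ▸ k.2)⟩
  · obtain ⟨π, hπ⟩ := h ⟨⟨g, hg⟩, rfl⟩
    exact h2 g hg _ (π ⟨j, hj⟩).2 j hj fun k hk e => hπ ⟨k, hk⟩ ⟨j, hj⟩ fun e' => e (congrArg Subtype.val e')

end cut

theorem norm_det (g : U ι F) : g.1.det * star g.1.det = 1 := (det_of_mem_unitary g.2).2

theorem IsMon.mulVec_apply (hπ : IsMon x π) (v : ι → F) (i : ι) : (x.1 *ᵥ v) (π i) = x.1 (π i) i * v i := by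
  rw [mulVec, dotProduct, Finset.sum_eq_single i (fun m _ hm => by simp [hπ _ m (π.injective.ne hm.symm)]) (by simp)]

theorem zero_of_no_cycle (hπ : IsMon x π) {W : Submodule F (ι → F)} (hW : x ∈ Sup W) (A : Finset ι)
    (hr : Module.finrank F W ≤ A.card) (hA : ∀ S : Set ι, (∀ i ∈ S, π i ∈ S) → (∀ i ∈ S, i ∈ A) → ∀ i, i ∉ S)
    {j : ι} (h1 : j ∉ A) (h2 : ∀ a ∈ A, j ≠ π a) (hv : v ∈ W) : v j = 0 := by
  have hl : LinearIndependent F fun a : A => x.1 *ᵥ Pi.single a.1 1 - Pi.single a.1 1 := by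
    refine Fintype.linearIndependent_iff.2 fun c hc a => ?_
    have h3 : x.1 *ᵥ ∑ b : A, c b • Pi.single b.1 1 = ∑ b : A, c b • Pi.single b.1 1 := by
      simpa only [smul_sub, Finset.sum_sub_distrib, sub_eq_zero, mulVec_sum, mulVec_smul] using hc
    have h4 := hA {i | (∑ b : A, c b • Pi.single b.1 1 : ι → F) i ≠ 0} (fun i hi => by
      rw [Set.mem_setOf_eq, ← h3, hπ.mulVec_apply]
      exact mul_ne_zero (hπ.ne_zero i) hi) (fun i hi => by_contra fun e => hi (by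
        rw [Finset.sum_apply]
        exact Finset.sum_eq_zero fun b _ => by simp [Pi.single_eq_of_ne (fun e' : i = b.1 => e (e' ▸ b.2))])) a
    simpa [Pi.single_apply, Subtype.val_inj] using h4
  rw [← Submodule.eq_of_le_of_finrank_le (Submodule.span_le.2 (Set.range_subset_iff.2 fun a => hW _))
    (by rw [finrank_span_eq_card hl]; simpa using hr)] at hv
  refine (Submodule.span_le (p := LinearMap.ker (LinearMap.proj j))).2 (Set.range_subset_iff.2 fun a => ?_) hv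
  simp [hπ j a (h2 a a.2), Pi.single_eq_of_ne (fun e' : j = a.1 => h1 (e' ▸ a.2))]

/-- The stabiliser of a line. -/
def LnSt (r : ι → F) : Subgroup (U ι F) where
  carrier := {g | ∃ c : F, g.1 *ᵥ r = c • r}
  one_mem' := ⟨1, by simp⟩
  mul_mem' := fun ⟨c, h⟩ ⟨c', h'⟩ => ⟨c' * c, by rw [mul_mulVec, h', mulVec_smul, h, smul_smul]⟩
  inv_mem' := fun {g} ⟨c, h⟩ => by
    have h1 := inv_mulVec g r
    rw [h, mulVec_smul] at h1
    rcases eq_or_ne c 0 with rfl | hc
    · exact ⟨0, by rw [zero_smul] at h1 ⊢; rw [← h1, mulVec_zero]⟩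
    · exact ⟨c⁻¹, by rw [eq_inv_smul_iff₀ hc, h1]⟩

theorem exists_two_notMem {s : Finset ι} (h : s.card + 1 < Fintype.card ι) : ∃ i j, i ≠ j ∧ i ∉ s ∧ j ∉ s := by
  obtain ⟨i, hi⟩ := exists_notMem (s := s) (by omega)
  obtain ⟨j, hj⟩ := exists_notMem (s := insert i s) ((Finset.card_insert_le _ _).trans_lt h)
  rw [Finset.mem_insert, not_or] at hj
  exact ⟨i, j, Ne.symm hj.1, hi, hj.2⟩

theorem mem_Mon_of_fix (h : IsBar (starRingEnd F) q) (h2 : (2 : F) = 0) (hn : 6 ≤ Fintype.card ι) (hG : SMon G)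
    (hP : BP G) (hkl : k ≠ l) : G ⊓ LnSt (Pi.single k 1 + Pi.single l 1) ≤ Mon ι F := by
  have hI : ∀ {i}, i ∈ ({k, l} : Finset ι)ᶜ ↔ i ≠ k ∧ i ≠ l := by simp
  have hC : Cut (G ⊓ LnSt (Pi.single k 1 + Pi.single l 1)) {k, l}ᶜ := by
    rintro g ⟨-, c, hc⟩ g' ⟨-, c', hc'⟩ i hi m hm
    have h1 := congrFun hc i
    simp [mulVec_add, hI.1 hi] at h1
    rw [compl_compl, Finset.sum_pair hkl, eq_of_fix h2 hkl hc' (hI.1 hm).1 (hI.1 hm).2, ← add_mul, h1, zero_mul]
  have hc : ({k, l} : Finset ι)ᶜ.card = Fintype.card ι - 2 := by rw [Finset.card_compl, Finset.card_pair hkl]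
  obtain ⟨h3, h4, h5⟩ := hC.transfer (fun g π hπ e => by
    obtain ⟨m, hm⟩ : Even q := Nat.not_odd_iff_even.1 fun ⟨m, hm⟩ => one_ne_zero (α := F) (by
      have := h.cast_q
      rw [hm] at this
      push_cast at this
      linear_combination this - m * h2)
    have h3 := norm_det g
    obtain ⟨d, d1, d2⟩ := exists_diag (s := fun i => if i = k ∨ i = l then g.1.det ^ m else 1) fun i => by
      split_ifs <;> simp [← mul_pow, h3]
    refine ⟨g * d, ⟨hG _ ⟨_, hπ.mul d1⟩ ?_, g.1.det ^ m, ?_⟩, fun i _ j hj => ?_⟩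
    · rw [Submonoid.coe_mul, det_mul, d2, det_diagonal, ← Finset.prod_mul_prod_compl {k, l}, Finset.prod_pair hkl,
        Finset.prod_eq_one fun i hi => by simp [hI.1 hi]]
      simp only [true_or, or_true, if_true]
      rw [show _ * star _ = _ from h.norm_eq_pow _, hm] at h3
      linear_combination h3
    · have h4 := e k (by simp)
      have h5 := e l (by simp)
      rw [mul_mulVec, d2, show diagonal _ *ᵥ _ = g.1.det ^ m • (Pi.single k 1 + Pi.single l 1) from funext fun i => by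
        simp only [mulVec_diagonal, Pi.smul_apply, Pi.add_apply, Pi.single_apply]
        split_ifs <;> simp_all, mulVec_smul, mulVec_add, hπ.mulVec_single, hπ.mulVec_single, h4.1, h5.1, h4.2, h5.2]
    · rw [Submonoid.coe_mul, d2, mul_diagonal, if_neg (not_or.2 (hI.1 hj)), mul_one]) fun g hg i _ j _ e => by
    obtain ⟨a, b, hab, ha, hb⟩ := exists_two_notMem (s := {i, k, l}) (by have := @Finset.card_le_three _ _ i k l; omega)
    simp only [Finset.mem_insert, Finset.mem_singleton, not_or] at ha hb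
    exact hP g hg.1 j a b hab (e a (hI.2 ha.2) ha.1) (e b (hI.2 hb.2) hb.1)
  exact h5 (Finset.card_pos.1 (by omega)) (le_Mon_of_four h (by rw [Fintype.card_coe]; omega) h3 h4)

theorem mul_mem_Mon {y y' z₁ z₂ : U ι F} (h1 : g⁻¹ * y ∈ Mon ι F) (h2 : g⁻¹ * y' ∈ Mon ι F) (h3 : y * y = 1)
    (h4 : y' * y' = 1) (h5 : y * z₁ * y = y' * z₂ * y') :
    y' * y ∈ Mon ι F ∧ y' * y * z₁ * (y' * y)⁻¹ = z₂ := by
  have e := inv_eq_of_mul_eq_one_right h3
  have e' := inv_eq_of_mul_eq_one_right h4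
  refine ⟨by simpa [e', mul_assoc] using (Mon ι F).mul_mem ((Mon ι F).inv_mem h2) h1, ?_⟩
  rw [_root_.mul_inv_rev, e, e', show y' * y * z₁ * (y * y') = y' * (y * z₁ * y) * y' by group, h5,
    show y' * (y' * z₂ * y') * y' = y' * y' * z₂ * (y' * y') by group, h4, one_mul, mul_one]

theorem le_Mon_SU_even (h : IsBar (starRingEnd F) q) (h2 : (2 : F) = 0) (hn : 6 ≤ Fintype.card ι) (hG : SMon G)
    (hB : Blk G) (hP : BP G) : G ≤ Mon ι F := fun g hg => by_contra fun hg' => by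
  have := h.finite
  obtain ⟨k, l, hkl, -⟩ := exists_two_notMem (s := (∅ : Finset ι)) (by simp; omega)
  obtain ⟨z, hz, hz'⟩ := hG.uq_of_fix h2 (by omega) hkl fun g hg e =>
    mem_Mon_of_fix h h2 hn hG hP hkl ⟨hg, 1, by rw [e, one_smul]⟩
  have h0 := ip_pair h2 hkl
  obtain ⟨a, ha, ha'⟩ := exists_nonreal h
  have h1 : ∀ i, (g.1 *ᵥ (Pi.single k 1 + Pi.single l 1)) i ≠ 0 := fun i hi => hg' ((Mon ι F).inv_mem_iff.1
    (hz.uniq _ (G.inv_mem hg) (by simpa using hB.of_rk (conj_mem hg hz.memG) (hz'.conj g) hi (by simp))))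
  have key : ∀ i j, i ≠ j → ∃ y ∈ G, ∃ v ρ z₁, Rk y 1 v 0 0 ∧ y * y = 1 ∧ g⁻¹ * y ∈ Mon ι F ∧ Rk z₁ 1 ρ 0 0 ∧
      (∀ m, ρ m ≠ 0 ↔ m = i ∨ m = j) ∧ y * z₁ * y = g * z * g⁻¹ := fun i j hij => by
    obtain ⟨π, rfl, rfl⟩ := exists_perm_pair hkl hij
    obtain ⟨o, ho⟩ := exists_notMem (s := {k, l}) (Finset.card_le_two.trans_lt (by omega))
    simp only [Finset.mem_insert, Finset.mem_singleton, not_or] at ho
    obtain ⟨b, hb, hb'⟩ : ∃ b : F, b * star b = 1 ∧ star (Pi.single (π k) 1 + Pi.single (π l) b) ⬝ᵥ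
        g.1 *ᵥ (Pi.single k 1 + Pi.single l 1) ≠ 0 := by
      by_contra hc
      push Not at hc
      have b1 := hc 1 (by simp)
      have b2 := hc a ha
      have b3 := h1 (π l)
      generalize g.1 *ᵥ (Pi.single k 1 + Pi.single l 1) = r at b1 b2 b3
      simp only [star_add, Pi.star_single, add_dotProduct, single_dotProduct, star_one] at b1 b2
      exact ha' (by rw [show star a = 1 from mul_right_cancel₀ b3 (by linear_combination b2 - b1), ← star_star a,
        show star a = 1 from mul_right_cancel₀ b3 (by linear_combination b2 - b1), star_one])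
    obtain ⟨m, m1, m2, m3⟩ := hG.exists_mon π o (s := fun i => if i = l then b else 1) fun i => by
      split_ifs <;> simp [hb]
    have m4 : m.1 *ᵥ (Pi.single k 1 + Pi.single l 1) = Pi.single (π k) 1 + Pi.single (π l) b := by
      rw [mulVec_add, m2.mulVec_single, m2.mulVec_single, m3 k (Ne.symm ho.1), m3 l (Ne.symm ho.2), if_neg hkl,
        if_pos rfl]
    have m5 := (hz'.conj m).zero_right 0
    have m6 := odd_of_ne_zero h2 m5 (by rw [conj_mul, hz.sq, mul_one, mul_inv_cancel]) (by rwa [ip_mulVec])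
      (g := g * m⁻¹) (by rwa [mul_mulVec, inv_mulVec, m4])
    obtain ⟨u, hu, y, e1, e2, e3⟩ := hz.exists_swap le_rfl m1 hg (conj_mem m1 hz.memG) (conj_mem hg hz.memG)
      (by rwa [show g * m⁻¹ * (m * z * m⁻¹) * (g * m⁻¹)⁻¹ = g * z * g⁻¹ by group] at m6)
    refine ⟨y, e1 ▸ conj_mem (G.mul_mem hu m1) hz.memG, _, _, _, (e1 ▸ hz'.conj (u * m) : Rk y _ _ _ _).zero_right 0,
      by rw [e1, conj_mul, hz.sq, mul_one, mul_inv_cancel], ((Mon ι F).mul_mem_cancel_right ⟨π, m2⟩).1 e3, m5,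
      fun i => ?_, e2⟩
    have := left_ne_zero_of_mul_eq_one hb
    simp only [m4, Pi.add_apply, Pi.single_apply]
    split_ifs <;> simp_all
  obtain ⟨k', l', hkl', hk', hl'⟩ := exists_two_notMem (s := {k, l}) (by have := @Finset.card_le_two _ _ k l; omega)
  obtain ⟨j, hj⟩ := exists_notMem (s := {k, l, k', l'}) (Finset.card_le_four.trans_lt (by omega))
  obtain ⟨y, hy, v, ρ, z₁, a1, a2, a3, a4, a5, a6⟩ := key k l hkl
  obtain ⟨y', -, v', ρ', z₂, b1, b2, b3, b4, b5, b6⟩ := key k' l' hkl'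
  obtain ⟨⟨π, hπ⟩, e⟩ := mul_mem_Mon a3 b3 a2 b2 (a6.trans b6.symm)
  have h3 : ∀ i ∈ ({k, l} : Finset ι), π i = k' ∨ π i = l' := fun i hi => (b5 _).1 fun h0 => by
    have h4 := (e ▸ a4.conj (y' * y) : Rk z₂ _ _ _ _).apply (π i) (π i)
    rw [hπ.mulVec_apply] at h4
    exact hπ.ne_zero i (by simpa [b4.apply, h0, (a5 i).2 (by simpa using hi)] using h4)
  suffices v j = 0 from hg' (by simpa using (Mon ι F).mul_mem (hB.of_rk hy a1 this rfl) ((Mon ι F).inv_mem a3))
  refine zero_of_no_cycle hπ (mul_mem (b1.zero_right v).symm.mem_Sup (a1.zero_right v').mem_Sup) {k, l}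
    ((finrank_span_pair_le _ _).trans (Finset.card_pair hkl).ge) (fun S s1 s2 i hi => ?_) (fun e => hj ?_)
    (fun i hi e => hj ?_) (Submodule.subset_span (by simp))
  · rcases h3 i (s2 i hi) with e | e
    exacts [hk' (e ▸ s2 _ (s1 i hi)), hl' (e ▸ s2 _ (s1 i hi))]
  · rcases Finset.mem_insert.1 e with e | e <;> simp_all
  · rcases h3 i hi with e' | e' <;> simp [e, e']

end CL.Uni.Fr
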