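import Cfsg.Agent.Cls.UniFr3
import Cfsg.Agent.Inv.ZStar

/-!
# Frames in unitary groups, IV: overgroups of the monomial group of determinant one, odd characteristic
-/

set_option autoImplicit false

namespace CL.Uni.Fr

open Matrix

universe u

variable {F : Type u} [Field F] [StarRing F] {ι : Type} [Fintype ι] [DecidableEq ι] {q : ℕ}
variable {G : Subgroup (U ι F)} {a b g x y y' z : U ι F} {π : Equiv.Perm ι} {k l : ι}

theorem eq_one_of_conj {Γ : Type*} [Group Γ] {a x : Γ} (h : a⁻¹ * x * a = 1) : x = 1 := by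
  rwa [mul_assoc, inv_mul_eq_one, right_eq_mul] at h

/-- The sign vector of a pair. -/
def sg (F : Type u) [Field F] (k l i : ι) : F := if i = k ∨ i = l then -1 else 1

omit [StarRing F] [Fintype ι] in
theorem sg_eq (k l i : ι) (hkl : k ≠ l) :
    sg F k l i = 1 - 2 * ((if i = k then 1 else 0) + if i = l then 1 else 0) := by
  simp only [sg]
  split_ifs <;> simp_all <;> norm_num

theorem exists_z (hG : SMon G) (hP : BP G) (h2 : (2 : F) ≠ 0) (hn : 5 ≤ Fintype.card ι) (hkl : k ≠ l) :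
    ∃ z, Uq G (Mon ι F) z ∧ z.1 = diagonal (sg F k l) ∧ Rk z (-2) (Pi.single k 1) (-2) (Pi.single l 1) := by
  obtain ⟨z, z1, z2, z3, z4⟩ := hG.exists_t hkl (a := (-1 : F)) (by simp)
  replace z3 : z.1 = diagonal (sg F k l) := z3.trans (congrArg _ (funext fun i => by
    simp only [sg]; split_ifs <;> simp_all))
  replace z4 : Rk z (-2) (Pi.single k 1) (-2) (Pi.single l 1) := by convert z4 using 1 <;> norm_num
  refine ⟨z, ⟨z1, ⟨1, z2⟩, Subtype.ext ?_, fun g hg ⟨π, hπ⟩ => by_contra fun hg' => ?_⟩, z3, z4⟩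
  · rw [Submonoid.coe_mul, z3, diagonal_mul_diagonal, OneMemClass.coe_one, ← diagonal_one]
    exact congrArg _ (funext fun i => by simp only [sg]; split_ifs <;> simp)
  have h1 : ∀ i m, (g⁻¹ * z * g).1 i m = (if i = m then 1 else 0) -
      2 * (star ![g.1 k i, g.1 l i] ⬝ᵥ ![g.1 k m, g.1 l m]) := fun i m => by
    simp [(z4.conj' g).apply, inv_apply, dotProduct]
    ring
  have h3 : ∀ i m, i ≠ m → m ≠ π i → star ![g.1 k m, g.1 l m] ⬝ᵥ ![g.1 k i, g.1 l i] = 0 ∧
      star ![g.1 k i, g.1 l i] ⬝ᵥ ![g.1 k m, g.1 l m] = 0 := fun i m him e => by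
    have := hπ m i e
    rw [h1, if_neg him.symm, zero_sub, neg_eq_zero, mul_eq_zero, or_iff_right h2] at this
    exact ⟨this, by rw [star_dotProduct, this, star_zero]⟩
  obtain ⟨i, hi⟩ := exists_notMem (s := {k, π k}) (Finset.card_le_two.trans_lt (by omega))
  obtain ⟨j, hj⟩ := exists_notMem (s := {k, π k, i, π i}) (Finset.card_le_four.trans_lt (by omega))
  simp only [Finset.mem_insert, Finset.mem_singleton, not_or] at hi hj
  have a1 := h3 k i (Ne.symm hi.1) hi.2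
  have a2 := h3 k j (Ne.symm hj.1) hj.2.1
  have a3 := h3 i j (Ne.symm hj.2.2.1) hj.2.2.2
  refine absurd (card_le_of_orth (fun c : Fin 3 => ![g.1 k (![k, i, j] c), g.1 l (![k, i, j] c)]) Finset.univ
    (by simp) (fun c d hcd => ?_) fun c h0 => ?_) (by simp)
  · fin_cases c <;> fin_cases d
    exacts [absurd rfl hcd, a1.2, a2.2, a1.1, absurd rfl hcd, a3.2, a2.1, a3.1, absurd rfl hcd]
  · generalize ![k, i, j] c = m at h0
    have h4 := h1 m m
    rw [h0, if_pos rfl, mul_zero, sub_zero] at h4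
    have h5 := fun n => eig_of_diag z3 (fun n hn => hπ n m ((hπ.eq (h4.trans_ne one_ne_zero)).symm ▸ hn)) n
    have h6 : ∀ n, n = k ∨ n = l → g.1 n m = 0 := fun n hn => (mul_eq_zero.1 (by
      have := h5 n
      rw [h4, sg, if_pos hn] at this
      linear_combination -this)).resolve_left h2
    exact hg' (hP g hg m k l hkl (h6 k (by simp)) (h6 l (by simp)))

theorem eq_one_of_eig (hP : BP G) (hn : 6 ≤ Fintype.card ι) (hg : g ∈ G) (hg' : g ∉ Mon ι F)
    (hy : y.1 = diagonal fun i => sg F k l (π.symm i) * sg F k l i) {i : ι}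
    (h : ∀ m, m ≠ i → (g⁻¹ * y * g).1 m i = 0) : y = 1 := by
  have h1 := eig_of_diag hy h
  generalize (g⁻¹ * y * g).1 i i = c at h1
  have h2 : ∀ m m', m ≠ m' → sg F k l (π.symm m) * sg F k l m ≠ c → sg F k l (π.symm m') * sg F k l m' = c :=
    fun m m' hm e => by_contra fun e' => hg' (hP g hg i m m' hm
      ((mul_eq_zero.1 (by linear_combination h1 m)).resolve_left (sub_ne_zero.2 e))
      ((mul_eq_zero.1 (by linear_combination h1 m')).resolve_left (sub_ne_zero.2 e')))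
  obtain rfl : c = 1 := by_contra fun hc => by
    obtain ⟨m, m', hm, h3, h4⟩ := exists_two_notMem (s := {k, l, π k, π l})
      (by have := @Finset.card_le_four _ _ k l (π k) (π l); omega)
    simp only [Finset.mem_insert, Finset.mem_singleton, not_or] at h3 h4
    have := h2 m m' hm (by simpa [sg, Equiv.symm_apply_eq, h3] using Ne.symm hc)
    exact hc (by simpa [sg, Equiv.symm_apply_eq, h4] using this.symm)
  refine Subtype.ext (hy.trans ((congrArg _ (funext fun m => by_contra fun e => e ?_)).trans diagonal_one))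
  have h3 : ∏ m, sg F k l (π.symm m) * sg F k l m = 1 := by
    rw [Finset.prod_mul_distrib, Equiv.prod_comp π.symm, ← Finset.prod_mul_distrib]
    exact Finset.prod_eq_one fun m _ => by simp only [sg]; split_ifs <;> simp
  rwa [Finset.prod_eq_single m (fun m' _ hm => h2 m m' hm.symm e) (by simp)] at h3

theorem odd_mul [Finite F] (hP : BP G) (hn : 6 ≤ Fintype.card ι) (hz : Uq G (Mon ι F) z)
    (hz' : z.1 = diagonal (sg F k l)) (ha : a ∈ G) (hb : b ∈ G) (h : a⁻¹ * b ∉ Mon ι F) :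
    Odd (orderOf (a * z * a⁻¹ * (b * z * b⁻¹))) := by
  have hg := G.mul_mem (G.inv_mem ha) hb
  rw [← SemiconjBy.orderOf_eq a (x := z * (a⁻¹ * b * z * (a⁻¹ * b)⁻¹)) (by rw [SemiconjBy]; group)]
  by_contra ho
  obtain ⟨y, y1, ⟨π, y2⟩, y3⟩ := hz.exists_diag hz' hg ho
  exact y1 (eq_one_of_eig hP hn hg h y2 (y3 · k))

/-- A conjugate of `z` interchanging the standard frame and its image under `g`. -/
def Sw (G : Subgroup (U ι F)) (z g y : U ι F) : Prop := (∃ a ∈ G, y = a * z * a⁻¹) ∧ g⁻¹ * y ∈ Mon ι F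

theorem Sw.sq (hz : Uq G (Mon ι F) z) (hy : Sw G z g y) : y * y = 1 := by
  obtain ⟨⟨a, -, rfl⟩, -⟩ := hy
  rw [conj_mul, hz.sq, mul_one, mul_inv_cancel]

theorem Sw.notMem (hy : Sw G z g y) (hg' : g ∉ Mon ι F) : y ∉ Mon ι F := fun h =>
  hg' (by simpa using (Mon ι F).mul_mem h ((Mon ι F).inv_mem hy.2))

theorem exists_sw [Finite F] (hG : SMon G) (hP : BP G) (hn : 6 ≤ Fintype.card ι) (hkl : k ≠ l)
    (hz : Uq G (Mon ι F) z) (hz' : z.1 = diagonal (sg F k l)) (hg : g ∈ G) (hg' : g ∉ Mon ι F) {i j : ι}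
    (hij : i ≠ j) : ∃ y, Sw G z g y ∧ ∃ z₁ : U ι F, z₁.1 = diagonal (sg F i j) ∧ y * z₁ * y = g * z * g⁻¹ := by
  obtain ⟨π, rfl, rfl⟩ := exists_perm_pair hkl hij
  obtain ⟨m, m1, m2, -⟩ := hG.exists_mon π k (s := 1) (by simp)
  obtain ⟨u, hu, y, e1, e2, e3⟩ := hz.exists_swap le_rfl m1 hg (conj_mem m1 hz.memG) (conj_mem hg hz.memG)
    (odd_mul hP hn hz hz' m1 hg fun h => hg' (by simpa using (Mon ι F).mul_mem ⟨π, m2⟩ h))
  exact ⟨y, ⟨⟨_, G.mul_mem hu m1, e1⟩, ((Mon ι F).mul_mem_cancel_right ⟨π, m2⟩).1 e3⟩, _,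
    (m2.conj_diag hz').trans (congrArg _ (funext fun i => by simp [sg, Equiv.symm_apply_eq])), e2⟩

theorem perm_of_conj (h2 : (2 : F) ≠ 0) (hπ : IsMon x π) {i j i' j' : ι} (hy : y.1 = diagonal (sg F i j))
    (hy' : y'.1 = diagonal (sg F i' j')) (h : x * y * x⁻¹ = y') (m : ι) :
    π m = i' ∨ π m = j' ↔ m = i ∨ m = j := by
  have h1 := congrFun (diagonal_injective ((hπ.conj_diag hy).symm.trans (h ▸ hy'))) (π m)
  have h3 : (-1 : F) ≠ 1 := fun e => h2 (by linear_combination -e)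
  simp only [Function.comp, Equiv.symm_apply_apply, sg] at h1
  split_ifs at h1 with e e' e'
  exacts [iff_of_true e' e, absurd h1 h3, absurd h1.symm h3, iff_of_false e' e]

theorem diag_of_same (hz' : z.1 = diagonal (sg F k l)) (h : a⁻¹ * b ∈ Mon ι F) : ∃ ρ : Equiv.Perm ι,
    (a⁻¹ * (b * z * b⁻¹ * (a * z * a⁻¹)) * a).1 = diagonal fun i => sg F k l (ρ.symm i) * sg F k l i := by
  obtain ⟨ρ, hρ⟩ := h
  refine ⟨ρ, ?_⟩
  rw [show a⁻¹ * (b * z * b⁻¹ * (a * z * a⁻¹)) * a = a⁻¹ * b * z * (a⁻¹ * b)⁻¹ * z by group, Submonoid.coe_mul,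
    hρ.conj_diag hz', hz', diagonal_mul_diagonal]
  rfl

theorem eq_one_of_same (hP : BP G) (hn : 6 ≤ Fintype.card ι) (hz : Uq G (Mon ι F) z)
    (hz' : z.1 = diagonal (sg F k l)) (ha : a ∈ G) (ha' : a * z * a⁻¹ ∉ Mon ι F) (h : a⁻¹ * b ∈ Mon ι F)
    (hπ : IsMon (b * z * b⁻¹ * (a * z * a⁻¹)) π) {i : ι} (hi : π i = i) : b * z * b⁻¹ * (a * z * a⁻¹) = 1 := by
  obtain ⟨ρ, hρ⟩ := diag_of_same hz' h
  have := eq_one_of_eig hP hn (G.inv_mem ha) (fun h => ha' (conj_mem ((Mon ι F).inv_mem_iff.1 h) hz.memH)) hρ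
    (i := i) fun m hm => by simpa [mul_assoc] using hπ m i (hi.symm ▸ hm)
  exact eq_one_of_conj this

theorem sq_of_same (hz' : z.1 = diagonal (sg F k l)) (h : a⁻¹ * b ∈ Mon ι F)
    (hπ : IsMon (b * z * b⁻¹ * (a * z * a⁻¹)) π) :
    b * z * b⁻¹ * (a * z * a⁻¹) * (b * z * b⁻¹ * (a * z * a⁻¹)) = 1 ∧ ∀ i, π (π i) = i := by
  obtain ⟨ρ, hρ⟩ := diag_of_same hz' h
  generalize b * z * b⁻¹ * (a * z * a⁻¹) = x at hρ hπ
  have h1 : a⁻¹ * x * a * (a⁻¹ * x * a) = 1 := Subtype.ext (by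
    rw [Submonoid.coe_mul, hρ, diagonal_mul_diagonal, OneMemClass.coe_one, ← diagonal_one]
    exact congrArg _ (funext fun i => by simp only [sg]; split_ifs <;> simp))
  have h2 : x * x = 1 := eq_one_of_conj (a := a) (by rw [← h1]; group)
  exact ⟨h2, fun i => (hπ.mul hπ).eq (by simp [h2])⟩

theorem exists_five (hn : 5 ≤ Fintype.card ι) (hkl : k ≠ l) : ∃ m i j : ι, (m ≠ k ∧ m ≠ l) ∧ i ≠ j ∧
    (i ≠ k ∧ i ≠ l ∧ i ≠ m) ∧ j ≠ k ∧ j ≠ l ∧ j ≠ m := by
  obtain ⟨m, hm⟩ := exists_notMem (s := {k, l}) (Finset.card_le_two.trans_lt (by omega))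
  obtain ⟨i, j, h, hi, hj⟩ := exists_two_notMem (s := {k, l, m}) (by have := @Finset.card_le_three _ _ k l m; omega)
  exact ⟨m, i, j, by simpa using hm, h, by simpa using hi, by simpa using hj⟩

theorem not_odd_of_disj [Finite F] (h2 : (2 : F) ≠ 0) (hn : 7 ≤ Fintype.card ι) (hB : Blk G)
    (hz : Uq G (Mon ι F) z) {v w : ι → F} (hz' : Rk z (-2) v (-2) w) (hg' : g ∉ Mon ι F) (hy : Sw G z g y)
    (hy' : Sw G z g y') {i j : ι} (hkl : k ≠ l) (hij : i ≠ j) (hik : i ≠ k) (hil : i ≠ l) (hjk : j ≠ k) (hjl : j ≠ l)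
    {z₁ z₂ : U ι F} (h3 : z₁.1 = diagonal (sg F k l)) (h4 : z₂.1 = diagonal (sg F i j))
    (h5 : y * z₁ * y = y' * z₂ * y') : ¬ Odd (orderOf (y' * y)) := fun ho => by
  obtain ⟨⟨π, hπ⟩, e⟩ := mul_mem_Mon hy.2 hy'.2 (hy.sq hz) (hy'.sq hz) h5
  have h6 := perm_of_conj h2 hπ h3 h4 e
  obtain ⟨a, ha, rfl⟩ := hy.1
  obtain ⟨b, -, rfl⟩ := hy'.1
  obtain ⟨o, ho'⟩ := exists_notMem (s := {k, l, i, j, π i, π j}) (Finset.card_le_six.trans_lt (by omega))
  simp only [Finset.mem_insert, Finset.mem_singleton, not_or] at ho'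
  have h7 : ∀ u ∈ Submodule.span F {a.1 *ᵥ v, a.1 *ᵥ w, b.1 *ᵥ v, b.1 *ᵥ w}, u o = 0 := fun u hu =>
    zero_of_no_cycle hπ (mul_mem (fun u => Submodule.span_mono (by simp [Set.insert_subset_iff])
      ((hz'.conj b).mem_Sup u)) fun u => Submodule.span_mono (by simp [Set.insert_subset_iff])
      ((hz'.conj a).mem_Sup u)) {k, l, i, j} ((finrank_span_four_le _ _ _ _).trans (by
        rw [Finset.card_insert_of_notMem (by simp [hkl, hik.symm, hjk.symm]),
          Finset.card_insert_of_notMem (by simp [hil.symm, hjl.symm]), Finset.card_pair hij]))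
      (fun S s1 s2 m hm => by
        simp only [Finset.mem_insert, Finset.mem_singleton] at s2
        have b1 : ∀ m, m = k ∨ m = l → ¬ (m = i ∨ m = j) := by rintro _ (rfl | rfl) <;> simp [*, eq_comm]
        have b2 : ∀ m ∈ S, ¬ (m = k ∨ m = l) → π m = k ∨ π m = l := fun m hm h => by
          have := s2 _ (s1 m hm)
          have := (h6 m).not.2 h
          tauto
        have b3 : ∀ m ∈ S, m = k ∨ m = l → π (π m) = k ∨ π (π m) = l := fun m hm h =>
          b2 _ (s1 m hm) fun h' => b1 _ h' ((h6 m).2 h)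
        obtain ⟨m, hm, h⟩ : ∃ m ∈ S, m = k ∨ m = l := by_cases (⟨m, hm, ·⟩) fun h => ⟨_, s1 m hm, b2 m hm h⟩
        have b4 := b3 m hm h
        have b5 := b3 _ (s1 _ (s1 m hm)) b4
        have b6 : π (π (π (π m))) = m := by
          by_cases e : π (π m) = m
          · rw [e, e]
          · have : π (π (π (π m))) ≠ π (π m) := fun e' => e (π.injective (π.injective e'))
            grind
        have b7 := mem_of_pow_four (K := Lst m) ho fun n hn => by
          rw [show ∀ x : U ι F, x ^ 4 = x * x * x * x from fun x => by simp [pow_succ]]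
          exact (((hπ.mul hπ).mul hπ).mul hπ) n m (by simpa [b6] using hn)
        exact b1 _ h (by_contra (fun e => hπ.ne_zero m (b7 _ e)) ▸ (h6 m).2 h)) (by simp [ho'])
      (fun m hm e => by
        simp only [Finset.mem_insert, Finset.mem_singleton] at hm
        have := (h6 m).2
        rcases hm with rfl | rfl | rfl | rfl <;> simp_all) hu
  exact hy.notMem hg' (hB.of_rk (conj_mem ha hz.memG) (hz'.conj a) (h7 _ (Submodule.subset_span (by simp)))
    (h7 _ (Submodule.subset_span (by simp))))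

theorem le_Mon_SU_odd [Finite F] (h2 : (2 : F) ≠ 0) (hn : 7 ≤ Fintype.card ι) (hG : SMon G) (hB : Blk G)
    (hP : BP G) : G ≤ Mon ι F := fun g hg => by_contra fun hg' => by
  obtain ⟨k, l, hkl, -⟩ := exists_two_notMem (s := (∅ : Finset ι)) (by simp; omega)
  obtain ⟨z, hz, z1, z2⟩ := exists_z hG hP h2 (by omega) hkl
  obtain ⟨m, i, j, hm, hij, hi, hj⟩ := exists_five (by omega) hkl
  obtain ⟨y₁, a1, z₁, a2, a3⟩ := exists_sw hG hP (by omega) hkl hz z1 hg hg' hkl
  obtain ⟨y₂, b1, z₂, b2, b3⟩ := exists_sw hG hP (by omega) hkl hz z1 hg hg' hij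
  obtain ⟨y₃, c1, z₃, c2, c3⟩ := exists_sw hG hP (by omega) hkl hz z1 hg hg' hm.1.symm
  have h3 := not_odd_of_disj h2 hn hB hz z2 hg' a1 b1 hkl hij hi.1 hi.2.1 hj.1 hj.2.1 a2 b2 (a3.trans b3.symm)
  have h4 := not_odd_of_disj h2 hn hB hz z2 hg' c1 b1 hm.1.symm hij hi.1 hi.2.2 hj.1 hj.2.2 c2 b2 (c3.trans b3.symm)
  obtain ⟨⟨π, hπ⟩, e⟩ := mul_mem_Mon a1.2 c1.2 (a1.sq hz) (c1.sq hz) (a3.trans c3.symm)
  have h5 := perm_of_conj h2 hπ a2 c2 e
  obtain ⟨a, ha, rfl⟩ := a1.1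
  obtain ⟨b, hb, rfl⟩ := b1.1
  obtain ⟨c, hc, rfl⟩ := c1.1
  have h6 : a⁻¹ * c ∈ Mon ι F := by
    simpa [mul_assoc] using (Mon ι F).mul_mem ((Mon ι F).inv_mem (by_contra fun h => h3
      (odd_mul hP (by omega) hz z1 hb ha h))) (by_contra fun h => h4 (odd_mul hP (by omega) hz z1 hb hc h))
  have h7 := (sq_of_same z1 h6 hπ).2
  have h8 : π k = k := by
    refine ((h5 k).2 (by simp)).resolve_right fun e => ?_
    rcases (h5 l).2 (by simp) with e' | e'
    · exact hm.2 (by rw [← e, ← e', h7])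
    · exact hkl (π.injective (e.trans e'.symm))
  rw [eq_one_of_same hP (by omega) hz z1 ha (a1.notMem hg') h6 hπ h8] at hπ
  simpa [hπ.eq (i := l) (j := l) (by simp), hkl.symm, hm.2.symm] using h5 l

theorem le_Mon_SU_six [Finite F] (h2 : (2 : F) ≠ 0) (hn : Fintype.card ι = 6) (hG : SMon G) (hP : BP G) :
    G ≤ Mon ι F := fun g hg => by_contra fun hg' => by
  obtain ⟨k, l, hkl, -⟩ := exists_two_notMem (s := (∅ : Finset ι)) (by simp; omega)
  obtain ⟨z, hz, z1, -⟩ := exists_z hG hP h2 (by omega) hkl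
  have h1 : ∀ y y', Sw G z g y → Sw G z g y' → y' * y ∈ Mon ι F := fun y y' hy hy' => by
    simpa [inv_eq_of_mul_eq_one_right (hy'.sq hz), mul_assoc] using (Mon ι F).mul_mem ((Mon ι F).inv_mem hy'.2) hy.2
  have h3 : ∀ y y', Sw G z g y → Sw G z g y' → Odd (orderOf (y' * y)) := fun y y' hy hy' => by
    obtain ⟨π, hπ⟩ := h1 y y' hy hy'
    obtain ⟨a, ha, rfl⟩ := hy.1
    obtain ⟨b, hb, rfl⟩ := hy'.1
    by_cases h : b⁻¹ * a ∈ Mon ι F
    swap
    · exact odd_mul hP hn.ge hz z1 hb ha h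
    replace h : a⁻¹ * b ∈ Mon ι F := by simpa using (Mon ι F).inv_mem h
    by_cases hi : ∃ i, π i = i
    · rw [eq_one_of_same hP hn.ge hz z1 ha (hy.notMem hg') h hπ hi.choose_spec, orderOf_one]
      exact odd_one
    obtain ⟨ρ, hρ⟩ := diag_of_same z1 h
    have h4 := congrArg trace hρ
    rw [Submonoid.coe_mul, Submonoid.coe_mul, trace_mul_cycle, ← Submonoid.coe_mul, mul_inv_cancel,
      OneMemClass.coe_one, one_mul, trace_diagonal, trace, Finset.sum_eq_zero fun i _ =>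
        (diag_apply _ i).trans (hπ i i fun e => hi ⟨i, e.symm⟩)] at h4
    have h5 := @sg_eq F _ ι _
    have h6 : ∀ i, sg F k l (ρ.symm i) = sg F (ρ k) (ρ l) i := fun i => by simp [sg, Equiv.symm_apply_eq]
    have h7 : ∑ i, sg F k l i = 2 := by
      simp [h5 k l _ hkl, Finset.sum_sub_distrib, ← Finset.mul_sum, Finset.sum_add_distrib, hn]
      norm_num
    have h8 : ∑ i, sg F (ρ k) (ρ l) i * sg F k l i = 2 - 2 * (sg F k l (ρ k) + sg F k l (ρ l)) := by
      simp only [h5 _ _ _ (ρ.injective.ne hkl), sub_mul, one_mul, Finset.sum_sub_distrib, h7, mul_assoc,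
        ← Finset.mul_sum, add_mul, Finset.sum_add_distrib, ite_mul, zero_mul, Finset.sum_ite_eq', Finset.mem_univ,
        if_true]
    simp only [h6, h8] at h4
    by_cases e : (ρ k = k ∨ ρ k = l) ∧ (ρ l = k ∨ ρ l = l)
    · have h9 : a⁻¹ * (b * z * b⁻¹ * (a * z * a⁻¹)) * a = 1 := Subtype.ext (hρ.trans ((congrArg _ (funext fun i => by
        have := ρ.injective.ne hkl
        simp only [h6, sg]
        split_ifs <;> first | simp; done | grind)).trans diagonal_one))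
      rw [eq_one_of_conj h9, orderOf_one]
      exact odd_one
    · refine absurd ?_ h2
      simp only [sg] at h4
      split_ifs at h4 with e1 e2
      exacts [absurd ⟨e1, e2⟩ e, by linear_combination -h4, by linear_combination -h4, by linear_combination h4]
  let K := Subgroup.closure {y | Sw G z g y}
  have h4 : ∀ x ∈ K, ∀ y, Sw G z g y ↔ Sw G z g (x * y * x⁻¹) := fun x hx => by
    induction hx using Subgroup.closure_induction with
    | mem x hx =>
      have : ∀ y, Sw G z g y → Sw G z g (x * y * x⁻¹) := fun y hy => by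
        obtain ⟨a, ha, e⟩ := hx.1
        obtain ⟨b, hb, e'⟩ := hy.1
        refine ⟨⟨x * b, G.mul_mem (e ▸ conj_mem ha hz.memG) hb, by rw [e']; group⟩, ?_⟩
        simpa [inv_eq_of_mul_eq_one_right (Sw.sq hz hx), mul_assoc] using (Mon ι F).mul_mem hx.2 (h1 x y hx hy)
      refine fun y => ⟨this y, fun h => ?_⟩
      simpa [inv_eq_of_mul_eq_one_right (Sw.sq hz hx), ← mul_assoc, Sw.sq hz hx, mul_assoc y] using this _ h
    | one => simp
    | mul x x' _ _ hx hx' => exact fun y => by rw [hx', hx]; simp [mul_assoc]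
    | inv x _ hx => exact fun y => by rw [hx (x⁻¹ * y * x⁻¹⁻¹)]; simp [mul_assoc]
  obtain ⟨y, a1, z₁, a2, a3⟩ := exists_sw hG hP hn.ge hkl hz z1 hg hg' hkl
  have h5 : Cfsg.IsIsolatedInvolution (⟨y, Subgroup.subset_closure a1⟩ : K) := by
    refine ⟨orderOf_eq_prime (Subtype.ext (by simpa [sq] using a1.sq hz)) fun e => a1.notMem hg' ?_, fun x hx => ?_⟩
    · rw [show y = 1 from congrArg Subtype.val e]
      exact one_mem _
    have b1 := (h4 x x.2 y).1 a1
    have b2 : y * (x * y * x⁻¹) = x * y * x⁻¹ * y := congrArg Subtype.val hx.eq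
    refine Subtype.ext (show x * y * x⁻¹ = y from ?_)
    generalize x * y * (x : U ι F)⁻¹ = y' at b1 b2
    have b3 : orderOf (y' * y) ∣ 2 := orderOf_dvd_of_pow_eq_one (by
      rw [sq, mul_assoc, ← mul_assoc y, b2, mul_assoc, a1.sq hz, mul_one, b1.sq hz])
    have b4 := orderOf_eq_one_iff.1 (Nat.Coprime.eq_one_of_dvd (Nat.coprime_two_right.2 (h3 y y' a1 b1)) b3)
    rw [eq_inv_of_mul_eq_one_left b4, inv_eq_of_mul_eq_one_right (a1.sq hz)]
  let O := (Cfsg.oddCore K).map K.subtype ⊓ Mon ι F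
  choose f hf using fun x : O => x.2.2
  let φ : O →* Equiv.Perm ι := MonoidHom.mk' f fun x x' => Equiv.ext fun i =>
    (hf (x * x')).eq (((hf x).mul (hf x')).ne_zero i)
  have h6 : ∀ i j, i ≠ j → ∃ π : φ.range, ∀ m, π.1 m = i ∨ π.1 m = j ↔ m = k ∨ m = l := fun i j hij => by
    obtain ⟨y', b1, z₂, b2, b3⟩ := exists_sw hG hP hn.ge hkl hz z1 hg hg' hij
    obtain ⟨u, hu, e⟩ := exists_swap (K := K) (Subgroup.subset_closure a1) (Subgroup.subset_closure b1) (a1.sq hz)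
      (b1.sq hz) (h3 _ _ b1 a1)
    have b4 := K.mul_mem (K.mul_mem hu (Subgroup.subset_closure a1)) (K.inv_mem hu)
    have b5 := ((h4 u hu y).1 a1).sq hz
    generalize u * y * u⁻¹ = w at e b4 b5
    let x : O := ⟨y' * y, ⟨_, inv_mem (CL.Inv.zstar_mem_oddCore h5 ⟨w, b4⟩), by
      simp [← e, inv_eq_of_mul_eq_one_right b5, inv_eq_of_mul_eq_one_right (a1.sq hz), mul_assoc]⟩, h1 _ _ a1 b1⟩
    exact ⟨⟨_, x, rfl⟩, perm_of_conj h2 (hf x) a2 b2 (mul_mem_Mon a1.2 b1.2 (a1.sq hz) (b1.sq hz) (a3.trans b3.symm)).2⟩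
  have h7 : ∀ i j, i ≠ j → (i ∈ MulAction.orbit φ.range k ∧ j ∈ MulAction.orbit φ.range l) ∨
      (j ∈ MulAction.orbit φ.range k ∧ i ∈ MulAction.orbit φ.range l) := fun i j hij => by
    obtain ⟨π, hπ⟩ := h6 i j hij
    have := π.1.injective.ne hkl
    rcases (hπ k).2 (by simp) with e | e <;> rcases (hπ l).2 (by simp) with e' | e'
    exacts [absurd (e.trans e'.symm) this, .inl ⟨⟨π, e⟩, ⟨π, e'⟩⟩, .inr ⟨⟨π, e⟩, ⟨π, e'⟩⟩,
      absurd (e.trans e'.symm) this]
  have h8 : MulAction.orbit φ.range l = MulAction.orbit φ.range k := by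
    obtain ⟨m, -, -, hm, -⟩ := exists_five (by omega) hkl
    rcases h7 m k hm.1 with h | h
    · exact (MulAction.orbit_eq_iff.2 h.2).symm
    rcases h7 m l hm.2 with h' | h'
    · exact (MulAction.orbit_eq_iff.2 h.2).symm.trans (MulAction.orbit_eq_iff.2 h'.1)
    · exact MulAction.orbit_eq_iff.2 h'.1
  have h9 : MulAction.orbit φ.range k = Set.univ := Set.eq_univ_of_forall fun i => by
    rcases eq_or_ne i k with rfl | hi
    · exact MulAction.mem_orbit_self _
    · rcases h7 i k hi with h | h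
      exacts [h.1, h8 ▸ h.2]
  have b1 := (MulAction.stabilizer φ.range k).index_dvd_card
  rw [MulAction.index_stabilizer, h9, Set.ncard_univ, Nat.card_eq_fintype_card, hn] at b1
  exact absurd ((CL.Inv.odd_card_oddCore (G := K)).of_dvd_nat ((b1.trans (Subgroup.card_range_dvd φ)).trans
    ((Subgroup.card_dvd_of_le inf_le_left).trans (Subgroup.card_map_dvd _ _)))) (by decide)

theorem le_Mon_SU (h : IsBar (starRingEnd F) q) (hn : 7 ≤ Fintype.card ι ∨ Fintype.card ι = 6 ∧ 3 ≤ q)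
    (hG : SMon G) (hB : Blk G) : G ≤ Mon ι F := by
  have := h.finite
  have hP := bp h (by omega) hG hB
  by_cases h2 : (2 : F) = 0
  · exact le_Mon_SU_even h h2 (by omega) hG hB hP
  · exact hn.elim (le_Mon_SU_odd h2 · hG hB hP) (le_Mon_SU_six h2 ·.1 hG hP)

end CL.Uni.Fr
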