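import Cfsg.Agent.Cls.TenTrace
import Cfsg.Agent.Cls.UniMaxDec

set_option autoImplicit false

/-!
Overgroups of the stabiliser of a tensor decomposition in the special unitary group, part 1: a subgroup with new
elements in the unipotent radical of the stabiliser of `V₁ ⊗ w` is the whole group.
-/

namespace CL.Sp

open Module CL.SLn CL.Uni

variable {F V₁ V₂ V : Type*} [Field F] [AddCommGroup V₁] [Module F V₁] [AddCommGroup V₂] [Module F V₂]
  [AddCommGroup V] [Module F V] {σ : F →+* F} {q : ℕ}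
  {B₁ : V₁ →ₛₗ[σ] V₁ →ₗ[F] F} {B₂ : V₂ →ₛₗ[σ] V₂ →ₗ[F] F} {B : V →ₛₗ[σ] V →ₗ[F] F}

section Skew

variable [FiniteDimensional F V] (h : IsHerm B q)
include h

theorem exists_iso_of_skew (h2 : 2 ≤ finrank F V) {A : V →ₗ[F] V} (hA : ∀ a b, B (A a) b = -B a (A b))
    (hn : ¬ ∃ s : F, ∀ a, A a = s • a) : ∃ c, B c c = 0 ∧ B c (A c) ≠ 0 := by
  by_contra hc
  push Not at hc
  refine hn (h.eq_smul_of_fix_isotropic h2 fun c hcc => ?_)
  by_cases c0 : c = 0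
  · exact ⟨0, by simp [c0]⟩
  obtain ⟨c', hc', hcc'⟩ := h.exists_hyperbolic c0 hcc
  obtain ⟨t, t0, ht⟩ := h.bar.exists_trace_zero
  have h1 : ∀ d, B d d = 0 → B c d = 1 → σ (B c (A d)) = -B c (A d) := fun d hd hcd => by
    have := hc (d + t • c) (by simp [hd, hcc, hcd, h.flip_one hcd, ht])
    have e : B d (A c) = -σ (B c (A d)) := by rw [h.symm, hA, neg_neg]
    simp only [map_add, map_smul, map_smulₛₗ, LinearMap.add_apply, LinearMap.smul_apply, smul_eq_mul, hc d hd,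
      hc c hcc, ht, e, RingHom.id_apply] at this
    exact mul_left_cancel₀ t0 (by linear_combination -this)
  have h3 : ∀ z, B c z = 0 → σ (B c (A z)) = -B c (A z) := fun z hz => by
    obtain ⟨s, hs⟩ := h.exists_add_smul_self_eq (w := c' + z) hcc (by simp [hcc', hz]) (map_zero σ)
    have := h1 _ hs (by simp [hcc', hz, hcc])
    have e := h1 c' hc' hcc'
    simp only [map_add, map_smul, smul_eq_mul, hc c hcc, mul_zero, add_zero] at this
    linear_combination this - e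
  obtain ⟨ω, hω⟩ := h.bar.exists_ne
  refine (show RF σ 1 B from ⟨h.bar_bar, by simp, fun x y => by rw [h.symm, one_mul], h.nondeg⟩).exists_smul
    fun z hz => ?_
  have e1 := h3 z (h.flip_zero hz)
  have e2 := h3 (ω • z) (by simp [h.flip_zero hz])
  rw [map_smul, map_smul, smul_eq_mul, map_mul, e1] at e2
  have e3 : B c (A z) = 0 := mul_left_cancel₀ (sub_ne_zero.2 hω) (by linear_combination -e2)
  rw [← neg_eq_zero, ← hA, ← h.symm, e3, map_zero]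

/-- An invariant group of skew-hermitian maps which is not scalar contains the maps `x ↦ μ B(c, x) c`. -/
theorem exists_theta (h2 : 2 ≤ finrank F V) (h3 : 3 ≤ q ∨ 3 ≤ finrank F V) (S : AddSubgroup (V →ₗ[F] V))
    (hc : ∀ a ∈ SUG B, ∀ A ∈ S, cnj a A ∈ S) (hs : ∀ s : F, σ s = s → ∀ A ∈ S, s • A ∈ S) {A : V →ₗ[F] V}
    (hA : A ∈ S) (hk : ∀ a b, B (A a) b = -B a (A b)) (hn : ¬ ∃ s : F, ∀ a, A a = s • a) :
    ∃ c ≠ 0, B c c = 0 ∧ ∀ μ : F, σ μ = -μ → μ • (B c).smulRight c ∈ S := by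
  obtain ⟨c, hcc, hη⟩ := exists_iso_of_skew h h2 hk hn
  set η := B c (A c) with hη'
  have hση : σ η = -η := by rw [hη', h.symm, hk]
  let ρ : V → V →ₗ[F] V := fun v => (B v).smulRight c + (B c).smulRight v
  have h1 : ∀ μ, σ μ = -μ → μ • ρ (A c) + (μ * μ * η) • (B c).smulRight c ∈ S := fun μ hμ => by
    obtain ⟨t, ht, e⟩ := h.exists_tv hcc hμ
    convert sub_mem hA (hc t ht A hA) using 1
    ext a
    simp only [ρ, cnj_apply, e _, e.inv hcc _, LinearMap.add_apply, LinearMap.smul_apply, LinearMap.smulRight_apply,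
      LinearMap.sub_apply, map_add, map_smul, hk, smul_eq_mul, ← hη']
    module
  obtain ⟨μ, μ0, hμ⟩ := h.bar.exists_trace_zero
  suffices H : ∃ ν : F, ν ≠ 0 ∧ σ ν = -ν ∧ ν • (B c).smulRight c ∈ S by
    obtain ⟨ν, ν0, hν, H⟩ := H
    refine ⟨c, fun e => hη (by simp [hη', e]), hcc, fun l hl => ?_⟩
    have := hs (l / ν) (by rw [map_div₀, hl, hν, neg_div_neg_eq]) _ H
    rwa [smul_smul, div_mul_cancel₀ _ ν0] at this
  rcases h3 with h3 | h3
  · obtain ⟨s, e, s0, s1⟩ := h.bar.exists_fixed_ne h3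
    refine ⟨s * (s - 1) * (μ * μ * η), by simp [s0, sub_ne_zero.2 s1, μ0, hη], by simp [e, hμ, hση], ?_⟩
    convert sub_mem (h1 (s * μ) (by simp [e, hμ])) (hs s e _ (h1 μ hμ)) using 1
    module
  obtain ⟨z, hz, hzz⟩ := h.exists_perp_self_ne_zero h3 c
  obtain ⟨l, hl⟩ := h.bar.exists_trace_one
  have h4 : ∀ v (κ : F), μ • ρ v + κ • (B c).smulRight c ∈ S → ∀ y, B c y = 0 → ∃ κ' : F,
      μ • ρ (B c v • y - (B y v + κ' * B c v) • c) ∈ S := fun v κ hv y hy => by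
    obtain ⟨κ', hκ⟩ := h.bar.exists_trace_eq (h.self_fixed y)
    obtain ⟨g, hg, e⟩ := h.exists_eich hcc hy hκ
    have e1 : g c = c := e.fix hcc (h.flip_zero hy)
    refine ⟨κ', ?_⟩
    rw [show B c v • y - (B y v + κ' * B c v) • c = g v - v by rw [e]; abel]
    convert sub_mem (hc g hg _ hv) hv using 1
    ext a
    simp only [ρ, cnj_apply, LinearMap.add_apply, LinearMap.smul_apply, LinearMap.smulRight_apply,
      LinearMap.sub_apply, map_add, map_smul, map_sub, ← UG_apply_left hg.1, e1]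
    module
  obtain ⟨κ, h5⟩ := h4 _ _ (h1 μ hμ) z hz
  obtain ⟨κ', h6⟩ := h4 _ 0 (by rwa [zero_smul, add_zero]) (σ (-l / (η * B z z)) • z) (by simp [hz])
  refine ⟨μ, μ0, hμ, ?_⟩
  convert h6 using 2
  ext a
  have e : η * (-l / (η * B z z) * B z z) = -l := by field_simp
  simp only [ρ, map_sub, map_smul, map_smulₛₗ, smul_eq_mul, hz, hcc, h.flip_zero hz, mul_zero, sub_zero, zero_smul,
    add_zero, LinearMap.smul_apply, h.bar_bar, ← hη', e, zero_sub, RingHom.id_apply, LinearMap.add_apply,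
    LinearMap.smulRight_apply, map_neg, LinearMap.neg_apply, LinearMap.sub_apply, map_zero]
  linear_combination (norm := module) -(hl • (B c a • c))

variable {X : Subgroup (V ≃ₗ[F] V)} (hX : X ≤ UG B) {r : V} (hr : r ∈ UCen B X)
include hX

theorem eich_step {s : V} (hs : s ∈ UCen B X) {x y : V} (hx : x ∈ h.eichSub hs) (hy : y ∈ h.eichSub hr)
    (h1 : B s r = 0) (h2 : B x r = 0) : ∃ κ : F, B s y • x - (B x y + κ * B s y) • s ∈ h.eichSub hr := by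
  obtain ⟨κ, -, g, hg, e⟩ := h.exists_eich_mem hs.1 hx.1 (one_smul F x ▸ hx.2 1)
  refine ⟨κ, ?_⟩
  convert sub_mem (h.apply_mem_eichSub hX hr hy hg (e.fix h1 h2)) hy using 1
  rw [e]; abel

theorem eich_step' {s : V} (hs : s ∈ UCen B X) {x y : V} (hx : x ∈ h.eichSub hs) (hy : y ∈ h.eichSub hr)
    (h1 : B s r = 0) (h2 : B x r = 0) (h3 : s ∈ h.eichSub hr) (h4 : B s y = 1) : x ∈ h.eichSub hr := by
  obtain ⟨κ, e⟩ := eich_step h hX hr hs hx hy h1 h2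
  simpa [h4] using add_mem e (Submodule.smul_mem _ (B x y + κ * B s y) h3)

theorem tv_step {s : V} (hs : s ∈ UCen B X) {y : V} (hy : y ∈ h.eichSub hr) (h1 : B s r = 0) (h2 : B s y ≠ 0) :
    s ∈ h.eichSub hr := by
  obtain ⟨μ, μ0, hμ⟩ := h.bar.exists_trace_zero
  obtain ⟨g, hg, e⟩ := h.exists_tv_mem hs hμ
  have := sub_mem (h.apply_mem_eichSub hX hr hy hg (e.fix h1)) hy
  rwa [e, add_sub_cancel_left, Submodule.smul_mem_iff _ (mul_ne_zero μ0 h2)] at this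

end Skew

theorem RF.herm (R : RF σ 1 B) (hb : IsBar σ q) : IsHerm B q := ⟨hb, fun x y => by rw [R.symm x y, one_mul], R.nondeg⟩

/-- An overgroup of the stabiliser of a unitary tensor decomposition. -/
structure UOv (q : ℕ) (T : TF σ 1 1 1 B₁ B₂ B) (X : Subgroup (V ≃ₗ[F] V)) : Prop where
  bar : IsBar σ q
  le : X ≤ SUG B
  ge : T.KS ⊓ SUG B ≤ X
  two : 2 ≤ finrank F V₁
  lt : finrank F V₁ < finrank F V₂
  ex : 3 ≤ q ∨ 3 ≤ finrank F V₁

namespace UOv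

variable {T : TF σ 1 1 1 B₁ B₂ B} {X : Subgroup (V ≃ₗ[F] V)} (O : UOv q T X)
include O

theorem h₁ : IsHerm B₁ q := T.r₁.herm O.bar

theorem h₂ : IsHerm B₂ q := T.r₂.herm O.bar

theorem h : IsHerm B q := T.r.herm O.bar

theorem leU : X ≤ UG B := O.le.trans SUG_le_UG

theorem three : 3 ≤ finrank F V₂ := O.two.trans_lt O.lt

theorem nontrivial : Nontrivial V₁ := Module.nontrivial_of_finrank_pos (R := F) (by have := O.two; omega)

variable [FiniteDimensional F V₁] [FiniteDimensional F V₂] [FiniteDimensional F V]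

theorem kron_mem {a : V₁ ≃ₗ[F] V₁} {t : V₂ ≃ₗ[F] V₂} (ha : a ∈ SUG B₁) (ht : t ∈ SUG B₂) : T.kron a t ∈ X :=
  O.ge ⟨T.kron_mem_KS _ _, mem_SUG.2 ⟨T.kron_mem_UG' ha.1 ht.1, by
    rw [dt_apply, T.det_kron, ← dt_apply, ← dt_apply, (mem_SUG.1 ha).2, (mem_SUG.1 ht).2]; simp⟩⟩

section Gen

variable (hc : ∀ c w, B₁ c c = 0 → B₂ w w = 0 → T.tm c w ∈ UCen B X) {c c' : V₁} {w w' : V₂} (e₁ : B₁ c c = 0)
  (e₂ : B₂ w w = 0)

theorem gen_one (e₂' : B₂ w' w' = 0) (hw : B₂ w w' = 1) {z : V₂} (hz : B₂ w z = 0) :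
    T.tm c z ∈ O.h.eichSub (hc c w e₁ e₂) := by
  obtain ⟨μ, μ0, hμ⟩ := O.bar.exists_trace_zero
  have hr := hc c w e₁ e₂
  have h0 : ∀ y y', B (T.tm c y) (T.tm c y') = 0 := fun y y' => by rw [T.B_tm, e₁, zero_mul]
  obtain ⟨t, ht, e⟩ := O.h.exists_tv_mem (hc c w' e₁ e₂') hμ
  obtain ⟨t', ht', e'⟩ := O.h.exists_tv_mem
    (hc c (w' + μ • w) e₁ (by simp [e₂, e₂', hw, O.h₂.flip_one hw, hμ])) hμ
  rw [map_add, map_smul] at e'
  have h1 := O.h.eichIn_of_mem hr (by simp [h0]) (by simp [h0, hμ])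
    (O.h.isEich_tv_mul_inv (h0 _ _) (h0 _ _) hμ e e') (mul_mem ht' (inv_mem ht))
  have ν0 : μ * σ μ ≠ 0 := by simp [μ0]
  refine ⟨h0 _ _, fun a => ?_⟩
  obtain ⟨a, rfl⟩ : ∃ b, a = μ * σ μ * b := ⟨_, (mul_div_cancel₀ a ν0).symm⟩
  have hy : B₂ w (a • z) = 0 := by simp [hz]
  obtain ⟨κ, hκ⟩ := O.bar.exists_trace_eq (O.h₂.self_fixed (a • z))
  obtain ⟨g, hg, eg⟩ := O.h₂.exists_eich e₂ hy hκ
  have h2 := h1.conj O.leU (O.kron_mem (one_mem _) hg)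
  rw [map_smul, T.kron_tm, T.kron_tm, eg.fix e₂ (O.h₂.flip_zero hy), eg w'] at h2
  have h3 := O.h.eichIn_add hr (by simp [h0]) (by simp [h0]) (O.h.eichIn_sub hr (by simp [h0]) (by simp [h0]) h2 h1)
    (O.h.eichIn_smul_self hr (μ * σ μ * (B₂ (a • z) w' + κ * B₂ w w')))
  convert h3 using 1
  simp only [LinearEquiv.coe_one, id, map_sub, map_add, map_smul, hw]
  module

theorem gen_kron (hcc : B₁ c c' = 1) {u : V₂} (h1 : T.tm c u ∈ O.h.eichSub (hc c w e₁ e₂))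
    (h2 : T.tm c' u ∈ O.h.eichSub (hc c w e₁ e₂)) (a : V₁) : T.tm a u ∈ O.h.eichSub (hc c w e₁ e₂) := by
  have hb : B₁ c (a - B₁ c a • c') = 0 := by simp [hcc]
  obtain ⟨κ, hκ⟩ := O.bar.exists_trace_eq (O.h₁.self_fixed (a - B₁ c a • c'))
  obtain ⟨g, hg, eg⟩ := O.h₁.exists_eich e₁ hb hκ
  have h3 := O.h.apply_mem_eichSub O.leU _ h2 (O.kron_mem hg (one_mem _))
    (by rw [T.kron_tm, eg.fix e₁ (O.h₁.flip_zero hb)]; rfl)
  rw [T.kron_tm, eg c', hcc] at h3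
  convert add_mem (add_mem h3 (Submodule.smul_mem _ (B₁ c a - 1) h2))
    (Submodule.smul_mem _ (B₁ (a - B₁ c a • c') c' + κ * 1) h1) using 1
  simp only [LinearEquiv.coe_one, id, map_sub, map_add, map_smul, LinearMap.sub_apply, LinearMap.add_apply,
    LinearMap.smul_apply]
  module

theorem gen_two (e₁' : B₁ c' c' = 0) (hcc : B₁ c c' = 1) (e₂' : B₂ w' w' = 0) (hw : B₂ w w' = 1) (a : V₁) :
    T.tm a w ∈ O.h.eichSub (hc c w e₁ e₂) := by
  obtain ⟨z, hz, hzz⟩ := O.h₂.exists_perp_self_ne_zero O.three w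
  obtain ⟨κ, h⟩ := eich_step O.h O.leU _ _ (O.gen_one hc e₁' e₂ e₂' hw hz) (O.gen_one hc e₁ e₂ e₂' hw hz)
    (by simp [T.B_tm, e₂]) (by simp [T.B_tm, O.h₂.flip_zero hz])
  simp only [T.B_tm, hz, O.h₁.flip_one hcc, mul_zero, zero_smul, add_zero, zero_sub, neg_mem_iff, one_mul,
    Submodule.smul_mem_iff _ hzz] at h
  exact O.gen_kron hc e₁ e₂ hcc (O.h.self_mem_eichSub _) h a

include hc in
theorem SUG_le_of_cen : SUG B ≤ X := by
  obtain ⟨c, c0, e₁⟩ := O.h₁.exists_isotropic O.two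
  obtain ⟨w, w0, e₂⟩ := O.h₂.exists_isotropic (by have := O.three; omega)
  obtain ⟨c', e₁', hcc⟩ := O.h₁.exists_hyperbolic c0 e₁
  obtain ⟨w', e₂', hw⟩ := O.h₂.exists_hyperbolic w0 e₂
  have hw' := O.h₂.flip_one hw
  have h2 := O.gen_two hc e₁ e₂ e₁' hcc e₂' hw
  have h3 : T.tm c w' ∈ O.h.eichSub (hc c w e₁ e₂) :=
    tv_step O.h O.leU _ (hc c w' e₁ e₂') (h2 c') (by simp [T.B_tm, e₁]) (by simp [T.B_tm, hcc, hw'])
  have h4 : ∀ a z, B₂ w z = 0 → T.tm a z ∈ O.h.eichSub (hc c w e₁ e₂) := fun a z hz =>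
    O.gen_kron hc e₁ e₂ hcc (O.gen_one hc e₁ e₂ e₂' hw hz) (eich_step' O.h O.leU _ _ (O.gen_one hc e₁' e₂ e₂' hw hz) h3
      (by simp [T.B_tm, e₂]) (by simp [T.B_tm, O.h₂.flip_zero hz]) (h2 c') (by simp [T.B_tm, O.h₁.flip_one hcc, hw])) a
  have h5 : ∀ b, B₁ c b = 0 → T.tm b w' ∈ O.h.eichSub (hc c w e₁ e₂) := fun b hb =>
    eich_step' O.h O.leU _ _ (O.gen_two hc e₁ e₂' e₁' hcc e₂ hw' b) (h2 c')
      (by simp [T.B_tm, e₁]) (by simp [T.B_tm, O.h₁.flip_zero hb]) h3 (by simp [T.B_tm, hcc, hw'])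
  refine O.h.SUG_le_of_eich (fun h => ?_) O.leU (hc c w e₁ e₂) (fun x hx => ?_) (hc c' w' e₁' e₂')
    (by simp [T.B_tm, hcc, hw])
  · have := Nat.mul_le_mul O.two O.three
    rw [← T.finrank_eq] at this
    omega
  have := add_mem (T.mem_of_perp hw h4 (x := x - T.tm (T.ψ' w x) w') (by simp [T.ψ_tm, hw]))
    (h5 _ (by rwa [← T.B_ψ]))
  simpa using this.2 1

end Gen

theorem exists_move {u u' : V₂} (h0 : u ≠ 0) (h0' : u' ≠ 0) (hu : B₂ u u = 0) (hu' : B₂ u' u' = 0) :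
    ∃ t ∈ SUG B₂, t u = u' := O.h₂.exists_mem_SUG_vec O.three h0 h0' (hu.trans hu'.symm)

theorem scalar_or {w : V₂} (w0 : w ≠ 0) (hw : B₂ w w = 0) :
    SUG B ≤ X ∨ ∀ A ∈ T.ZA X hw, ∃ s : F, ∀ a, A a = s • a := by
  refine or_iff_not_imp_right.2 fun hn => ?_
  push Not at hn
  obtain ⟨A, hA, hn⟩ := hn
  obtain ⟨w', -, hww⟩ := O.h₂.exists_hyperbolic w0 hw
  have hs : ∀ s : F, σ s = s → ∀ A ∈ T.ZA X hw, s • A ∈ T.ZA X hw := fun s hs A hA => by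
    obtain ⟨l, rfl⟩ := O.bar.exists_norm_eq hs
    by_cases l0 : l = 0
    · simp [l0]
    obtain ⟨t, ht, e⟩ := O.exists_move w0 (smul_ne_zero l0 w0) hw (by simp [hw])
    exact TF.ZA_conj hA (O.kron_mem (one_mem _) ht) ht.1 hw e
  obtain ⟨c, c0, hc, H⟩ := exists_theta O.h₁ O.two O.ex (T.ZA X hw)
    (fun a ha A hA => by simpa using TF.ZA_conj hA (O.kron_mem ha (one_mem _)) (one_mem _) hw (one_smul F w).symm)
    hs hA (fun a b => by simpa using TF.ZA_skew O.leU hww hA a b) (by push Not; exact hn)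
  · have h1 : T.tm c w ∈ UCen B X := ⟨by simp [T.B_tm, hc], fun μ g hμ hg => by
      obtain ⟨k, hk, e⟩ := H μ hμ
      rwa [show g = k from LinearEquiv.ext fun x => by simp [hg x, e, T.B_ψ, mul_smul]]⟩
    refine O.SUG_le_of_cen fun d u hd hu => ?_
    by_cases h0 : d = 0 ∨ u = 0
    · rcases h0 with rfl | rfl <;> simpa using zero_mem_uCen
    push Not at h0
    obtain ⟨t, ht, e⟩ := O.exists_move w0 h0.2 hw hu
    obtain ⟨c', e₁, e₂⟩ := O.h₁.exists_hyperbolic c0 hc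
    obtain ⟨d', e₃, e₄⟩ := O.h₁.exists_hyperbolic h0.1 hd
    obtain ⟨g, hg, a, -, a0, -, e', -⟩ := O.h₁.exists_mem_SUG_points hc e₁ (by simp [e₂]) hd e₃ (by simp [e₄])
    have := UCen.apply_mem O.leU h1 (O.kron_mem hg ht)
    rw [T.kron_tm, e, e', map_smul, LinearMap.smul_apply] at this
    exact O.h.mem_uCen_of_smul a0 this

theorem ψ'_mem {w : V₂} (w0 : w ≠ 0) (hw : B₂ w w = 0) {z : V₂} (hz : B₂ w z = 0) : T.ψ' z ∈ T.RD (X ⊓ T.KS) w := by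
  obtain ⟨w', -, hww⟩ := O.h₂.exists_hyperbolic w0 hw
  obtain ⟨κ, hκ⟩ := O.bar.exists_trace_eq (O.h₂.self_fixed (-z))
  obtain ⟨g, hg, e⟩ := O.h₂.exists_eich hw (by simp [hz]) hκ
  exact TF.ψ'_mem_RD hww (Subgroup.mem_inf.2 ⟨O.kron_mem (one_mem _) hg, T.kron_mem_KS _ _⟩) (e.fix hw (by simp [O.h₂.flip_zero hz]))
    fun y hy => by simp [e y, hy]

theorem mem_KS_of_rad (hn : ¬ SUG B ≤ X) {w : V₂} (w0 : w ≠ 0) (hw : B₂ w w = 0) {k : V ≃ₗ[F] V} (hk : k ∈ X)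
    (R : T.Rad w k) : k ∈ T.KS := by
  have := O.nontrivial
  obtain ⟨w', -, hww⟩ := O.h₂.exists_hyperbolic w0 hw
  obtain ⟨D, hD⟩ := R.exists_D w0
  have hZ := (O.scalar_or w0 hw).resolve_left hn
  refine TF.mem_KS_of_scalar O.leU hw hww (fun z => O.ψ'_mem w0 hw) hZ hk R hD fun z hz => ?_
  have h1 : ∀ l : F, ∃ s : F, ∀ a b,
      s * B₁ b a = σ l * B₁ (D (T.tm b z)) a - l * B₁ b (D (T.tm a z)) := fun l => by
    have hz' : B₂ w (l • z) = 0 := by simp [hz]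
    obtain ⟨A, hA, e⟩ := TF.exists_comm_ψ O.leU hw hww ⟨k, hk, R, hD⟩ hz' (TF.RD_mono inf_le_left (O.ψ'_mem w0 hw hz'))
    obtain ⟨s, hs⟩ := hZ A hA
    exact ⟨s, fun a b => by simpa [hs] using e a b⟩
  obtain ⟨ω, hω⟩ := O.bar.exists_ne
  obtain ⟨s, e⟩ := h1 1
  obtain ⟨s', e'⟩ := h1 ω
  refine ⟨(s' - σ ω * s) / (σ ω - ω), fun a => O.h₁.ext_right fun b => ?_⟩
  have := e a b
  rw [map_one] at this
  rw [map_smul, smul_eq_mul, div_mul_eq_mul_div, eq_div_iff (sub_ne_zero.2 hω)]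
  linear_combination σ ω * this - e' a b

/-- Elements of a proper overgroup which map `V₁ ⊗ u` onto `V₁ ⊗ u'` are Kronecker products. -/
theorem mem_KS_of_map (hn : ¬ SUG B ≤ X) : ∀ u u', u ≠ 0 → u' ≠ 0 → B₂ u u = 0 → B₂ u' u' = 0 → ∀ k ∈ X,
    (∀ a, k (T.tm a u) ∈ T.L u') → k ∈ T.KS :=
  have := O.nontrivial
  TF.mem_KS_of_map O.leU O.three (fun _ w0 hw => (O.h₂.exists_hyperbolic w0 hw).imp fun _ h => h.symm)
    (fun _ _ h0 h0' hu hu' => (O.exists_move h0 h0' hu hu').elim fun t ht =>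
      ⟨t, 1, O.kron_mem (one_mem _) ht.1, by rw [ht.2, one_smul]⟩)
    (fun w w0 z hw hz => TF.RD_mono inf_le_left (O.ψ'_mem w0 hw hz)) (fun _ w0 hw _ => O.mem_KS_of_rad hn w0 hw)
    fun w _ _ a t k hk hU R => O.ge ⟨T.kron_mem_KS _ _, mem_SUG.2 ⟨hU, by
      have := det_eq_one_of_isNilpotent ⟨3, R.cube (mul_mem (inv_mem hU) (O.leU hk))⟩
      rwa [← dt_apply, map_mul, (mem_SUG.1 (O.le hk)).2, mul_one, map_inv, inv_eq_one] at this⟩⟩

end UOv

end CL.Sp
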