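import Cfsg.Agent.Cls.UniTen
import Cfsg.Agent.Cls.TenRank
import Cfsg.Agent.Cls.TenMat
import Cfsg.Agent.Cls.MaxU
import Cfsg.Agent.Cls.UniQ2

set_option autoImplicit false

/-!
Overgroups of the stabiliser of a tensor decomposition in the special unitary group, part 2: maximality.
-/

namespace CL.Sp

open Module CL.SLn CL.Uni

variable {F V₁ V₂ V : Type*} [Field F] [AddCommGroup V₁] [Module F V₁] [AddCommGroup V₂] [Module F V₂]
  [AddCommGroup V] [Module F V] {σ : F →+* F} {q : ℕ}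
  {B₁ : V₁ →ₛₗ[σ] V₁ →ₗ[F] F} {B₂ : V₂ →ₛₗ[σ] V₂ →ₗ[F] F} {B : V →ₛₗ[σ] V →ₗ[F] F}

namespace UOv

variable {T : TF σ 1 1 1 B₁ B₂ B} {X : Subgroup (V ≃ₗ[F] V)} (O : UOv q T X)
  [FiniteDimensional F V₁] [FiniteDimensional F V₂] [FiniteDimensional F V]
include O

omit O [FiniteDimensional F V₁] [FiniteDimensional F V₂] [FiniteDimensional F V] in
theorem unip_eq {u : V₂} (hu : B₂ u u = 0) {c : F} {t : V₂ ≃ₗ[F] V₂} (ht : IsTv B₂ u c t) :
    unip (T.κ' u) (T.κ'_κ' hu) c = T.kron 1 t :=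
  T.equiv_ext fun a y => by simp [T.kron_tm, unip_apply, T.κ_apply, T.ψ_tm, ht y, mul_smul]

theorem unip_mem {u : V₂} (hu : B₂ u u = 0) {c : F} (hc : σ c = -c) : unip (T.κ' u) (T.κ'_κ' hu) c ∈ X := by
  obtain ⟨t, ht, e⟩ := O.h₂.exists_tv hu hc
  exact unip_eq (T := T) hu e ▸ O.kron_mem (one_mem _) ht

theorem rad_eich {w z : V₂} (w0 : w ≠ 0) (hw : B₂ w w = 0) (hz : B₂ w z = 0) {c : F} {t : V₂ ≃ₗ[F] V₂}
    (ht : IsEich B₂ w z c t) : T.Rad w (T.kron 1 t) := by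
  obtain ⟨w', -, hww⟩ := O.h₂.exists_hyperbolic w0 hw
  exact (TF.rad_kron (z := -z) hww (ht.fix hw (O.h₂.flip_zero hz)) fun y hy => by simp [ht y, hy, sub_eq_add_neg]).1

theorem le_KS (hn : ¬ SUG B ≤ X) : X ≤ T.KS := by
  have := O.nontrivial
  have := O.bar.finite
  have hQ := O.mem_KS_of_map hn
  have hU : ∀ c ≠ 0, σ c = -c → ∀ u, u ≠ 0 → ∀ hu : B₂ u u = 0, UF X T.KS (unip (T.κ' u) (T.κ'_κ' hu) c) :=
    fun c c0 hc u u0 hu => TF.uf_κ' O.leU O.lt hQ u0 hu c0 (O.unip_mem hu hc)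
  by_cases hq : 3 ≤ q
  · obtain ⟨w, w0, hw⟩ := O.h₂.exists_isotropic (by have := O.three; omega)
    obtain ⟨w', hw', hww⟩ := O.h₂.exists_hyperbolic w0 hw
    suffices H : ∀ u ≠ 0, B₂ u u = 0 → ∀ S : Finset _, (∀ φ, φ ∈ S ↔ T.Oth X φ) →
        ∑ φ ∈ S, φ ∈ TrTr.mfil (Fin 4) (T.dfl u) 4 by
      refine TF.le_KS_of_depth O.leU w0 hw hQ hw' hww ?_
      rintro _ (rfl | rfl)
      exacts [H _ w0 hw, H _ (fun e => by simp [e] at hww) hw']
    intro u u0 hu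
    obtain ⟨p, f, hp, hF, hf, e⟩ := O.bar.exists_prime_pow
    have := Fact.mk hp
    let C : AddSubgroup F := (σ.toAddMonoidHom + AddMonoidHom.id F).ker
    have hC : ∀ d, d ∈ C ↔ σ d = -d := fun d => add_eq_zero_iff_eq_neg
    obtain ⟨z, hz, hzz⟩ := O.h₂.exists_perp_self_ne_zero O.three u
    obtain ⟨ω, hω⟩ := O.bar.exists_ne
    have hz' : B₂ u (ω • z) = 0 := by simp [hz]
    obtain ⟨c, hc⟩ := O.bar.exists_trace_eq (O.h₂.self_fixed z)
    obtain ⟨c', hc'⟩ := O.bar.exists_trace_eq (O.h₂.self_fixed (ω • z))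
    obtain ⟨t, ht, e₁⟩ := O.h₂.exists_eich hu hz hc
    obtain ⟨t', ht', e₂⟩ := O.h₂.exists_eich hu hz' hc'
    have hd : σ ((σ ω - ω) * B₂ z z) = -((σ ω - ω) * B₂ z z) := by
      rw [map_mul, map_sub, O.bar.bar_bar, O.h₂.self_fixed]; ring
    obtain ⟨s, -, e₃⟩ := O.h₂.exists_tv hu hd
    refine TF.sum_mem_of_two O.leU u0 hu hQ p C (c := f) (fun d hd d0 => hU d d0 ((hC d).1 hd) u u0 hu)
      (by rw [← e, ← O.bar.card_trace_zero]; exact (Nat.card_congr (Equiv.subtypeEquivRight hC)).ge) ?_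
      ⟨O.kron_mem (one_mem _) ht, T.kron_mem_KS _ _⟩ ⟨O.kron_mem (one_mem _) ht', T.kron_mem_KS _ _⟩
      (O.rad_eich u0 hu hz e₁) (O.rad_eich u0 hu hz' e₂) ((hC _).2 hd) (mul_ne_zero (sub_ne_zero.2 hω) hzz) ?_
    · by_contra hc
      have h2 := hp.two_le
      obtain ⟨rfl, h3⟩ : f = 1 ∧ p - 1 = 1 := mul_eq_one.1
        (le_antisymm (by omega) (Nat.mul_pos hf (by omega)))
      rw [pow_one] at e
      omega
    · rw [unip_eq hu e₃, T.kron_mul, T.kron_mul, T.kron_mul]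
      congr 1
      ext y
      simp only [LinearEquiv.mul_apply, e₁ _, e₂ _, e₃ _, map_add, map_sub, map_smul, map_smulₛₗ, hu, hz,
        O.h₂.flip_zero hz, smul_eq_mul, LinearMap.smul_apply, RingHom.id_apply]
      module
  have h3 := O.ex.resolve_left hq
  have hP := polar_of_isHerm O.h₂
  obtain ⟨c, c0, hc⟩ := O.bar.exists_trace_zero
  have h4 : ∀ u, ∃ u', (∀ c : F, u' ≠ c • u) ∧ B₂ u' u' = 0 ∧ B₂ u u' = 0 := fun u =>
    (hP.exists_sing_perp_ne (m := 1) (by have := O.lt; omega) ![u] u).imp fun _ h => ⟨h.1, h.2.1, h.2.2 0⟩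
  rcases (Nat.succ_le_of_lt O.lt).eq_or_lt with h | h
  · obtain ⟨v, v0, hv⟩ := O.h₁.exists_isotropic O.two
    obtain ⟨t, ht, e⟩ := O.h₁.exists_tv hv hc
    refine TF.le_KS_of_succ O.leU O.lt c0 (hU c c0 hc) h4 h3 h.symm hP.exists_mem v0 hv ?_
    rw [unip_eq hv e, T.sw_kron]
    exact O.kron_mem ht (one_mem _)
  · exact TF.le_KS_of_add_le O.leU O.lt c0 (hU c c0 hc) h4 h hP.exists_mem

end UOv

open Cfsg Cfsg.Geo in
/-- The stabiliser of a unitary tensor decomposition is maximal in the special unitary group. -/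
theorem isMaximalIn_SU_tensor [Fintype F] (hF : Fintype.card F = q ^ 2) {n n₁ n₂ : ℕ} (h1 : 2 ≤ n₁) (h12 : n₁ < n₂)
    (hex : ¬ (n₁ = 2 ∧ q = 2)) (e : Fin n ≃ Fin n₁ × Fin n₂) (P : GL (Fin n) F)
    {f₁ : (Fin n₁ → F) → (Fin n₁ → F) → F} {f₂ : (Fin n₂ → F) → (Fin n₂ → F) → F} (hf₁ : IsUnitaryFormPow q f₁)
    (hf₂ : IsUnitaryFormPow q f₂) (hT : IsTensorFormStructure (fun x : F => x ^ q) (hermForm n F q) f₁ f₂ e P) :
    IsMaximalIn (GU n F q ⊓ specialLinear (Fin n) F)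
      (tensorProductSubgroup n₁ n₂ e P ⊓ (GU n F q ⊓ specialLinear (Fin n) F)) := by
  have h := isBar_bar hF
  obtain ⟨B₁, B₂, c, h₁, h₂, c0, hc⟩ := exists_tensor_data h hf₁ hf₂ hT
  have hB := isHerm_stdB h (Fin n)
  have hσ : bar hF c = c := by
    have : Nontrivial (Fin n₁) := Fin.nontrivial_iff_two_le.2 h1
    have : Nontrivial (Fin n₂) := Fin.nontrivial_iff_two_le.2 (by omega)
    obtain ⟨u, hu⟩ := h₁.exists_self_eq (map_one _)
    obtain ⟨w, hw⟩ := h₂.exists_self_eq (map_one _)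
    simpa [hc, hu, hw] using hB.self_fixed (transVec e P (tens u w))
  have hR : ∀ {W : Type _} [AddCommGroup W] [Module F W] {B : W →ₛₗ[bar hF] W →ₗ[F] F}, IsHerm B q →
      RF (bar hF) 1 B := fun h' => ⟨h.bar_bar, by simp, fun x y => by rw [h'.symm, one_mul], h'.nondeg⟩
  let T : TF (bar hF) 1 1 1 B₁ (c • B₂.flip).flip (stdB (bar hF) (Fin n)) :=
    { E := tenE e P
      r₁ := hR h₁
      r₂ := ⟨h.bar_bar, by simp, fun x y => by simp [hσ, h₂.symm], fun x hx => h₂.nondeg x fun y => by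
        simpa [c0] using hx y⟩
      r := hR hB
      form := fun a y a' y' => by
        rw [tenE_tmul, tenE_tmul]
        exact (hc a a' y y').trans (mul_left_comm _ _ _) }
  have key : ∀ A, glEquiv (Fin n) F A ∈ T.KS ↔ A ∈ tensorProductSubgroup n₁ n₂ e P := fun A => by
    rw [← (glEquiv (Fin n) F).symm_apply_apply A, mem_tensorProductSubgroup_symm_iff, MulEquiv.symm_apply_apply]
    exact exists₂_congr fun a t => ⟨fun h x y => h ▸ T.kron_tm a t x y,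
      fun h => T.equiv_ext fun x y => by rw [T.kron_tm]; exact h x y⟩
  refine isMaximalIn_SU_of h (H' := T.KS) (fun A _ => key A) ?_ fun M h1' h2' g hg hg' => by_contra fun hn =>
    hg' (UOv.le_KS ⟨h, h2', h1', by simpa using h1, by simpa using h12, ?_⟩ hn hg)
  · by_contra hn
    push Not at hn
    exact not_SUm_le_tensor h h1 (by omega) e P fun A hA => (key A).1 (hn _ ((glEquiv_mem_SUG h A).2 hA))
  · have := h.two_le
    simp only [Module.finrank_fin_fun]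
    omega

end CL.Sp
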