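import Cfsg.Agent.Cls.SpSp
import Cfsg.Agent.Cls.TenTrace
import Cfsg.Agent.Cls.TW2

set_option autoImplicit false
set_option linter.unusedSectionVars false

/-!
Tensor decompositions `V = W ⊗ U` with a symplectic factor `U` inside a group `H ≥ 1 ⊗ Sp(U)` whose intersection with
the unipotent radicals of the stabilisers of the spaces `W ⊗ u` consists of Kronecker products.
-/

namespace CL.Sp

open Module CL.SLn CL.TW
open CL.Uni (UG)

variable {F U W V : Type*} [Field F] [AddCommGroup U] [Module F U] [AddCommGroup W] [Module F W]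
  [AddCommGroup V] [Module F V]

namespace TL

variable (T : TL F W U V)

/-- The decomposition with the second factor in front. -/
noncomputable def tp : TP F U W V := ⟨T.swap.E⟩

theorem tp_tm (y : U) (a : W) : T.tp.tm y a = T.tm a y := rfl

theorem tp_φ : T.tp.φ = T.ψ := rfl

theorem A_tm (x : End F U) (a : W) (y : U) : T.tp.A x (T.tm a y) = T.tm a (x y) := T.tp.A_tm x y a

theorem C_tm (c : End F W) (a : W) (y : U) : T.tp.C c (T.tm a y) = T.tm (c a) y := T.tp.C_tm c y a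

theorem A_rk (y : U) (f : Dual F U) (x : V) : T.tp.A (rk y f) x = T.tm (T.ψ f x) y := T.tp.A_rk y f x

theorem ψ_A (f : Dual F U) (x : End F U) (v : V) : T.ψ f (T.tp.A x v) = T.ψ (f ∘ₗ x) v := T.tp.φ_A f x v

theorem ψ_C (f : Dual F U) (c : End F W) (v : V) : T.ψ f (T.tp.C c v) = c (T.ψ f v) := T.tp.φ_C f c v

theorem kron_apply (a : W ≃ₗ[F] W) (t : U ≃ₗ[F] U) (x : V) :
    T.kron a t x = T.tp.A (t : End F U) (T.tp.C (a : End F W) x) :=
  T.ext_tm (f := T.kron a t) (g := T.tp.A (t : End F U) * T.tp.C (a : End F W))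
    (fun b y => by simp [kron_tm, A_tm, C_tm]) x

theorem kron_one_apply (t : U ≃ₗ[F] U) (x : V) : T.kron 1 t x = T.tp.A (t : End F U) x :=
  T.ext_tm (f := T.kron 1 t) (g := T.tp.A (t : End F U)) (fun b y => by simp [kron_tm, A_tm]) x

theorem κ_eq (y : U) (f : Dual F U) : T.κ y f = T.tp.A (rk y f) := LinearMap.ext fun x => (T.A_rk y f x).symm

/-- The image of a decomposition. -/
noncomputable def mv (g : V ≃ₗ[F] V) : TL F W U V := ⟨T.E.trans g⟩

theorem mv_tm (g : V ≃ₗ[F] V) (a : W) (y : U) : (T.mv g).tm a y = g (T.tm a y) := rfl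

theorem mv_tp (g : V ≃ₗ[F] V) : (T.mv g).tp = T.tp.mv (LinearMap.GeneralLinearGroup.ofLinearEquiv g) := rfl

theorem mv_A (g : V ≃ₗ[F] V) (x : End F U) (v : V) : (T.mv g).tp.A x v = g (T.tp.A x (g⁻¹ v)) := by
  rw [mv_tp, TP.mv_A]; rfl

theorem mv_ψ (g : V ≃ₗ[F] V) (f : Dual F U) (v : V) : (T.mv g).ψ f v = T.ψ f (g⁻¹ v) := by
  rw [← tp_φ, mv_tp, TP.mv_φ]; rfl

theorem mv_kron (g : V ≃ₗ[F] V) (a : W ≃ₗ[F] W) (t : U ≃ₗ[F] U) : (T.mv g).kron a t = g * T.kron a t * g⁻¹ :=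
  (T.mv g).equiv_ext fun b y => by rw [kron_tm]; simp [kron_tm, mv_tm, inv_apply_apply]

theorem mem_KS_mv {g h : V ≃ₗ[F] V} : h ∈ (T.mv g).KS ↔ g⁻¹ * h * g ∈ T.KS :=
  exists₂_congr fun a t => by rw [mv_kron]; exact ⟨fun e => by rw [e]; group, fun e => by rw [← e]; group⟩

/-- The first algebra of `T'` is contained in that of `T`. -/
def Same (T' T : TL F W U V) : Prop := ∀ a, ∃ a', T'.tp.A a = T.tp.A a'

/-- The first algebras of `T'` and `T` commute. -/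
def Comm (T' T : TL F W U V) : Prop := ∀ a, T.tp.Cm (T'.tp.A a)

/-- The first algebras of `T'` and `T` coincide or commute. -/
def Rel (T' T : TL F W U V) : Prop := Same T' T ∨ Comm T' T

variable {T} {T' T'' : TL F W U V}

theorem Comm.symm (h : Comm T' T) : Comm T T' := fun a b => (h b a).symm

theorem Same.trans (h : Same T'' T') (h' : Same T' T) : Same T'' T := fun a => by
  obtain ⟨a', e⟩ := h a
  obtain ⟨a'', e'⟩ := h' a'
  exact ⟨a'', e.trans e'⟩

theorem Same.comm (h : Same T'' T') (h' : Comm T' T) : Comm T'' T := fun a => by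
  obtain ⟨a', e⟩ := h a
  exact e ▸ h' a'

theorem A_conj {g : V ≃ₗ[F] V} (hg : g ∈ T.KS) (a : End F U) : ∃ a', ∀ v, g (T.tp.A a (g⁻¹ v)) = T.tp.A a' v := by
  obtain ⟨c, t, rfl⟩ := hg
  exact ⟨cnj t a, T.ext_tm (f := cnj (T.kron c t) (T.tp.A a)) fun b y => by
    simp [cnj_apply, kron_inv, kron_tm, A_tm, apply_inv_apply]⟩

theorem same_mv {g : V ≃ₗ[F] V} (hg : g ∈ T.KS) : Same (T.mv g) T := fun a =>
  (A_conj hg a).imp fun _ e => LinearMap.ext fun v => (T.mv_A g a v).trans (e v)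

variable [FiniteDimensional F U] [FiniteDimensional F W] [Nontrivial U] [Nontrivial W]

theorem Same.exists_eq (h : Same T' T) : ∃ g ∈ T.KS, T' = T.mv g := by
  obtain ⟨t, c, e⟩ := TP.exists_tm_eq h
  obtain ⟨x₀, hx₀⟩ := exists_ne (0 : U)
  obtain ⟨y₀, hy₀⟩ := exists_ne (0 : W)
  have h1 : ∀ x y, t x = 0 ∨ c y = 0 → x = 0 ∨ y = 0 := fun x y h => T'.tp.tm_eq_zero (by
    rw [e]; rcases h with h | h <;> simp [h])
  have : T'.E = (T.mv (T.kron (LinearEquiv.ofInjectiveEndo c ((injective_iff_map_eq_zero c).2 fun y hy =>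
      (h1 x₀ y (Or.inr hy)).resolve_left hx₀)) (LinearEquiv.ofInjectiveEndo t ((injective_iff_map_eq_zero t).2
      fun x hx => (h1 x y₀ (Or.inl hx)).resolve_right hy₀)))).E :=
    LinearEquiv.toLinearMap_injective (TensorProduct.ext' fun a y => (e y a).trans (by
      rw [LinearEquiv.coe_coe, ← tm_apply, mv_tm, kron_tm]; rfl))
  exact ⟨_, T.kron_mem_KS _ _, congrArg TL.mk this⟩

theorem mem_KS_of_same {g : V ≃ₗ[F] V} (h : Same (T.mv g) T) : g ∈ T.KS := by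
  obtain ⟨k, hk, e⟩ := h.exists_eq
  rwa [show g = k from T.equiv_ext fun a y => by rw [← mv_tm, e, mv_tm]]

theorem Same.symm (h : Same T' T) : Same T T' := by
  obtain ⟨k, hk, rfl⟩ := h.exists_eq
  intro a
  obtain ⟨a', e⟩ := A_conj (inv_mem hk) a
  exact ⟨a', LinearMap.ext fun v => by rw [mv_A, ← e, inv_inv, apply_inv_apply, apply_inv_apply]⟩

theorem Rel.symm (h : Rel T' T) : Rel T T' := h.imp Same.symm Comm.symm

theorem mem_KS_of_cm {g : V ≃ₗ[F] V} (h : T.tp.Cm (g : End F V)) : ∃ c, g = T.kron c 1 := by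
  obtain ⟨y, hy⟩ := exists_ne (0 : U)
  obtain ⟨c, hc⟩ := T.tp.exists_C h
  have h1 : ∀ a y, g (T.tm a y) = T.tm (c a) y := fun a y => (LinearMap.congr_fun hc _).trans (T.C_tm c a y)
  exact ⟨LinearEquiv.ofInjectiveEndo c fun a b e => T.tm_left_injective hy (g.injective (by rw [h1, h1, e])),
    T.equiv_ext fun a y => by rw [h1, kron_tm]; rfl⟩

theorem Same.not_comm (h2 : 2 ≤ finrank F U) (h : Same T' T) : ¬ Comm T' T := fun h' => by
  obtain ⟨x, hx⟩ := exists_ne (0 : U)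
  obtain ⟨y, hy⟩ := SetLike.exists_of_lt (lt_top_iff_ne_top.2 (span_ne_top (F := F) ![x] (by simp; omega)))
  obtain ⟨f, f1, f0⟩ := exists_dual_sub hy.2
  obtain ⟨l, hl⟩ := (h.symm.comm h' (rk x f)).scalar
  have e1 := LinearMap.congr_fun hl x
  have e2 := LinearMap.congr_fun hl y
  simp only [rk_apply, f0 x (Submodule.subset_span ⟨0, rfl⟩), f1, zero_smul, one_smul, LinearMap.smul_apply,
    End.one_apply] at e1 e2
  rw [(smul_eq_zero.1 e1.symm).resolve_right hx, zero_smul] at e2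
  exact hx e2

end TL

section Io

variable {β : LinearMap.BilinForm F U}

/-- The nilpotent map attached to a transvection. -/
abbrev io (β : LinearMap.BilinForm F U) (u : U) : End F U := rk u (β u)

/-- The span of the maps `io`. -/
def X1 (β : LinearMap.BilinForm F U) : Submodule F (End F U) := Submodule.span F (Set.range (io β))

variable [FiniteDimensional F U] (R : RF (RingHom.id F) (-1) β)
include R

theorem eq_top_of_rk {S : Submodule F (End F U)} (h : ∀ a b, β a b ≠ 0 → rk a (β b) ∈ S) : S = ⊤ := by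
  have h1 : ∀ a b, rk a (β b) ∈ S := fun a b => by
    by_cases h0 : β a b = 0
    swap
    · exact h a b h0
    by_cases ha : a = 0
    · convert S.zero_mem using 1
      ext; simp [ha]
    obtain ⟨c, hc⟩ := R.exists_one ha
    convert sub_mem (h a (b + c) (by simp [h0, hc])) (h a c (by simp [hc])) using 1
    ext; simp [add_smul]
  refine eq_top_iff.2 fun z _ => ?_
  rw [show z = ∑ i, rk (finBasis F U i) ((finBasis F U).coord i ∘ₗ z) by ext; simp]
  refine sum_mem fun i _ => ?_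
  obtain ⟨b, hb⟩ := R.repr ((finBasis F U).coord i ∘ₗ z)
  exact hb ▸ h1 _ b

theorem X1_sq : X1 β * X1 β = ⊤ := eq_top_of_rk R fun a b h => by
  rw [← Submodule.smul_mem_iff _ h, ← rk_mul_rk a b (β a)]
  exact Submodule.mul_mem_mul (Submodule.subset_span ⟨a, rfl⟩) (Submodule.subset_span ⟨b, rfl⟩)

theorem mem_of_io (S : Subalgebra F (End F U)) (h : ∀ u, io β u ∈ S) (a : End F U) : a ∈ S := by
  have h1 : X1 β ≤ S.toSubmodule := Submodule.span_le.2 (by rintro _ ⟨u, rfl⟩; exact h u)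
  exact (Submodule.mul_le.2 fun x hx y hy => S.mul_mem (h1 hx) (h1 hy) : X1 β * X1 β ≤ S.toSubmodule)
    (X1_sq R ▸ Submodule.mem_top)

theorem exists_both {u v : U} (hu : u ≠ 0) (hv : v ≠ 0) : ∃ w, β u w ≠ 0 ∧ β v w ≠ 0 := by
  obtain ⟨w, -, h⟩ := exists_both_ne_zero ⊤ (β u) (β v)
    ((R.exists_one hu).imp fun _ h => ⟨trivial, by simp [h]⟩) ((R.exists_one hv).imp fun _ h => ⟨trivial, by simp [h]⟩)
  exact ⟨w, h⟩

theorem exists_perp_ne (h3 : 3 ≤ finrank F U) {u : U} (hu : u ≠ 0) : ∃ w, β u w = 0 ∧ ∀ c : F, c • u ≠ w := by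
  obtain ⟨u', hu'⟩ := R.exists_one' hu
  obtain ⟨w, -, w0, hw⟩ := R.exists_perp ⊤ ![u, u'] (by simp; omega)
  refine ⟨w, hw 0, fun c e => w0 ?_⟩
  have : β u' w = 0 := hw 1
  simp only [← e, map_smul, hu', smul_eq_mul, mul_one] at this
  rw [← e, this, zero_smul]

end Io

variable {ε₁ ε : F} {β : LinearMap.BilinForm F U} {γ : LinearMap.BilinForm F W} {B : LinearMap.BilinForm F V}

namespace TF

variable (T : TF (RingHom.id F) ε₁ (-1) ε γ β B)

/-- The image of a decomposition under an isometry. -/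
noncomputable def mv (g : V ≃ₗ[F] V) (hg : g ∈ UG B) : TF (RingHom.id F) ε₁ (-1) ε γ β B :=
  { T.toTL.mv g with
    r₁ := T.r₁, r₂ := T.r₂, r := T.r, form := fun a y a' y' => (hg _ _).trans (T.form a y a' y') }

theorem mv_toTL (g : V ≃ₗ[F] V) (hg : g ∈ UG B) : (T.mv g hg).toTL = T.toTL.mv g := rfl

variable {T}

theorem Rad.of_mv {g h : V ≃ₗ[F] V} {hg : g ∈ UG B} {u : U} (R : (T.mv g hg).Rad u h) : T.Rad u (g⁻¹ * h * g) :=
  ⟨fun a => (congrArg (g⁻¹ : V ≃ₗ[F] V) (R.fix a)).trans (inv_apply_apply g _), fun x hx => by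
    obtain ⟨a, e⟩ := (T.mv g hg).mem_L.1 (R.sub (g x) ((T.toTL.mv_ψ g _ _).trans (by rwa [inv_apply_apply])))
    exact T.mem_L.2 ⟨a, g.injective (by
      rw [map_sub, LinearEquiv.mul_apply, LinearEquiv.mul_apply, apply_inv_apply, e]; rfl)⟩⟩

variable [FiniteDimensional F U] [FiniteDimensional F W] [Nontrivial W]

/-- An element of the radical with a scalar component. -/
theorem scalar_of_mem_KS {u z : U} (hz : ∀ c : F, c • u ≠ z) (hu : u ≠ 0) {h : V ≃ₗ[F] V} (hK : h ∈ T.KS)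
    (R : T.Rad u h) {s : End F W} (e : ∀ x, T.ψ' u x = 0 → h x = x + T.tm (s (T.ψ' z x)) u) :
    ∃ c : F, ∀ a, s a = c • a := by
  obtain ⟨u', hu'⟩ := T.r₂.exists_one hu
  obtain ⟨z', -, e'⟩ := R.exists_z hK hu'
  obtain ⟨y, y0, y1⟩ := T.r₂.exists_dual hz
  refine ⟨β z' y, fun a => T.tm_left_injective hu ?_⟩
  have h1 := T.ψ'_tm u a y
  rw [T.r₂.flip0 y0, zero_smul] at h1
  have h2 := (e _ h1).symm.trans (e' _ h1)
  rw [T.ψ'_tm, T.ψ'_tm, T.r₂.symm y z, y1] at h2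
  simp only [map_neg, map_smul, RingHom.id_apply, mul_one, neg_smul, one_smul, LinearMap.neg_apply,
    LinearMap.smul_apply] at h2
  rw [map_smul, LinearMap.smul_apply]
  linear_combination (norm := module) -h2

theorem scalar_of_central {u : U} (hu : u ≠ 0) (hβ : β.IsAlt) {h : V ≃ₗ[F] V} (hK : h ∈ T.KS) {s : End F W}
    (e : ∀ x, h x = x + T.tm (s (T.ψ' u x)) u) : ∃ c : F, ∀ a, s a = c • a := by
  obtain ⟨u', hu'⟩ := T.r₂.exists_one hu
  obtain ⟨t, rfl⟩ := exists_kron_one hK hu fun a => by simp [e, T.ψ_tm, alt_self hβ]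
  obtain ⟨f, hf⟩ := exists_dual_eq_one (F := F) hu
  refine ⟨f (t u' - u'), fun a => ?_⟩
  have := congrArg (T.ψ f) (e (T.tm a u'))
  simp only [T.kron_tm, T.ψ_tm, hu', one_smul, map_add, hf, LinearEquiv.coe_one, id] at this
  rw [map_sub, sub_smul, this, add_sub_cancel_left]

/-- Decomposition of an element stabilising `W ⊗ w`. -/
theorem exists_kron_rad {X : Subgroup (V ≃ₗ[F] V)} (hX : X ≤ UG B) (hβ : β.IsAlt) {w : U} (hw0 : w ≠ 0)
    (hZ : unip _ (T.κ'_κ' (alt_self hβ w)) 1 ∈ X)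
    (hE : ∀ z, β w z = 0 → ∃ e ∈ X, T.Rad w e ∧ ∀ x, T.ψ' w x = 0 → e x = x + T.tm (T.ψ' z x) w)
    (hN : ∀ h ∈ X, T.Rad w h → h ∈ T.KS) {k : V ≃ₗ[F] V} (hk : k ∈ X) (h : ∀ a, k (T.tm a w) ∈ T.L w) :
    ∃ α s, ∃ m : F, (∀ y y', β (s y) (s y') = m * β y y') ∧ s w = w ∧ T.kron α s ∈ UG B ∧
      T.Rad w ((T.kron α s)⁻¹ * k) := by
  obtain ⟨w', hww⟩ := T.r₂.exists_one hw0
  have hw := alt_self hβ w
  have hw' := alt_self hβ w'
  obtain ⟨α, hα⟩ : ∃ α : W ≃ₗ[F] W, ∀ a, k (T.tm a w) = T.tm (α a) w := T.swap.exists_stab hw0 h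
  have h1 : ∀ z, β z w = 0 → ∃ z', ∀ x, T.ψ' w x = 0 → T.ψ' z (k x) = -α (T.ψ' z' x) := fun z hz => by
    obtain ⟨e, he, R, e1⟩ := hE z (T.r₂.flip0 hz)
    obtain ⟨z', -, e2⟩ := (R.conj (hX hk) hα).exists_z
      (hN _ (mul_mem (mul_mem (inv_mem hk) he) hk) (R.conj (hX hk) hα)) hww
    refine ⟨z', fun x hx => T.tm_left_injective hw0 ?_⟩
    have := congrArg k (e2 x hx)
    rw [LinearEquiv.mul_apply, LinearEquiv.mul_apply, apply_inv_apply, e1 _ (ψ'_eq_zero_of_stab (hX hk) hα hx),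
      map_sub, hα, sub_eq_add_neg, add_right_inj] at this
    simp [this]
  obtain ⟨a₀, ha₀⟩ := exists_ne (0 : W)
  obtain ⟨f, hf⟩ := exists_dual_eq_one (F := F) (α.map_ne_zero_iff.2 ha₀)
  let t : U →ₗ[F] U := T.φ f ∘ₗ (k : V →ₗ[F] V) ∘ₗ T.tm a₀
  have ht : ∀ y, t y = T.φ f (k (T.tm a₀ y)) := fun y => rfl
  have hp : ∀ a y, β w y = 0 → T.ψ' w (T.tm a y) = 0 := fun a y hy => by simp [T.ψ_tm, hy]
  have h2 : ∀ a y, β w y = 0 → ∃ b, k (T.tm a y) = T.tm (α a) (t y) + T.tm b w := fun a y hy => by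
    obtain ⟨b, hb⟩ := T.mem_L.1 (T.mem_L_of hw0 (x := k (T.tm a y) - T.tm (α a) (t y)) fun z hz => by
      obtain ⟨z', e⟩ := h1 z hz
      rw [map_sub, T.ψ_tm, ht, T.φ_ψ, e _ (hp _ _ hy), e _ (hp _ _ hy)]
      simp [T.ψ_tm, hf])
    exact ⟨b, by rw [← hb]; abel⟩
  have h4 : ∀ y, β w y = 0 → β w (t y) = 0 := fun y hy => by
    rw [ht, T.φ_ψ, ψ'_eq_zero_of_stab (hX hk) hα (hp _ _ hy), map_zero]
  have h5 : t w = w := by rw [ht, hα, T.φ_tm, hf, one_smul]
  have R₀ : T.Rad w (unip _ (T.κ'_κ' hw) 1) := ⟨fun a => by simp [unip_apply, T.κ_apply, T.ψ_tm, hw],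
    fun x hx => by simp [unip_apply, T.κ_apply, hx]⟩
  obtain ⟨m, hm⟩ := scalar_of_central hw0 hβ (hN _ (mul_mem (mul_mem (inv_mem hk) hZ) hk) (R₀.conj (hX hk) hα))
    (s := (α⁻¹ : W ≃ₗ[F] W) ∘ₗ T.ψ' w ∘ₗ (k : V →ₗ[F] V) ∘ₗ T.tm.flip w') fun x => k.injective (by
      have := ψ'_eq_zero_of_stab (hX hk) hα (x := x - T.tm (T.ψ' w x) w') (by simp [T.ψ_tm, hww])
      rw [map_sub, map_sub, sub_eq_zero] at this
      simp [unip_apply, T.κ_apply, apply_inv_apply, hα, this])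
  have h7 : ∀ a b, γ (α a) (α b) * m = γ a b := fun a b => by
    have e := ψ'_of_stab (hX hk) hα a (T.tm b w')
    rw [← apply_inv_apply α (T.ψ' w _), show α⁻¹ (T.ψ' w (k (T.tm b w'))) = m • b from hm b, T.ψ_tm, hww] at e
    simpa [mul_comm] using e
  obtain ⟨a₁, ha₁⟩ := T.r₁.exists_one ha₀
  have h8 : ∀ y y', β w y = 0 → β w y' = 0 → β (t y) (t y') = m * β y y' := fun y y' hy hy' => by
    obtain ⟨c, e⟩ := h2 a₀ y hy
    obtain ⟨c', e'⟩ := h2 a₁ y' hy'
    have := hX hk (T.tm a₀ y) (T.tm a₁ y')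
    have e₀ := h7 a₀ a₁
    simp only [e, e', B_tm, hw, h4 y' hy', T.r₂.flip0 (h4 y hy), map_add, LinearMap.add_apply, mul_zero, add_zero,
      ha₁] at this e₀
    linear_combination m * this - β (t y) (t y') * e₀
  have hm0 : m ≠ 0 := fun e => by simpa [e, ha₁] using h7 a₀ a₁
  let π : U →ₗ[F] U := LinearMap.id - (β w).smulRight w'
  have hπ : ∀ y, β w (π y) = 0 := fun y => by simp [π, hww]
  let s : U →ₗ[F] U := t ∘ₗ π + (β w' ∘ₗ (t - LinearMap.id) ∘ₗ π).smulRight w + (m • β w).smulRight w'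
  have hs : ∀ y, s y = t (π y) + (β w' (t (π y)) - β w' (π y)) • w + (m * β w y) • w' := fun y => by simp [s]
  have h9 : ∀ y y', β (s y) (s y') = m * β y y' := fun y y' => by
    have d : ∀ y, y = π y + β w y • w' := fun y => by simp [π]
    conv_rhs => rw [d y, d y']
    simp only [hs, map_add, map_smul, LinearMap.add_apply, LinearMap.smul_apply, smul_eq_mul, h8 _ _ (hπ y) (hπ y'),
      h4 _ (hπ y'), T.r₂.flip0 (h4 _ (hπ y)), hw, hww, hw', T.flip_one hww, alt_neg hβ (t (π y)) w',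
      alt_neg hβ (π y) w']
    ring
  obtain ⟨s', hs'⟩ := T.r₂.exists_equiv s hm0 h9
  have hπ' : ∀ y, β w y = 0 → π y = y := fun y hy => by simp [π, hy]
  have hsw : s' w = w := by simp [hs', hs, hπ' w hw, h5, hw]
  have hi : ∀ a, (T.kron α s')⁻¹ (T.tm a w) = T.tm (α⁻¹ a) w := fun a =>
    (T.kron α s').injective (by rw [apply_inv_apply, T.kron_tm, apply_inv_apply, hsw])
  refine ⟨α, s', m, fun y y' => by rw [hs', hs', h9], hsw,
    T.kron_mem_UG fun x x' y y' => by rw [hs', hs', h9, ← mul_assoc, h7],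
    fun a => by rw [LinearEquiv.mul_apply, hα, hi, inv_apply_apply], fun x hx => ?_⟩
  rw [← Submodule.Quotient.eq]
  refine T.ext_perp hww (f := (T.L w).mkQ ∘ₗ (((T.kron α s')⁻¹ * k : V ≃ₗ[F] V) : V →ₗ[F] V)) (g := (T.L w).mkQ)
    (fun a y hy => (Submodule.Quotient.eq _).2 ?_) hx
  obtain ⟨b, e⟩ := h2 a y hy
  have : T.tm (α a) (t y) = T.kron α s' (T.tm a y) + T.tm (-((β w' (t y) - β w' y) • α a)) w := by
    simp [T.kron_tm, hs', hs, hπ' y hy, hy]
  rw [LinearEquiv.coe_coe, LinearEquiv.mul_apply, e, this, map_add, map_add, inv_apply_apply, hi, hi, add_assoc,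
    add_sub_cancel_left]
  exact add_mem (T.tm_mem_L _ _) (T.tm_mem_L _ _)

end TF

end CL.Sp
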