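import Cfsg.Agent.Cls.WS1

set_option autoImplicit false
set_option linter.unusedSectionVars false

/-!
Frames of symplectic tensor factors: stabilisers of the spaces `W ⊗ u`, and transvections normalising another factor.
-/

namespace CL.Sp

open Module CL.SLn CL.TW
open CL.Uni (UG)

variable {F U W V : Type*} [Field F] [AddCommGroup U] [Module F U] [AddCommGroup W] [Module F W]
  [AddCommGroup V] [Module F V] {ε₁ ε : F} {β : LinearMap.BilinForm F U} {γ : LinearMap.BilinForm F W}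
  {B : LinearMap.BilinForm F V} {T T' : TF (RingHom.id F) ε₁ (-1) ε γ β B} {H : Subgroup (V ≃ₗ[F] V)}

/-- `H` is a group of isometries containing `1 ⊗ Sp(U)`. -/
structure Ov (T : TF (RingHom.id F) ε₁ (-1) ε γ β B) (H : Subgroup (V ≃ₗ[F] V)) : Prop where
  alt : β.IsAlt
  le : H ≤ UG B
  sp : ∀ t ∈ Isom β, T.kron 1 t ∈ H

/-- Moreover the unipotent radicals contain only Kronecker products. -/
structure Gd (T : TF (RingHom.id F) ε₁ (-1) ε γ β B) (H : Subgroup (V ≃ₗ[F] V)) : Prop extends Ov T H where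
  rad : ∀ u, u ≠ 0 → ∀ h ∈ H, T.Rad u h → h ∈ T.KS

/-- The transvections of the symplectic factor. -/
noncomputable abbrev TF.tz (T : TF (RingHom.id F) ε₁ (-1) ε γ β B) (hβ : β.IsAlt) (u : U) (c : F) : V ≃ₗ[F] V :=
  unip (T.κ' u) (T.κ'_κ' (alt_self hβ u)) c

theorem TF.tz_apply (hβ : β.IsAlt) (u : U) (c : F) (x : V) : T.tz hβ u c x = x + c • T.tm (T.ψ' u x) u := rfl

theorem TF.tz_eq (hβ : β.IsAlt) (u : U) (c : F) : T.tz hβ u c = T.kron 1 (tv hβ u (-c)) :=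
  T.equiv_ext fun a y => by simp [TF.tz_apply, T.kron_tm, tv_apply, T.ψ_tm, alt_neg hβ y u, smul_smul]

theorem exists_eich (hβ : β.IsAlt) {w z : U} (hz : β w z = 0) :
    ∃ t ∈ Isom β, t w = w ∧ ∀ y, β w y = 0 → t y = y + β z y • w := by
  have hz' := (alt_eq_zero_comm hβ).1 hz
  refine ⟨_, mul_mem (tv_mem_isom hβ (w + z) (-1)) (tv_mem_isom hβ z 1), by simp [tv_apply, hz, alt_self hβ],
    fun y hy => ?_⟩
  simp only [LinearEquiv.mul_apply, tv_apply, map_add, map_smul, LinearMap.add_apply, LinearMap.smul_apply,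
    alt_self hβ, hz', (alt_eq_zero_comm hβ).1 hy, alt_neg hβ y z]
  module

namespace Ov

variable (O : Ov T H)
include O

theorem tz_mem (u : U) (c : F) : T.tz O.alt u c ∈ H := T.tz_eq O.alt u c ▸ O.sp _ (tv_mem_isom _ _ _)

theorem mv {g : V ≃ₗ[F] V} (hg : g ∈ H) : Ov (T.mv g (O.le hg)) H :=
  ⟨O.alt, O.le, fun t ht => T.toTL.mv_kron g 1 t ▸ mul_mem (mul_mem hg (O.sp t ht)) (inv_mem hg)⟩

theorem exists_rad {w z : U} (w0 : w ≠ 0) (hz : β w z = 0) :
    ∃ e ∈ H, e ∈ T.KS ∧ T.Rad w e ∧ ∀ x, T.ψ' w x = 0 → e x = x + T.tm (T.ψ' z x) w := by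
  obtain ⟨w', hw'⟩ := T.r₂.exists_one w0
  obtain ⟨t, ht, h1, h2⟩ := exists_eich O.alt hz
  exact ⟨_, O.sp t ht, T.kron_mem_KS _ _, TF.rad_kron hw' h1 h2⟩

end Ov

theorem Gd.mv (G : Gd T H) {g : V ≃ₗ[F] V} (hg : g ∈ H) : Gd (T.mv g (G.le hg)) H :=
  ⟨G.toOv.mv hg, fun u hu _ hh R => T.toTL.mem_KS_mv.2 (G.rad u hu _ (mul_mem (mul_mem (inv_mem hg) hh) hg) R.of_mv)⟩

variable [FiniteDimensional F U] [FiniteDimensional F W] [Nontrivial W]

namespace Gd

variable (G : Gd T H) (ex : (∃ l : F, l ≠ 0 ∧ l * l ≠ 1) ∨ 3 ≤ finrank F U)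
include G ex

theorem scalar_of_norm {u : U} (hu : u ≠ 0) {ζ : V ≃ₗ[F] V} {s : End F W}
    (e : ∀ x, ζ x = x + T.tm (s (T.ψ' u x)) u) (h : ∀ t ∈ Isom β, ζ * T.kron 1 t * ζ⁻¹ ∈ H) :
    ∃ c : F, ∀ a, s a = c • a := by
  have hw := alt_self G.alt u
  have hi : ∀ x, ζ⁻¹ x = x - T.tm (s (T.ψ' u x)) u := fun x => ζ.injective (by
    rw [apply_inv_apply, e]; simp [T.ψ_tm, hw])
  have h1 : ∀ v, v ≠ 0 → ∃ c ∈ H, ∀ x, c x = ζ (x - T.tm (s (T.ψ' v x)) v) := fun v hv => by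
    obtain ⟨t, ht, rfl⟩ := exists_isom_apply_eq G.alt T.r₂.nondegenerate hu hv
    have hm := inv_mem (G.sp t ht)
    refine ⟨_, mul_mem (h t ht) hm, fun x => ?_⟩
    rw [mul_assoc, mul_assoc, LinearEquiv.mul_apply, LinearEquiv.mul_apply, LinearEquiv.mul_apply, hi, map_sub,
      apply_inv_apply, T.kron_tm, T.kron_inv, T.ψ'_kron _ (inv_mem ht), inv_inv]
    rfl
  rcases ex with ⟨l, l0, l1⟩ | h3
  · obtain ⟨c, hc, e'⟩ := h1 _ (smul_ne_zero l0 hu)
    have e2 : ∀ x, c x = x + T.tm (((1 - l * l) • s) (T.ψ' u x)) u := fun x => by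
      simp only [e', e, map_smul, T.ψ'_smul, map_sub, T.ψ_tm, hw, RingHom.id_apply, LinearMap.smul_apply, zero_smul,
        smul_zero, sub_zero]
      module
    obtain ⟨d, hd⟩ := TF.scalar_of_central hu G.alt (G.rad u hu c hc ⟨fun a => by simp [e2, T.ψ_tm, hw],
      fun x hx => by simp [e2, hx]⟩) e2
    exact ⟨(1 - l * l)⁻¹ * d, fun a => by
      rw [mul_smul, ← hd, LinearMap.smul_apply, smul_smul, inv_mul_cancel₀ (sub_ne_zero.2 l1.symm), one_smul]⟩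
  obtain ⟨w, h0, hw'⟩ := exists_perp_ne T.r₂ h3 hu
  obtain ⟨c, hc, e1⟩ := h1 w fun e => hw' 0 (by simp [e])
  obtain ⟨c', hc', e2⟩ := h1 (u + w) fun e => hw' (-1) (by simp [neg_eq_iff_add_eq_zero, e])
  have e3 : ∀ x, (c⁻¹ * c') x = x - T.tm (s (T.ψ' (u + w) x)) (u + w) + T.tm (s (T.ψ' w x)) w := fun x =>
    c.injective (by
      rw [LinearEquiv.mul_apply, apply_inv_apply, e1, e2]
      simp [T.ψ_tm, alt_self G.alt, T.r₂.flip0 h0])
  have e4 : ∀ x, T.ψ' u x = 0 → (c⁻¹ * c') x = x + T.tm ((-s) (T.ψ' w x)) u := fun x hx => by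
    simp [e3, T.ψ'_add, hx]; abel
  have R : T.Rad u (c⁻¹ * c') := ⟨fun a => by simp [e4 _ (show T.ψ' u (T.tm a u) = 0 by simp [T.ψ_tm, hw]),
    T.ψ_tm, T.r₂.flip0 h0], fun x hx => by rw [e4 x hx, add_sub_cancel_left]; exact T.tm_mem_L _ _⟩
  obtain ⟨d, hd⟩ := TF.scalar_of_mem_KS hw' hu (G.rad u hu _ (mul_mem (inv_mem hc) hc') R) R e4
  exact ⟨-d, fun a => by simp [← hd]⟩

theorem mem_KS_of_norm {u : U} (hu : u ≠ 0) {r : V ≃ₗ[F] V} (hr : r ∈ UG B) (R : T.Rad u r)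
    (h : ∀ t ∈ Isom β, r * T.kron 1 t * r⁻¹ ∈ H) : r ∈ T.KS := by
  have hw := alt_self G.alt u
  obtain ⟨u', hu'⟩ := T.r₂.exists_one hu
  obtain ⟨D, hD⟩ := R.exists_D hu
  have h0 := TF.RD_self (X := UG B) hu hw ⟨r, hr, R, hD⟩
  have h1 : ∀ z, β u z = 0 → ∃ s : F, ∀ a, D (T.tm a z) = s • a := fun z hz => by
    by_cases h2 : ∃ c : F, c • u = z
    · obtain ⟨c, rfl⟩ := h2
      exact ⟨0, fun a => by simp [h0]⟩
    push Not at h2
    have hm := G.tz_mem z 1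
    have R' := R.mul (R.inv.conj (G.le hm) (α := 1) fun a => by simp [TF.tz_apply, T.ψ_tm, T.r₂.flip0 hz])
    obtain ⟨c, hc⟩ := TF.scalar_of_mem_KS h2 hu (G.rad u hu _ (by
      have := mul_mem (h _ (tv_mem_isom G.alt z (- -1))) hm
      rwa [← T.tz_eq, TF.tz, ← unip_inv, mul_assoc, mul_assoc, ← mul_assoc _⁻¹] at this) R') R'
      (s := -(D ∘ₗ T.tm.flip z)) fun x hx => by
        have h3 : ∀ y, T.ψ' u y = 0 → r⁻¹ y = y - T.tm (D y) u := fun y hy => r.injective (by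
          rw [apply_inv_apply, map_sub, hD y hy, R.fix, add_sub_cancel_right])
        rw [LinearEquiv.mul_apply, LinearEquiv.mul_apply, LinearEquiv.mul_apply, h3 _ (by
          simp [TF.tz_apply, hx, T.ψ_tm, hz]), map_sub, inv_apply_apply, unip_inv, TF.tz_apply G.alt, TF.tz_apply G.alt]
        simp [T.ψ_tm, T.r₂.flip0 hz, hD x hx, R.fix]
        abel
    exact ⟨-c, fun a => by simp [← hc]⟩
  obtain ⟨a₀, ha₀⟩ := exists_ne (0 : W)
  obtain ⟨f, hf⟩ := exists_dual_eq_one (F := F) ha₀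
  obtain ⟨z, hz⟩ := T.r₂.repr (f ∘ₗ D ∘ₗ T.tm a₀)
  obtain ⟨k, hk, hk', R', e'⟩ := G.exists_rad hu (z := z) (T.r₂.flip0 (by simp [hz, h0]))
  obtain ⟨A, hA⟩ := TF.exists_A (T := T) hu' (mul_mem (inv_mem (G.le hk)) hr) fun x hx => k.injective (by
    rw [LinearEquiv.mul_apply, apply_inv_apply, hD x hx, e' x hx, T.ext_perp hu' (f := D) (g := T.ψ' z)
      (fun a y hy => by obtain ⟨s, hs⟩ := h1 y hy; simp [T.ψ_tm, hz, hs, hf]) hx])
  obtain ⟨s, hs⟩ := G.scalar_of_norm ex hu hA fun t ht => by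
    convert mul_mem (mul_mem (inv_mem hk) (h t ht)) hk using 1
    group
  have := mul_mem hk' (TF.mem_KS_of_smul hw (s := s) fun x => by rw [hA, hs])
  rwa [mul_inv_cancel_left] at this

/-- An element mapping `W ⊗ u` into `W ⊗ u'` is a Kronecker product. -/
theorem mem_KS_of_map {u u' : U} (hu : u ≠ 0) (hu' : u' ≠ 0) {g : V ≃ₗ[F] V} (hg : g ∈ H)
    (h : ∀ a, g (T.tm a u) ∈ T.L u') : g ∈ T.KS := by
  obtain ⟨t, ht, e⟩ := exists_isom_apply_eq G.alt T.r₂.nondegenerate hu' hu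
  have hk := mul_mem (G.sp t ht) hg
  obtain ⟨α, s, m, h1, h2, h3, R⟩ := TF.exists_kron_rad G.le G.alt hu (G.tz_mem u 1)
    (fun z hz => (G.exists_rad hu hz).imp fun _ h => ⟨h.1, h.2.2⟩) (G.rad u hu) hk fun a => by
      obtain ⟨b, hb⟩ := T.mem_L.1 (h a)
      rw [LinearEquiv.mul_apply, hb, T.kron_tm, e]
      exact T.tm_mem_L _ _
  have R' := R.conj (inv_mem h3) (α := α⁻¹) fun a => by rw [T.kron_inv, T.kron_tm, ← h2, inv_apply_apply, h2]
  have h4 := G.mem_KS_of_norm ex hu (mul_mem (mul_mem (inv_mem (inv_mem h3)) (mul_mem (inv_mem h3) (G.le hk)))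
    (inv_mem h3)) R' fun t' ht' => by
      have h5 : s⁻¹ * t' * s ∈ Isom β := fun y y' => by
        obtain ⟨u₁, hu₁⟩ := T.r₂.exists_one hu
        obtain ⟨u₂, rfl⟩ := s.surjective u₁
        refine mul_left_cancel₀ (a := m) (fun e => ?_) ?_
        · rw [← h2, h1, e, zero_mul] at hu₁
          exact zero_ne_one hu₁
        · rw [← h1, ← h1]
          simp [apply_inv_apply, ht' (s y)]
      convert mul_mem (mul_mem hk (G.sp _ h5)) (inv_mem hk) using 1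
      rw [show T.kron 1 (s⁻¹ * t' * s) = (T.kron α s)⁻¹ * T.kron 1 t' * T.kron α s by
        simp [T.kron_inv, T.kron_mul]]
      group
  simpa using mul_mem (inv_mem (T.kron_mem_KS 1 t)) (mul_mem h4 (T.kron_mem_KS α s))

/-- An element commuting with a map whose range is `W ⊗ u`. -/
theorem mem_KS_of_comm {u : U} (hu : u ≠ 0) {n : End F V} (hn : LinearMap.range n = T.L u) {g : V ≃ₗ[F] V}
    (hg : g ∈ H) (h : ∀ x, g (n x) = n (g x)) : g ∈ T.KS :=
  G.mem_KS_of_map ex hu hu hg fun a => by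
    obtain ⟨x, hx⟩ := hn.ge (T.tm_mem_L a u)
    rw [← hx, h, ← hn]
    exact ⟨_, rfl⟩

end Gd

variable [Finite F] [FiniteDimensional F V] [Nontrivial U]

/-- A transvection normalising a factor lies in it or centralises it. -/
theorem dich (d : (2 : F) ≠ 0 ∨ 3 ≤ finrank F U) (hβ : β.IsAlt) {u : U} (hu : u ≠ 0) {c : F} (hc : c ≠ 0)
    (h : T.tz hβ u c ∈ T'.KS) : (∃ x u', u' ≠ 0 ∧ T.κ' u = T'.tp.A x ∧ T.L u = T'.L u') ∨ T'.tp.Cm (T.κ' u) := by
  obtain ⟨p, hp⟩ := CharP.exists F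
  have hpp : Fact p.Prime := ⟨CharP.char_is_prime F p⟩
  obtain ⟨a, t, e, ha, ht⟩ := TL.exists_unipotent (p := p) (n := 1) h (unip_pow_char _ c)
  have e' : ∀ x, T'.kron a t x = x + (c • T.κ' u) x := fun x => by rw [← e]; rfl
  have h2 : ∀ x, (c • T.κ' u) ((c • T.κ' u) x) = 0 := fun x => by simp [T.κ'_κ' (alt_self hβ u)]
  have h3 : LinearMap.range (c • T.κ' u) = T.L u := by rw [LinearMap.range_smul _ c hc, T.range_κ' hu]
  have hr : finrank F (LinearMap.range (c • T.κ' u)) ≤ finrank F W := by rw [h3, T.swap.finrank_M hu]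
  have key : (∀ x, a x = x) ∨ ∀ y, t y = y := by
    rcases d with d | d
    · obtain ⟨b, hb, hab⟩ := TL.exists_fix_of_pow ha
      refine TL.kron_mult h2 hb hab e' (a' := a * a) (t' := t * t) (by simp [hab]) d (fun e => ?_) fun x => ?_
      · exact one_ne_zero (α := F) (by linear_combination e)
      · rw [← T'.kron_mul, LinearEquiv.mul_apply, e', e', map_add, h2]
        module
    · obtain ⟨b, hb, hab⟩ := TL.exists_fix_of_pow ht
      exact (TL.kron_two (T := T'.swap) h2 hb hab (by rwa [T'.swap_kron]) hr d).symm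
  rcases key with h4 | h4
  · obtain rfl : a = 1 := LinearEquiv.ext h4
    obtain ⟨u', h5, h6⟩ := TL.exists_range_eq_M (T := T'.swap) (by rwa [T'.swap_kron]) hr fun e => by
      obtain ⟨b, hb⟩ := exists_ne (0 : W)
      have := T.tm_mem_L b u
      rw [← h3, e, LinearMap.range_zero] at this
      exact T.tm_ne_zero hb hu this
    refine Or.inl ⟨c⁻¹ • ((t : End F U) - 1), u', h5, LinearMap.ext fun x => ?_, h3.symm.trans h6⟩
    simp [← T'.kron_one_apply, e', hc]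
  · obtain rfl : t = 1 := LinearEquiv.ext h4
    rw [show T.κ' u = T'.tp.C (c⁻¹ • ((a : End F W) - 1)) from LinearMap.ext fun x => by
      have := e' x
      rw [T'.kron_apply, show ((1 : U ≃ₗ[F] U) : End F U) = 1 from rfl, map_one, End.one_apply] at this
      simp [this, hc]]
    exact Or.inr (T'.tp.cm_C _)

/-- If all transvections of a factor normalise another factor, the factors coincide or commute. -/
theorem rel_of_all (d : (2 : F) ≠ 0 ∨ 3 ≤ finrank F U) (hβ : β.IsAlt) (h : ∀ u, T'.tz hβ u 1 ∈ T.KS) :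
    TL.Rel T'.toTL T.toTL := by
  by_cases h1 : ∀ u, T.tp.Cm (T'.κ' u)
  · exact Or.inr (mem_of_io T.r₂ (T.tp.cmAlg.comap T'.tp.A) fun u => by
      simpa [T'.κ_eq] using show T'.κ' u ∈ T.tp.cmAlg from h1 u)
  push Not at h1
  obtain ⟨u, hu⟩ := h1
  have h2 : ∀ u v, β u v ≠ 0 → (∃ x, T'.κ' u = T.tp.A x) → ∃ x, T'.κ' v = T.tp.A x := fun u v huv ⟨x, hx⟩ => by
    have v0 : v ≠ 0 := fun e => huv (by simp [e])
    rcases dich d hβ v0 one_ne_zero (h v) with ⟨y, -, -, e, -⟩ | h3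
    · exact ⟨y, e⟩
    obtain ⟨a, ha⟩ := exists_ne (0 : W)
    have := LinearMap.congr_fun (h3 x).eq (T'.tm a u)
    simp only [← hx, End.mul_apply, T'.κ_apply, T'.ψ_tm, alt_self hβ, map_smul, LinearMap.smul_apply, zero_smul,
      map_zero, smul_eq_zero, huv, T.r₂.flip_ne huv, false_or, LinearMap.zero_apply] at this
    exact (T'.tm_ne_zero ha (fun e : u = 0 => huv (by simp [e])) this).elim
  have u0 : u ≠ 0 := fun e => hu (by
    rw [show T'.κ' u = 0 by ext; rw [T'.κ_apply, e, map_zero]; rfl]; exact fun a => Commute.zero_right _)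
  obtain ⟨x, -, -, hx, -⟩ := (dich d hβ u0 one_ne_zero (h u)).resolve_right hu
  refine Or.inl (mem_of_io T.r₂ (T.tp.A.range.comap T'.tp.A) (fun v => ?_) · |>.imp fun _ e => Eq.symm e)
  by_cases v0 : v = 0
  · rw [show io β v = 0 by ext; simp [v0]]; exact zero_mem _
  obtain ⟨w, h3, h4⟩ := exists_both T.r₂ u0 v0
  obtain ⟨y, hy⟩ := h2 w v (T.r₂.flip_ne h4) (h2 u w h3 ⟨x, hx⟩)
  exact ⟨y, hy.symm.trans (T'.κ_eq _ _)⟩

/-- A frame of good factors. -/
structure GF {J : Type*} (T : J → TF (RingHom.id F) ε₁ (-1) ε γ β B) (H : Subgroup (V ≃ₗ[F] V)) : Prop where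
  fr : Fr fun j => (T j).tp
  gd : ∀ j, Gd (T j) H
  ex : (∃ l : F, l ≠ 0 ∧ l * l ≠ 1) ∨ 3 ≤ finrank F U
  d : (2 : F) ≠ 0 ∨ 3 ≤ finrank F U

namespace GF

variable {J : Type*} {T : J → TF (RingHom.id F) ε₁ (-1) ε γ β B} (Φ : GF T H)
include Φ

theorem mv {g : V ≃ₗ[F] V} (hg : g ∈ H) (hg' : g ∈ UG B) : GF (fun j => (T j).mv g hg') H :=
  ⟨Φ.fr.mv (LinearMap.GeneralLinearGroup.ofLinearEquiv g), fun j => (Φ.gd j).mv hg, Φ.ex, Φ.d⟩

/-- A factor normalised by a transvection of the frame. -/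
theorem rel (G : Gd T' H) {i : J} {u : U} (hu : u ≠ 0) {c : F} (hc : c ≠ 0) (h : (T i).tz G.alt u c ∈ T'.KS) :
    TL.Rel T'.toTL (T i).toTL := by
  rcases dich Φ.d G.alt hu hc h with ⟨x, u', h0, -, e⟩ | h1
  · by_cases h2 : ∃ m, m ≠ i ∧ TL.Same (T m).toTL T'.toTL
    · obtain ⟨m, hm, h2⟩ := h2
      exact Or.inr (h2.symm.comm (Φ.fr.comm i m hm.symm))
    push Not at h2
    refine Or.inl fun a => Φ.fr.exists_A fun m hm => ?_
    refine ((rel_of_all Φ.d G.alt fun v => G.mem_KS_of_comm Φ.ex h0 (((T i).range_κ' hu).trans e)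
      ((Φ.gd m).tz_mem v 1) fun y => ?_).resolve_left (h2 m hm)).symm a
    have := LinearMap.congr_fun (Φ.fr.comm m i hm (io β u) (io β v)).eq y
    simp only [← TL.κ_eq, End.mul_apply] at this
    simp [unip_apply, this]
  · refine rel_of_all Φ.d G.alt fun v => (Φ.gd i).mem_KS_of_comm Φ.ex hu ((T i).range_κ' hu) (G.tz_mem v 1) fun y => ?_
    have := LinearMap.congr_fun (h1 (io β v)).eq y
    simp only [← TL.κ_eq, End.mul_apply] at this
    simp [unip_apply, this]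

end GF

end CL.Sp
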