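import Cfsg.Agent.Cls.WS2

set_option autoImplicit false
set_option linter.unusedSectionVars false

/-!
The form of degree four attached to a tensor factor, and sums over invariant sets of such forms.
-/

namespace CL.Sp

open Module CL.SLn CL.TW CL.TrTr
open CL.Uni (UG)

variable {F U W V : Type*} [Field F] [AddCommGroup U] [Module F U] [AddCommGroup W] [Module F W]
  [AddCommGroup V] [Module F V]

/-- Forms of degree four on the sum of the space and its dual. -/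
abbrev M4 (F V : Type*) [Field F] [AddCommGroup V] [Module F V] := MultilinearMap F (fun _ : Fin 4 => V × Dual F V) F

/-- The action on forms of degree four. -/
abbrev ρ4 (g : V ≃ₗ[F] V) : End F (M4 F V) := mrep (Fin 4) (dπ F V) g

namespace TL

variable (T : TL F W U V)

theorem four_mv (g : V ≃ₗ[F] V) : (T.mv g).four = ρ4 g T.four := by
  have h : ∀ f v, (T.mv g).ptr f v = T.ptr (f ∘ₗ (g : V →ₗ[F] V)) (g⁻¹ v) := fun f v => LinearMap.ext fun a => by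
    rw [ptr_apply, mv_ψ]; rfl
  ext v
  rw [mrep_apply, four_apply, four_apply, h, h]
  rfl

theorem four_swap_mv (g : V ≃ₗ[F] V) : (T.mv g).swap.four = ρ4 g T.swap.four := T.swap.four_mv g

variable [FiniteDimensional F U]

theorem trace_ptr (a : End F U) (f : Dual F V) (v : V) :
    LinearMap.trace F U (a * T.swap.ptr f v) = f (T.tp.A a v) :=
  T.ext_tm (f := LinearMap.trace F U ∘ₗ LinearMap.mulLeft F a ∘ₗ T.swap.ptr f) (g := f ∘ₗ T.tp.A a) (fun b y => by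
    have : a * T.swap.ptr f (T.tm b y) = (f ∘ₗ T.tm b).smulRight (a y) := by
      ext x
      rw [End.mul_apply, ptr_apply, ← swap_tm, ψ_tm, map_smul]
      rfl
    simp [this, A_tm]) v

theorem four_eq (v w : V) (f g : Dual F V) :
    T.swap.four ![(v, 0), (w, 0), (0, f), (0, g)] = g (T.tp.A (T.swap.ptr f v) w) := T.trace_ptr _ _ _

theorem four_eq' (v w : V) (f g : Dual F V) :
    T.swap.four ![(v, 0), (w, 0), (0, f), (0, g)] = f (T.tp.A (T.swap.ptr g w) v) :=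
  (LinearMap.trace_mul_comm F _ _).trans (T.trace_ptr _ _ _)

theorem ptr_tm {b : W} {η : Dual F W} (h : η b = 1) (x : U) (α : Dual F U) :
    T.swap.ptr (α ∘ₗ T.φ η) (T.tm b x) = rk x α := by
  rw [← swap_ψ, ptr_comp, swap_ψ, φ_tm, h, one_smul]

variable {T} {T' T'' : TL F W U V} [FiniteDimensional F W] [Nontrivial U] [Nontrivial W]

theorem same_of_four (h : T'.swap.four = T.swap.four) : Same T' T := fun a => by
  obtain ⟨b, hb⟩ := exists_ne (0 : W)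
  obtain ⟨η, hη⟩ := exists_dual_eq_one (F := F) hb
  rw [show a = ∑ i, rk (finBasis F U i) ((finBasis F U).coord i ∘ₗ a) by ext; simp, map_sum]
  exact Exists.imp (fun _ => Eq.symm) (sum_mem (S := T.tp.A.range) fun i _ => ⟨_, Eq.symm (LinearMap.ext fun w =>
    eq_of_dual (F := F) fun g => by rw [← T'.ptr_tm hη, ← four_eq, h, four_eq]; rfl)⟩)

theorem Same.four (h : Same T' T) : T'.swap.four = T.swap.four := by
  obtain ⟨g, hg, rfl⟩ := h.exists_eq
  rw [four_swap_mv, T.swap.fix_four (T.KS_swap ▸ hg)]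

theorem mem_KS_of_four {g : V ≃ₗ[F] V} (h : ρ4 g T.swap.four = T.swap.four) : g ∈ T.KS :=
  mem_KS_of_same (same_of_four ((T.four_swap_mv g).trans h))

theorem Rel.congr (h : Rel T' T) (e : Same T'' T') : Rel T'' T := h.imp e.trans e.comm

theorem Rel.of_mv {g : V ≃ₗ[F] V} (hg : g ∈ T.KS) (h : Rel (T'.mv g) T) : Rel T' T := by
  refine h.imp (fun h a => ?_) fun h a b => ?_
  · obtain ⟨a', e⟩ := h a
    obtain ⟨a'', e'⟩ := A_conj (inv_mem hg) a'
    exact ⟨a'', LinearMap.ext fun v => by rw [← e', ← e, mv_A, inv_inv, inv_apply_apply, inv_apply_apply]⟩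
  · obtain ⟨b', e⟩ := A_conj hg b
    refine LinearMap.ext fun v => g.injective ?_
    have := LinearMap.congr_fun (h a b').eq (g v)
    simpa only [End.mul_apply, mv_A, ← e, inv_apply_apply] using this

end TL

section Idem

/-- The flag defined by an idempotent. -/
def pfl (P : End F V) : ℕ → Submodule F (V × Dual F V)
  | 0 => ⊤
  | 1 => (LinearMap.ker P).prod (LinearMap.ker P).dualAnnihilator
  | _ + 2 => ⊥

variable {P : End F V}

theorem mem_mfil_five (φ : M4 F V) : φ ∈ mfil (Fin 4) (pfl P) 5 := by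
  intro a v h1 h2
  obtain ⟨i, hi⟩ : ∃ i, 2 ≤ a i := by
    by_contra hc
    push Not at hc
    have := hc 0
    have := hc 1
    have := hc 2
    have := hc 3
    rw [Fin.sum_univ_four] at h2
    omega
  obtain ⟨k, hk⟩ := Nat.exists_eq_add_of_le' hi
  exact φ.map_coord_zero i (by simpa [hk, pfl] using h1 i)

theorem span_pfl (hP : ∀ x, P (P x) = P x) :
    Submodule.span F {v | ∃ a a', 1 ≤ a + a' ∧ v ∈ pfl P a ∧ v ∈ pfl (1 - P) a'} = ⊤ := by
  refine eq_top_iff.2 fun v _ => ?_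
  rw [show v = (v.1 - P v.1, v.2 ∘ₗ P) + (P v.1, v.2 ∘ₗ (1 - P)) by ext <;> simp]
  exact add_mem (Submodule.subset_span ⟨1, 0, le_rfl, ⟨by simp [hP], (Submodule.mem_dualAnnihilator _).2
    fun x hx => by simp [show P x = 0 from hx]⟩, trivial⟩) (Submodule.subset_span ⟨0, 1, le_rfl, trivial,
    by simp [hP], (Submodule.mem_dualAnnihilator _).2 fun x hx => by
      rw [LinearMap.comp_apply, show (1 - P) x = 0 from hx, map_zero]⟩)

theorem step_pfl {h : V ≃ₗ[F] V} (h1 : ∀ x, P (h x) = P x) (h2 : ∀ x, P x = 0 → h x = x) :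
    ∀ j, ∀ v ∈ pfl P j, dπ F V h v - v ∈ pfl P (j + 1)
  | 0, v, _ => ⟨by simp [dπ_apply, h1], (Submodule.mem_dualAnnihilator _).2 fun x hx => by
      have : h.symm x = x := h.injective (by rw [h.apply_symm_apply, h2 x hx])
      simp [dπ_apply, this]⟩
  | 1, v, hv => Prod.ext (by simp [dπ_apply, h2 _ hv.1]) (LinearMap.ext fun x => by
      have := (Submodule.mem_dualAnnihilator _).1 hv.2 (h⁻¹ x - x) (by
        rw [LinearMap.mem_ker, map_sub, ← h1 (h⁻¹ x), apply_inv_apply, sub_self])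
      simpa [dπ_apply] using this)
  | _ + 2, v, hv => by rw [show v = 0 from hv]; simp

theorem sum_mem_pfl [CharP F 2] {A : Type*} [AddCommGroup A] [Finite A] (hp : ∀ a : A, 2 • a = 0)
    (E : A → V ≃ₗ[F] V) (h0 : E 0 = 1) (hadd : ∀ a b, E (a + b) = E a * E b) (h1 : ∀ a x, P (E a x) = P x)
    (h2 : ∀ a x, P x = 0 → E a x = x) (O : Finset (M4 F V)) (hO : ∀ a, ∀ φ ∈ O, ρ4 (E a) φ ∈ O)
    {A' : Type*} [AddCommGroup A'] (h8 : 8 ≤ Nat.card A')
    (hf : ∀ φ ∈ O, ∃ ι : A' →+ A, ∀ a, ρ4 (E (ι a)) φ = φ → a = 0) : ∑ φ ∈ O, φ ∈ mfil (Fin 4) (pfl P) 2 := by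
  have hi : ∀ a, (E a)⁻¹ = E (-a) := fun a => inv_eq_of_mul_eq_one_right (by rw [← hadd, add_neg_cancel, h0])
  have U := unip_mrep (ι := Fin 4) (dπ F V) E h0 hadd (Vf := pfl P) (fun a => hi a ▸ step_pfl (h1 _) (h2 _)) 5
  refine U.sum_invariant_mem 2 hp 3 O hO fun φ hφ => ⟨0, 3, mem_mfil_five φ, h8.trans ?_, by omega⟩
  obtain ⟨ι, hι⟩ := hf φ hφ
  refine Nat.card_le_card_of_injective ((QuotientAddGroup.mk' (U.stab φ)).comp ι)
    ((injective_iff_map_eq_zero _).2 fun a ha => hι a ?_)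
  exact (QuotientAddGroup.eq_zero_iff _).1 ha

end Idem

variable {ε₁ ε : F} {β : LinearMap.BilinForm F U} {γ : LinearMap.BilinForm F W} {B : LinearMap.BilinForm F V}
  {T : TF (RingHom.id F) ε₁ (-1) ε γ β B} (hβ : β.IsAlt) {w : U} (p : ℕ) [Fact p.Prime] [CharP F p] [Finite F]

theorem sum_mem_free {c : ℕ} (hc : p ^ c ≤ Nat.card F) (O : Finset (M4 F V))
    (hO : ∀ a, ∀ φ ∈ O, ρ4 (T.tz hβ w a) φ ∈ O) (hf : ∀ φ ∈ O, ∀ a, ρ4 (T.tz hβ w a) φ = φ → a = 0) :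
    ∑ φ ∈ O, φ ∈ mfil (Fin 4) (T.dfl w) (9 - 2 * (c * (p - 1))) := by
  have hw := alt_self hβ w
  have U : Unip (fun a => ρ4 (T.tz hβ w a)) fun j => mfil (Fin 4) (T.dfl w) (9 - 2 * j) :=
    ⟨by simp only [unip_zero, map_one], fun a a' => by simp only [← unip_mul, map_mul], fun a j _ hy => by
      rw [Nat.mul_succ, ← Nat.sub_sub]
      exact comp_sub_mem_mfil' (TF.step_dfl hw (unip_inv (T.κ'_κ' hw) a ▸ TF.step_unip hw _)
        (inv_inv (T.tz hβ w a) ▸ TF.step_unip hw _)) hy,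
      fun _ _ h => mfil_mono _ (Nat.sub_le_sub_left (Nat.mul_le_mul_left _ h) _)⟩
  refine U.sum_invariant_mem p (fun a => by simp) _ O hO fun φ hφ => ⟨0, c, T.mem_mfil_nine φ, ?_, by omega⟩
  rwa [(AddSubgroup.eq_bot_iff_forall (U.stab φ)).2 (hf φ hφ), AddSubgroup.index_bot]

theorem sum_mem_heis [Nontrivial V] (h2 : 3 ≤ p) {e e' : V ≃ₗ[F] V} (he : e ∈ UG B) (he' : e' ∈ UG B)
    (R : T.Rad w e) (R' : T.Rad w e') {d : F} (d0 : d ≠ 0) (hee : e * e' = T.tz hβ w d * (e' * e))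
    (O : Finset (M4 F V)) (hO' : ∀ a, ∀ φ ∈ O, ρ4 (T.tz hβ w a) φ ∈ O) (hO₁ : ∀ φ ∈ O, ρ4 e φ ∈ O)
    (hO₂ : ∀ φ ∈ O, ρ4 e' φ ∈ O) (hf : ∀ φ ∈ O, ∀ a, ρ4 (T.tz hβ w a) φ = φ → a = 0) :
    ∑ φ ∈ O, φ ∈ mfil (Fin 4) (T.dfl w) 4 := by
  classical
  have hw := alt_self hβ w
  let E : F → V ≃ₗ[F] V := T.tz hβ w
  have h0 : E 0 = 1 := unip_zero _
  have hadd : ∀ a b, E (a + b) = E a * E b := fun a b => (unip_mul _ _ _).symm
  have hc' : ∀ {k}, k ∈ UG B → T.Rad w k → ∀ a φ, ρ4 k (ρ4 (E a) φ) = ρ4 (E a) (ρ4 k φ) := fun hk R a φ => by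
    rw [← End.mul_apply, ← map_mul, R.comm hw hk, map_mul, End.mul_apply]
  have hp : p ^ 1 ≤ Nat.card F := by
    obtain ⟨n, -, hn⟩ := @FiniteField.card F _ (Fintype.ofFinite F) p _
    rw [@Nat.card_eq_fintype_card F (Fintype.ofFinite F), hn]
    exact Nat.pow_le_pow_right (by omega) n.2
  have key : ∀ {k}, k ∈ UG B → T.Rad w k → ∀ O' ⊆ O, (∀ a, ∀ φ ∈ O', ρ4 (E a) φ ∈ O') → (∀ φ ∈ O', ρ4 k φ ∈ O') →
      (∀ φ ∈ O', ∀ a, ρ4 k φ ≠ ρ4 (E a) φ) → ∑ φ ∈ O', φ ∈ mfil (Fin 4) (T.dfl w) 4 := fun {k} hk R O' h1 h3 h4 h5 =>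
    sum_mem_of_step p (e := fun a => ρ4 (E a)) (by simp only [h0, map_one]) (fun a b => by simp only [hadd, map_mul])
      (n := 2) (by rw [← map_pow, R.pow hk, map_one]) (hc' hk R) (N := mfil (Fin 4) (T.dfl w) 5)
      (fun v hv => comp_sub_mem_mfil' (TF.step_dfl hw (R.inv.step (inv_mem hk)) ((inv_inv k).symm ▸ R.step hk)) hv)
      O' h3 h4 (fun ω h6 h7 => mfil_mono _ (by omega) (sum_mem_free hβ p hp ω h7 fun φ h => hf φ (h1 (h6 h)))) h5
  have hEE : ∀ a b φ, ρ4 (E a) (ρ4 (E b) φ) = ρ4 (E (a + b)) φ := fun a b φ => by rw [hadd, ρ4, ρ4, ρ4, map_mul]; rfl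
  have hcm : ∀ φ, ρ4 e (ρ4 e' φ) = ρ4 (E d) (ρ4 e' (ρ4 e φ)) := fun φ => by
    rw [← End.mul_apply, ← map_mul, hee, map_mul, map_mul]; rfl
  rw [← Finset.sum_filter_add_sum_filter_not O fun φ => ∃ a, ρ4 e φ = ρ4 (E a) φ]
  refine add_mem (key he' R' _ (Finset.filter_subset _ _) (fun a φ h => ?_) (fun φ h => ?_) fun φ h a' h' => ?_)
    (key he R _ (Finset.filter_subset _ _) (fun a φ h => ?_) (fun φ h => ?_)
      fun φ h a h' => (Finset.mem_filter.1 h).2 ⟨a, h'⟩) <;> rw [Finset.mem_filter] at h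
  · obtain ⟨h, b, hb⟩ := h
    exact Finset.mem_filter.2 ⟨hO' a φ h, b, by rw [hc' he R, hb, hEE, hEE, add_comm]⟩
  · obtain ⟨h, b, hb⟩ := h
    exact Finset.mem_filter.2 ⟨hO₂ φ h, _, by rw [hcm, hb, hc' he' R', hEE]⟩
  · obtain ⟨h, b, hb⟩ := h
    refine d0 (hf _ (hO' (b + a') φ h) d ?_)
    have := hcm φ
    rwa [h', hb, hc' he R, hc' he' R', hb, h', hEE, hEE b, add_comm a', eq_comm] at this
  · exact Finset.mem_filter.2 ⟨hO' a φ h.1, fun ⟨b, hb⟩ => h.2 ⟨b, by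
      have := congrArg (ρ4 (E (-a))) hb
      rwa [hc' he R, hEE, hEE, hEE, neg_add_cancel, h0, ρ4, map_one, add_right_comm, neg_add_cancel, zero_add] at this⟩⟩
  · refine Finset.mem_filter.2 ⟨hO₁ φ h.1, fun ⟨b, hb⟩ => h.2 ⟨b, ?_⟩⟩
    simpa using congrArg (ρ4 e⁻¹) (hb.trans (hc' he R b φ).symm)

/-- A Heisenberg pair in the radical. -/
theorem exists_heis [FiniteDimensional F U] (h3 : 3 ≤ finrank F U) (hw : w ≠ 0) : ∃ t ∈ Isom β, ∃ t' ∈ Isom β,
    T.Rad w (T.kron 1 t) ∧ T.Rad w (T.kron 1 t') ∧ T.kron 1 t * T.kron 1 t' = T.tz hβ w 2 * (T.kron 1 t' * T.kron 1 t) := by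
  obtain ⟨w', hw'⟩ := T.r₂.exists_one hw
  obtain ⟨z, z', h1, h2, h4⟩ := T.r₂.exists_pair_perp h3 (alt_self hβ w) hw'
  have key : ∀ z, β w z = 0 → ∃ t ∈ Isom β, T.Rad w (T.kron 1 t) ∧
      ∀ y, t y = y + β w y • w + β z y • w + β w y • z := fun z hz => by
    have e : ∀ y, (tv hβ (w + z) (-1) * tv hβ z 1) y = y + β w y • w + β z y • w + β w y • z := fun y => by
      simp only [LinearEquiv.mul_apply, tv_apply, map_add, map_smul, LinearMap.add_apply, LinearMap.smul_apply,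
        alt_self hβ, T.r₂.flip0 hz, alt_neg hβ y]
      module
    exact ⟨_, mul_mem (tv_mem_isom hβ (w + z) (-1)) (tv_mem_isom hβ z 1), (TF.rad_kron hw' (z := z)
      (by simp [e, alt_self hβ, T.r₂.flip0 hz]) fun y hy => by simp [e, hy]).1, e⟩
  obtain ⟨t, ht, R, e⟩ := key z h1
  obtain ⟨t', ht', R', e'⟩ := key z' h2
  refine ⟨t, ht, t', ht', R, R', T.equiv_ext fun a y => ?_⟩
  simp only [LinearEquiv.mul_apply, T.kron_tm, TF.tz_apply, T.ψ_tm, e, e', map_add, map_smul, alt_self hβ, h1, h2, h4,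
    T.r₂.flip0 h1, T.r₂.flip0 h2, T.flip_one h4, LinearEquiv.coe_one, id, LinearMap.smul_apply, smul_eq_mul]
  module

/-- Two commuting involutions normalising a factor centralise one of its transvections. -/
theorem exists_comm_two [CharP F 2] [FiniteDimensional F U] [Nontrivial U] [Nontrivial W] {d d' : V ≃ₗ[F] V}
    (hd : d ∈ T.KS) (hd' : d' ∈ T.KS) (hU : d ∈ UG B) (hU' : d' ∈ UG B) (h2 : d ^ 2 ^ 1 = 1) (h2' : d' ^ 2 ^ 1 = 1)
    (hc : d * d' = d' * d) : ∃ u ≠ 0, (∀ x, d (T.κ' u x) = T.κ' u (d x)) ∧ ∀ x, d' (T.κ' u x) = T.κ' u (d' x) := by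
  have h1 : ∀ c : F, c * c = 1 → c = 1 := fun c h => by
    have := CharTwo.add_self_eq_zero (R := F)
    exact sub_eq_zero.1 (pow_eq_zero_iff (n := 2) (by simp) |>.1 (by linear_combination h + this 1 - this c))
  obtain ⟨b, hb⟩ := exists_ne (0 : W)
  obtain ⟨b', hb'⟩ := T.r₁.exists_one hb
  obtain ⟨y₀, hy₀⟩ := exists_ne (0 : U)
  obtain ⟨y₁, hy₁⟩ := T.r₂.exists_one hy₀
  have key : ∀ {d}, d ∈ T.KS → d ∈ UG B → d ^ 2 ^ 1 = 1 → ∃ a t, d = T.kron a t ∧ t ∈ Isom β ∧ ∀ y, t (t y) = y :=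
    fun hd hU h2 => by
      obtain ⟨a, t, rfl, -, ht⟩ := TL.exists_unipotent hd h2
      have h3 : ∀ y, t (t y) = y := LinearMap.congr_fun (pow_eq_one_of_sub 2 le_rfl ht)
      have h4 : ∀ y y', γ (a b) (a b') * β (t y) (t y') = β y y' := fun y y' => by
        simpa [T.kron_tm, T.B_tm, hb'] using hU (T.tm b y) (T.tm b' y')
      have h5 := h4 y₀ y₁
      rw [← h4, h3, h3, hy₁, mul_one] at h5
      exact ⟨a, t, rfl, fun y y' => by rw [← h4 y, h1 _ h5, one_mul], h3⟩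
  obtain ⟨a, t, rfl, ht, e⟩ := key hd hU h2
  obtain ⟨a', t', rfl, ht', e'⟩ := key hd' hU' h2'
  obtain ⟨f, hf⟩ := exists_dual_eq_one (F := F) ((a * a').map_ne_zero_iff.2 hb)
  have h3 : ∀ y, t (t' y) = f ((a' * a) b) • t' (t y) := fun y => by
    have := congrArg (T.φ f) (LinearEquiv.congr_fun hc (T.tm b y))
    rwa [T.kron_mul, T.kron_mul, T.kron_tm, T.kron_tm, T.φ_tm, T.φ_tm, hf, one_smul] at this
  have h4 := congrArg t (h3 y₀)
  rw [e, map_smul, h3, e, smul_smul, eq_comm, ← sub_eq_zero, ← one_smul F (t' y₀), smul_smul, ← sub_smul,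
    smul_eq_zero, t'.map_eq_zero_iff, sub_eq_zero, mul_one] at h4
  simp only [h1 _ (h4.resolve_right hy₀), one_smul] at h3
  have h5 : ∀ y : U, -y = y := fun y => by rw [← neg_one_smul F, CharTwo.neg_eq, one_smul]
  obtain ⟨u, u0, h6⟩ := TL.exists_fix (t := t) fun y => by rw [map_sub, e, ← h5 (_ - _), neg_sub]
  obtain ⟨v, v0, h7, h8⟩ : ∃ v ≠ 0, t v = v ∧ t' v = v := by
    by_cases h : t' u = u
    · exact ⟨u, u0, h6, h⟩
    · exact ⟨_, sub_ne_zero.2 h, by rw [map_sub, h3, h6], by rw [map_sub, e', ← h5 (_ - _), neg_sub]⟩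
  have h9 : ∀ a t, t ∈ Isom β → t v = v → ∀ x, T.kron a t (T.κ' v x) = T.κ' v (T.kron a t x) := fun a t ht h x => by
    rw [T.κ_apply, T.κ_apply, T.kron_tm, T.ψ'_kron a ht, h, ← h, inv_apply_apply, h]
  exact ⟨v, v0, h9 a t ht h7, h9 a' t' ht' h8⟩

end CL.Sp
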