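import Cfsg.Agent.Cls.WS3

set_option autoImplicit false
set_option linter.unusedSectionVars false

/-!
The trace trick for frames of symplectic tensor factors: a group with a good frame permutes the factors.
-/

namespace CL.Sp

open Module CL.SLn CL.TW CL.TrTr
open CL.Uni (UG)

variable {F U W V : Type*} [Field F] [AddCommGroup U] [Module F U] [AddCommGroup W] [Module F W]
  [AddCommGroup V] [Module F V] {ε₁ ε : F} {β : LinearMap.BilinForm F U} {γ : LinearMap.BilinForm F W}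
  {B : LinearMap.BilinForm F V} {H : Subgroup (V ≃ₗ[F] V)} {J : Type*}

/-- Symmetric tensors in two vectors. -/
noncomputable def sy (β : LinearMap.BilinForm F U) (a b : U) : (F × F × F) →ₗ[F] End F U :=
  (LinearMap.fst F F _).smulRight (io β a) + (LinearMap.fst F F F ∘ₗ LinearMap.snd F F _).smulRight
    (rk a (β b) + rk b (β a)) + (LinearMap.snd F F F ∘ₗ LinearMap.snd F F _).smulRight (io β b)

theorem sy_apply (a b : U) (x : F × F × F) (y : U) :
    sy β a b x y = (x.1 * β a y + x.2.1 * β b y) • a + (x.2.1 * β a y + x.2.2 * β b y) • b := by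
  simp only [sy, LinearMap.add_apply, LinearMap.smulRight_apply, LinearMap.smul_apply, LinearMap.comp_apply,
    LinearMap.fst_apply, LinearMap.snd_apply]
  module

theorem sy_cases [Finite F] [CharP F 2] {a b a' b' : U} (h1 : β a a' = 1) (h2 : β b a' = 0) (h3 : β a b' = 0)
    (h4 : β b b' = 1) {x : F × F × F} (hx : x ≠ 0) : (∃ y ≠ 0, sy β a b x = io β y) ∨ ∃ y, sy β a b x y = a := by
  obtain ⟨r, s, t⟩ := x
  by_cases h : r * t - s * s = 0
  · obtain ⟨r, rfl⟩ := isSquare_of_charTwo' r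
    obtain ⟨t, rfl⟩ := isSquare_of_charTwo' t
    obtain rfl : s = r * t := sub_eq_zero.1 (pow_eq_zero_iff (n := 2) (by simp) |>.1 (by
      linear_combination -h - CharTwo.add_self_eq_zero (s * r * t) + CharTwo.add_self_eq_zero (r * r * t * t)))
    refine Or.inl ⟨r • a + t • b, fun e => hx ?_, LinearMap.ext fun y => ?_⟩
    · have e1 := congrArg (β · a') e
      have e2 := congrArg (β · b') e
      simp only [map_add, map_smul, LinearMap.add_apply, LinearMap.smul_apply, h1, h2, h3, h4, smul_eq_mul, mul_one,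
        mul_zero, add_zero, zero_add, map_zero, LinearMap.zero_apply] at e1 e2
      simp [e1, e2]
    · simp only [sy_apply, rk_apply, map_add, map_smul, LinearMap.add_apply, LinearMap.smul_apply, smul_eq_mul]
      module
  · refine Or.inr ⟨(r * t - s * s)⁻¹ • (t • a' - s • b'), ?_⟩
    rw [map_smul, inv_smul_eq_iff₀ h]
    simp only [sy_apply, map_sub, map_smul, h1, h2, h3, h4, smul_eq_mul]
    module

variable [FiniteDimensional F U] [FiniteDimensional F W] [Nontrivial W] [Finite F] [FiniteDimensional F V]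
  [Nontrivial U]

/-- A quadratic element of small rank in the sum of the two factor algebras. -/
theorem TL.unip_mem_KS (T : TL F W U V) (d : (2 : F) ≠ 0 ∨ 3 ≤ finrank F U) {n : End F V} (hn' : ∀ x, n (n x) = 0)
    {a : End F U} {c : End F W} (e : n = T.tp.A a + T.tp.C c) (hr : finrank F (LinearMap.range n) ≤ finrank F W) :
    unip n hn' 1 ∈ T.KS := by
  have hn : n * n = 0 := LinearMap.ext hn'
  have h1 : ∀ x, n * T.tp.A x - T.tp.A x * n = T.tp.A (a * x - x * a) := fun x => by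
    rw [e, add_mul, mul_add, (T.tp.commute x c).eq, map_sub, map_mul, map_mul, add_sub_add_right_eq_sub]
  have h2 : ∀ x, ∃ y, n * T.tp.A x * n = T.tp.A y := fun x => by
    by_cases h2 : (2 : F) = 0
    swap
    · refine ⟨(-2 : F)⁻¹ • (a * (a * x - x * a) - (a * x - x * a) * a), ?_⟩
      rw [map_smul, ← h1, ← h1, eq_inv_smul_iff₀ (neg_ne_zero.2 h2)]
      simp only [mul_sub, sub_mul, ← mul_assoc, hn, zero_mul, mul_assoc _ n n, mul_zero]
      module
    have : CharP F 2 := (CharP.charP_iff_prime_eq_zero Nat.prime_two).2 h2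
    have h3 : ∀ z : End F V, z + z = 0 := fun z => by rw [← two_smul F, h2, zero_smul]
    obtain ⟨l, hl⟩ := T.tp.scalar_of_A_eq_C (a := a * a) (c := -(c * c)) (by
      rw [map_neg, map_mul, map_mul, eq_neg_iff_add_eq_zero, ← hn, e, add_mul, mul_add, mul_add,
        ← (T.tp.commute a c).eq, add_assoc, ← add_assoc (_ * T.tp.C c), h3, zero_add])
    obtain ⟨l, rfl⟩ := isSquare_of_charTwo' l
    have h4 : (a - l • 1) ^ 2 = 0 := by
      have : ∀ z : End F U, z + z = 0 := fun z => by rw [← two_smul F, h2, zero_smul]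
      simp only [pow_two, mul_sub, sub_mul, hl, smul_mul_assoc, mul_smul_comm, one_mul, mul_one, smul_smul]
      linear_combination (norm := module) this ((l * l) • 1) - this (l • a)
    have h5 : n = T.tp.A (a - l • 1) * T.tp.C 1 + T.tp.C (c + l • 1) := by simp [e]
    by_cases h6 : a - l • 1 = 0
    · rw [h6, map_zero, zero_mul, zero_add] at h5
      exact ⟨0, by rw [mul_assoc, h5, (T.tp.commute x _).eq, ← h5, ← mul_assoc, hn, zero_mul, map_zero]⟩
    rw [T.tp.rank_one (b := 1) (b' := c + l • 1) (d.resolve_left fun h => h h2) (fun _ _ h => h) h4 h6 (h5 ▸ hr),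
      map_one, map_zero, mul_one, add_zero] at h5
    exact ⟨_, by rw [h5, ← map_mul, ← map_mul]⟩
  refine TL.mem_KS_of_same fun x => ?_
  obtain ⟨y, hy⟩ := h2 x
  refine ⟨x + (a * x - x * a) - y, LinearMap.ext fun v => ?_⟩
  rw [TL.mv_A, map_sub, map_add, ← h1, ← hy, unip_inv]
  simp [unip_apply]
  abel

/-- The forms attached to the images of the factors. -/
def FOrb (T : J → TF (RingHom.id F) ε₁ (-1) ε γ β B) (H : Subgroup (V ≃ₗ[F] V)) (φ : M4 F V) : Prop :=
  ∃ j, ∃ h ∈ H, φ = ((T j).toTL.mv h).swap.four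

/-- The forms attached to the images of the factors which are not related to a given factor. -/
def Bad (T : J → TF (RingHom.id F) ε₁ (-1) ε γ β B) (H : Subgroup (V ≃ₗ[F] V)) (i : J) (φ : M4 F V) : Prop :=
  ∃ j, ∃ h ∈ H, φ = ((T j).toTL.mv h).swap.four ∧ ¬ TL.Rel ((T j).toTL.mv h) (T i).toTL

variable {T : J → TF (RingHom.id F) ε₁ (-1) ε γ β B} {i : J} {φ : M4 F V}

theorem Bad.map (h : Bad T H i φ) {k : V ≃ₗ[F] V} (hk : k ∈ H) (hk' : k ∈ (T i).KS) : Bad T H i (ρ4 k φ) := by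
  obtain ⟨j, g, hg, rfl, hn⟩ := h
  exact ⟨j, k * g, mul_mem hk hg, (((T j).toTL.mv g).four_swap_mv k).symm,
    fun h => hn (TL.Rel.of_mv (T' := (T j).toTL.mv g) hk' h)⟩

namespace GF

variable (Φ : GF T H)
include Φ

theorem free (h : Bad T H i φ) {u : U} (hu : u ≠ 0) (a : F) (e : ρ4 ((T i).tz (Φ.gd i).alt u a) φ = φ) : a = 0 := by
  obtain ⟨j, g, hg, rfl, hn⟩ := h
  exact by_contra fun ha => hn (Φ.rel ((Φ.gd j).mv hg) hu ha (TL.mem_KS_of_four e))

theorem not_two [CharP F 2] (h : Bad T H i φ) {n n' : End F V} {h2 : ∀ x, n (n x) = 0} {h2' : ∀ x, n' (n' x) = 0}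
    (hd : unip n h2 1 ∈ H) (hd' : unip n' h2' 1 ∈ H) (e : ρ4 (unip n h2 1) φ = φ) (e' : ρ4 (unip n' h2' 1) φ = φ)
    (hc : ∀ x, n (n' x) = n' (n x)) {a : U} (ha : a ≠ 0) (h1 : ∀ x, ∃ v, n v = (T i).tm x a)
    (h1' : ∀ x, ∃ v, n' v = (T i).tm x a) (h3 : ∀ v v', n v = n' v' → n v ∈ (T i).L a) : False := by
  obtain ⟨j, g, hg, rfl, hn⟩ := h
  have G := (Φ.gd j).mv hg
  obtain ⟨u, u0, h4, h5⟩ := exists_comm_two (T := (T j).mv g ((Φ.gd j).le hg)) (TL.mem_KS_of_four e)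
    (TL.mem_KS_of_four e') (G.le hd) (G.le hd') (unip_pow_char _ _) (unip_pow_char _ _)
    (LinearEquiv.ext fun x => by simp [unip_apply, hc]; abel)
  simp only [unip_apply, one_smul, map_add, add_right_inj] at h4 h5
  refine hn ((Φ.mv hg _).rel (Φ.gd i) (i := j) u0 one_ne_zero
    ((Φ.gd i).mem_KS_of_map Φ.ex ha ha (G.tz_mem u 1) fun x => ?_)).symm
  obtain ⟨v, hv⟩ := h1 x
  obtain ⟨v', hv'⟩ := h1' x
  refine add_mem ((T i).tm_mem_L _ _) ?_
  rw [one_smul, ← hv, ← h4]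
  exact h3 _ _ (by rw [h4, h5, hv, hv'])

theorem depth_two [CharP F 2] {e f : Fin 3 → U} (he : ∀ i j, β (e i) (e j) = 0)
    (hf : ∀ i j, β (e i) (f j) = if i = j then 1 else 0) {π : End F U} (h1 : ∀ i, π (e i) = 0)
    (h2 : ∀ i y, β (e i) (π y) = β (e i) y) (O : Finset (M4 F V)) (hO : ∀ φ, φ ∈ O ↔ Bad T H i φ) :
    ∑ φ ∈ O, φ ∈ mfil (Fin 4) (pfl ((T i).tp.A π)) 2 := by
  have G := Φ.gd i
  let n : (F × F × F) × (F × F × F) →ₗ[F] End F U := (sy β (e 0) (e 1)).coprod (sy β (e 0) (e 2))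
  have h3 : ∀ x, π * n x = 0 := fun x => LinearMap.ext fun y => by simp [n, sy_apply, h1]
  have h4 : ∀ x, n x * π = n x := fun x => LinearMap.ext fun y => by simp [n, sy_apply, h2]
  have h5 : ∀ x x', n x * n x' = 0 := fun x x' => by rw [← h4 x, mul_assoc, h3, mul_zero]
  have h6 : ∀ x x' v, (T i).tp.A (n x) ((T i).tp.A (n x') v) = 0 := fun x x' v => by
    rw [← End.mul_apply, ← map_mul, h5, map_zero, LinearMap.zero_apply]
  let E := fun x => unip _ (h6 x x) 1
  have hE : ∀ x, ∃ t ∈ Isom β, E x = (T i).kron 1 t := fun x =>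
    ⟨unip (n x) (LinearMap.congr_fun (h5 x x)) 1, fun y y' => by
      simp only [unip_apply, n, LinearMap.coprod_apply, LinearMap.add_apply, sy_apply, map_add, map_smul, one_smul,
        LinearMap.smul_apply, he, alt_neg G.alt y (e _), smul_eq_mul]
      ring, (T i).equiv_ext fun a y => by simp [E, unip_apply, (T i).kron_tm, (T i).A_tm]⟩
  have hE' : ∀ x, E x ∈ H := fun x => by obtain ⟨t, ht, e⟩ := hE x; exact e ▸ G.sp t ht
  refine sum_mem_pfl (fun x => by rw [two_smul, ← two_smul F, CharTwo.two_eq_zero, zero_smul]) E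
    (by ext; simp [E, unip_apply]) (fun a b => by ext; simp [E, unip_apply, h6]; abel) (fun x v => ?_)
    (fun x v hv => ?_) O (fun x φ h => (hO _).2 (((hO _).1 h).map (hE' x) ?_)) (A' := F × F × F) ?_ fun φ h => ?_
  · rw [unip_apply, one_smul, map_add, ← End.mul_apply, ← map_mul, h3, map_zero, LinearMap.zero_apply, add_zero]
  · rw [unip_apply, ← h4, map_mul, End.mul_apply, hv, map_zero, smul_zero, add_zero]
  · obtain ⟨t, -, e⟩ := hE x
    exact e ▸ (T i).kron_mem_KS _ _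
  · have := Finite.one_lt_card (α := F)
    rw [Nat.card_prod, Nat.card_prod]
    nlinarith
  have key : ∀ j, j ≠ 0 → ∀ x y, y ≠ 0 → n x = sy β (e 0) (e j) y → ρ4 (E x) φ = φ → ∀ a, ∃ v,
      (T i).tp.A (n x) v = (T i).tm a (e 0) := fun j hj x y hy h7 h8 a => by
    rcases sy_cases (β := β) (a := e 0) (b := e j) (a' := f 0) (b' := f j) (by simp [hf]) (by simp [hf, hj])
      (by simp [hf, hj.symm]) (by simp [hf]) hy with ⟨z, z0, hz⟩ | ⟨z, hz⟩
    · refine absurd (Φ.free ((hO φ).1 h) z0 1 ?_) one_ne_zero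
      rwa [show (T i).tz G.alt z 1 = E x by ext; simp [E, unip_apply, h7, hz, (T i).κ_eq]]
    · exact ⟨(T i).tm a z, by rw [(T i).A_tm, h7, hz]⟩
  by_contra hc
  push Not at hc
  obtain ⟨x, hx, x0⟩ := hc (AddMonoidHom.inl _ _)
  obtain ⟨y, hy, y0⟩ := hc (AddMonoidHom.inr _ _)
  have e0 : e 0 ≠ 0 := fun h => by simpa [h] using hf 0 0
  refine Φ.not_two ((hO φ).1 h) (hE' _) (hE' _) hx hy (fun v => by rw [h6, h6]) e0
    (key 1 (by decide) _ x x0 (by simp [n]) hx) (key 2 (by decide) _ y y0 (by simp [n]) hy) fun v v' hv =>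
    (T i).mem_L_of e0 fun z hz => ?_
  have h7 : ∀ j, β (f 1) (e j) = -if j = 1 then 1 else 0 := fun j => by rw [alt_neg G.alt, hf]
  rw [show z = (z + β z (e 1) • f 1) + (-β z (e 1)) • f 1 by simp, (T i).ψ'_add]
  nth_rewrite 2 [hv]
  rw [(T i).ψ_A, (T i).ψ_A, show β (z + β z (e 1) • f 1) ∘ₗ n _ = 0 by ext; simp [n, sy_apply, hz, h7]; ring,
    show β (-β z (e 1) • f 1) ∘ₗ n _ = 0 by ext; simp [n, sy_apply, h7]]
  simp

variable (hc : ((2 : F) ≠ 0 ∧ (5 ≤ Nat.card F ∨ 3 ≤ finrank F U)) ∨ ((2 : F) = 0 ∧ 6 ≤ finrank F U))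
include hc

theorem sum_bad (O : Finset (M4 F V)) (hO : ∀ φ, φ ∈ O ↔ Bad T H i φ) : ∑ φ ∈ O, φ = 0 := by
  have G := Φ.gd i
  obtain ⟨p, hp⟩ := CharP.exists F
  have hpp : Fact p.Prime := ⟨CharP.char_is_prime F p⟩
  have h2 : (2 : F) = 0 ↔ p = 2 := (CharP.cast_eq_zero_iff F p 2).trans
    (Nat.prime_dvd_prime_iff_eq hpp.out Nat.prime_two)
  rcases hc with ⟨h3, hc⟩ | ⟨h3, h6⟩
  · have h4 : 3 ≤ p := by have := hpp.out.two_le; have := h2.not.1 h3; omega
    obtain ⟨w, hw⟩ := exists_ne (0 : U)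
    obtain ⟨w', hw'⟩ := (T i).r₂.exists_one hw
    have key : ∀ u, u ≠ 0 → ∑ φ ∈ O, φ ∈ mfil (Fin 4) ((T i).dfl u) 4 := fun u hu => by
      have h5 : ∀ a, ∀ φ ∈ O, ρ4 ((T i).tz G.alt u a) φ ∈ O := fun a φ h =>
        (hO _).2 (((hO _).1 h).map (G.tz_mem u a) ((T i).unip_κ'_mem_KS (alt_self G.alt u) _))
      rcases hc with h5' | h3'
      · obtain ⟨n, -, hn⟩ := @FiniteField.card F _ (Fintype.ofFinite F) p _
        rw [← @Nat.card_eq_fintype_card F (Fintype.ofFinite F)] at hn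
        refine mfil_mono _ ?_ (sum_mem_free G.alt p hn.ge O h5 fun φ h => Φ.free ((hO φ).1 h) hu)
        have : 3 ≤ n * (p - 1) := by
          by_cases h1 : (n : ℕ) = 1
          · rw [hn, h1, pow_one] at h5'
            rw [h1]; omega
          · have : 0 < (n : ℕ) := n.2
            exact le_trans (by norm_num) (Nat.mul_le_mul (show 2 ≤ (n : ℕ) by omega) (show 2 ≤ p - 1 by omega))
        omega
      · obtain ⟨t, ht, t', ht', R, R', e⟩ := exists_heis (T := T i) G.alt h3' hu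
        obtain ⟨a, ha⟩ := exists_ne (0 : W)
        have : Nontrivial V := ⟨_, _, (T i).tm_ne_zero ha hu⟩
        exact sum_mem_heis G.alt p h4 (G.le (G.sp t ht)) (G.le (G.sp t' ht')) R R' h3 e O h5
          (fun φ h => (hO _).2 (((hO _).1 h).map (G.sp t ht) ((T i).kron_mem_KS _ _)))
          (fun φ h => (hO _).2 (((hO _).1 h).map (G.sp t' ht') ((T i).kron_mem_KS _ _)))
          fun φ h => Φ.free ((hO φ).1 h) hu
    exact eq_zero_of_mfil ((T i).span_dfl (alt_self G.alt w) (alt_self G.alt w') hw') (by simp) (key w hw)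
      (key w' fun e => by simp [e] at hw')
  obtain rfl := h2.1 h3
  obtain ⟨m, hm⟩ := CL.Cls.even_finrank_of_alt β (T i).r₂.nondeg G.alt
  obtain ⟨b, b1, b2, b3⟩ := CL.Cls.exists_symplectic_basis β (T i).r₂.nondeg G.alt (m := m) (by omega)
  let c := Fin.castLE (show 3 ≤ m by omega)
  have b4 : ∀ i j, β (b (.inl (c i))) (b (.inr (c j))) = if i = j then 1 else 0 := fun i j => by simp [b1, c]
  have b5 : ∀ i j, β (b (.inr (c i))) (b (.inl (c j))) = if i = j then 1 else 0 := fun i j => by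
    rw [alt_neg G.alt, CharTwo.neg_eq, b4]; simp only [eq_comm]
  let π : End F U := ∑ j, rk (b (.inr (c j))) (β (b (.inl (c j))))
  have hπ : ∀ y, π (π y) = π y := fun y => by simp [π, b4]
  refine eq_zero_of_mfil (b' := 2) (span_pfl (P := (T i).tp.A π) fun x => by
    rw [← End.mul_apply, ← map_mul, show π * π = π from LinearMap.ext hπ]) (by simp)
    (Φ.depth_two (fun _ _ => b2 _ _) b4 (fun j => by simp [π, b2]) (fun j y => by simp [π, b4]) O hO) ?_
  rw [← map_one (T i).tp.A, ← map_sub]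
  exact Φ.depth_two (fun _ _ => b3 _ _) b5 (fun j => by simp [π, b4]) (fun j y => by simp [π, b3]) O hO

theorem sum_orb (O : Finset (M4 F V)) (hO : ∀ φ, φ ∈ O ↔ FOrb T H φ) (i : J) : ∃ O' : Finset (M4 F V),
    (∀ φ ∈ O', ∃ T' : TL F W U V, φ = T'.swap.four ∧ TL.Comm T' (T i).toTL) ∧
      ∑ φ ∈ O, φ = (T i).swap.four + ∑ φ ∈ O', φ := by
  classical
  have h1 : (T i).swap.four ∈ O.filter fun φ => ¬ Bad T H i φ :=
    Finset.mem_filter.2 ⟨(hO _).2 ⟨i, 1, one_mem _, rfl⟩, fun ⟨j, g, _, e, hn⟩ => hn (Or.inl (TL.same_of_four e.symm))⟩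
  refine ⟨(O.filter fun φ => ¬ Bad T H i φ).erase (T i).swap.four, fun φ h => ?_, by
    rw [← Finset.sum_filter_add_sum_filter_not O (Bad T H i), Φ.sum_bad hc _ fun φ => Finset.mem_filter.trans
      ⟨And.right, fun h => ⟨(hO φ).2 (h.imp fun _ h => h.imp fun _ h => ⟨h.1, h.2.1⟩), h⟩⟩, zero_add,
      ← Finset.add_sum_erase _ _ h1]⟩
  rw [Finset.mem_erase, Finset.mem_filter, hO] at h
  obtain ⟨h2, ⟨j, g, hg, rfl⟩, h3⟩ := h
  exact ⟨_, rfl, (by_contra fun hn => h3 ⟨j, g, hg, rfl, hn⟩ : TL.Rel _ _).resolve_left fun h => h2 h.four⟩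

theorem exists_add {g : V ≃ₗ[F] V} (hg : g ∈ H) (i j : J) (u : U) :
    ∃ a c, ((T j).toTL.mv g).tp.A (io β u) = (T i).tp.A a + (T i).tp.C c := by
  classical
  have : Finite V := Module.finite_of_finite F
  have : Finite (Dual F V) := Module.finite_of_finite F
  have : Finite (M4 F V) := Finite.of_injective _ DFunLike.coe_injective
  have := Fintype.ofFinite (M4 F V)
  obtain ⟨O₁, h1, e1⟩ := Φ.sum_orb hc (Finset.univ.filter (FOrb T H)) (by simp) i
  obtain ⟨O₀, h0, e0⟩ := (Φ.mv hg ((Φ.gd j).le hg)).sum_orb hc (Finset.univ.filter (FOrb T H)) (fun φ => by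
    rw [Finset.mem_filter]
    exact ⟨fun ⟨_, l, k, hk, e⟩ => ⟨l, k * g⁻¹, mul_mem hk (inv_mem hg), by
      rw [e]; conv_lhs => rw [← inv_mul_cancel_right k g]
      rfl⟩, fun ⟨l, k, hk, e⟩ => ⟨Finset.mem_univ _, l, k * g, mul_mem hk hg, e⟩⟩) j
  set T₀ := (T j).toTL.mv g
  obtain ⟨b, hb⟩ := exists_ne (0 : W)
  obtain ⟨η, hη⟩ := exists_dual_eq_one (F := F) hb
  let ev : V → Dual F V → M4 F V → F := fun w f φ => φ ![(T₀.tm b u, 0), (w, 0), (0, β u ∘ₗ T₀.φ η), (0, f)]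
  obtain ⟨c, hc, e2⟩ : ∃ c, (T i).tp.Cm c ∧ ∀ w f, ev w f (∑ φ ∈ O₁, φ) = f (c w) :=
    Finset.sum_induction _ (fun φ => ∃ c, (T i).tp.Cm c ∧ ∀ w f, ev w f φ = f (c w))
      (fun _ _ ⟨c, hc, e⟩ ⟨c', hc', e'⟩ => ⟨c + c', fun a => (hc a).add_right (hc' a), fun w f => by
        rw [LinearMap.add_apply, map_add, ← e, ← e']; rfl⟩) ⟨0, fun a => Commute.zero_right _, fun w f => by simp [ev]⟩
      fun φ h => by
        obtain ⟨T', rfl, h'⟩ := h1 φ h
        exact ⟨_, h' _, fun w f => T'.four_eq _ _ _ _⟩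
  obtain ⟨c, rfl⟩ := (T i).tp.exists_C hc
  refine ⟨(T i).swap.ptr (β u ∘ₗ T₀.φ η) (T₀.tm b u), c, LinearMap.ext fun w => eq_of_dual (F := F) fun f => ?_⟩
  have h3 : ev w f (∑ φ ∈ O₀, φ) = 0 := by
    rw [show ev w f (∑ φ ∈ O₀, φ) = ∑ φ ∈ O₀, ev w f φ from MultilinearMap.sum_apply _ _ _]
    refine Finset.sum_eq_zero fun φ h => ?_
    obtain ⟨T', rfl, h'⟩ := h0 φ h
    obtain ⟨c, hc⟩ := T₀.tp.exists_C (h' (T'.swap.ptr f w))
    rw [show ev w f T'.swap.four = _ from T'.four_eq' _ _ _ _, hc, T₀.C_tm]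
    simp [T₀.φ_tm, alt_self (Φ.gd i).alt]
  have h4 := congrArg (ev w f) (e0.symm.trans e1)
  rw [show ∀ φ ψ, ev w f (φ + ψ) = ev w f φ + ev w f ψ from fun _ _ => rfl,
    show ∀ φ ψ, ev w f (φ + ψ) = ev w f φ + ev w f ψ from fun _ _ => rfl, h3, e2, add_zero] at h4
  rw [LinearMap.add_apply, map_add, ← (T i).four_eq, io, ← T₀.ptr_tm hη, ← T₀.four_eq]
  exact h4

/-- The group permutes the factors. -/
theorem exists_same {g : V ≃ₗ[F] V} (hg : g ∈ H) (j : J) : ∃ i, TL.Same ((T j).toTL.mv g) (T i).toTL := by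
  have G := (Φ.gd j).mv hg
  set T₀ := (T j).mv g ((Φ.gd j).le hg)
  obtain ⟨u, hu⟩ := exists_ne (0 : U)
  have key : ∀ i, T₀.tz G.alt u 1 ∈ (T i).KS := fun i => by
    obtain ⟨a, c, e⟩ := Φ.exists_add hc hg i j u
    exact (T i).unip_mem_KS (hc.imp And.left fun h => by omega) _ ((T₀.κ_eq _ _).trans e)
      (by rw [T₀.range_κ' hu]; exact (T₀.swap.finrank_M hu).le)
  by_contra hn
  push Not at hn
  have h1 : ∀ i, TL.Comm T₀.toTL (T i).toTL := fun i =>
    ((Φ.mv hg _).rel (Φ.gd i) (i := j) hu one_ne_zero (key i)).symm.resolve_left (hn i)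
  refine TL.Same.not_comm (T := T₀.toTL) (T' := T₀.toTL) ?_ (fun a => ⟨a, rfl⟩) fun a => ?_
  · obtain ⟨m, hm⟩ := CL.Cls.even_finrank_of_alt β T₀.r₂.nondeg G.alt
    have := finrank_pos (R := F) (M := U)
    omega
  · obtain ⟨c, hc⟩ := Φ.fr.centre _ fun i => h1 i a
    exact hc ▸ fun b => (Commute.one_right _).smul_right c

end GF

end CL.Sp
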