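import Cfsg.Agent.Cls.WS5
import Cfsg.Agent.Cls.WS2

set_option autoImplicit false
set_option linter.unusedSectionVars false

/-!
Frames of symplectic factors: factors of dimension two, adjoints, and the spaces of maps attached to the unipotent
radicals.
-/

namespace CL.Sp

open Module CL.SLn CL.TW
open CL.Uni (UG)

variable {F U W V : Type*} [Field F] [AddCommGroup U] [Module F U] [AddCommGroup W] [Module F W]
  [AddCommGroup V] [Module F V] {β : LinearMap.BilinForm F U}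

namespace St

variable {J : Type*} {T : J → TP F U W V} {st : End F V →ₗ[F] End F V} (S : St T β st)
  [FiniteDimensional F U] [Nontrivial U] [Nontrivial W] (h2 : (2 : F) ≠ 0) (hd : finrank F U = 2)
include S h2 hd

theorem exists_sq (I : Finset J) : ∀ 𝒟 : Submodule F (End F V), 𝒟 ≠ ⊥ → (∀ i, i ∉ I → ∀ d ∈ 𝒟, (T i).Cm d) →
    (∀ i ∈ I, (T i).Inv (SpU β) 𝒟) → ∃ x ∈ 𝒟, x * x = 1 := by
  classical
  induction I using Finset.induction_on with
  | empty =>
    intro 𝒟 h0 h1 _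
    obtain ⟨z, hz, hz0⟩ := Submodule.exists_mem_ne_zero_of_ne_bot h0
    obtain ⟨c, rfl⟩ := S.fr.centre z fun j => h1 j (Finset.notMem_empty j) z hz
    exact ⟨1, (𝒟.smul_mem_iff (left_ne_zero_of_smul hz0)).1 hz, mul_one 1⟩
  | insert j I hj ih =>
    intro 𝒟 h0 h1 h3
    by_cases h : ∀ d ∈ 𝒟, (T j).Cm d
    · refine ih 𝒟 h0 (fun i hi => ?_) fun i hi => h3 i (Finset.mem_insert_of_mem hi)
      by_cases e : i = j
      · exact e ▸ h
      · exact h1 i (by simp [e, hi])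
    push Not at h
    obtain ⟨z, hz, hz'⟩ := h
    obtain ⟨_, rfl, h4⟩ := red_two S.alt S.rf h2 hd 𝒟 (h3 j (Finset.mem_insert_self _ _)) z hz hz'
    obtain ⟨x, hx, e⟩ := ih _ h4 (fun i hi => by
      by_cases e : i = j
      · exact e ▸ fun d hd => hd.1
      · exact S.fr.cof_cm e (gen_X1 S.alt S.rf).ne_bot (h1 i (by simp [e, hi]))) fun i hi =>
        S.fr.cof_inv (fun e : i = j => hj (e ▸ hi)) _ (h3 i (Finset.mem_insert_of_mem hi))
    obtain ⟨u, hu⟩ := exists_ne (0 : U)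
    obtain ⟨v, hv⟩ := S.rf.exists_one hu
    refine ⟨_, hx.2 _ (sub_mem (sub_mem (io_mem (u + v)) (io_mem u)) (io_mem v)), ?_⟩
    rw [mul_assoc, ← mul_assoc x, ← (hx.1 _).eq, mul_assoc, e, mul_one, ← map_mul, ← map_one (T j).A]
    congr 1
    ext y
    refine sub_eq_zero.1 (eq_zero_of_two S.alt S.rf hd hv ?_ ?_) <;>
      simp [hv, alt_self S.alt, alt_neg S.alt v u]

theorem eq_top_of_X1 {𝒮 : Submodule F (End F U)} (h1 : 1 ∈ 𝒮) (h : X1 β ≤ 𝒮) : 𝒮 = ⊤ :=
  eq_top_of_rk S.rf fun a b hab => (𝒮.smul_mem_iff h2).1 (by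
    convert sub_mem (h (sub_mem (sub_mem (io_mem (a + b)) (io_mem a)) (io_mem b))) (𝒮.smul_mem (β a b) h1) using 1
    ext y
    refine sub_eq_zero.1 (eq_zero_of_two S.alt S.rf hd (a := a) (b := (β a b)⁻¹ • b) (by simp [hab]) ?_ ?_) <;>
      simp [alt_self S.alt, alt_neg S.alt b a] <;> ring_nf <;> simp)

/-- Factors of dimension two. -/
theorem add_st_mem [Fintype J] [DecidableEq J] {i : J} {𝒵 : Submodule F (End F V)}
    (hZ : ∀ z ∈ 𝒵, (T i).Cm z ∧ st z = z) (iZ : ∀ j, j ≠ i → (T j).Inv (SpU β) 𝒵) (h1 : 1 ∈ 𝒵)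
    (hJ : ∀ z ∈ 𝒵, z * z = 0 → ∀ s ∈ 𝒵, z * s + s * z ∈ 𝒵)
    (hp : ∀ l l', l ≠ i → l' ≠ i → ∃ τ : (End F V)ˣ,
      (∀ j a, τ.1 * (T j).A a * (τ⁻¹).1 = (T (Equiv.swap l l' j)).A a) ∧ ∀ s ∈ 𝒵, τ.1 * s * (τ⁻¹).1 ∈ 𝒵)
    {z : End F V} (hz : z ∈ 𝒵) (hn : ∀ c : F, z ≠ c • 1) {s : End F V} (hs : (T i).Cm s) : s + st s ∈ 𝒵 := by
  have R := S.rf
  have hG := (gen_X1 S.alt R).ne_bot
  obtain ⟨j, hj, h3⟩ := S.exists_not_cm (hZ z hz).1 hn
  obtain ⟨_, rfl, h4⟩ := red_two S.alt R h2 hd 𝒵 (iZ j hj) z hz h3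
  have c1 := S.fr.cof_cm hj.symm hG fun d hd => (hZ d hd).1
  obtain ⟨d, hd', d0⟩ := Submodule.exists_mem_ne_zero_of_ne_bot h4
  obtain ⟨u, hu⟩ := exists_ne (0 : U)
  obtain ⟨v, hv⟩ := R.exists_one hu
  obtain ⟨l, hl, h5⟩ := S.exists_not_cm (c1 d hd') fun c e => d0 (by
    have h5 := (hZ _ (hd'.2 _ (io_mem u))).2
    rw [e, mul_smul_comm, mul_one, map_smul, S.st_X1 j (io_mem u), smul_neg, neg_eq_iff_add_eq_zero, ← two_smul F,
      smul_smul, smul_eq_zero, map_eq_zero_iff _ (T j).A_injective] at h5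
    rw [e, (mul_eq_zero.1 (h5.resolve_right fun e => hu (by simpa [hv] using LinearMap.congr_fun e v))).resolve_left h2,
      zero_smul])
  have hlj : l ≠ j := fun e => h5 (e ▸ hd'.1)
  have i1 := S.fr.cof_inv hlj (X1 β) (iZ l hl)
  obtain ⟨_, rfl, h6⟩ := red_two S.alt R h2 hd _ i1 d hd' h5
  obtain ⟨x, hx, e⟩ := S.exists_sq h2 hd (((Finset.univ.erase i).erase j).erase l) _ h6 (fun m hm => by
      by_cases e : m = l
      · exact e ▸ fun d hd => hd.1
      refine S.fr.cof_cm e hG ?_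
      by_cases e' : m = j
      · exact e' ▸ fun d hd => hd.1
      obtain rfl : m = i := by simpa [e, e'] using hm
      exact c1) fun m hm => by
    simp only [Finset.mem_erase, Finset.mem_univ, and_true] at hm
    exact S.fr.cof_inv hm.1 _ (S.fr.cof_inv hm.2.1 _ (iZ m hm.2.2))
  have h7 : (1 : End F V) ∈ (T l).cof (X1 β) ((T j).cof (X1 β) 𝒵) := by
    have m1 : ∀ a b, (T j).A a * ((T l).A a * x) * ((T j).A b * ((T l).A b * x)) =
        (T j).A (a * b) * (T l).A (a * b) := fun a b => by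
      have c2 := S.fr.cof_cm hlj.symm hG (fun d (hd : d ∈ (T j).cof (X1 β) 𝒵) => hd.1) x hx
      rw [mul_assoc, ← mul_assoc (_ * x), ← (((S.fr.comm j l hlj.symm a b).mul_right (c2 b))).eq, mul_assoc,
        ← mul_assoc, ← map_mul, mul_assoc, ← mul_assoc x, ← (hx.1 b).eq, mul_assoc, e, mul_one, ← map_mul]
    have h8 := hJ _ ((hx.2 _ (io_mem u)).2 _ (io_mem u)) (by
      rw [m1, rk_mul_rk, alt_self S.alt, zero_smul, map_zero, zero_mul]) _ ((hx.2 _ (io_mem v)).2 _ (io_mem v))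
    rw [m1, m1] at h8
    have e1 : β (u + v) ((io β u * io β v) (u + v)) = 1 := by simp [hv, alt_self S.alt, alt_neg S.alt v u]
    have e2 : β (u + v) ((io β v * io β u) (u + v)) = -1 := by simp [hv, alt_self S.alt, alt_neg S.alt v u]
    have h9 := sl_mem_cof (iZ j hj) S.alt R h2 h8 (u + v)
    rw [sl_eq (S.fr.comm j l hlj.symm _) (S.fr.comm j l hlj.symm _), e1, e2, one_smul, neg_one_smul,
      ← mul_one ((T l).A (io β u * _)), ← mul_neg_one] at h9
    have h10 := sl_mem_cof i1 S.alt R h2 h9 (u + v)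
    rw [sl_eq (fun _ => Commute.one_right _) (fun _ => (Commute.one_right _).neg_right), e1, e2, one_smul, neg_one_smul,
      neg_neg, ← two_smul F] at h10
    exact (Submodule.smul_mem_iff _ h2).1 h10
  let Q : J → J → Prop := fun j l => ∀ a b, (T j).A (io β a) * (T l).A (io β b) ∈ 𝒵
  have q1 : ∀ j l l', j ≠ l → j ≠ l' → l ≠ i → l' ≠ i → Q j l → Q j l' := fun j l l' h h' hl hl' q a b => by
    obtain ⟨τ, e, hτ⟩ := hp l l' hl hl'
    have := hτ _ (q a b)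
    rwa [show τ.1 * ((T j).A (io β a) * (T l).A (io β b)) * (τ⁻¹).1 =
      τ.1 * (T j).A (io β a) * (τ⁻¹).1 * (τ.1 * (T l).A (io β b) * (τ⁻¹).1) by simp [mul_assoc], e, e,
      Equiv.swap_apply_left, Equiv.swap_apply_of_ne_of_ne h h'] at this
  have q2 : ∀ j' l', j' ≠ l' → j' ≠ i → l' ≠ i → Q j' l' := fun j' l' h hj' hl' => by
    have q : Q j l := fun a b => by simpa using (h7.2 _ (io_mem b)).2 _ (io_mem a)
    by_cases e : j' = j
    · exact e ▸ q1 j l l' hlj.symm (e ▸ h) hl hl' q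
    · exact q1 j' j l' e h hj hl' fun a b =>
        (S.fr.comm j j' (Ne.symm e) _ _).eq ▸ q1 j l j' hlj.symm (Ne.symm e) hl hj' q b a
  have key : ∀ I : Finset J, i ∉ I → ∀ s, (∀ m, m ∉ I → (T m).Cm s) →
      s + st s ∈ 𝒵 ∧ ∀ m, m ∉ I → m ≠ i → ∀ x ∈ X1 β, (T m).A x * (s - st s) ∈ 𝒵 := fun I => by
    induction I using Finset.induction_on with
    | empty =>
      intro _ s hs
      obtain ⟨c, rfl⟩ := S.fr.centre s fun m => hs m (Finset.notMem_empty m)
      simpa [S.one] using add_mem (𝒵.smul_mem c h1) (𝒵.smul_mem c h1)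
    | insert l I hl ih =>
      intro hi s hs
      have hli : l ≠ i := fun e => hi (e ▸ Finset.mem_insert_self _ _)
      let 𝒮 : Submodule F (End F V) := 𝒵.comap (LinearMap.id + st) ⊓ ⨅ m ∉ insert l I, ⨅ (_ : m ≠ i), ⨅ x ∈ X1 β,
        𝒵.comap (LinearMap.mulLeft F ((T m).A x) ∘ₗ (LinearMap.id - st))
      have h𝒮 : ∀ s, s ∈ 𝒮 ↔ s + st s ∈ 𝒵 ∧ ∀ m, m ∉ insert l I → m ≠ i → ∀ x ∈ X1 β, (T m).A x * (s - st s) ∈ 𝒵 :=
        fun s => by simp only [𝒮, Submodule.mem_inf, Submodule.mem_iInf]; rfl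
      rw [← h𝒮, ← (T l).sum_sl (finBasis F U) s]
      refine sum_mem fun a _ => sum_mem fun b _ => ?_
      set y := (T l).C ((T l).sl ((finBasis F U).coord a) (finBasis F U b) s)
      have hy : ∀ m, m ∉ I → (T m).Cm y := fun m hm => by
        by_cases e : m = l
        · exact e ▸ (T m).cm_C _
        · exact S.fr.cm_sl e (hs m (by simp [e, hm])) _ _
      obtain ⟨y1, y2⟩ := ih (fun h => hi (Finset.mem_insert_of_mem h)) y hy
      refine (S.eq_top_of_X1 h2 hd (𝒮 := 𝒮.comap (LinearMap.mulRight F y ∘ₗ (T l).A.toLinearMap)) ?_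
        (Submodule.span_le.2 ?_)).ge Submodule.mem_top
      · simpa [h𝒮] using ⟨y1, fun m hm hm' => y2 m hm'⟩
      rintro _ ⟨w, rfl⟩
      have e : st ((T l).A (io β w) * y) = -((T l).A (io β w) * st y) := by
        rw [S.mul, S.st_X1 l (io_mem w), mul_neg, (S.cm (hy l hl) _).eq]
      refine (h𝒮 ((T l).A (io β w) * y)).2 ⟨by
        rw [e, ← sub_eq_add_neg, ← mul_sub]; exact y2 l hl hli _ (io_mem w), fun m hm hmi x hx => ?_⟩
      rw [Finset.mem_insert, not_or] at hm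
      rw [e, sub_neg_eq_add, ← mul_add, ← mul_assoc]
      refine (Submodule.span_le (p := 𝒵.comap (LinearMap.mulRight F (y + st y) ∘ₗ LinearMap.mulRight F _ ∘ₗ
        (T m).A.toLinearMap))).2 ?_ hx
      rintro _ ⟨w', rfl⟩
      have c : Commute ((T m).A (io β w') * (T l).A (io β w)) (y + st y) :=
        ((hy m hm.2 _).mul_left (hy l hl _)).add_right ((S.cm (hy m hm.2) _).mul_left (S.cm (hy l hl) _))
      have := hJ _ (q2 m l hm.1 hmi hli w' w) (by
        rw [mul_assoc, ← mul_assoc ((T l).A _), (S.fr.comm l m (Ne.symm hm.1) _ _).eq, ← mul_assoc, ← mul_assoc,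
          ← map_mul, rk_mul_rk, alt_self S.alt, zero_smul, map_zero, zero_mul, zero_mul]) _ y1
      rw [← c.eq, ← two_smul F] at this
      exact (𝒵.smul_mem_iff h2).1 this
  exact (key (Finset.univ.erase i) (by simp) s fun m hm => by
    obtain rfl : m = i := by simpa using hm
    exact hs).1

end St

section Adj

variable {ε : F} {B : LinearMap.BilinForm F V} [FiniteDimensional F V] (R : RF (RingHom.id F) ε B)

theorem adj_left (s : End F V) (x y : V) : B (B.leftAdjointOfNondegenerate R.nondegenerate s x) y = B x (s y) :=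
  B.isAdjointPairLeftAdjointOfNondegenerate R.nondegenerate s x y

/-- The adjoint of a linear map. -/
noncomputable def ad : End F V →ₗ[F] End F V where
  toFun := B.leftAdjointOfNondegenerate R.nondegenerate
  map_add' s t := LinearMap.ext fun x => sub_eq_zero.1 (R.nondeg _ fun y => by simp [adj_left R])
  map_smul' c s := LinearMap.ext fun x => sub_eq_zero.1 (R.nondeg _ fun y => by simp [adj_left R])

theorem ad_left (s : End F V) (x y : V) : B (ad R s x) y = B x (s y) := adj_left R s x y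

theorem ad_right (s : End F V) (x y : V) : B x (ad R s y) = B (s x) y := by rw [R.symm, ad_left, R.symm y]

theorem ad_eq {s t : End F V} (h : ∀ x y, B (s x) y = B x (t y)) : ad R s = t :=
  LinearMap.ext fun y => R.ext' fun x => by rw [ad_right, h]

end Adj

variable {ε₁ ε : F} {γ : LinearMap.BilinForm F W} {B : LinearMap.BilinForm F V}
  {T : TF (RingHom.id F) ε₁ (-1) ε γ β B} {H : Subgroup (V ≃ₗ[F] V)}

theorem TF.ad_C [FiniteDimensional F V] {s s' : End F W} (h : ∀ a b, γ (s a) b = γ a (s' b)) :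
    ad T.r (T.tp.C s) = T.tp.C s' :=
  ad_eq _ (T.ext_bil (f := B.compLeft (T.tp.C s)) (g := B.compRight (T.tp.C s')) fun a y b z => by
    simp [T.C_tm, T.B_tm, h])

theorem st_ad [FiniteDimensional F V] {J : Type*} {T : J → TF (RingHom.id F) ε₁ (-1) ε γ β B} (hβ : β.IsAlt)
    (fr : Fr fun j => (T j).tp) (i : J) : St (fun j => (T j).tp) β (ad (T i).r) :=
  ⟨hβ, (T i).r₂, fr, fun x y => ad_eq _ fun a b => by simp [ad_right], ad_eq _ fun _ _ => rfl, fun j x x' h =>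
    ad_eq _ ((T j).ext_bil (f := B.compLeft ((T j).tp.A x)) (g := B.compRight ((T j).tp.A x')) fun a y b z => by
      simp [(T j).A_tm, (T j).B_tm, h])⟩

namespace Ov

variable (O : Ov T H)

/-- The maps `s` with `1 + s ⊗ ι_u ∈ H`. -/
def ZW : Submodule F (End F W) where
  carrier := {s | ∀ u (c : F), c • s ∈ T.ZA H (alt_self O.alt u)}
  zero_mem' u c := by rw [smul_zero]; exact zero_mem _
  add_mem' h h' u c := by rw [smul_add]; exact add_mem (h u c) (h' u c)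
  smul_mem' a s h u c := by rw [smul_smul]; exact h u _

/-- The maps induced by the elements of the radicals. -/
def AW (_ : Ov T H) : Submodule F (End F W) where
  carrier := {s | ∀ u w, β u w = 0 → s ∘ₗ T.ψ' w ∈ T.RD H u}
  zero_mem' u w _ := by rw [LinearMap.zero_comp]; exact zero_mem _
  add_mem' h h' u w e := by rw [LinearMap.add_comp]; exact add_mem (h u w e) (h' u w e)
  smul_mem' a s h u w e := by
    convert h u (a • w) (by simp [e]) using 1
    ext; simp [T.ψ'_smul]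

theorem one_mem_ZW : 1 ∈ O.ZW := fun u c => ⟨_, O.tz_mem u c, fun x => by simp [TF.tz_apply]⟩

theorem mem_RD_zero (D : V →ₗ[F] W) : D ∈ T.RD H 0 := ⟨1, one_mem _, ⟨fun _ => rfl, fun x _ => by simp⟩, by simp⟩

theorem one_mem_AW : 1 ∈ O.AW := fun u w h => by
  by_cases hu : u = 0
  · exact hu ▸ mem_RD_zero _
  obtain ⟨e, he, -, R⟩ := O.exists_rad hu h
  exact ⟨e, he, R⟩

theorem ZW_adj [Nontrivial U] {s : End F W} (h : s ∈ O.ZW) (a b : W) : γ (s a) b = γ a (s b) := by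
  obtain ⟨u, hu⟩ := exists_ne (0 : U)
  obtain ⟨v, hv⟩ := T.r₂.exists_one hu
  simpa using TF.ZA_skew O.le hv (h u 1) a b

theorem ZW_conj {a : W ≃ₗ[F] W} (ha : T.kron a 1 ∈ H) {s : End F W} (h : s ∈ O.ZW) : cnj a s ∈ O.ZW := fun u c => by
  convert TF.ZA_conj (h u c) ha (one_mem _) (alt_self O.alt u) (one_smul F u).symm using 1
  ext; simp [cnj_apply]

theorem AW_conj {a : W ≃ₗ[F] W} (ha : T.kron a 1 ∈ H) {s : End F W} (h : s ∈ O.AW) : cnj a s ∈ O.AW := fun u w e => by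
  convert TF.RD_conj O.le (h u w e) (inv_mem ha) (α := a⁻¹) fun b => by simp [T.kron_inv, T.kron_tm] using 1
  ext x
  simp [cnj_apply, T.kron_inv, T.ψ'_kron _ (one_mem _)]

theorem ZW_le_AW : O.ZW ≤ O.AW := fun s h u w e => by
  obtain ⟨k, hk, e1⟩ := h (u + w) 1
  obtain ⟨k', hk', e2⟩ := h w (-1)
  have e3 : ∀ x, T.ψ' u x = 0 → (k * k') x = x + T.tm (s (T.ψ' w x)) u := fun x hx => by
    simp [e1, e2, T.ψ'_add, hx, T.ψ_tm, e, alt_self O.alt]
    abel
  exact ⟨_, mul_mem hk hk', ⟨fun a => by simp [e3 _ (show T.ψ' u (T.tm a u) = 0 by simp [T.ψ_tm, alt_self O.alt]),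
    T.ψ_tm, T.r₂.flip0 e], fun x hx => by rw [e3 x hx, add_sub_cancel_left]; exact T.tm_mem_L _ _⟩, e3⟩

theorem exists_levi {s : End F W} (h : s ∈ O.ZW) (h2 : ∀ a, s (s a) = 0) {u v : U} (e : β u v = 1) (c : F) :
    ∃ k ∈ H, ∀ x, k x = x + c • (T.tm (s (T.ψ' v x)) u + T.tm (s (T.ψ' u x)) v) := by
  obtain ⟨k₁, h₁, e₁⟩ := h (u + v) c
  obtain ⟨k₂, h₂, e₂⟩ := h u (-c)
  obtain ⟨k₃, h₃, e₃⟩ := h v (-c)
  refine ⟨_, mul_mem h₁ (mul_mem h₂ h₃), fun x => ?_⟩
  simp only [LinearEquiv.mul_apply, e₁, e₂, e₃, T.ψ'_add, map_add, T.ψ_tm, LinearMap.smul_apply, map_smul, h2,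
    smul_zero, map_zero, LinearMap.zero_apply, LinearMap.add_apply]
  module

theorem mul_mem_AW {z s : End F W} (hz : z ∈ O.ZW) (h2 : ∀ a, z (z a) = 0) (h : s ∈ O.AW) : z * s ∈ O.AW :=
  fun u w e => by
  by_cases hu : u = 0
  · exact hu ▸ mem_RD_zero _
  obtain ⟨v, hv⟩ := T.r₂.exists_one hu
  obtain ⟨k, hk, e1⟩ := O.exists_levi hz h2 hv 1
  refine TF.RD_congr (sub_mem (TF.RD_conj O.le (h u w e) hk (α := unip z h2 (-1)) fun a => by
    simp [e1, T.ψ_tm, alt_self O.alt, T.flip_one hv, unip_apply]) (h u w e)) fun x hx => ?_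
  simp [unip_inv, unip_apply, e1, hx, T.ψ_tm, T.r₂.flip0 e]

theorem jordan (two : (2 : F) ≠ 0) {z s : End F W} (hz : z ∈ O.ZW) (h2 : ∀ a, z (z a) = 0) (h : s ∈ O.ZW) :
    z * s + s * z ∈ O.ZW := fun u c => by
  by_cases hu : u = 0
  · exact ⟨1, one_mem _, by simp [hu]⟩
  obtain ⟨v, hv⟩ := T.r₂.exists_one hu
  have key : ∀ d : F, (1 + d • z) * ((c / 2) • s) * (1 + d • z) ∈ T.ZA H (alt_self O.alt u) := fun d => by
    obtain ⟨k, hk, e1⟩ := O.exists_levi hz h2 hv d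
    obtain ⟨k', hk', e2⟩ := O.exists_levi hz h2 hv (-d)
    obtain ⟨g, hg, e3⟩ := h u (c / 2)
    refine ⟨_, mul_mem hk' (mul_mem hg hk), fun x => ?_⟩
    simp only [LinearEquiv.mul_apply, e1, e2, e3, map_add, T.ψ_tm, LinearMap.smul_apply, map_smul, h2, smul_zero,
      map_zero, LinearMap.zero_apply, alt_self O.alt, hv, T.flip_one hv, End.mul_apply, LinearMap.add_apply,
      End.one_apply, zero_smul]
    module
  convert sub_mem (key 1) (key (-1)) using 1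
  simp only [mul_add, add_mul, smul_mul_assoc, mul_smul_comm, one_mul, mul_one]
  match_scalars <;> field_simp <;> ring

variable [FiniteDimensional F U] [FiniteDimensional F W]

theorem comm_mem (h3 : 3 ≤ finrank F U) {s s' t t' : End F W} (hs : s ∈ O.AW) (hs' : s' ∈ O.AW)
    (ht : ∀ a b, γ a (s b) = γ (t a) b) (ht₁ : ∀ a b, γ (s a) b = γ a (t b)) (ht' : ∀ a b, γ a (s' b) = γ (t' a) b)
    (ht₁' : ∀ a b, γ (s' a) b = γ a (t' b)) : s * t' + s' * t ∈ O.ZW := fun u c => by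
  by_cases hu : u = 0
  · exact ⟨1, one_mem _, by simp [hu]⟩
  obtain ⟨v, hv⟩ := T.r₂.exists_one hu
  obtain ⟨w, w', h1, h2, h4⟩ := T.r₂.exists_pair_perp h3 (alt_self O.alt u) hv
  obtain ⟨k, hk, R, e⟩ := hs u (c • w) (by simp [h1])
  obtain ⟨k', hk', R', e'⟩ := hs' u w' h2
  obtain ⟨A, hA, e1⟩ := TF.exists_comm O.le (alt_self O.alt u) hv hk hk' R R' e e'
  convert hA using 1
  refine LinearMap.ext fun a => T.r₁.ext' fun b => ?_
  rw [e1, map_sub, LinearMap.comp_apply, LinearMap.comp_apply, ht, ht', ← T.B_ψ, ← T.B_ψ,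
    R'.adj (O.le hk') e' (by simp [T.ψ_tm, h1]), R.adj (O.le hk) e (by simp [T.ψ_tm, h2])]
  simp [T.ψ_tm, hv, h4, T.flip_one h4, ht, ht', ht₁, ht₁']

variable [Finite F] [Nontrivial W]

theorem mem_ZW {u : U} (hu : u ≠ 0) {A : End F W} (hA : A ∈ T.ZA H (alt_self O.alt u)) : A ∈ O.ZW := fun u' c => by
  by_cases hu' : u' = 0
  · exact ⟨1, one_mem _, by simp [hu']⟩
  refine mem_of_sq_mul_mem ((T.ZA H (alt_self O.alt u')).comap
    (LinearMap.toSpanSingleton F _ A).toAddMonoidHom) one_ne_zero (fun a => ?_) c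
  rw [AddSubgroup.mem_comap, LinearMap.toAddMonoidHom_coe, LinearMap.toSpanSingleton_apply]
  by_cases ha : a = 0
  · rw [ha, zero_pow two_ne_zero, zero_mul, zero_smul]; exact zero_mem _
  obtain ⟨t, ht, e⟩ := exists_isom_apply_eq O.alt T.r₂.nondegenerate hu (smul_ne_zero ha hu')
  convert TF.ZA_conj hA (O.sp t ht) ht (alt_self O.alt u') e using 1
  ext; simp [cnj_apply, pow_two]

theorem gd_or : Gd T H ∨ ∃ s ∈ O.AW, ∀ c : F, s ≠ c • 1 := by
  refine or_iff_not_imp_right.2 fun hc => ⟨O, fun u hu h hh R => ?_⟩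
  push Not at hc
  have hw := alt_self O.alt u
  obtain ⟨v, hv⟩ := T.r₂.exists_one hu
  obtain ⟨D, hD⟩ := R.exists_D hu
  have hD' : D ∈ T.RD H u := ⟨h, hh, R, hD⟩
  refine TF.mem_KS_of_scalar O.le hw hv (fun z hz => ?_) (fun A hA => ?_) hh R hD fun z hz => ?_
  · obtain ⟨e, h1, h2, h3⟩ := O.exists_rad hu hz
    exact ⟨e, ⟨h1, h2⟩, h3⟩
  · obtain ⟨c, rfl⟩ := hc A (O.ZW_le_AW (O.mem_ZW hu hA))
    exact ⟨c, fun _ => rfl⟩
  by_cases h1 : ∃ c : F, c • u = z
  · obtain ⟨c, rfl⟩ := h1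
    exact ⟨0, fun a => by simp [TF.RD_self hu hw hD']⟩
  push Not at h1
  obtain ⟨k, hk, R', e⟩ : (D ∘ₗ T.tm.flip z) ∘ₗ T.ψ' z ∈ T.RD H u := by
    convert sub_mem (TF.RD_conj O.le hD' (O.tz_mem z 1) (α := 1) fun a => by
      simp [TF.tz_apply, T.ψ_tm, T.r₂.flip0 hz]) hD' using 1
    ext; simp [TF.tz_apply]
  obtain ⟨c, hc⟩ := hc (D ∘ₗ T.tm.flip z) fun u' z' h2 => by
    by_cases h3 : u' = 0 ∨ ∃ c : F, c • u' = z'
    · rcases h3 with rfl | ⟨c, rfl⟩
      · exact mem_RD_zero _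
      · exact TF.RD_congr (zero_mem _) fun x hx => by simp [T.ψ'_smul, hx]
    push Not at h3
    obtain ⟨t, ht, rfl, rfl⟩ := witt_pair O.alt T.r₂ hu h1 h3.1 h3.2 (by rw [h2, hz])
    have h4 : ∀ y x, T.ψ' y ((T.kron 1 t)⁻¹ x) = T.ψ' (t y) x := fun y x => by
      rw [T.kron_inv, T.ψ'_kron _ (inv_mem ht), inv_inv]; rfl
    have h5 : ∀ x, T.ψ' (t u) x = 0 → (T.kron 1 t * k * (T.kron 1 t)⁻¹) x =
        x + T.tm (((D ∘ₗ T.tm.flip z) ∘ₗ T.ψ' (t z)) x) (t u) := fun x hx => by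
      rw [LinearEquiv.mul_apply, LinearEquiv.mul_apply, e _ (by rwa [h4]), map_add, apply_inv_apply, T.kron_tm,
        LinearMap.comp_apply, h4]
      rfl
    exact ⟨_, mul_mem (mul_mem (O.sp t ht) hk) (inv_mem (O.sp t ht)), ⟨fun a => by
      simp [T.kron_inv, T.kron_tm, inv_apply_apply, R'.fix], fun x hx => by
        rw [h5 x hx, add_sub_cancel_left]; exact T.tm_mem_L _ _⟩, h5⟩
  exact ⟨c, LinearMap.congr_fun hc⟩

end Ov

end CL.Sp
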