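import Cfsg.Agent.Cls.WS6
import Cfsg.Agent.Cls.WS4
import Cfsg.Agent.Cls.TW6

set_option autoImplicit false
set_option linter.unusedSectionVars false

/-!
Overgroups of the stabiliser of a frame of symplectic factors: either the factors are permuted, or the group contains
the full symplectic or orthogonal group.
-/

namespace CL.Sp

open Module CL.SLn CL.TW QuadraticMap
open CL.Uni (UG)
open LinearMap.GeneralLinearGroup (ofLinearEquiv toLinearEquiv)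

variable {F U W V : Type*} [Field F] [AddCommGroup U] [Module F U] [AddCommGroup W] [Module F W]
  [AddCommGroup V] [Module F V] {β : LinearMap.BilinForm F U} {ε₁ ε : F} {γ : LinearMap.BilinForm F W}
  {B : LinearMap.BilinForm F V} {H : Subgroup (V ≃ₗ[F] V)}
  [FiniteDimensional F U] [FiniteDimensional F W] [Nontrivial U] [Nontrivial W]

theorem TL.conj_map {T : TL F W U V} {𝒮 : Submodule F (End F W)}
    (h𝒮 : ∀ a, T.kron a 1 ∈ H → ∀ s ∈ 𝒮, cnj a s ∈ 𝒮) {g : V ≃ₗ[F] V} (hg : g ∈ H) (hc : T.tp.Cm (g : End F V))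
    {s : End F V} (hs : s ∈ 𝒮.map T.tp.C.toLinearMap) :
    (ofLinearEquiv g).1 * s * ((ofLinearEquiv g)⁻¹).1 ∈ 𝒮.map T.tp.C.toLinearMap := by
  obtain ⟨c, rfl⟩ := TL.mem_KS_of_cm hc
  obtain ⟨s, hs, rfl⟩ := hs
  refine ⟨_, h𝒮 c hg s hs, LinearMap.ext (T.ext_tm fun a y => ?_)⟩
  change _ = T.kron c 1 (T.tp.C s ((T.kron c 1)⁻¹ (T.tm a y)))
  simp [T.C_tm, T.kron_inv, T.kron_tm, cnj_apply]

theorem Ov.gd_or_two [Finite F] {T : TF (RingHom.id F) ε₁ (-1) ε γ β B} (O : Ov T H) (hd : finrank F U = 2) :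
    Gd T H ∨ ∃ s ∈ O.ZW, ∀ c : F, s ≠ c • 1 := by
  refine or_iff_not_imp_right.2 fun hc => ⟨O, fun u hu h hh R => ?_⟩
  push Not at hc
  have hw := alt_self O.alt u
  obtain ⟨v, hv⟩ := T.r₂.exists_one hu
  obtain ⟨D, hD⟩ := R.exists_D hu
  refine TF.mem_KS_of_scalar O.le hw hv (fun z hz => ?_) (fun A hA => ?_) hh R hD fun z hz => ⟨0, fun a => ?_⟩
  · obtain ⟨e, h1, h2, h3⟩ := O.exists_rad hu hz
    exact ⟨e, ⟨h1, h2⟩, h3⟩
  · obtain ⟨c, rfl⟩ := hc A (O.mem_ZW hu hA)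
    exact ⟨c, fun _ => rfl⟩
  rw [show z = -β v z • u from sub_eq_zero.1 (eq_zero_of_two O.alt T.r₂ hd hv (by simp [hz, hw])
    (by simp [T.flip_one hv]))]
  simp [TF.RD_self hu hw ⟨h, hh, R, hD⟩]

/-- `H` contains the symplectic groups of the factors and the transpositions fixing a factor. -/
structure OF {J : Type*} [DecidableEq J] (T : J → TF (RingHom.id F) ε₁ (-1) ε γ β B) (H : Subgroup (V ≃ₗ[F] V)) :
    Prop where
  fr : Fr fun j => (T j).tp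
  ov : ∀ j, Ov (T j) H
  pm : ∀ i l l', l ≠ i → l' ≠ i → ∃ τ ∈ H, ∀ j a,
    (ofLinearEquiv τ).1 * (T j).tp.A a * ((ofLinearEquiv τ)⁻¹).1 = (T (Equiv.swap l l' j)).tp.A a

namespace OF

variable {J : Type*} [DecidableEq J] [Fintype J] {T : J → TF (RingHom.id F) ε₁ (-1) ε γ β B} (Φ : OF T H) {i : J}
include Φ

theorem inv {𝒮 : Submodule F (End F W)} (h𝒮 : ∀ a, (T i).kron a 1 ∈ H → ∀ s ∈ 𝒮, cnj a s ∈ 𝒮) (j : J) (hj : j ≠ i) :
    (T j).tp.Inv (SpU β) (𝒮.map (T i).tp.C.toLinearMap) := fun g hg s hs => by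
  have e : ∀ t : (End F U)ˣ, (((T j).kron 1 (toLinearEquiv t) : V ≃ₗ[F] V) : End F V) = (T j).tp.A t.1 := fun t =>
    LinearMap.ext ((T j).kron_one_apply _)
  have := TL.conj_map h𝒮 ((Φ.ov j).sp (toLinearEquiv g) hg) (e g ▸ Φ.fr.comm i j hj.symm _) hs
  rwa [show (ofLinearEquiv ((T j).kron 1 (toLinearEquiv g))).1 = _ from e g,
    show ((ofLinearEquiv ((T j).kron 1 (toLinearEquiv g)))⁻¹).1 = (T j).tp.A (g⁻¹).1 from
      (congrArg LinearEquiv.toLinearMap ((T j).kron_inv _ _)).trans (e g⁻¹)] at this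

theorem exists_pm {l l' : J} (hl : l ≠ i) (hl' : l' ≠ i) : ∃ τ ∈ H, (T i).tp.Cm (τ : End F V) ∧
    (T i).tp.Cm ((τ⁻¹ : V ≃ₗ[F] V) : End F V) ∧ ∀ j a,
      (ofLinearEquiv τ).1 * (T j).tp.A a * ((ofLinearEquiv τ)⁻¹).1 = (T (Equiv.swap l l' j)).tp.A a := by
  obtain ⟨τ, hτ, e⟩ := Φ.pm i l l' hl hl'
  have c : ∀ a, Commute ((T i).tp.A a) (ofLinearEquiv τ).1 := fun a => by
    have := e i a
    rw [Equiv.swap_apply_of_ne_of_ne hl.symm hl'.symm, Units.mul_inv_eq_iff_eq_mul] at this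
    exact this.symm
  exact ⟨τ, hτ, c, fun a => (c a).units_inv_right, e⟩

variable [FiniteDimensional F V] [Finite F]

theorem add_ad_mem_two (two : (2 : F) ≠ 0) (hd : finrank F U = 2) {z : End F W} (hz : z ∈ (Φ.ov i).ZW)
    (hn : ∀ c : F, z ≠ c • 1) (s : End F W) : s + ad (T i).r₁ s ∈ (Φ.ov i).ZW := by
  have O := Φ.ov i
  have inj := (T i).tp.C_injective
  obtain ⟨s', hs', e⟩ := (st_ad O.alt Φ.fr i).add_st_mem two hd (i := i) (𝒵 := O.ZW.map (T i).tp.C.toLinearMap)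
    (by rintro _ ⟨z, hz, rfl⟩; exact ⟨(T i).tp.cm_C z, TF.ad_C (O.ZW_adj hz)⟩) (Φ.inv fun a ha _ => O.ZW_conj ha)
    ⟨1, O.one_mem_ZW, map_one (T i).tp.C⟩ (by
      rintro _ ⟨z, hz, rfl⟩ h _ ⟨s, hs, rfl⟩
      exact ⟨_, O.jordan two hz (LinearMap.congr_fun (inj (a₁ := z * z) (a₂ := 0) (by simpa using h))) hs, by simp⟩)
    (fun l l' hl hl' => by
      obtain ⟨τ, hτ, c, -, e⟩ := Φ.exists_pm hl hl'
      exact ⟨_, e, fun s => TL.conj_map (fun a ha _ => O.ZW_conj ha) hτ c⟩)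
    ⟨z, hz, rfl⟩ (fun c e => hn c (inj (by simpa using e))) ((T i).tp.cm_C s)
  rw [TF.ad_C fun a b => (ad_right (T i).r₁ s a b).symm, ← map_add] at e
  exact inj e ▸ hs'

theorem add_ad_mem (h3 : 3 ≤ finrank F U) (d : (2 : F) ≠ 0 ∨ 5 ≤ finrank F U) {z : End F W} (hz : z ∈ (Φ.ov i).AW)
    (hn : ∀ c : F, z ≠ c • 1) (s : End F W) : s + ad (T i).r₁ s ∈ (Φ.ov i).ZW := by
  have O := Φ.ov i
  have inj := (T i).tp.C_injective
  have S := st_ad O.alt Φ.fr i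
  have hm : ∀ s ∈ O.AW, ∀ s' ∈ O.AW, s * ad (T i).r₁ s' + s' * ad (T i).r₁ s ∈ O.ZW := fun s hs s' hs' =>
    O.comm_mem h3 hs hs' (fun a b => (ad_left _ s a b).symm) (fun a b => (ad_right _ s a b).symm)
      (fun a b => (ad_left _ s' a b).symm) fun a b => (ad_right _ s' a b).symm
  have hA : ∀ s ∈ O.AW.map (T i).tp.C.toLinearMap, (T i).tp.Cm s := by rintro _ ⟨s, -, rfl⟩; exact (T i).tp.cm_C s
  have iA := Φ.inv (i := i) fun a ha _ => O.AW_conj ha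
  have h1 : 1 ∈ O.AW.map (T i).tp.C.toLinearMap := ⟨1, O.one_mem_AW, map_one (T i).tp.C⟩
  obtain ⟨z', hz', hn'⟩ := S.exists_ne_smul h3 d (𝒵 := O.ZW.map (T i).tp.C.toLinearMap) hA iA h1 (by
      rintro _ ⟨s, hs, rfl⟩ _ ⟨s', hs', rfl⟩
      exact ⟨_, hm s hs s' hs', by simp [TF.ad_C fun a b => (ad_right (T i).r₁ _ a b).symm]⟩)
    (fun x h => LinearMap.ext fun y => (T i).r.nondeg' _ fun w => by rw [← ad_left (T i).r, h]; simp)
    ⟨z, hz, rfl⟩ fun c e => hn c (inj (by simpa using e))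
  obtain ⟨s', hs', e⟩ := S.mem_of_big h3 (Submodule.map_mono O.ZW_le_AW) hA iA (Φ.inv fun a ha _ => O.ZW_conj ha) h1
    (by
      rintro _ ⟨z, hz, rfl⟩ h _ ⟨s, hs, rfl⟩
      exact ⟨_, O.mul_mem_AW hz (LinearMap.congr_fun (inj (a₁ := z * z) (a₂ := 0) (by simpa using h))) hs, by simp⟩)
    (fun l l' hl hl' => by
      obtain ⟨τ, hτ, c, c', e⟩ := Φ.exists_pm hl hl'
      exact ⟨ofLinearEquiv τ, c, c', fun a => by rw [e, Equiv.swap_apply_left], fun s hs =>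
        ⟨TL.conj_map (fun a ha _ => O.AW_conj ha) hτ c hs, TL.conj_map (fun a ha _ => O.AW_conj ha) (inv_mem hτ) c' hs⟩⟩)
    hz' hn' ((T i).tp.cm_C s)
  simpa [S.one, show ad (T i).r₁ 1 = 1 from ad_eq _ fun _ _ => rfl] using hm s (inj e ▸ hs') 1 O.one_mem_AW

/-- The main alternative. -/
theorem same_or (hc : ((2 : F) ≠ 0 ∧ (5 ≤ Nat.card F ∨ 3 ≤ finrank F U)) ∨ ((2 : F) = 0 ∧ 6 ≤ finrank F U))
    (h2 : 2 ≤ finrank F U) : (∀ g ∈ H, ∀ j, ∃ i, TL.Same ((T j).toTL.mv g) (T i).toTL) ∨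
      ∃ i, ∀ s, s + ad (T i).r₁ s ∈ (Φ.ov i).ZW := by
  refine or_iff_not_imp_right.2 fun hn g hg => GF.exists_same ⟨Φ.fr, fun i => ?_, ?_, ?_⟩ hc hg
  · rcases h2.eq_or_lt with e | h3
    · exact ((Φ.ov i).gd_or_two e.symm).resolve_right fun ⟨z, hz, h⟩ =>
        hn ⟨i, Φ.add_ad_mem_two (hc.resolve_right fun h => by omega).1 e.symm hz h⟩
    · exact (Φ.ov i).gd_or.resolve_right fun ⟨z, hz, h⟩ =>
        hn ⟨i, Φ.add_ad_mem h3 (hc.imp And.left fun h => by omega) hz h⟩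
  · rcases hc with ⟨-, h | h⟩ | h
    · exact Or.inl (exists_mu h)
    · exact Or.inr h
    · exact Or.inr (by omega)
  · exact hc.imp And.left fun h => by omega

end OF

theorem mem_of_ne {f : Dual F U} {x₀ : U} (h₀ : f x₀ = 1) {S : Submodule F U} (h : ∀ x, f x ≠ 0 → x ∈ S) (x : U) :
    x ∈ S := by
  by_cases e : f x = 0
  · simpa using sub_mem (h (x + x₀) (by simp [e, h₀])) (h x₀ (by simp [h₀]))
  · exact h x e

variable [FiniteDimensional F V]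

theorem Ov.isom_le {T : TF (RingHom.id F) 1 (-1) (-1) γ β B} (O : Ov T H) (two : (2 : F) ≠ 0) (hB : B.IsAlt)
    (h : ∀ s, s + ad T.r₁ s ∈ O.ZW) : Isom B ≤ H := by
  have key : ∀ y u, T.tm y u ∈ Cen hB H := fun y u c => by
    have h1 := h (rk y (γ y))
    rw [ad_eq T.r₁ (t := rk y (γ y)) fun a b => by simp [T.r₁.symm a y, mul_comm], ← two_smul F,
      Submodule.smul_mem_iff _ two] at h1
    obtain ⟨k, hk, e⟩ := h1 u (-c)
    convert hk using 1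
    ext x
    simp [e, tv_apply, alt_neg hB x, T.B_ψ, mul_smul]
  obtain ⟨a, ha⟩ := exists_ne (0 : W)
  obtain ⟨u, hu⟩ := exists_ne (0 : U)
  obtain ⟨a', ha'⟩ := T.r₁.exists_one ha
  obtain ⟨u', hu'⟩ := T.r₂.exists_one hu
  refine isom_le_of_cen_conn hB T.r.nondegenerate (CL.Cls.exists_ne_zero_one_of_two_ne_zero two) (key a u)
    fun S hz hS => eq_top_iff.2 fun x _ => T.ind (P := (· ∈ S)) (zero_mem _) (fun b => ?_) (fun _ _ => add_mem) x
  exact mem_of_ne hu' (S := S.comap (T.tm b)) fun v hv => mem_of_ne ha' (S := S.comap (T.tm.flip v))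
    (fun b hb => hS _ (key b v) _ hz (T.B_tm _ _ _ _ ▸ mul_ne_zero hb hv)) b

theorem Ov.OmL_le [Finite F] {Q : QuadraticForm F V} {T : TF (RingHom.id F) (-1) (-1) 1 γ β (polarBilin Q)}
    (O : Ov T H) (le : H ≤ CL.Cls.OG Q) (hγ : γ.IsAlt) (pure : ∀ a y, Q (T.tm a y) = 0) (h3 : 3 ≤ finrank F W)
    (h4 : 4 ≤ finrank F V) (h : ∀ s, s + ad T.r₁ s ∈ O.ZW) : OmL Q ≤ H := by
  have h1 : ∀ u a b, T.tm b u ∈ ES Q H (T.tm a u) := fun u a b =>
    TF.mem_ES_of_ZA (hw := alt_self O.alt u) (pure · u) fun c => by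
      have h1 := h (rk a (γ b)) u c
      rwa [ad_eq T.r₁ (t := -rk b (γ a)) fun x y => by simp [alt_neg hγ x b, mul_comm], ← sub_eq_add_neg] at h1
  have h2 : ∀ a u, a ≠ 0 → u ≠ 0 → ∀ b, γ a b = 0 → ∀ v, T.tm b v ∈ ES Q H (T.tm a u) := fun a u ha hu b hb => by
    obtain ⟨a', ha'⟩ := T.r₁.exists_one' ha
    obtain ⟨u', hu'⟩ := T.r₂.exists_one hu
    obtain ⟨d, -, d0, hd⟩ := T.r₁.exists_perp ⊤ ![b, a'] (by simp; omega)
    obtain ⟨c, c0, c1⟩ := T.r₁.exists_dual (a := a) (b := d) fun l hl => d0 (by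
      have : γ a' d = 0 := hd 1
      simp only [← hl, map_smul, ha', smul_eq_mul, mul_one] at this
      rw [← hl, this, zero_smul])
    exact mem_of_ne hu' (S := (ES Q H (T.tm a u)).comap (T.tm b)) fun v hv =>
      ES_step₁ le (pure _ _) (h1 v b c) (h1 u a d) (by simp [T.polar_tm, T.r₁.flip0 hb]) (by simp [T.polar_tm, c0])
        (by simp [T.polar_tm, show γ b d = 0 from hd 0]) (by simp [T.polar_tm, c1, T.r₂.flip_ne hv])
  have h5 : ∀ a u, a ≠ 0 → u ≠ 0 → ∀ x, polar Q (T.tm a u) x = 0 → x ∈ ES Q H (T.tm a u) := fun a u ha hu x hx => by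
    obtain ⟨a', ha'⟩ := T.r₁.exists_one ha
    obtain ⟨u', hu'⟩ := T.r₂.exists_one hu
    obtain ⟨c, -, c0, hc⟩ := T.r₁.exists_perp ⊤ ![a, a'] (by simp; omega)
    obtain ⟨d, hd⟩ := T.r₁.exists_one c0
    have e0 : γ c a = 0 := T.r₁.flip0 (hc 0)
    have e1 : γ c a' = 0 := T.r₁.flip0 (hc 1)
    simpa using add_mem (T.mem_of_perp hu' (fun b z hz => by
      by_cases z0 : z = 0
      · simp [z0]
      simpa using add_mem (h2 a u ha hu (b - γ a b • a') (by simp [ha']) z) (Submodule.smul_mem _ (γ a b)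
        (ES_step₁ le (pure a' z) (h2 a' z (fun e => by simp [e] at ha') z0 c (hc 1) u)
          (h2 a u ha hu (d - γ a d • a' + γ a' d • a) (by simp [ha', alt_self hγ]) u')
          (by simp [T.polar_tm, T.r₂.flip0 hz]) (by simp [T.polar_tm, e0])
          (by simp [T.polar_tm, alt_self hγ, alt_neg hγ a' a, ha']) (by simp [T.polar_tm, hd, e0, e1, hu']))))
      (x := x - T.tm (T.ψ' u x) u') (by simp [T.ψ_tm, hu'])) (h2 a u ha hu (T.ψ' u x) (by rwa [← T.polar_ψ]) u')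
  obtain ⟨a, ha⟩ := exists_ne (0 : W)
  obtain ⟨u, hu⟩ := exists_ne (0 : U)
  obtain ⟨a', ha'⟩ := T.r₁.exists_one ha
  obtain ⟨u', hu'⟩ := T.r₂.exists_one hu
  exact OmL_le_of_ES T.r.nondegenerate h4 ⟨pure a u, pure a' u', by simp [T.polar_tm, ha', hu']⟩ (h5 a u ha hu)
    (h5 a' u' (fun e => by simp [e] at ha') fun e => by simp [e] at hu')

end CL.Sp
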