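import Cfsg.Agent.Cls.WS8

set_option autoImplicit false
set_option linter.unusedSectionVars false

/-!
Tensor powers of symplectic spaces of dimension two or four in characteristic two: the spin overgroup.
-/

namespace CL.Sp

open Module CL.SLn CL.TW QuadraticMap
open CL.Cls hiding glEquiv
open LinearMap.GeneralLinearGroup (ofLinearEquiv toLinearEquiv)

variable {F U W V : Type*} [Field F] [AddCommGroup U] [Module F U] [AddCommGroup W] [Module F W]
  [AddCommGroup V] [Module F V] {β : LinearMap.BilinForm F U} {γ : LinearMap.BilinForm F W} {Q : QuadraticForm F V}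
  [FiniteDimensional F U] [FiniteDimensional F W] [Nontrivial U] [Nontrivial W]

theorem Gen.commute {𝒳 : Submodule F (End F U)} (h : Gen 𝒳) {A : Type*} [Ring A] [Algebra F A] (f : End F U →ₐ[F] A)
    {z : A} (hz : ∀ x ∈ 𝒳, Commute (f x) z) (a : End F U) : Commute (f a) z := by
  obtain ⟨m, hm⟩ := h
  exact Submodule.pow_induction_on_left' 𝒳 (C := fun _ x _ => Commute (f x) z)
    (fun c => by rw [AlgHom.commutes]; exact Algebra.commutes c z) (fun x y _ _ _ h h' => by
      rw [map_add]; exact h.add_left h') (fun x hx _ y _ h => by rw [map_mul]; exact (hz x hx).mul_left h)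
    (hm ▸ Submodule.mem_top : a ∈ 𝒳 ^ (m + 1))

theorem cnj_rk {s : U ≃ₗ[F] U} {m : F} (h : ∀ y y', m * β (s y) (s y') = β y y') (a b : U) :
    cnj s (rk a (β b)) = m • rk (s a) (β (s b)) := by
  ext y
  simp [cnj_apply, ← h b, apply_inv_apply, mul_smul]

theorem anti_two (hβ : β.IsAlt) (R : RF (RingHom.id F) (-1) β) (hd : finrank F U = 2) {x x' : End F U} (hx : x ∈ X1 β)
    (hx' : x' ∈ X1 β) : ∃ c : F, x * x' + x' * x = c • 1 := by
  refine Submodule.mem_span_singleton.1 (Submodule.span_induction₂ (p := fun x x' _ _ => x * x' + x' * x ∈ F ∙ 1)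
    ?_ (by simp) (by simp) (fun x y z _ _ _ h h' => by convert add_mem h h' using 1; noncomm_ring)
    (fun x y z _ _ _ h h' => by convert add_mem h h' using 1; noncomm_ring)
    (fun c x y _ _ h => by simpa using Submodule.smul_mem _ c h)
    (fun c x y _ _ h => by simpa using Submodule.smul_mem _ c h) hx hx') |>.imp fun _ => Eq.symm
  rintro _ _ ⟨u, rfl⟩ ⟨v, rfl⟩
  by_cases h : β u v = 0
  · simp [rk_mul_rk, h, R.flip0 h]
  refine Submodule.mem_span_singleton.2 ⟨-(β u v * β u v), LinearMap.ext fun y => sub_eq_zero.1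
    (eq_zero_of_two hβ R hd (a := u) (b := (β u v)⁻¹ • v) (by simp [h]) ?_ ?_)⟩ <;>
    simp [alt_self hβ, alt_neg hβ v u] <;> ring_nf <;> simp

theorem anti_four (hβ : β.IsAlt) (R : RF (RingHom.id F) (-1) β) (hd : finrank F U = 4) {x x' : End F U} (hx : x ∈ X2 β)
    (hx' : x' ∈ X2 β) : ∃ c : F, x * x' + x' * x = c • 1 := by
  refine Submodule.mem_span_singleton.1 (Submodule.span_induction₂ (p := fun x x' _ _ => x * x' + x' * x ∈ F ∙ 1)
    ?_ (by simp) (by simp) (fun x y z _ _ _ h h' => by convert add_mem h h' using 1; noncomm_ring)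
    (fun x y z _ _ _ h h' => by convert add_mem h h' using 1; noncomm_ring)
    (fun c x y _ _ h => by simpa using Submodule.smul_mem _ c h)
    (fun c x y _ _ h => by simpa using Submodule.smul_mem _ c h) hx hx') |>.imp fun _ => Eq.symm
  rintro _ _ ⟨a, b, h, rfl⟩ ⟨c, d, h', rfl⟩
  obtain ⟨e, h1, h2, h3⟩ := exists_symplectic_basis β R.nondeg hβ (m := 2) hd
  obtain ⟨f₁, f₂, f₃, f₄, h4⟩ : ∃ f₁ f₂ f₃ f₄ : U → F, ∀ x y, β x y = f₁ x * f₂ y - f₂ x * f₁ y + f₃ x * f₄ y - f₄ x * f₃ y :=
    ⟨(e.repr · (.inl 0)), (e.repr · (.inr 0)), (e.repr · (.inl 1)), (e.repr · (.inr 1)), fun x y => by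
      conv_lhs => rw [← e.sum_repr x, ← e.sum_repr y]
      simp only [map_sum, LinearMap.sum_apply, Fintype.sum_sum_type, Fin.sum_univ_two, map_add, map_smul,
        LinearMap.add_apply, LinearMap.smul_apply, h1, h2, h3, alt_neg hβ (e (.inr _)) (e (.inl _))]
      simp; ring⟩
  refine Submodule.mem_span_singleton.2 ⟨β a c * β b d - β a d * β b c, LinearMap.ext fun y => R.ext' fun z => ?_⟩
  have : β a b * (β c d * β z y - β c z * β d y + β c y * β d z) - β a c * (β b d * β z y - β b z * β d y + β b y * β d z)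
      + β a d * (β b c * β z y - β b z * β c y + β b y * β c z) - β a z * (β b c * β d y - β b d * β c y + β b y * β c d)
      + β a y * (β b c * β d z - β b d * β c z + β b z * β c d) = 0 := by
    simp only [h4]; ring
  simp only [LinearMap.smul_apply, End.one_apply, LinearMap.add_apply, End.mul_apply, LinearMap.sub_apply, rk_apply,
    map_sub, map_smul, map_add, smul_eq_mul, alt_neg hβ z a, alt_neg hβ z b, alt_neg hβ z c, alt_neg hβ z d,
    alt_neg hβ c a, alt_neg hβ c b, alt_neg hβ d a, alt_neg hβ d b, h, h'] at this ⊢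
  linear_combination -this

variable {J : Type*} {T : J → TF (RingHom.id F) (-1) (-1) 1 γ β (polarBilin Q)}

theorem exists_between [Finite F] [FiniteDimensional F V] (fr : Fr fun j => (T j).tp) (two : (2 : F) = 0)
    (hγ : γ.IsAlt) (pure : ∀ j a y, Q ((T j).tm a y) = 0) (h9 : 9 ≤ finrank F V) {𝒳 : Submodule F (End F U)} (gen : Gen 𝒳)
    (anti : ∀ x ∈ 𝒳, ∀ x' ∈ 𝒳, ∃ c : F, x * x' + x' * x = c • 1)
    (sim : ∀ (s : U ≃ₗ[F] U) (m : F), (∀ y y', m * β (s y) (s y') = β y y') → ∀ x ∈ 𝒳, cnj s x ∈ 𝒳)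
    {e : End F U} (he : e ∈ 𝒳) (e0 : e ≠ 0) (e2 : e * e = 0) (ea : ∀ y y', β (e y) y' = β y (e y')) {i l : J} (hil : i ≠ l)
    (hB : ∀ x, polar Q x ((T i).tp.A e ((T l).tp.A e x)) = 0) :
    ∃ K : Subgroup (OG Q), (∀ g : OG Q, ofLinearEquiv g.1 ∈ PermG (fun j => (T j).tp) → g ∈ K) ∧
      (∃ g ∈ commutator (OG Q), g ∈ K ∧ ofLinearEquiv g.1 ∉ PermG fun j => (T j).tp) ∧
        ∃ g ∈ commutator (OG Q), g ∉ K := by
  have t2 : ∀ z : End F V, z + z = 0 := fun z => by rw [← two_smul F, two, zero_smul]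
  let X : Submodule F (End F V) := Submodule.span F {z | z = 1 ∨ ∃ j, ∃ x ∈ 𝒳, z = (T j).tp.A x}
  have X1 : 1 ∈ X := Submodule.subset_span (Or.inl rfl)
  have XA : ∀ j, ∀ x ∈ 𝒳, (T j).tp.A x ∈ X := fun j x hx => Submodule.subset_span (Or.inr ⟨j, x, hx, rfl⟩)
  have aX : ∀ z ∈ X, ∀ z' ∈ X, ∃ c : F, c • 1 = z * z' + z' * z := fun z hz z' hz' =>
    Submodule.mem_span_singleton.1 (Submodule.span_induction₂ (p := fun x x' _ _ => x * x' + x' * x ∈ F ∙ 1)
      (by
        rintro _ _ (rfl | ⟨j, x, hx, rfl⟩) (rfl | ⟨j', x', hx', rfl⟩)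
        · simp [t2]
        · simp [t2]
        · simp [t2]
        by_cases h : j = j'
        · obtain ⟨c, hc⟩ := anti x hx x' hx'
          rw [h, ← map_mul, ← map_mul, ← map_add, hc, map_smul, map_one]
          exact Submodule.smul_mem _ _ (Submodule.mem_span_singleton_self _)
        · simp [(fr.comm j j' h x' x).eq, t2])
      (by simp) (by simp) (fun x y z _ _ _ h h' => by convert add_mem h h' using 1; noncomm_ring)
      (fun x y z _ _ _ h h' => by convert add_mem h h' using 1; noncomm_ring)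
      (fun c x y _ _ h => by simpa using Submodule.smul_mem _ c h)
      (fun c x y _ _ h => by simpa using Submodule.smul_mem _ c h) hz hz')
  let K : Subgroup (OG Q) :=
    { carrier := {g | ∀ z, z ∈ X ↔ cnj g.1 z ∈ X}
      one_mem' := fun z => Iff.rfl
      mul_mem' := fun {g h} hg hh z => (hh z).trans ((hg _).trans (by rw [← cnj_mul]; rfl))
      inv_mem' := fun {g} hg z => by
        rw [hg (cnj _ z), ← cnj_mul, ← Subgroup.coe_mul, mul_inv_cancel]; rfl }
  have hK : ∀ g : OG Q, (∀ z ∈ X, cnj g.1 z ∈ X) → (∀ z ∈ X, cnj (g⁻¹).1 z ∈ X) → g ∈ K := fun g h h' z =>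
    ⟨h z, fun hz => by
      have := h' _ hz
      rwa [← cnj_mul, ← Subgroup.coe_mul, inv_mul_cancel] at this⟩
  have h1 : ∀ g : OG Q, ofLinearEquiv g.1 ∈ PermG (fun j => (T j).tp) → ∀ z ∈ X, cnj g.1 z ∈ X := by
    rintro g ⟨π, hπ⟩ z hz
    induction hz using Submodule.span_induction with
    | zero => convert X.zero_mem using 1; ext; simp [cnj_apply]
    | add x y _ _ h h' => convert add_mem h h' using 1; ext; simp [cnj_apply]
    | smul c x _ h => convert X.smul_mem c h using 1; ext; simp [cnj_apply]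
    | mem z h =>
      rcases h with rfl | ⟨j, x, hx, rfl⟩
      · convert X1 using 1; ext; simp [cnj_apply, apply_inv_apply]
      obtain ⟨_, ⟨c, s, rfl⟩, h⟩ := TL.Same.exists_eq (T' := (T j).toTL.mv g.1) (T := (T (π j)).toTL) (hπ j)
      obtain ⟨a, ha⟩ := exists_ne (0 : W)
      obtain ⟨a', ha'⟩ := (T j).r₁.exists_one ha
      have h2 : ∀ a y, g.1 ((T j).tm a y) = (T (π j)).tm (c a) (s y) := fun a y => by
        rw [← TL.mv_tm, h, TL.mv_tm, TL.kron_tm]
      convert XA (π j) _ (sim s (γ (c a) (c a')) (fun y y' => by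
        rw [← (T (π j)).polar_tm, ← h2, ← h2, OG.polar_app, (T j).polar_tm, ha', one_mul]) x hx) using 1
      refine LinearMap.ext fun v => ((T j).toTL.mv_A g.1 x v).symm.trans ?_
      rw [h, TL.mv_A]
      exact (T (π j)).ext_tm (f := cnj ((T (π j)).kron c s) ((T (π j)).tp.A x)) (fun b y => by
        simp [cnj_apply, TL.kron_inv, TL.kron_tm, TL.A_tm, apply_inv_apply]) v
  have adj : ∀ j x y, polar Q ((T j).tp.A e x) y = polar Q x ((T j).tp.A e y) := fun j =>
    (T j).ext_bil (f := LinearMap.BilinForm.compLeft (polarBilin Q) ((T j).tp.A e))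
      (g := LinearMap.BilinForm.compRight (polarBilin Q) ((T j).tp.A e))
      fun a y b z => by simp [(T j).A_tm, (T j).polar_tm, ea]
  have sq : ∀ j, (T j).tp.A e * (T j).tp.A e = 0 := fun j => by rw [← map_mul, e2, map_zero]
  have q1 : ∀ j x, Q ((T j).tp.A e x) = 0 := fun j => (T j).ind (by simp) (fun a y => by rw [TL.A_tm, pure])
    fun x y hx hy => by rw [map_add, map_add', hx, hy, adj, ← End.mul_apply, sq]; simp
  have q2 : ∀ j x, polar Q x ((T j).tp.A e x) = 0 := fun j => (T j).ind (by simp)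
    (fun a y => by simp [TL.A_tm, (T j).polar_tm, alt_self hγ]) fun x y hx hy => by
      simp only [map_add, polar_add_left, polar_add_right, hx, hy, ← adj j y x, polar_comm Q _ x]
      linear_combination polar Q x ((T j).tp.A e y) * two
  set a := (T i).tp.A e + (T l).tp.A e with ha
  have a2 : a * a = 0 := by simp [ha, mul_add, add_mul, sq, (fr.comm i l hil e e).eq, t2]
  have qa : ∀ x, Q (a x) = 0 := fun x => by simp [ha, map_add', q1, adj, hB]
  let v : OG Q := ⟨unip a (LinearMap.congr_fun a2) 1, fun x => by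
    rw [unip_apply, one_smul, map_add', qa]; simp [ha, q2]⟩
  have hv : ∀ z, cnj v.1 z = z + (a * z + z * a) + a * z * a := fun z => by
    ext x
    simp [v, cnj_apply, unip_inv, unip_apply, show (-1 : F) = 1 by linear_combination -two]
    abel
  have hv' : ∀ z ∈ X, cnj v.1 z ∈ X := fun z hz => by
    have ha' : a ∈ X := add_mem (XA i e he) (XA l e he)
    obtain ⟨c, hc⟩ := aX a ha' z hz
    rw [hv, show a * z * a = (a * z + z * a) * a by rw [add_mul (a * z), mul_assoc z, a2, mul_zero, add_zero], ← hc]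
    simpa using add_mem (add_mem hz (X.smul_mem c X1)) (X.smul_mem c ha')
  have h5 := (T i).r.nondegenerate
  refine ⟨K, fun g hg => hK g (h1 g hg) (h1 g⁻¹ (inv_mem hg)), ⟨v, movIn_le_of_singular h5 (LinearMap.range a)
    (by rintro _ ⟨x, rfl⟩; exact qa x) (fun a _ b _ => eich_mem_commutator h5 (by omega) a b)
    fun x => ⟨x, by simp [v, unip_apply]⟩, hK v hv' (by
      rwa [show v⁻¹ = v from Subtype.ext (by simp [v, unip_inv, show (-1 : F) = 1 by linear_combination -two])]), ?_⟩, ?_⟩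
  · rintro ⟨π, hπ⟩
    have nc : ∃ f ∈ 𝒳, ¬ Commute f e := by
      by_contra hc
      push Not at hc
      obtain ⟨c, rfl⟩ := TP.Cm.scalar (T := (T i).tp) (a := e)
        (Gen.commute gen _ fun x hx => (hc x hx).map (T i).tp.A)
      simp only [smul_mul_assoc, one_mul, smul_smul, smul_eq_zero, mul_self_eq_zero, one_ne_zero, or_false] at e2
      simp [e2] at e0
    obtain ⟨f, hf, nc⟩ := nc
    obtain ⟨c, hc⟩ := anti e he f hf
    have c0 : c ≠ 0 := fun h => nc (by
      rw [h, zero_smul, add_eq_zero_iff_eq_neg, ← neg_one_smul F, show (-1 : F) = 1 by linear_combination -two,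
        one_smul] at hc
      exact hc.symm)
    obtain ⟨b, hb⟩ := hπ i f
    have h3 : a * (T i).tp.A f + (T i).tp.A f * a = c • 1 := by
      rw [ha, add_mul, mul_add, (fr.comm i l hil e f).eq, add_add_add_comm, t2, add_zero, ← map_mul, ← map_mul,
        ← map_add, hc, map_smul, map_one]
    have h4 : (T (π i)).tp.A b = (T i).tp.A (f + c • 1 + c • e) + c • (T l).tp.A e := by
      rw [← hb, TP.mv_A]
      refine (hv ((T i).tp.A f)).trans ?_
      rw [show a * _ * a = (a * (T i).tp.A f + (T i).tp.A f * a) * a by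
        rw [add_mul (a * _), mul_assoc _ a a, a2, mul_zero, add_zero], h3]
      simp [ha, add_assoc]
    refine nc ((commute_map_iff (T i).tp.A_injective).1 ?_)
    by_cases h : π i = i
    · have := (fr.comm l i hil.symm b f).sub_right (fr.comm l i hil.symm (f + c • 1 + c • e) f)
      rw [← h, h4, h, add_sub_cancel_left] at this
      exact (commute_map_iff (T i).tp.A_injective).2 ((commute_map_iff (T l).tp.A_injective).1
        (by simpa [c0] using this.smul_right c⁻¹))
    · have := (fr.comm i _ (Ne.symm h) b e).sub_right ((fr.comm i l hil e e).smul_right c)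
      rw [h4, add_sub_cancel_right, map_add, map_add, map_smul, map_smul, map_one] at this
      simpa using ((this.sub_right ((Commute.refl _).smul_right c)).sub_right ((Commute.one_right _).smul_right c)).symm
  obtain ⟨r, -, r0, hr⟩ := exists_singular_in_of_three_le Q ⊤ (by simp; omega)
  obtain ⟨r', hr'⟩ := (T i).r.exists_one' r0
  obtain ⟨y, -, y0, hy⟩ := (T i).r.exists_perp ⊤ ![r, r'] (by simp; omega)
  refine ⟨eich Q r y, eich_mem_commutator h5 (by omega) r y, fun h => y0 ?_⟩
  set g := eich Q r y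
  have fix : ∀ w, polar Q r w = 0 → polar Q y w = 0 → g.1 w = w := fun w => eich_app_of_polar
  have fix' : ∀ w, polar Q r w = 0 → polar Q y w = 0 → (g.1)⁻¹ w = w := fun w h h' =>
    g.1.injective (by rw [apply_inv_apply, fix w h h'])
  have sc : ∀ {z : End F V} {c : F} (φ : Fin 8 → Dual F V), z = c • 1 → (∀ w, (∀ i, φ i w = 0) → z w = 0) → z = 0 :=
    fun φ h h' => by
      choose t ht using fun i => (T l).r.repr (φ i)
      obtain ⟨w, -, w0, hw⟩ := (T i).r.exists_perp ⊤ t (by simp; omega)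
      have := h' w fun i => ht i ▸ hw i
      simp only [h, LinearMap.smul_apply, End.one_apply, smul_eq_zero, w0, or_false] at this
      rw [h, this, zero_smul]
  let ρ := polarBilin Q r
  let η := polarBilin Q y
  have h6 : ∀ z ∈ X, cnj g.1 z = z := fun z hz => by
    have hz' := sub_mem ((h z).1 hz) hz
    have k0 : ∀ w, ρ w = 0 → η w = 0 → ρ (z w) = 0 → η (z w) = 0 → (cnj g.1 z - z) w = 0 := fun w h1 h2 h3 h4 => by
      rw [LinearMap.sub_apply, cnj_apply, fix' w h1 h2, fix _ h3 h4, sub_self]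
    obtain ⟨c, hc⟩ := fr.centre (cnj g.1 z - z) fun j => Gen.commute gen _ fun x hx => by
      obtain ⟨c, hc⟩ := aX _ hz' _ (XA j x hx)
      set x' := (T j).tp.A x
      have := sc ![ρ, η, ρ ∘ₗ z, η ∘ₗ z, ρ ∘ₗ x', η ∘ₗ x', ρ ∘ₗ z ∘ₗ x', η ∘ₗ z ∘ₗ x'] hc.symm fun w hw => by
        rw [LinearMap.add_apply, End.mul_apply, End.mul_apply, k0 _ (hw 4) (hw 5) (hw 6) (hw 7),
          k0 _ (hw 0) (hw 1) (hw 2) (hw 3), map_zero, add_zero]
      exact add_left_cancel (this.trans (t2 _).symm)
    exact sub_eq_zero.1 (sc ![ρ, η, ρ ∘ₗ z, η ∘ₗ z, 0, 0, 0, 0] hc fun w hw => k0 _ (hw 0) (hw 1) (hw 2) (hw 3))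
  obtain ⟨c, hc⟩ := fr.centre (g.1 : End F V) fun j => Gen.commute gen _ fun x hx => LinearMap.ext fun w => by
    simpa [cnj_apply, inv_apply_apply] using (LinearMap.congr_fun (h6 _ (XA j x hx)) (g.1 w)).symm
  have h7 := sc (z := (g.1 : End F V) - 1) (c := c - 1) ![ρ, η, 0, 0, 0, 0, 0, 0] (by rw [hc, sub_smul, one_smul])
    fun w hw => by simp [fix w (hw 0) (hw 1)]
  obtain ⟨s, hs⟩ := (T i).r.exists_one r0
  have h8 := LinearMap.congr_fun h7 s
  have e1 : polar Q r s = 1 := hs
  have e2 : polar Q r' y = 0 := hy 1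
  have e3 : polar Q r' r = 1 := hr'
  simp only [g, LinearMap.sub_apply, LinearEquiv.coe_coe, eich_app hr (hy 0), e1, End.one_apply, LinearMap.zero_apply,
    one_smul, mul_one] at h8
  have h10 : y = (polar Q y s - Q y) • r := by linear_combination (norm := module) -h8
  rw [h10, polar_smul_right, e3, smul_eq_mul, mul_one] at e2
  rw [h10, e2, zero_smul]

open Cfsg Cfsg.Geo Matrix in
theorem exists_between_omega_wreath {F : Type*} [Field F] [Fintype F] {ι : Type} [Fintype ι] [DecidableEq ι] {k t : ℕ}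
    (hn : 10 ≤ Fintype.card ι) {Q : (ι → F) → F} (hQ : IsNondegenerateQuadraticForm Q) (hF : ¬ Odd (Fintype.card F))
    (ht : 2 ≤ t) (hk : k ≤ 4) (e : ι ≃ (Fin t → Fin k)) (P : GL ι F) {f₁ : (Fin k → F) → (Fin k → F) → F}
    (hf₁ : IsSymplecticForm f₁) (hT : IsTensorPowerFormStructure id (polar Q) f₁ e P)
    (hp : ∀ xs : Fin t → (Fin k → F), Q ((P : Matrix ι ι F) *ᵥ ((fun a : Fin t → Fin k => ∏ i, xs i (a i)) ∘ e)) = 0) :
    ∃ K : Subgroup (GL ι F), tensorWreathSubgroup k t e P ⊓ omegaGL Q < K ∧ K < omegaGL Q := by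
  obtain ⟨t, rfl⟩ : ∃ s, t = s + 1 := ⟨t - 1, by omega⟩
  obtain ⟨Q, rfl, hN⟩ := exists_qf_of_isNondeg hQ
  have h2 := two_le_of_card e (by omega)
  have := Fin.nontrivial_iff_two_le.2 h2
  have a₁ : (bilinOf hf₁.bilinear).IsAlt := hf₁.alternating
  have h0 := exists_frame (B := polarBilin Q) (ε := 1) (ε₁ := -1) (e := e) (P := P)
    ⟨fun _ => rfl, by simp, fun x y => by simp [polar_comm Q x], hN.1⟩ rfl hf₁ hT
  generalize bilinOf hf₁.bilinear = β at a₁ h0
  obtain ⟨γ, T, h1, -⟩ := h0
  have h4 : ∀ j a y, Q ((T j).tm a y) = 0 := fun j a y => by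
    induction (Pi.basisFun F _).mem_span a using Submodule.span_induction with
    | mem _ h =>
      obtain ⟨b, rfl⟩ := h
      rw [← TL.tp_tm, h1, wT_tm, ← hp (j.insertNth y fun i => Pi.single (b i) 1)]
      congr 3
      funext a
      rw [Fin.prod_univ_succAbove _ j]
      simp [Pi.single_apply, Finset.prod_ite_zero, funext_iff, Fin.removeNth]
    | zero => simp
    | add a a' _ _ h h' => simp [map_add', h, h', (T j).polar_tm, alt_self a₁]
    | smul c a _ h => simp [Cls.map_smul', h]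
  obtain ⟨u, hu⟩ := exists_ne (0 : Fin k → F)
  have R := (T 0).r₂
  obtain ⟨v, hv⟩ := R.exists_one hu
  have hγ : γ.IsAlt := fun a => by simpa [map_add', h4, (T 0).polar_tm, hv] using h4 0 a (u + v)
  have two : (2 : F) = 0 := by
    have := (FiniteField.even_card_iff_char_two (F := F)).2 (Nat.not_odd_iff.1 hF)
    exact_mod_cast (ringChar.spec F 2).2 (this ▸ dvd_rfl)
  have fr : Fr fun j => (T j).tp := funext h1 ▸ wT_fr e P
  have adj : ∀ {x : End F (Fin k → F)}, (∀ y y', β (x y) y' = β y (x y')) → ∀ j v w,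
      polar Q ((T j).tp.A x v) w = polar Q v ((T j).tp.A x w) := fun {x} h j =>
    (T j).ext_bil (f := LinearMap.BilinForm.compLeft (polarBilin Q) ((T j).tp.A x))
      (g := LinearMap.BilinForm.compRight (polarBilin Q) ((T j).tp.A x))
      fun a y b z => by simp [(T j).A_tm, (T j).polar_tm, h]
  have key : ∀ {x : End F (Fin k → F)}, (∀ y y', β (x y) y' = β y (x y')) → ∀ i l j, i ≠ l →
      (∀ a y, polar Q ((T j).tm a y) ((T i).tp.A x ((T l).tp.A x ((T j).tm a y))) = 0) →
      ∀ v, polar Q v ((T i).tp.A x ((T l).tp.A x v)) = 0 := fun {x} h i l j hil h' => (T j).ind (by simp) h'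
    fun v w hv hw => by
      have e : polar Q w ((T i).tp.A x ((T l).tp.A x v)) = polar Q v ((T i).tp.A x ((T l).tp.A x w)) := by
        rw [← adj h, ← adj h, polar_comm, ← End.mul_apply, ← (fr.comm i l hil x x).eq, End.mul_apply]
      simp only [map_add, polar_add_left, polar_add_right, hv, hw, e]
      linear_combination polar Q v ((T i).tp.A x ((T l).tp.A x w)) * two
  refine exists_between_omegaGL Q _ rfl ?_
  simp only [SetLike.le_def, Subgroup.mem_inf, Subgroup.mem_comap, mem_tensorWreath_iff, ← funext h1,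
    show ∀ g, GeneralLinearGroup.toLin (ogGL Q g) = ofLinearEquiv g.1 from fun g => Units.ext (ogGL_toLin' Q g)]
  have h9 : 9 ≤ finrank F (ι → F) := by simp; omega
  have e1 := Fintype.card_congr e
  obtain ⟨m, e2⟩ := even_finrank_of_alt _ R.nondeg a₁
  simp only [Fintype.card_pi, Fintype.card_fin, Finset.prod_const, Finset.card_univ, finrank_fin_fun] at e1 e2
  have n1 : (-1 : F) = 1 := by linear_combination -two
  obtain h | h : k = 2 ∨ k = 4 := by omega
  · have t2 : 2 ≤ t := by
      by_contra h'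
      obtain rfl : t = 1 := by omega
      rw [h] at e1; omega
    obtain ⟨i, l, j, hil, hji, hjl⟩ : ∃ i l j : Fin (t + 1), i ≠ l ∧ j ≠ i ∧ j ≠ l :=
      ⟨0, ⟨1, by omega⟩, ⟨2, by omega⟩, by simp [Fin.ext_iff], by simp [Fin.ext_iff], by simp⟩
    have ea : ∀ y y', β (io β u y) y' = β y (io β u y') := fun y y' => by simp [R.symm u y, n1, mul_comm]
    obtain ⟨K, k1, k2⟩ := exists_between fr two hγ h4 h9 (gen_X1 a₁ R)
      (fun _ hx _ hx' => anti_two a₁ R (by simp [h]) hx hx') (fun s m hs x hx => by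
        induction hx using Submodule.span_induction with
        | mem _ h => obtain ⟨a, rfl⟩ := h; exact cnj_rk hs a a ▸ Submodule.smul_mem _ _ (io_mem _)
        | zero => convert zero_mem (X1 β) using 1; ext; simp [cnj_apply]
        | add x y _ _ h h' => convert add_mem h h' using 1; ext; simp [cnj_apply]
        | smul c x _ h => convert (X1 β).smul_mem c h using 1; ext; simp [cnj_apply])
      (io_mem u) (fun e => hu (by simpa [hv] using LinearMap.congr_fun e v))
      (by rw [rk_mul_rk, alt_self a₁, zero_smul]) ea hil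
      (key ea i l j hil fun a y => by
        obtain ⟨c, hc⟩ := (T j).tp.exists_C (z := (T i).tp.A (io β u) * (T l).tp.A (io β u)) fun b =>
          (fr.comm j i hji (io β u) b).mul_right (fr.comm j l hjl (io β u) b)
        rw [← End.mul_apply, hc, TL.C_tm, TF.polar_tm, alt_self a₁, mul_zero])
    exact ⟨K, fun g hg => k1 g hg.1, k2⟩
  have h3 : 3 ≤ finrank F (Fin k → F) := by simp [h]
  obtain ⟨w, hw, hw'⟩ := exists_perp_ne R h3 hu
  obtain ⟨i, l, hil⟩ : ∃ i l : Fin (t + 1), i ≠ l := ⟨0, ⟨1, by omega⟩, by simp [Fin.ext_iff]⟩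
  obtain ⟨z, z0, z1⟩ := R.exists_dual hw'
  have ea : ∀ y y', β (wg β u w y) y' = β y (wg β u w y') := fun y y' => by simp [R.symm u y, R.symm w y]; ring
  obtain ⟨K, k1, k2⟩ := exists_between fr two hγ h4 h9 (gen_X2 a₁ R h3)
    (fun _ hx _ hx' => anti_four a₁ R (by simp [h]) hx hx') (fun s m hs x hx => by
      have m0 : m ≠ 0 := fun e => by simpa [e, hv] using hs u v
      induction hx using Submodule.span_induction with
      | mem _ h =>
        obtain ⟨a, b, h, rfl⟩ := h
        convert (X2 β).smul_mem m (wg_mem ((mul_eq_zero.1 ((hs a b).trans h)).resolve_left m0)) using 1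
        rw [smul_sub, ← cnj_rk hs, ← cnj_rk hs]; ext; simp [cnj_apply]
      | zero => convert zero_mem (X2 β) using 1; ext; simp [cnj_apply]
      | add x y _ _ h h' => convert add_mem h h' using 1; ext; simp [cnj_apply]
      | smul c x _ h => convert (X2 β).smul_mem c h using 1; ext; simp [cnj_apply])
    (wg_mem hw) (fun e => hu (by simpa [R.symm z, z0, z1] using LinearMap.congr_fun e z))
    (by simp [mul_sub, sub_mul, rk_mul_rk, alt_self a₁, hw, R.flip0 hw]) ea hil (key ea i l i hil fun a y => by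
      obtain ⟨c, hc⟩ := (T i).tp.exists_C (fr.comm i l hil (wg β u w))
      rw [hc, TL.C_tm, TL.A_tm, TF.polar_tm]
      simp [R.symm u y, R.symm w y, mul_comm])
  exact ⟨K, fun g hg => k1 g hg.1, k2⟩

end CL.Sp
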