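import Cfsg.Agent.Cls.WS4
import Cfsg.Agent.Cls.UniTen
import Cfsg.Agent.Cls.UniQ2
import Cfsg.Agent.Cls.MaxU

set_option autoImplicit false
set_option linter.unusedSectionVars false

/-!
Frames of unitary tensor factors, part 1: subspaces of `End (U ⊗ W)` invariant under `SU(U)`.
-/

namespace CL.Sp

open Module CL.SLn CL.TW CL.Uni

variable {F U W V : Type*} [Field F] [AddCommGroup U] [Module F U] [AddCommGroup W] [Module F W]
  [AddCommGroup V] [Module F V] {σ : F →+* F} {q : ℕ} {β : U →ₛₗ[σ] U →ₗ[F] F}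

/-- The span of the maps attached to the unitary transvections. -/
def SIo (β : U →ₛₗ[σ] U →ₗ[F] F) : Submodule F (End F U) := Submodule.span F {a | ∃ x, β x x = 0 ∧ a = rk x (β x)}

/-- The special unitary group as a set of units. -/
def SUs (β : U →ₛₗ[σ] U →ₗ[F] F) : Set (End F U)ˣ :=
  {g | ∃ t ∈ SUG β, g = LinearMap.GeneralLinearGroup.ofLinearEquiv t}

theorem sio_mem {x : U} (h : β x x = 0) : rk x (β x) ∈ SIo β := Submodule.subset_span ⟨x, h, rfl⟩

theorem sus_inv {g : (End F U)ˣ} (h : g ∈ SUs β) : g⁻¹ ∈ SUs β := by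
  obtain ⟨t, ht, rfl⟩ := h
  exact ⟨t⁻¹, inv_mem ht, rfl⟩

theorem rf_of_herm (h : IsHerm β q) : RF σ 1 β := ⟨h.bar_bar, by simp, fun x y => by rw [h.symm, one_mul], h.nondeg⟩

variable [FiniteDimensional F U] (h : IsHerm β q)
include h

theorem exists_iso_both {a b : U} (a0 : a ≠ 0) (b0 : b ≠ 0) (ha : β a a = 0) (hb : β b b = 0) :
    ∃ c, β c c = 0 ∧ β a c ≠ 0 ∧ β b c ≠ 0 := by
  by_cases e : β b a = 0
  · exact h.exists_isotropic_ne_ne a0 b0 ha e
  obtain ⟨δ, δ0, hδ⟩ := h.bar.exists_trace_zero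
  have e' := h.flip_ne e
  refine ⟨a + (δ / β a b) • b, ?_, by simp [ha, e', δ0], by simpa [hb] using e⟩
  simp only [map_add, map_smul, map_smulₛₗ, LinearMap.add_apply, LinearMap.smul_apply, ha, hb, smul_eq_mul, map_div₀,
    hδ, h.symm a b]
  field_simp
  ring

theorem eq_top_of_iso (h2 : 2 ≤ finrank F U) {S : Submodule F (End F U)}
    (hS : ∀ a b, a ≠ 0 → b ≠ 0 → β a a = 0 → β b b = 0 → rk a (β b) ∈ S) : S = ⊤ := by
  obtain ⟨u, u0, hu⟩ := h.exists_isotropic h2
  have h0 : ∀ a : U, a ∈ Submodule.span F {v | β v v = 0} := fun a => h.span_isotropic u0 hu ▸ Submodule.mem_top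
  have h1 : ∀ a b, rk a (β b) ∈ S := fun a b => by
    induction h0 a using Submodule.span_induction with
    | mem a ha =>
      induction h0 b using Submodule.span_induction with
      | mem b hb =>
        by_cases e : a = 0 ∨ b = 0
        · convert S.zero_mem using 1
          rcases e with rfl | rfl <;> ext <;> simp
        push Not at e
        exact hS a b e.1 e.2 ha hb
      | zero => convert S.zero_mem using 1; ext; simp
      | add b b' _ _ h h' => convert add_mem h h' using 1; ext; simp [add_smul]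
      | smul c b _ h => convert S.smul_mem (σ c) h using 1; ext; simp [mul_smul]
    | zero => convert S.zero_mem using 1; ext; simp
    | add a a' _ _ h h' => convert add_mem h h' using 1; ext; simp
    | smul c a _ h => convert S.smul_mem c h using 1; ext; simp [smul_comm c]
  refine eq_top_iff.2 fun z _ => ?_
  rw [show z = ∑ i, rk (finBasis F U i) ((finBasis F U).coord i ∘ₗ z) by ext; simp]
  refine sum_mem fun i _ => ?_
  obtain ⟨b, hb⟩ := (rf_of_herm h).repr ((finBasis F U).coord i ∘ₗ z)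
  exact hb ▸ h1 _ b

theorem sio_cube (h2 : 2 ≤ finrank F U) : SIo β * SIo β * SIo β = ⊤ := eq_top_of_iso h h2 fun a b a0 b0 ha hb => by
  obtain ⟨c, hc, h1, h3⟩ := exists_iso_both h a0 b0 ha hb
  have := Submodule.mul_mem_mul (Submodule.mul_mem_mul (sio_mem ha) (sio_mem hc)) (sio_mem hb)
  rwa [rk_mul_rk, smul_mul_assoc, rk_mul_rk, Submodule.smul_mem_iff _ h1, Submodule.smul_mem_iff _ (h.flip_ne h3)] at this

theorem gen_sio (h2 : 2 ≤ finrank F U) : Gen (SIo β) := ⟨2, by rw [pow_succ, pow_two, sio_cube h h2]⟩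

theorem mem_of_iso (h2 : 2 ≤ finrank F U) (S : Subalgebra F (End F U)) (hS : ∀ u, β u u = 0 → rk u (β u) ∈ S)
    (a : End F U) : a ∈ S := by
  have h1 : SIo β ≤ S.toSubmodule := Submodule.span_le.2 (by rintro _ ⟨u, hu, rfl⟩; exact hS u hu)
  have h3 : SIo β * SIo β ≤ S.toSubmodule := Submodule.mul_le.2 fun x hx y hy => S.mul_mem (h1 hx) (h1 hy)
  exact (Submodule.mul_le.2 fun x hx y hy => S.mul_mem (h3 hx) (h1 hy) : SIo β * SIo β * SIo β ≤ S.toSubmodule)
    (sio_cube h h2 ▸ Submodule.mem_top)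

theorem exists_iso_perp (h4 : 4 ≤ finrank F U) (u : U) : ∃ w, (∀ c : F, w ≠ c • u) ∧ β w w = 0 ∧ β u w = 0 :=
  ((polar_of_isHerm h).exists_sing_perp_ne (m := 1) h4 ![u] u).imp fun _ h => ⟨h.1, h.2.1, h.2.2 0⟩

variable {T : TP F U W V} {𝒟 : Submodule F (End F V)}

/-- A map all of whose diagonal components at isotropic vectors vanish centralises the factor. -/
theorem cm_of_iso (h2 : 2 ≤ finrank F U) {z : End F V} (hz : ∀ x, β x x = 0 → T.sl (β x) x z = 0) : T.Cm z := by
  have : Nontrivial U := Module.nontrivial_of_finrank_pos (R := F) (by omega)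
  obtain ⟨c, rfl⟩ := T.exists_C_of_sl (z := z) fun x α hα => LinearMap.ext fun y => eq_of_dual (F := F) fun χ => by
    let a : End F U := T.ψ χ ∘ₗ z ∘ₗ T.flip.tm y
    have e : ∀ α x, χ (T.sl α x z y) = α (a x) := fun α x => T.φ_ψ _ _ _
    have h1 : ∀ x, β x x = 0 → β x (a x) = 0 := fun x hx => by rw [← e, hz x hx]; simp
    obtain ⟨c, hc⟩ := h.eq_smul_of_fix_isotropic h2 (g := a) fun x hx => by
      by_cases x0 : x = 0
      · exact ⟨0, by simp [x0]⟩
      obtain ⟨x', hx', e'⟩ := h.exists_hyperbolic x0 hx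
      obtain ⟨δ, δ0, hδ⟩ := h.bar.exists_trace_zero
      have h3 : ∀ d, β d d = 0 → β x d = 1 → β d (a x) = β x (a d) := fun d hd hxd => by
        have := h1 (d + δ • x) (by simp [hd, hx, hxd, h.flip_one hxd, hδ])
        simp only [map_add, map_smul, map_smulₛₗ, LinearMap.add_apply, LinearMap.smul_apply, smul_eq_mul, h1 d hd,
          h1 x hx, hδ] at this
        exact mul_left_cancel₀ δ0 (by linear_combination this)
      have h4 : ∀ w, β x w = 0 → β w (a x) = β x (a w) := fun w hw => by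
        obtain ⟨s, hs⟩ := h.exists_add_smul_self_eq (w := x' + w) hx (by simp [e', hw]) (map_zero σ)
        have := h3 _ hs (by simp [e', hw, hx])
        simp only [map_add, map_smul, map_smulₛₗ, LinearMap.add_apply, LinearMap.smul_apply, smul_eq_mul, h1 x hx,
          mul_zero, add_zero, h3 x' hx' e'] at this
        exact add_left_cancel this
      obtain ⟨ω, hω⟩ := h.bar.exists_ne
      refine (rf_of_herm h).exists_smul fun w hw => mul_left_cancel₀ (sub_ne_zero.2 hω) ?_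
      have e1 := h4 w (h.flip_zero hw)
      have e2 := h4 (ω • w) (by simp [h.flip_zero hw])
      simp only [map_smul, map_smulₛₗ, LinearMap.smul_apply, smul_eq_mul] at e2
      linear_combination e2 - ω * e1
    rw [e, hc, map_smul, hα]; simp
  exact T.cm_C c

variable (hD : T.Inv (SUs β) 𝒟)
include hD

omit h [FiniteDimensional F U] in
theorem conj_rkU {t : U ≃ₗ[F] U} (ht : t ∈ SUG β) {d d' : End F V} (hd : T.Cm d) (hd' : T.Cm d') {a b a' b' : U}
    (h : T.A (rk a (β b)) * d + T.A (rk a' (β b')) * d' ∈ 𝒟) :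
    T.A (rk (t a) (β (t b))) * d + T.A (rk (t a') (β (t b'))) * d' ∈ 𝒟 := by
  have e : ∀ a b d, T.Cm d → T.A (t : End F U) * (T.A (rk a (β b)) * d) * T.A ((t⁻¹ : U ≃ₗ[F] U) : End F U) =
      T.A (rk (t a) (β (t b))) * d := fun a b d hd => by
    rw [mul_assoc, mul_assoc, ← (hd _).eq, ← mul_assoc, ← mul_assoc, ← map_mul, ← map_mul]
    congr 2
    ext y
    simp [UG_apply_left ht.1]
  have h1 : T.A (t : End F U) * _ * T.A ((t⁻¹ : U ≃ₗ[F] U) : End F U) ∈ 𝒟 := hD _ ⟨t, ht, rfl⟩ _ h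
  simpa only [mul_add, add_mul, e _ _ _ hd, e _ _ _ hd'] using h1

theorem sub_mem_iso {s : End F V} (hs : s ∈ 𝒟) {x : U} (hx : β x x = 0) {c : F} (hc : σ c = -c) :
    c • (T.A (rk x (β x)) * s - s * T.A (rk x (β x))) - (c * c) • (T.A (rk x (β x)) * s * T.A (rk x (β x))) ∈ 𝒟 := by
  obtain ⟨t, ht, e⟩ := h.exists_tv hx hc
  have e1 : ∀ (c : F) (t : U ≃ₗ[F] U), IsTv β x c t → (t : End F U) = 1 + c • rk x (β x) := fun c t e => by
    ext y; simp [e y, mul_smul]
  have h1 : T.A (t : End F U) * s * T.A ((t⁻¹ : U ≃ₗ[F] U) : End F U) ∈ 𝒟 := hD _ ⟨t, ht, rfl⟩ _ hs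
  convert sub_mem h1 hs using 1
  simp only [e1 _ _ e, e1 _ _ (e.inv hx), map_add, map_smul, map_one, add_mul, mul_add, smul_mul_assoc, mul_smul_comm,
    one_mul, mul_one]
  module

theorem mem_cof_of_iso (h3 : 3 ≤ finrank F U) {a : U} (a0 : a ≠ 0) (ha : β a a = 0) {d : End F V} (hd : T.Cm d)
    (h1 : T.A (rk a (β a)) * d ∈ 𝒟) : d ∈ T.cof (SIo β) 𝒟 := by
  refine ⟨hd, fun x hx => (Submodule.span_le (p := 𝒟.comap (LinearMap.mulRight F d ∘ₗ T.A.toLinearMap))).2 ?_ hx⟩
  rintro _ ⟨b, hb, rfl⟩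
  by_cases b0 : b = 0
  · rw [show rk b (β b) = 0 by ext; simp [b0]]; exact zero_mem _
  obtain ⟨t, ht, rfl⟩ := h.exists_mem_SUG_vec h3 a0 b0 (ha.trans hb.symm)
  simpa using conj_rkU hD ht hd (fun a => Commute.zero_right _) (a' := 0) (b' := 0) (by simpa using h1)

omit hD

/-- The reduction principle for the special unitary group. -/
theorem red_su (h3 : 3 ≤ finrank F U) (ex : 3 ≤ q ∨ 4 ≤ finrank F U) : Red T (SUs β) (· = SIo β) := fun 𝒟 hD z hz hn => by
  have : Nontrivial U := Module.nontrivial_of_finrank_pos (R := F) (by omega)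
  refine ⟨_, rfl, fun h0 => hn (cm_of_iso h (by omega) fun x hx => ?_)⟩
  by_cases x0 : x = 0
  · ext; simp [x0, T.sl_apply]
  have key : ∀ s, T.A (rk x (β x)) * T.C s ∈ 𝒟 → s = 0 := fun s hs =>
    T.C_injective ((h0.le (mem_cof_of_iso h hD h3 x0 hx (T.cm_C s) hs)).trans (map_zero _).symm)
  obtain ⟨δ, δ0, hδ⟩ := h.bar.exists_trace_zero
  rcases ex with hq | h4
  · obtain ⟨s, e, s0, s1⟩ := h.bar.exists_fixed_ne hq
    refine key _ ((𝒟.smul_mem_iff (show s * (1 - s) * (δ * δ) ≠ 0 by simp [s0, sub_ne_zero.2 s1.symm, δ0])).1 ?_)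
    rw [← T.A_sandwich x x (β x) (β x)]
    convert sub_mem (sub_mem_iso h hD hz hx (c := s * δ) (by simp [e, hδ])) (𝒟.smul_mem s (sub_mem_iso h hD hz hx hδ))
      using 1
    module
  have k2 : ∀ y, (∀ c : F, y ≠ c • x) → β y y = 0 → β x y = 0 → T.sl (β y) x z = 0 := fun y hy yy xy => by
    set d := T.sl (β x) y z
    set d' := T.sl (β y) x z
    have h1 : T.A (rk x (β y)) * T.C d + T.A (rk y (β x)) * T.C d' ∈ 𝒟 := by
      have e1 : T.A (rk x (β x)) * T.A (rk y (β y)) = 0 := by rw [← map_mul, rk_mul_rk, xy, zero_smul, map_zero]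
      have e2 : T.A (rk y (β y)) * T.A (rk x (β x)) = 0 := by
        rw [← map_mul, rk_mul_rk, h.flip_zero xy, zero_smul, map_zero]
      rw [← T.A_sandwich y x (β y), ← T.A_sandwich x y (β x), ← 𝒟.smul_mem_iff (mul_ne_zero δ0 δ0)]
      convert neg_mem (sub_mem_iso h hD (sub_mem_iso h hD hz hx hδ) yy hδ) using 1
      have e3 : ∀ m, m * T.A (rk x (β x)) * T.A (rk y (β y)) = 0 := fun m => by rw [mul_assoc, e1, mul_zero]
      simp only [mul_sub, sub_mul, ← mul_assoc, e2, zero_mul, e3, smul_mul_assoc, mul_smul_comm, smul_zero]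
      module
    have h2 : ∀ a : F, T.A (rk x (β x)) * T.C (σ a • d + a • d') ∈ 𝒟 := fun a => by
      obtain ⟨w, hw⟩ := h.exists_forall_eq (f := ![x, y]) ((LinearIndependent.pair_iff' x0).2 fun c => (hy c).symm)
        ![0, -σ a]
      have w1 : β x w = 0 := hw 0
      have w2 : β w y = -a := by rw [← h.symm, show β y w = -σ a from hw 1, map_neg, h.bar_bar]
      obtain ⟨κ, hκ⟩ := h.bar.exists_trace_eq (h.self_fixed w)
      obtain ⟨g, hg, e⟩ := h.exists_eich hx w1 hκ
      have := sub_mem (conj_rkU hD hg (T.cm_C d) (T.cm_C d') h1) h1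
      rw [e.fix hx (h.flip_zero w1), show g y = y + a • x by simp [e y, xy, w2],
        show rk x (β (y + a • x)) = rk x (β y) + σ a • rk x (β x) by ext; simp [add_smul, mul_smul],
        show rk (y + a • x) (β x) = rk y (β x) + a • rk x (β x) by ext; simp [smul_comm a]] at this
      convert this using 1
      simp only [map_add, map_smul, mul_add, add_mul, smul_mul_assoc, mul_smul_comm]
      abel
    obtain ⟨ω, hω⟩ := h.bar.exists_ne
    refine smul_right_injective _ (sub_ne_zero.2 hω) ?_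
    have e1 := key _ (h2 1)
    have e2 := key _ (h2 ω)
    rw [map_one] at e1
    linear_combination (norm := module) σ ω • e1 - e2
  obtain ⟨y, hy, yy, xy⟩ := exists_iso_perp h h4 x
  have e1 := k2 y hy yy xy
  have e2 := k2 (x + y) (fun c e => hy (c - 1) (by rw [sub_smul, ← e]; simp))
    (by simp [hx, yy, xy, h.flip_zero xy]) (by simp [hx, xy])
  ext v
  simpa [T.sl_apply, show T.φ (β y) (z (T.tm x v)) = 0 from LinearMap.congr_fun e1 v] using LinearMap.congr_fun e2 v

theorem red_su_gen (h3 : 3 ≤ finrank F U) (ex : 3 ≤ q ∨ 4 ≤ finrank F U) : Red T (SUs β) Gen := fun 𝒟 hD z hz hn => by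
  obtain ⟨_, rfl, h1⟩ := red_su h h3 ex 𝒟 hD z hz hn
  exact ⟨_, gen_sio h (by omega), h1⟩

end CL.Sp
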