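import Cfsg.Agent.Cls.WU1

set_option autoImplicit false
set_option linter.unusedSectionVars false

/-!
Frames of unitary tensor factors, part 2: stabilisers of the spaces `W ⊗ u`, and transvections normalising another
factor.
-/

namespace CL.Sp

open Module CL.SLn CL.TW CL.Uni

variable {F U W V : Type*} [Field F] [AddCommGroup U] [Module F U] [AddCommGroup W] [Module F W]
  [AddCommGroup V] [Module F V] {σ : F →+* F} {q : ℕ} {β : U →ₛₗ[σ] U →ₗ[F] F} {γ : W →ₛₗ[σ] W →ₗ[F] F}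
  {B : V →ₛₗ[σ] V →ₗ[F] F} {T T' : TF σ 1 1 1 γ β B} {H : Subgroup (V ≃ₗ[F] V)}

namespace TF

variable (T) in
/-- The image of a decomposition under an isometry. -/
noncomputable def mu (g : V ≃ₗ[F] V) (hg : g ∈ UG B) : TF σ 1 1 1 γ β B :=
  { T.toTL.mv g with
    r₁ := T.r₁, r₂ := T.r₂, r := T.r, form := fun a y a' y' => (hg _ _).trans (T.form a y a' y') }

theorem Rad.of_mu {g h : V ≃ₗ[F] V} {hg : g ∈ UG B} {u : U} (R : (T.mu g hg).Rad u h) : T.Rad u (g⁻¹ * h * g) :=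
  ⟨fun a => (congrArg (g⁻¹ : V ≃ₗ[F] V) (R.fix a)).trans (inv_apply_apply g _), fun x hx => by
    obtain ⟨a, e⟩ := (T.mu g hg).mem_L.1 (R.sub (g x) ((T.toTL.mv_ψ g _ _).trans (by rwa [inv_apply_apply])))
    exact T.mem_L.2 ⟨a, g.injective (by
      rw [map_sub, LinearEquiv.mul_apply, LinearEquiv.mul_apply, apply_inv_apply, e]; rfl)⟩⟩

variable (T) in
/-- The transvections of the unitary factor. -/
noncomputable abbrev tu {u : U} (hu : β u u = 0) (c : F) : V ≃ₗ[F] V := unip (T.κ' u) (T.κ'_κ' hu) c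

theorem tu_apply {u : U} (hu : β u u = 0) (c : F) (x : V) : T.tu hu c x = x + c • T.tm (T.ψ' u x) u := rfl

theorem tu_eq {u : U} (hu : β u u = 0) {c : F} {t : U ≃ₗ[F] U} (ht : IsTv β u c t) : T.tu hu c = T.kron 1 t :=
  T.equiv_ext fun a y => by simp [T.kron_tm, unip_apply, T.κ_apply, T.ψ_tm, ht y, mul_smul]

variable [FiniteDimensional F U] [FiniteDimensional F W] [Nontrivial W]

theorem scalar_of_KS {u z : U} (hz : ∀ c : F, c • u ≠ z) (hu : u ≠ 0) {h : V ≃ₗ[F] V} (hK : h ∈ T.KS)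
    (R : T.Rad u h) {s : End F W} (e : ∀ x, T.ψ' u x = 0 → h x = x + T.tm (s (T.ψ' z x)) u) :
    ∃ c : F, ∀ a, s a = c • a := by
  obtain ⟨u', hu'⟩ := T.r₂.exists_one hu
  obtain ⟨z', -, e'⟩ := R.exists_z hK hu'
  obtain ⟨f, f1, f0⟩ := exists_dual_pair (F := F) hz
  obtain ⟨y, rfl⟩ := T.r₂.repr f
  refine ⟨-β z' y, fun a => T.tm_left_injective hu ?_⟩
  have h1 := T.ψ'_tm u a y
  rw [T.r₂.flip0 f0, zero_smul] at h1
  have h2 := (e _ h1).symm.trans (e' _ h1)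
  rw [T.ψ'_tm, T.ψ'_tm, T.flip_one f1, one_smul, map_smul, LinearMap.smul_apply] at h2
  rw [map_smul, LinearMap.smul_apply]
  linear_combination (norm := module) h2

theorem scalar_of_cen {u : U} (hu : u ≠ 0) (hw : β u u = 0) {h : V ≃ₗ[F] V} (hK : h ∈ T.KS) {s : End F W}
    (e : ∀ x, h x = x + T.tm (s (T.ψ' u x)) u) : ∃ c : F, ∀ a, s a = c • a := by
  obtain ⟨u', hu'⟩ := T.r₂.exists_one hu
  obtain ⟨t, rfl⟩ := exists_kron_one hK hu fun a => by simp [e, T.ψ_tm, hw]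
  obtain ⟨f, hf⟩ := exists_dual_eq_one (F := F) hu
  refine ⟨f (t u' - u'), fun a => ?_⟩
  have := congrArg (T.ψ f) (e (T.tm a u'))
  simp only [T.kron_tm, T.ψ_tm, hu', one_smul, map_add, hf, LinearEquiv.coe_one, id] at this
  rw [map_sub, sub_smul, this, add_sub_cancel_left]

/-- Commutators with the Eichler maps. -/
theorem exists_commU {w w' : U} (hw : β w w = 0) (hww : β w w' = 1) {h h' : V ≃ₗ[F] V} (hh : h ∈ UG B)
    (hh' : h' ∈ UG B) (hk : (h' * h)⁻¹ * (h * h') ∈ H) (R : T.Rad w h) (R' : T.Rad w h') {D : V →ₗ[F] W}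
    (e : ∀ x, T.ψ' w x = 0 → h x = x + T.tm (D x) w) {z : U} (hz : β w z = 0)
    (e' : ∀ x, T.ψ' w x = 0 → h' x = x + T.tm (T.ψ' z x) w) :
    ∃ A ∈ T.ZA H hw, ∀ a b, γ b (A a) = γ (D (T.tm b z)) a - γ b (D (T.tm a z)) := by
  have hw0 : w ≠ 0 := fun e => by simp [e] at hww
  have h0 := RD_self (X := UG B) hw0 hw ⟨h, hh, R, e⟩
  have h1 : ∀ x, h (h' x) = h' (h x) + T.tm (D (h' x - x) - T.ψ' z (h x - x)) w := fun x => by
    have e1 := e (h' x - x) (by rw [map_sub, R'.ψ'_eq hh', sub_self])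
    have e2 := e' (h x - x) (by rw [map_sub, R.ψ'_eq hh, sub_self])
    rw [map_sub] at e1 e2
    rw [map_sub, LinearMap.sub_apply]
    linear_combination (norm := module) e1 - e2
  have h2 : ∀ x, ((h' * h)⁻¹ * (h * h')) x = x + T.tm (D (h' x - x) - T.ψ' z (h x - x)) w := fun x =>
    (h' * h).injective (by
      rw [LinearEquiv.mul_apply _⁻¹, apply_inv_apply, map_add, (R'.mul R).fix]; exact h1 x)
  obtain ⟨A, hA⟩ := exists_A hww (mul_mem (inv_mem (mul_mem hh' hh)) (mul_mem hh hh')) fun x hx => by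
    rw [h2, e x hx, e' x hx, add_sub_cancel_left, add_sub_cancel_left, h0, T.ψ'_tm, T.r₂.flip0 hz]
    simp
  refine ⟨A, ⟨_, hk, hA⟩, fun a b => ?_⟩
  have e1 := hA (T.tm a w')
  rw [h2, T.ψ_tm, hww, one_smul, add_right_inj] at e1
  obtain ⟨c, hc⟩ := T.mem_L.1 (T.mem_L_of_perp hw0 (x := h' (T.tm a w') - T.tm a w' + T.tm a z) fun y hy => by
    rw [map_add, R'.adj hh' e' hy, B_ψ', T.ψ_tm, hww, one_smul]
    ring)
  rw [← T.tm_left_injective hw0 e1, eq_sub_of_add_eq hc, map_sub, map_sub, h0, ← B_ψ,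
    R.adj hh e (by simp [T.ψ_tm, hz]), T.ψ_tm, hww]
  simp
  ring

end TF

/-- `H` is a group of isometries containing `1 ⊗ SU(U)`. -/
structure OvU (q : ℕ) (T : TF σ 1 1 1 γ β B) (H : Subgroup (V ≃ₗ[F] V)) : Prop where
  bar : IsBar σ q
  le : H ≤ UG B
  su : ∀ t ∈ SUG β, T.kron 1 t ∈ H
  three : 3 ≤ finrank F U
  ex : 3 ≤ q ∨ 4 ≤ finrank F U

/-- Moreover the unipotent radicals contain only Kronecker products. -/
structure GdU (q : ℕ) (T : TF σ 1 1 1 γ β B) (H : Subgroup (V ≃ₗ[F] V)) : Prop extends OvU q T H where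
  rad : ∀ u, u ≠ 0 → β u u = 0 → ∀ h ∈ H, T.Rad u h → h ∈ T.KS

namespace OvU

variable (O : OvU q T H)
include O

theorem h₁ : IsHerm γ q := T.r₁.herm O.bar

theorem h₂ : IsHerm β q := T.r₂.herm O.bar

theorem h : IsHerm B q := T.r.herm O.bar

theorem mu {g : V ≃ₗ[F] V} (hg : g ∈ H) : OvU q (T.mu g (O.le hg)) H :=
  ⟨O.bar, O.le, fun t ht => T.toTL.mv_kron g 1 t ▸ mul_mem (mul_mem hg (O.su t ht)) (inv_mem hg), O.three, O.ex⟩

variable [FiniteDimensional F U]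

theorem tu_mem {u : U} (hu : β u u = 0) {c : F} (hc : σ c = -c) : T.tu hu c ∈ H := by
  obtain ⟨t, ht, e⟩ := O.h₂.exists_tv hu hc
  exact TF.tu_eq (T := T) hu e ▸ O.su t ht

theorem exists_move {u u' : U} (h0 : u ≠ 0) (h0' : u' ≠ 0) (hu : β u u = 0) (hu' : β u' u' = 0) :
    ∃ t ∈ SUG β, t u = u' := O.h₂.exists_mem_SUG_vec O.three h0 h0' (hu.trans hu'.symm)

theorem exists_rad {w z : U} (w0 : w ≠ 0) (hw : β w w = 0) (hz : β w z = 0) :
    ∃ t ∈ SUG β, T.Rad w (T.kron 1 t) ∧ ∀ x, T.ψ' w x = 0 → T.kron 1 t x = x + T.tm (T.ψ' z x) w := by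
  obtain ⟨w', -, hww⟩ := O.h₂.exists_hyperbolic w0 hw
  obtain ⟨κ, hκ⟩ := O.bar.exists_trace_eq (O.h₂.self_fixed (-z))
  obtain ⟨g, hg, e⟩ := O.h₂.exists_eich hw (by simp [hz]) hκ
  exact ⟨g, hg, TF.rad_kron hww (e.fix hw (by simp [O.h₂.flip_zero hz])) fun y hy => by simp [e y, hy]⟩

variable [FiniteDimensional F W] [Nontrivial W]

/-- An element of the radical normalising `1 ⊗ SU(U)` is central up to an Eichler map. -/
theorem exists_central {u : U} (u0 : u ≠ 0) (hu : β u u = 0) (hZ : ∀ A ∈ T.ZA H hu, ∃ c : F, ∀ a, A a = c • a)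
    {r : V ≃ₗ[F] V} (hr : r ∈ UG B) (R : T.Rad u r) (h : ∀ t ∈ SUG β, r⁻¹ * T.kron 1 t * r ∈ H) :
    ∃ t ∈ SUG β, ∃ A : End F W, ∀ x, ((T.kron 1 t)⁻¹ * r) x = x + T.tm (A (T.ψ' u x)) u := by
  obtain ⟨u', hu'⟩ := T.r₂.exists_one u0
  obtain ⟨D, hD⟩ := R.exists_D u0
  have h0 := TF.RD_self (X := UG B) u0 hu ⟨r, hr, R, hD⟩
  have h1 : ∀ z, β u z = 0 → ∃ s : F, ∀ a, D (T.tm a z) = s • a := fun z hz => by
    have h1 : ∀ l : F, ∃ s : F, ∀ a b,
        s * γ b a = σ l * γ (D (T.tm b z)) a - l * γ b (D (T.tm a z)) := fun l => by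
      have hz' : β u (l • z) = 0 := by simp [hz]
      obtain ⟨t, ht, R', e'⟩ := O.exists_rad u0 hu hz'
      obtain ⟨A, hA, e⟩ := TF.exists_commU (H := H) hu hu' hr (O.le (O.su t ht)) (by
        convert mul_mem (h _ (inv_mem ht)) (O.su t ht) using 1
        rw [← inv_one (G := W ≃ₗ[F] W), ← T.kron_inv, inv_one]
        group) R R' hD hz' e'
      obtain ⟨s, hs⟩ := hZ A hA
      exact ⟨s, fun a b => by simpa [hs] using e a b⟩
    obtain ⟨ω, hω⟩ := O.bar.exists_ne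
    obtain ⟨s, e⟩ := h1 1
    obtain ⟨s', e'⟩ := h1 ω
    refine ⟨(s' - σ ω * s) / (σ ω - ω), fun a => O.h₁.ext_right fun b => ?_⟩
    have := e a b
    rw [map_one] at this
    rw [map_smul, smul_eq_mul, div_mul_eq_mul_div, eq_div_iff (sub_ne_zero.2 hω)]
    linear_combination σ ω * this - e' a b
  obtain ⟨a₀, ha₀⟩ := exists_ne (0 : W)
  obtain ⟨f, hf⟩ := exists_dual_eq_one (F := F) ha₀
  obtain ⟨z, hz⟩ := T.r₂.repr (f ∘ₗ D ∘ₗ T.tm a₀)
  obtain ⟨t, ht, R', e'⟩ := O.exists_rad u0 hu (z := z) (T.r₂.flip0 (by simp [hz, h0]))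
  exact ⟨t, ht, TF.exists_A (T := T) hu' (mul_mem (inv_mem (O.le (O.su t ht))) hr) fun x hx => (T.kron 1 t).injective (by
    rw [LinearEquiv.mul_apply, apply_inv_apply, hD x hx, e' x hx, T.ext_perp hu' (f := D) (g := T.ψ' z)
      (fun a y hy => by obtain ⟨s, hs⟩ := h1 y hy; simp [T.ψ_tm, hz, hs, hf]) hx])⟩

end OvU

theorem GdU.mu (G : GdU q T H) {g : V ≃ₗ[F] V} (hg : g ∈ H) : GdU q (T.mu g (G.le hg)) H :=
  ⟨G.toOvU.mu hg, fun u u0 hu _ hh R =>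
    T.toTL.mem_KS_mv.2 (G.rad u u0 hu _ (mul_mem (mul_mem (inv_mem hg) hh) hg) R.of_mu)⟩

variable [FiniteDimensional F U] [FiniteDimensional F W] [Nontrivial W]

namespace GdU

variable (G : GdU q T H)
include G

theorem scalar {u : U} (u0 : u ≠ 0) (hu : β u u = 0) {A : End F W} (hA : A ∈ T.ZA H hu) : ∃ c : F, ∀ a, A a = c • a := by
  obtain ⟨k, hk, e⟩ := hA
  exact TF.scalar_of_cen u0 hu (G.rad u u0 hu k hk ⟨fun a => by simp [e, T.ψ_tm, hu], fun x hx => by simp [e, hx]⟩) e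

theorem scalar_of_norm {u : U} (u0 : u ≠ 0) (hu : β u u = 0) {ζ : V ≃ₗ[F] V} {s : End F W}
    (e : ∀ x, ζ x = x + T.tm (s (T.ψ' u x)) u) (h : ∀ t ∈ SUG β, ζ⁻¹ * T.kron 1 t * ζ ∈ H) :
    ∃ c : F, ∀ a, s a = c • a := by
  have hi : ∀ x, ζ⁻¹ x = x - T.tm (s (T.ψ' u x)) u := fun x => ζ.injective (by
    rw [apply_inv_apply, e]; simp [T.ψ_tm, hu])
  have h1 : ∀ v, v ≠ 0 → β v v = 0 → ∃ c ∈ H, ∀ x, c x = ζ⁻¹ (x + T.tm (s (T.ψ' v x)) v) := fun v v0 hv => by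
    obtain ⟨t, ht, rfl⟩ := G.exists_move u0 v0 hu hv
    refine ⟨_, mul_mem (h t ht) (inv_mem (G.su t ht)), fun x => ?_⟩
    rw [mul_assoc, mul_assoc, LinearEquiv.mul_apply, LinearEquiv.mul_apply, LinearEquiv.mul_apply, e, map_add,
      apply_inv_apply, T.kron_tm, T.kron_inv, T.ψ'_kron _ (inv_mem ht.1), inv_inv]
    rfl
  rcases G.ex with h3 | h4
  · obtain ⟨l, l0, l1⟩ := G.bar.exists_norm_ne_one h3
    obtain ⟨c, hc, e'⟩ := h1 _ (smul_ne_zero l0 u0) (by simp [hu])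
    obtain ⟨d, hd⟩ := G.scalar u0 hu (A := (l * σ l - 1) • s) ⟨c, hc, fun x => by
      simp only [e', hi, map_smul, T.ψ'_smul, map_add, T.ψ_tm, hu, LinearMap.smul_apply, zero_smul, smul_zero, add_zero]
      module⟩
    exact ⟨(l * σ l - 1)⁻¹ * d, fun a => by
      rw [mul_smul, ← hd, LinearMap.smul_apply, smul_smul, inv_mul_cancel₀ (sub_ne_zero.2 l1), one_smul]⟩
  obtain ⟨w, hw', hw, h0⟩ := exists_iso_perp G.h₂ h4 u
  obtain ⟨c, hc, e1⟩ := h1 w (fun e => hw' 0 (by simp [e])) hw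
  obtain ⟨c', hc', e2⟩ := h1 (u + w) (fun e => hw' (-1) (by simp [eq_neg_iff_add_eq_zero, add_comm, e]))
    (by simp [hu, hw, h0, T.r₂.flip0 h0])
  have e3 : ∀ x, (c⁻¹ * c') x = x + T.tm (s (T.ψ' (u + w) x)) (u + w) - T.tm (s (T.ψ' w x)) w := fun x =>
    c.injective (by
      rw [LinearEquiv.mul_apply, apply_inv_apply, e1, e2]
      simp [T.ψ_tm, hw, T.r₂.flip0 h0])
  have e4 : ∀ x, T.ψ' u x = 0 → (c⁻¹ * c') x = x + T.tm (s (T.ψ' w x)) u := fun x hx => by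
    simp [e3, T.ψ'_add, hx]; abel
  have R : T.Rad u (c⁻¹ * c') := ⟨fun a => by simp [e4 _ (show T.ψ' u (T.tm a u) = 0 by simp [T.ψ_tm, hu]),
    T.ψ_tm, T.r₂.flip0 h0], fun x hx => by rw [e4 x hx, add_sub_cancel_left]; exact T.tm_mem_L _ _⟩
  exact TF.scalar_of_KS (fun c => (hw' c).symm) u0 (G.rad u u0 hu _ (mul_mem (inv_mem hc) hc') R) R e4

theorem mem_KS_of_norm {u : U} (u0 : u ≠ 0) (hu : β u u = 0) {r : V ≃ₗ[F] V} (hr : r ∈ UG B) (R : T.Rad u r)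
    (h : ∀ t ∈ SUG β, r⁻¹ * T.kron 1 t * r ∈ H) : r ∈ T.KS := by
  obtain ⟨t, ht, A, hA⟩ := G.exists_central u0 hu (fun A => G.scalar u0 hu) hr R h
  obtain ⟨s, hs⟩ := G.scalar_of_norm u0 hu hA fun t' ht' => by
    convert h _ (conj_mem_SUG ht.1 ht') using 1
    rw [show T.kron 1 (t * t' * t⁻¹) = T.kron 1 t * T.kron 1 t' * (T.kron 1 t)⁻¹ by simp [T.kron_inv, T.kron_mul]]
    group
  have := mul_mem (T.kron_mem_KS 1 t) (TF.mem_KS_of_smul hu (s := s) fun x => by rw [hA, hs])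
  rwa [mul_inv_cancel_left] at this

/-- An element mapping `W ⊗ u` into `W ⊗ u'` is a Kronecker product. -/
theorem mem_KS_of_map {u u' : U} (u0 : u ≠ 0) (u0' : u' ≠ 0) (hu : β u u = 0) (hu' : β u' u' = 0) {g : V ≃ₗ[F] V}
    (hg : g ∈ H) (h : ∀ a, g (T.tm a u) ∈ T.L u') : g ∈ T.KS := by
  refine TF.mem_KS_of_map G.le G.three (fun _ w0 hw => (G.h₂.exists_hyperbolic w0 hw).imp fun _ h => h.symm)
    (fun _ _ h0 h0' hu hu' => (G.exists_move h0 h0' hu hu').elim fun t ht =>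
      ⟨t, 1, G.su t ht.1, by rw [ht.2, one_smul]⟩)
    (fun w w0 z hw hz => (G.exists_rad w0 hw hz).elim fun t ht => ⟨_, G.su t ht.1, ht.2⟩) G.rad
    (fun w w0 hw a s k hk hU R => ?_) u u' u0 u0' hu hu' g hg h
  obtain ⟨b, hb⟩ := exists_ne (0 : W)
  obtain ⟨b', hb'⟩ := T.r₁.exists_one hb
  have h1 : ∀ y y', γ (a b) (a b') * β (s y) (s y') = β y y' := fun y y' => by
    simpa [T.kron_tm, T.B_tm, hb'] using hU (T.tm b y) (T.tm b' y')
  have hr := mul_mem (inv_mem hU) (G.le hk)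
  obtain ⟨t, ht⟩ := TF.exists_kron_one (G.mem_KS_of_norm w0 hw hr R fun t ht => by
    have h2 : s * t * s⁻¹ ∈ SUG β := mem_SUG.2 ⟨fun y y' => by
      obtain ⟨w', e⟩ := T.r₂.exists_one w0
      refine mul_left_cancel₀ (a := γ (a b) (a b')) (fun e' => by simpa [e', e] using h1 w w') ?_
      rw [LinearEquiv.mul_apply, LinearEquiv.mul_apply, LinearEquiv.mul_apply, LinearEquiv.mul_apply, h1, ht.1, ← h1,
        apply_inv_apply, apply_inv_apply], by simp [(mem_SUG.1 ht).2, dt_ne_zero]⟩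
    convert mul_mem (mul_mem (inv_mem hk) (G.su _ h2)) hk using 1
    rw [show T.kron 1 (s * t * s⁻¹) = T.kron a s * T.kron 1 t * (T.kron a s)⁻¹ by simp [T.kron_inv, T.kron_mul]]
    group) w0 R.fix
  have h3 : t ∈ SUG β := mem_SUG.2 ⟨fun y y' => by
    simpa [ht, T.kron_tm, T.B_tm, hb'] using hr (T.tm b y) (T.tm b' y'), by
      rw [dt_apply]
      refine det_eq_one_of_isNilpotent ⟨3, T.tp.pow_eq_zero_of_tm hb (fun x => ?_) (R.cube hr)⟩
      simp [ht, TL.tp_tm, T.kron_tm]⟩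
  simpa [← ht] using mul_mem hk (inv_mem (G.su t h3))

/-- An element commuting with a map whose range is `W ⊗ u`. -/
theorem mem_KS_of_comm {u : U} (u0 : u ≠ 0) (hu : β u u = 0) {n : End F V} (hn : LinearMap.range n = T.L u)
    {g : V ≃ₗ[F] V} (hg : g ∈ H) (h : ∀ x, g (n x) = n (g x)) : g ∈ T.KS :=
  G.mem_KS_of_map u0 u0 hu hu hg fun a => by
    obtain ⟨x, hx⟩ := hn.ge (T.tm_mem_L a u)
    rw [← hx, h, ← hn]
    exact ⟨_, rfl⟩

end GdU

variable [Finite F] [FiniteDimensional F V] [Nontrivial U]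

/-- A transvection normalising a factor lies in it or centralises it. -/
theorem dichU (d : 3 ≤ finrank F U) {u : U} (u0 : u ≠ 0) (hu : β u u = 0) {c : F} (hc : c ≠ 0)
    (h : T.tu hu c ∈ T'.KS) :
    (∃ x u', u' ≠ 0 ∧ β u' u' = 0 ∧ T.κ' u = T'.tp.A x ∧ T.L u = T'.L u') ∨ T'.tp.Cm (T.κ' u) := by
  obtain ⟨p, hp⟩ := CharP.exists F
  have hpp : Fact p.Prime := ⟨CharP.char_is_prime F p⟩
  obtain ⟨a, t, e, ha, ht⟩ := TL.exists_unipotent (p := p) (n := 1) h (unip_pow_char _ c)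
  have e' : ∀ x, T'.kron a t x = x + (c • T.κ' u) x := fun x => by rw [← e]; rfl
  have h2 : ∀ x, (c • T.κ' u) ((c • T.κ' u) x) = 0 := fun x => by simp [T.κ'_κ' hu]
  have h3 : LinearMap.range (c • T.κ' u) = T.L u := by rw [LinearMap.range_smul _ c hc, T.range_κ' u0]
  have hr : finrank F (LinearMap.range (c • T.κ' u)) ≤ finrank F W := by rw [h3, T.swap.finrank_M u0]
  obtain ⟨b, hb, hab⟩ := TL.exists_fix_of_pow ht
  rcases (TL.kron_two (T := T'.swap) h2 hb hab (by rwa [T'.swap_kron]) hr d).symm with h4 | h4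
  · obtain rfl : a = 1 := LinearEquiv.ext h4
    obtain ⟨b, hb⟩ := exists_ne (0 : W)
    obtain ⟨u', h5, h6⟩ := TL.exists_range_eq_M (T := T'.swap) (by rwa [T'.swap_kron]) hr fun e => by
      have := T.tm_mem_L b u
      rw [← h3, e, LinearMap.range_zero] at this
      exact T.tm_ne_zero hb u0 this
    have h7 := h3.symm.trans h6
    refine Or.inl ⟨c⁻¹ • ((t : End F U) - 1), u', h5, ?_, LinearMap.ext fun x => ?_, h7⟩
    · obtain ⟨b', hb'⟩ := T.r₁.exists_one hb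
      obtain ⟨x, hx⟩ := T.mem_L.1 (h7.ge (T'.tm_mem_L b u'))
      obtain ⟨y, hy⟩ := T.mem_L.1 (h7.ge (T'.tm_mem_L b' u'))
      have := T'.B_tm b u' b' u'
      rwa [hx, hy, T.B_tm, hu, hb', mul_zero, one_mul, eq_comm] at this
    · simp [← T'.kron_one_apply, e', hc]
  · obtain rfl : t = 1 := LinearEquiv.ext h4
    rw [show T.κ' u = T'.tp.C (c⁻¹ • ((a : End F W) - 1)) from LinearMap.ext fun x => by
      have := e' x
      rw [T'.kron_apply, show ((1 : U ≃ₗ[F] U) : End F U) = 1 from rfl, map_one, End.one_apply] at this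
      simp [this, hc]]
    exact Or.inr (T'.tp.cm_C _)

/-- If all transvections of a factor normalise another factor, the factors coincide or commute. -/
theorem rel_of_allU (O : OvU q T' H) {c : F} (c0 : c ≠ 0) (h : ∀ u (hu : β u u = 0), T'.tu hu c ∈ T.KS) :
    TL.Rel T'.toTL T.toTL := by
  have d := O.three
  by_cases h1 : ∀ u, β u u = 0 → T.tp.Cm (T'.κ' u)
  · exact Or.inr (mem_of_iso O.h₂ (by omega) (T.tp.cmAlg.comap T'.tp.A) fun u hu => by
      simpa [T'.κ_eq] using show T'.κ' u ∈ T.tp.cmAlg from h1 u hu)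
  push Not at h1
  obtain ⟨u, hu, hu'⟩ := h1
  have h2 : ∀ u v, β v v = 0 → β u v ≠ 0 → (∃ x, T'.κ' u = T.tp.A x) → ∃ x, T'.κ' v = T.tp.A x :=
    fun u v hv huv ⟨x, hx⟩ => by
    have v0 : v ≠ 0 := fun e => huv (by simp [e])
    rcases dichU d v0 hv c0 (h v hv) with ⟨y, -, -, -, e, -⟩ | h3
    · exact ⟨y, e⟩
    obtain ⟨a, ha⟩ := exists_ne (0 : W)
    have := (LinearMap.congr_fun (h3 x).eq (T'.tm a v)).symm
    simp only [← hx, End.mul_apply, T'.κ_apply, T'.ψ_tm, hv, map_smul, LinearMap.smul_apply, zero_smul,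
      map_zero, smul_eq_zero, huv, T.r₂.flip_ne huv, false_or, LinearMap.zero_apply] at this
    exact (T'.tm_ne_zero ha v0 this).elim
  have u0 : u ≠ 0 := fun e => hu' (by
    rw [show T'.κ' u = 0 by ext; rw [T'.κ_apply, e, map_zero]; rfl]; exact fun a => Commute.zero_right _)
  obtain ⟨x, -, -, -, hx, -⟩ := (dichU d u0 hu c0 (h u hu)).resolve_right hu'
  refine Or.inl (mem_of_iso O.h₂ (by omega) (T.tp.A.range.comap T'.tp.A) (fun v hv => ?_) · |>.imp fun _ e => Eq.symm e)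
  by_cases v0 : v = 0
  · rw [show rk v (β v) = 0 by ext; simp [v0]]; exact zero_mem _
  obtain ⟨w, hw, h3, h4⟩ := exists_iso_both O.h₂ u0 v0 hu hv
  obtain ⟨y, hy⟩ := h2 w v hv (T.r₂.flip_ne h4) (h2 u w hw h3 ⟨x, hx⟩)
  exact ⟨y, hy.symm.trans (T'.κ_eq _ _)⟩

/-- A frame of good factors. -/
structure GFU (q : ℕ) {J : Type*} (T : J → TF σ 1 1 1 γ β B) (H : Subgroup (V ≃ₗ[F] V)) : Prop where
  fr : Fr fun j => (T j).tp
  gd : ∀ j, GdU q (T j) H

namespace GFU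

variable {J : Type*} {T : J → TF σ 1 1 1 γ β B} (Φ : GFU q T H)
include Φ

theorem mu {g : V ≃ₗ[F] V} (hg : g ∈ H) (hg' : g ∈ UG B) : GFU q (fun j => (T j).mu g hg') H :=
  ⟨Φ.fr.mv (LinearMap.GeneralLinearGroup.ofLinearEquiv g), fun j => (Φ.gd j).mu hg⟩

/-- A factor normalised by a transvection of the frame. -/
theorem rel (G : GdU q T' H) {i : J} {u : U} (u0 : u ≠ 0) (hu : β u u = 0) {c : F} (hc : c ≠ 0)
    (h : (T i).tu hu c ∈ T'.KS) : TL.Rel T'.toTL (T i).toTL := by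
  obtain ⟨δ, δ0, hδ⟩ := G.bar.exists_trace_zero
  rcases dichU G.three u0 hu hc h with ⟨x, u', h0, h0', -, e⟩ | h1
  · by_cases h2 : ∃ m, m ≠ i ∧ TL.Same (T m).toTL T'.toTL
    · obtain ⟨m, hm, h2⟩ := h2
      exact Or.inr (h2.symm.comm (Φ.fr.comm i m hm.symm))
    push Not at h2
    refine Or.inl fun a => Φ.fr.exists_A fun m hm => ?_
    refine ((rel_of_allU (Φ.gd m).toOvU δ0 fun v hv => G.mem_KS_of_comm h0 h0' (((T i).range_κ' u0).trans e)
      ((Φ.gd m).tu_mem hv hδ) fun y => ?_).resolve_left (h2 m hm)).symm a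
    have := LinearMap.congr_fun (Φ.fr.comm m i hm (rk u (β u)) (rk v (β v))).eq y
    simp only [← TL.κ_eq, End.mul_apply] at this
    simp [unip_apply, this]
  · refine rel_of_allU G.toOvU δ0 fun v hv =>
      (Φ.gd i).mem_KS_of_comm u0 hu ((T i).range_κ' u0) (G.tu_mem hv hδ) fun y => ?_
    have := LinearMap.congr_fun (h1 (rk v (β v))).eq y
    simp only [← TL.κ_eq, End.mul_apply] at this
    simp [unip_apply, this]

end GFU

end CL.Sp
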