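import Cfsg.Agent.Cls.WU2

set_option autoImplicit false
set_option linter.unusedSectionVars false

/-!
Frames of unitary tensor factors, part 3: the trace trick.
-/

namespace CL.Sp

open Module CL.SLn CL.TW CL.Uni CL.TrTr

variable {F U W V : Type*} [Field F] [AddCommGroup U] [Module F U] [AddCommGroup W] [Module F W]
  [AddCommGroup V] [Module F V] {σ : F →+* F} {q : ℕ} {β : U →ₛₗ[σ] U →ₗ[F] F} {γ : W →ₛₗ[σ] W →ₗ[F] F}
  {B : V →ₛₗ[σ] V →ₗ[F] F} {H : Subgroup (V ≃ₗ[F] V)}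

/-- The elements of trace zero. -/
def skw (σ : F →+* F) : AddSubgroup F where
  carrier := {d | σ d = -d}
  zero_mem' := by simp
  add_mem' {a b} (ha : σ a = -a) (hb : σ b = -b) := show σ (a + b) = -(a + b) by rw [map_add, ha, hb, neg_add]
  neg_mem' {a} (ha : σ a = -a) := show σ (-a) = - -a by rw [map_neg, ha]

theorem sum_mem_pflU {P : End F V} [CharP F 2] {A : Type*} [AddCommGroup A] [Finite A] (hp : ∀ a : A, 2 • a = 0)
    (E : A → V ≃ₗ[F] V) (h0 : E 0 = 1) (hadd : ∀ a b, E (a + b) = E a * E b) (h1 : ∀ a x, P (E a x) = P x)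
    (h2 : ∀ a x, P x = 0 → E a x = x) (O : Finset (M4 F V)) (hO : ∀ a, ∀ φ ∈ O, ρ4 (E a) φ ∈ O)
    (h16 : 16 ≤ Nat.card A) (hf : ∀ φ ∈ O, ∀ a b, a ≠ 0 → b ≠ 0 → ρ4 (E a) φ = φ → ρ4 (E b) φ = φ → a = b) :
    ∑ φ ∈ O, φ ∈ mfil (Fin 4) (pfl P) 2 := by
  classical
  have hi : ∀ a, (E a)⁻¹ = E (-a) := fun a => inv_eq_of_mul_eq_one_right (by rw [← hadd, add_neg_cancel, h0])
  have U := unip_mrep (ι := Fin 4) (dπ F V) E h0 hadd (Vf := pfl P) (fun a => hi a ▸ step_pfl (h1 _) (h2 _)) 5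
  refine U.sum_invariant_mem 2 hp 3 O hO fun φ hφ => ⟨0, 3, mem_mfil_five φ, ?_, by omega⟩
  have h3 := (U.stab φ).index_mul_card
  have h4 : Nat.card (U.stab φ) ≤ Nat.card Bool :=
    Nat.card_le_card_of_injective (fun d => decide (d.1 = 0)) fun a b e => Subtype.ext (by
      have e' : a.1 = 0 ↔ b.1 = 0 := by simpa using e
      by_cases h : a.1 = 0
      · rw [h, e'.1 h]
      · exact hf φ hφ _ _ h (e'.not.1 h) a.2 b.2)
  rw [show Nat.card Bool = 2 by simp] at h4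
  nlinarith

section Heis

variable {T : TF σ 1 1 1 γ β B} {w : U} (hw : β w w = 0) (p : ℕ) [Fact p.Prime] [CharP F p] [Finite F]
  (C : AddSubgroup F) {c : ℕ} (hc : p ^ c ≤ Nat.card C)
include hc

theorem sum_mem_freeU (O : Finset (M4 F V)) (hO : ∀ a : C, ∀ φ ∈ O, ρ4 (T.tu hw a) φ ∈ O)
    (hf : ∀ φ ∈ O, ∀ a : C, ρ4 (T.tu hw a) φ = φ → a = 0) :
    ∑ φ ∈ O, φ ∈ mfil (Fin 4) (T.dfl w) (9 - 2 * (c * (p - 1))) := by
  have U : Unip (fun a : C => ρ4 (T.tu hw a)) fun j => mfil (Fin 4) (T.dfl w) (9 - 2 * j) :=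
    ⟨by simp only [ZeroMemClass.coe_zero, unip_zero, map_one],
      fun a a' => by simp only [AddSubgroup.coe_add, ← unip_mul, map_mul], fun a j _ hy => by
      rw [Nat.mul_succ, ← Nat.sub_sub]
      exact comp_sub_mem_mfil' (TF.step_dfl hw (unip_inv (T.κ'_κ' hw) a.1 ▸ TF.step_unip hw _)
        (inv_inv (T.tu hw a) ▸ TF.step_unip hw _)) hy,
      fun _ _ h => mfil_mono _ (Nat.sub_le_sub_left (Nat.mul_le_mul_left _ h) _)⟩
  refine U.sum_invariant_mem p (fun a => Subtype.ext (by simp)) _ O hO fun φ hφ =>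
    ⟨0, c, T.mem_mfil_nine φ, ?_, by omega⟩
  rwa [(AddSubgroup.eq_bot_iff_forall (U.stab φ)).2 (hf φ hφ), AddSubgroup.index_bot]

theorem sum_mem_heisU [Nontrivial V] (h2 : 2 ≤ c * (p - 1)) {e e' : V ≃ₗ[F] V} (he : e ∈ UG B) (he' : e' ∈ UG B)
    (R : T.Rad w e) (R' : T.Rad w e') {d : C} (d0 : d ≠ 0) (hee : e * e' = T.tu hw d * (e' * e))
    (O : Finset (M4 F V)) (hO' : ∀ a : C, ∀ φ ∈ O, ρ4 (T.tu hw a) φ ∈ O) (hO₁ : ∀ φ ∈ O, ρ4 e φ ∈ O)
    (hO₂ : ∀ φ ∈ O, ρ4 e' φ ∈ O) (hf : ∀ φ ∈ O, ∀ a : C, ρ4 (T.tu hw a) φ = φ → a = 0) :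
    ∑ φ ∈ O, φ ∈ mfil (Fin 4) (T.dfl w) 4 := by
  classical
  let E : C → V ≃ₗ[F] V := fun a => T.tu hw a
  have h0 : E 0 = 1 := unip_zero _
  have hadd : ∀ a b, E (a + b) = E a * E b := fun a b => (unip_mul _ _ _).symm
  have hc' : ∀ {k}, k ∈ UG B → T.Rad w k → ∀ a φ, ρ4 k (ρ4 (E a) φ) = ρ4 (E a) (ρ4 k φ) := fun hk R a φ => by
    rw [← End.mul_apply, ← map_mul, R.comm hw hk, map_mul, End.mul_apply]
  have key : ∀ {k}, k ∈ UG B → T.Rad w k → ∀ O' ⊆ O, (∀ a, ∀ φ ∈ O', ρ4 (E a) φ ∈ O') → (∀ φ ∈ O', ρ4 k φ ∈ O') →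
      (∀ φ ∈ O', ∀ a, ρ4 k φ ≠ ρ4 (E a) φ) → ∑ φ ∈ O', φ ∈ mfil (Fin 4) (T.dfl w) 4 := fun {k} hk R O' h1 h3 h4 h5 =>
    sum_mem_of_step p (e := fun a => ρ4 (E a)) (by simp only [h0, map_one]) (fun a b => by simp only [hadd, map_mul])
      (n := 2) (by rw [← map_pow, R.pow hk, map_one]) (hc' hk R) (N := mfil (Fin 4) (T.dfl w) 5)
      (fun v hv => comp_sub_mem_mfil' (TF.step_dfl hw (R.inv.step (inv_mem hk)) ((inv_inv k).symm ▸ R.step hk)) hv)
      O' h3 h4 (fun ω h6 h7 => mfil_mono _ (by omega) (sum_mem_freeU hw p C hc ω h7 fun φ h => hf φ (h1 (h6 h)))) h5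
  have hEE : ∀ a b φ, ρ4 (E a) (ρ4 (E b) φ) = ρ4 (E (a + b)) φ := fun a b φ => by rw [hadd, ρ4, ρ4, ρ4, map_mul]; rfl
  have hcm : ∀ φ, ρ4 e (ρ4 e' φ) = ρ4 (E d) (ρ4 e' (ρ4 e φ)) := fun φ => by
    rw [← End.mul_apply, ← map_mul, hee, map_mul, map_mul]; rfl
  rw [← Finset.sum_filter_add_sum_filter_not O fun φ => ∃ a, ρ4 e φ = ρ4 (E a) φ]
  refine add_mem (key he' R' _ (Finset.filter_subset _ _) (fun a φ h => ?_) (fun φ h => ?_) fun φ h a' h' => ?_)
    (key he R _ (Finset.filter_subset _ _) (fun a φ h => ?_) (fun φ h => ?_)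
      fun φ h a h' => (Finset.mem_filter.1 h).2 ⟨a, h'⟩) <;> rw [Finset.mem_filter] at h
  · obtain ⟨h, b, hb⟩ := h
    exact Finset.mem_filter.2 ⟨hO' a φ h, b, by rw [hc' he R, hb, hEE, hEE, add_comm]⟩
  · obtain ⟨h, b, hb⟩ := h
    exact Finset.mem_filter.2 ⟨hO₂ φ h, _, by rw [hcm, hb, hc' he' R', hEE]⟩
  · obtain ⟨h, b, hb⟩ := h
    refine d0 (hf _ (hO' (b + a') φ h) d ?_)
    have := hcm φ
    rwa [h', hb, hc' he R, hc' he' R', hb, h', hEE, hEE b, add_comm a', eq_comm] at this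
  · exact Finset.mem_filter.2 ⟨hO' a φ h.1, fun ⟨b, hb⟩ => h.2 ⟨b, by
      have := congrArg (ρ4 (E (-a))) hb
      rwa [hc' he R, hEE, hEE, hEE, neg_add_cancel, h0, ρ4, map_one, add_right_comm, neg_add_cancel, zero_add] at this⟩⟩
  · refine Finset.mem_filter.2 ⟨hO₁ φ h.1, fun ⟨b, hb⟩ => h.2 ⟨b, ?_⟩⟩
    simpa using congrArg (ρ4 e⁻¹) (hb.trans (hc' he R b φ).symm)

end Heis

/-- The maps supported on a pair of vectors. -/
noncomputable def mt4 (β : U →ₛₗ[σ] U →ₗ[F] F) (a b : U) (x y z w : F) : End F U :=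
  rk a (x • β a + y • β b) + rk b (z • β a + w • β b)

theorem mt4_apply (a b : U) (x y z w : F) (v : U) :
    mt4 β a b x y z w v = (x * β a v + y * β b v) • a + (z * β a v + w * β b v) • b := rfl

theorem mt4_rank {a b a' b' : U} (h1 : β a a' = 1) (h2 : β b a' = 0) (h3 : β a b' = 0) (h4 : β b b' = 1)
    (h5 : β a' b = 0) (h6 : β a' a = 1) {x y z w : F} (hd : x * w = y * z) (h0 : ¬ (x = 0 ∧ y = 0 ∧ z = 0 ∧ w = 0)) :
    ∃ (s t : F) (α : Dual F U), s • a + t • b ≠ 0 ∧ α ≠ 0 ∧ mt4 β a b x y z w = rk (s • a + t • b) α := by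
  have h7 : ∀ x y : F, x • β a + y • β b = 0 → x = 0 ∧ y = 0 := fun x y e =>
    ⟨by simpa [h1, h2] using LinearMap.congr_fun e a', by simpa [h3, h4] using LinearMap.congr_fun e b'⟩
  by_cases h : x = 0 ∧ y = 0
  · exact ⟨0, 1, z • β a + w • β b, fun e => by simp [show b = 0 by simpa using e] at h4,
      fun e => h0 ⟨h.1, h.2, h7 _ _ e⟩, by ext; simp [mt4_apply, h.1, h.2]⟩
  obtain ⟨μ, rfl, rfl⟩ : ∃ μ, z = μ * x ∧ w = μ * y := by
    by_cases hx : x = 0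
    · have hy : y ≠ 0 := fun e => h ⟨hx, e⟩
      exact ⟨w / y, by simpa [hx, hy] using hd, by field_simp⟩
    · exact ⟨z / x, by field_simp, by field_simp; linear_combination hd⟩
  refine ⟨1, μ, x • β a + y • β b, fun e => by simpa [h5, h6] using congrArg (β a') e, fun e => h (h7 _ _ e), ?_⟩
  ext v
  simp only [mt4_apply, rk_apply, LinearMap.add_apply, LinearMap.smul_apply, smul_eq_mul]
  module

variable [FiniteDimensional F U] [FiniteDimensional F W] [Nontrivial W] [Finite F] [FiniteDimensional F V]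
  [Nontrivial U]

/-- Two commuting involutions normalising a factor centralise one of its transvections. -/
theorem exists_comm_twoU [CharP F 2] {T : TF σ 1 1 1 γ β B} (O : OvU q T H) {d d' : V ≃ₗ[F] V}
    (hd : d ∈ T.KS) (hd' : d' ∈ T.KS) (hU : d ∈ UG B) (hU' : d' ∈ UG B) (h2 : d ^ 2 ^ 1 = 1) (h2' : d' ^ 2 ^ 1 = 1)
    (hc : d * d' = d' * d) :
    ∃ u ≠ 0, β u u = 0 ∧ (∀ x, d (T.κ' u x) = T.κ' u (d x)) ∧ ∀ x, d' (T.κ' u x) = T.κ' u (d' x) := by
  have h1 : ∀ c : F, c * c = 1 → c = 1 := fun c h => by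
    have := CharTwo.add_self_eq_zero (R := F)
    exact sub_eq_zero.1 (pow_eq_zero_iff (n := 2) (by simp) |>.1 (by linear_combination h + this 1 - this c))
  obtain ⟨b, hb⟩ := exists_ne (0 : W)
  obtain ⟨b', hb'⟩ := T.r₁.exists_one hb
  obtain ⟨y₀, hy₀, hy⟩ := O.h₂.exists_isotropic (by have := O.three; omega)
  obtain ⟨y₁, hy₁⟩ := T.r₂.exists_one hy₀
  have key : ∀ {d}, d ∈ T.KS → d ∈ UG B → d ^ 2 ^ 1 = 1 → ∃ a t, d = T.kron a t ∧ t ∈ UG β ∧ ∀ y, t (t y) = y :=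
    fun hd hU h2 => by
      obtain ⟨a, t, rfl, -, ht⟩ := TL.exists_unipotent hd h2
      have h3 : ∀ y, t (t y) = y := LinearMap.congr_fun (pow_eq_one_of_sub 2 le_rfl ht)
      have h4 : ∀ y y', γ (a b) (a b') * β (t y) (t y') = β y y' := fun y y' => by
        simpa [T.kron_tm, T.B_tm, hb'] using hU (T.tm b y) (T.tm b' y')
      have h5 := h4 y₀ y₁
      rw [← h4, h3, h3, hy₁, mul_one] at h5
      exact ⟨a, t, rfl, fun y y' => by rw [← h4 y, h1 _ h5, one_mul], h3⟩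
  obtain ⟨a, t, rfl, ht, e⟩ := key hd hU h2
  obtain ⟨a', t', rfl, ht', e'⟩ := key hd' hU' h2'
  obtain ⟨f, hf⟩ := exists_dual_eq_one (F := F) ((a * a').map_ne_zero_iff.2 hb)
  have h3 : ∀ y, t (t' y) = f ((a' * a) b) • t' (t y) := fun y => by
    have := congrArg (T.φ f) (LinearEquiv.congr_fun hc (T.tm b y))
    rwa [T.kron_mul, T.kron_mul, T.kron_tm, T.kron_tm, T.φ_tm, T.φ_tm, hf, one_smul] at this
  have h4 := congrArg t (h3 y₀)
  rw [e, map_smul, h3, e, smul_smul, eq_comm, ← sub_eq_zero, ← one_smul F (t' y₀), smul_smul, ← sub_smul,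
    smul_eq_zero, t'.map_eq_zero_iff, sub_eq_zero, mul_one] at h4
  simp only [h1 _ (h4.resolve_right hy₀), one_smul] at h3
  have h5 : ∀ y : U, -y = y := fun y => by rw [← neg_one_smul F, CharTwo.neg_eq, one_smul]
  have h6 : ∀ {t : U ≃ₗ[F] U}, (∀ y, t (t y) = y) → ∀ y, t (t y - y) = t y - y := fun e y => by
    rw [map_sub, e, ← h5 (_ - _), neg_sub]
  have h7 : ∀ {t : U ≃ₗ[F] U}, t ∈ UG β → (∀ y, t (t y) = y) → ∀ y, β (t y - y) (t y - y) = 0 := fun {t} ht e y => by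
    rw [map_sub, ← ht _ y, h6 e y, sub_self]
  obtain ⟨v, v0, hv, h8, h9⟩ : ∃ v ≠ 0, β v v = 0 ∧ t v = v ∧ t' v = v := by
    obtain ⟨u, u0, hu, h8⟩ : ∃ u ≠ 0, β u u = 0 ∧ t u = u := by
      by_cases h : t y₀ = y₀
      · exact ⟨y₀, hy₀, hy, h⟩
      · exact ⟨_, sub_ne_zero.2 h, h7 ht e _, h6 e _⟩
    by_cases h : t' u = u
    · exact ⟨u, u0, hu, h8, h⟩
    · exact ⟨_, sub_ne_zero.2 h, h7 ht' e' _, by rw [map_sub, h3, h8], h6 e' _⟩
  have h10 : ∀ a t, t ∈ UG β → t v = v → ∀ x, T.kron a t (T.κ' v x) = T.κ' v (T.kron a t x) := fun a t ht h x => by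
    rw [T.κ_apply, T.κ_apply, T.kron_tm, T.ψ'_kron a ht, h, ← h, inv_apply_apply, h]
  exact ⟨v, v0, hv, h10 a t ht h8, h10 a' t' ht' h9⟩

variable {J : Type*}

/-- The forms attached to the images of the factors. -/
def FOrbU (T : J → TF σ 1 1 1 γ β B) (H : Subgroup (V ≃ₗ[F] V)) (φ : M4 F V) : Prop :=
  ∃ j, ∃ h ∈ H, φ = ((T j).toTL.mv h).swap.four

/-- The forms attached to the images of the factors which are not related to a given factor. -/
def BadU (T : J → TF σ 1 1 1 γ β B) (H : Subgroup (V ≃ₗ[F] V)) (i : J) (φ : M4 F V) : Prop :=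
  ∃ j, ∃ h ∈ H, φ = ((T j).toTL.mv h).swap.four ∧ ¬ TL.Rel ((T j).toTL.mv h) (T i).toTL

variable {T : J → TF σ 1 1 1 γ β B} {i : J} {φ : M4 F V}

theorem BadU.map (h : BadU T H i φ) {k : V ≃ₗ[F] V} (hk : k ∈ H) (hk' : k ∈ (T i).KS) : BadU T H i (ρ4 k φ) := by
  obtain ⟨j, g, hg, rfl, hn⟩ := h
  exact ⟨j, k * g, mul_mem hk hg, (((T j).toTL.mv g).four_swap_mv k).symm,
    fun h => hn (TL.Rel.of_mv (T' := (T j).toTL.mv g) hk' h)⟩

namespace GFU

variable (Φ : GFU q T H)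
include Φ

theorem free (h : BadU T H i φ) {u : U} (u0 : u ≠ 0) (hu : β u u = 0) (a : F) (e : ρ4 ((T i).tu hu a) φ = φ) :
    a = 0 := by
  obtain ⟨j, g, hg, rfl, hn⟩ := h
  exact by_contra fun ha => hn (Φ.rel ((Φ.gd j).mu hg) u0 hu ha (TL.mem_KS_of_four e))

theorem not_two [CharP F 2] (h : BadU T H i φ) {n n' : End F V} {h2 : ∀ x, n (n x) = 0} {h2' : ∀ x, n' (n' x) = 0}
    (hd : unip n h2 1 ∈ H) (hd' : unip n' h2' 1 ∈ H) (e : ρ4 (unip n h2 1) φ = φ) (e' : ρ4 (unip n' h2' 1) φ = φ)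
    (hc : ∀ x, n (n' x) = n' (n x)) {a : U} (a0 : a ≠ 0) (ha : β a a = 0) {ω : F}
    (h1 : LinearMap.range (n + ω • n') = (T i).L a) : False := by
  obtain ⟨j, g, hg, rfl, hn⟩ := h
  have G := (Φ.gd j).mu hg
  obtain ⟨u, u0, hu, h4, h5⟩ := exists_comm_twoU G.toOvU (TL.mem_KS_of_four e)
    (TL.mem_KS_of_four e') (G.le hd) (G.le hd') (unip_pow_char _ _) (unip_pow_char _ _)
    (LinearEquiv.ext fun x => by simp [unip_apply, hc]; abel)
  simp only [unip_apply, one_smul, map_add, add_right_inj] at h4 h5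
  obtain ⟨δ, δ0, hδ⟩ := G.bar.exists_trace_zero
  exact hn ((Φ.mu hg _).rel (Φ.gd i) (i := j) u0 hu δ0
    ((Φ.gd i).mem_KS_of_comm a0 ha h1 (G.tu_mem hu hδ) fun x => by
      simp only [unip_apply, LinearMap.add_apply, LinearMap.smul_apply, map_add, map_smul, h4, h5]
      module)).symm

theorem depth_two (hq : q = 2) {a b a' b' : U} (aa : β a a = 0) (ab : β a b = 0) (bb : β b b = 0) (h1 : β a a' = 1)
    (h2 : β b a' = 0) (h3 : β a b' = 0) (h4 : β b b' = 1) {π : End F U} (p1 : π a = 0) (p2 : π b = 0)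
    (p3 : ∀ y, β a (π y) = β a y) (p4 : ∀ y, β b (π y) = β b y) (O : Finset (M4 F V))
    (hO : ∀ φ, φ ∈ O ↔ BadU T H i φ) : ∑ φ ∈ O, φ ∈ mfil (Fin 4) (pfl ((T i).tp.A π)) 2 := by
  subst hq
  have G := Φ.gd i
  have two : (2 : F) = 0 := by simpa using G.bar.cast_q
  have : CharP F 2 := (CharP.charP_iff_prime_eq_zero Nat.prime_two).2 two
  have ba := G.h₂.flip_zero ab
  let n : skw σ × skw σ × F → End F U := fun x => mt4 β a b x.1 x.2.2 (-σ x.2.2) x.2.1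
  have e3 : ∀ x, π * n x = 0 := fun x => LinearMap.ext fun y => by simp [n, mt4_apply, p1, p2]
  have e4 : ∀ x, n x * π = n x := fun x => LinearMap.ext fun y => by simp [n, mt4_apply, p3, p4]
  have e5 : ∀ x x', n x * n x' = 0 := fun x x' => by rw [← e4 x, mul_assoc, e3, mul_zero]
  have e6 : ∀ x x' v, (T i).tp.A (n x) ((T i).tp.A (n x') v) = 0 := fun x x' v => by
    rw [← End.mul_apply, ← map_mul, e5, map_zero, LinearMap.zero_apply]
  have e7 : ∀ x x', n (x + x') = n x + n x' := fun x x' => LinearMap.ext fun y => by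
    simp only [n, mt4_apply, Prod.fst_add, Prod.snd_add, AddSubgroup.coe_add, map_add, LinearMap.add_apply]
    module
  let E := fun x => unip _ (e6 x x) 1
  have hadd : ∀ x x', E (x + x') = E x * E x' := fun x x' => by ext; simp [E, unip_apply, e6, e7]; abel
  have hE : ∀ x, ∃ t ∈ SUG β, E x = (T i).kron 1 t := fun x =>
    ⟨unip (n x) (LinearMap.congr_fun (e5 x x)) 1, mem_SUG.2 ⟨fun y y' => by
      simp only [unip_apply, n, mt4_apply, map_add, map_smul, map_smulₛₗ, one_smul, LinearMap.add_apply,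
        LinearMap.smul_apply, aa, ab, ba, bb, smul_eq_mul, map_mul, G.h₂.symm, map_neg, G.bar.bar_bar,
        show σ x.1 = -x.1 from x.1.2, show σ x.2.1 = -x.2.1 from x.2.1.2]
      ring, by
        rw [dt_apply]
        exact det_eq_one_of_isNilpotent ⟨2, LinearMap.ext fun y => by
          simpa [pow_two, unip_apply] using LinearMap.congr_fun (e5 x x) y⟩⟩,
      (T i).equiv_ext fun a y => by simp [E, unip_apply, (T i).kron_tm, (T i).A_tm]⟩
  have hE' : ∀ x, E x ∈ H := fun x => by obtain ⟨t, ht, e⟩ := hE x; exact e ▸ G.su t ht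
  refine sum_mem_pflU (fun x => Prod.ext (Subtype.ext (by simp [two])) (Prod.ext (Subtype.ext (by simp [two]))
    (by simp [two]))) E (by ext; simp [E, unip_apply, n, show mt4 β a b 0 0 0 0 = 0 by ext; simp [mt4_apply]]) hadd
    (fun x v => ?_) (fun x v hv => ?_) O (fun x φ h => (hO _).2 (((hO _).1 h).map (hE' x) ?_)) ?_
    fun φ h x x' x0 x0' hx hx' => ?_
  · rw [unip_apply, one_smul, map_add, ← End.mul_apply, ← map_mul, e3, map_zero, LinearMap.zero_apply, add_zero]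
  · rw [unip_apply, ← e4, map_mul, End.mul_apply, hv, map_zero, smul_zero, add_zero]
  · obtain ⟨t, -, e⟩ := hE x
    exact e ▸ (T i).kron_mem_KS _ _
  · rw [Nat.card_prod, Nat.card_prod, G.bar.card, show Nat.card (skw σ) = 2 from G.bar.card_trace_zero]
    norm_num
  have iso : ∀ s t : F, β (s • a + t • b) (s • a + t • b) = 0 := fun s t => by simp [aa, ab, ba, bb]
  have key : ∀ x, x ≠ 0 → ρ4 (E x) φ = φ → x.1.1 * x.2.1.1 + x.2.2 * σ x.2.2 = 1 := fun x x0 hx => by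
    obtain ⟨⟨r, hr⟩, ⟨s, hs⟩, c⟩ := x
    have hr' : σ r = -r := hr
    have hs' : σ s = -s := hs
    refine G.bar.fixed_two (by simp [hr', hs', G.bar.bar_bar, mul_comm]) fun (e : r * s + c * σ c = 0) => ?_
    have k : ∀ μ ν δ : F, μ • a + ν • b ≠ 0 → mt4 β a b r c (-σ c) s = δ • rk (μ • a + ν • b) (β (μ • a + ν • b)) →
        δ = 0 := fun μ ν δ h5 h6 => Φ.free ((hO φ).1 h) h5 (iso μ ν) δ (by
      rwa [show (T i).tu (iso μ ν) δ = E (⟨r, hr⟩, ⟨s, hs⟩, c) by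
        ext; simp only [E, n, unip_apply, h6, map_smul, (T i).κ_eq, one_smul, LinearMap.smul_apply]])
    by_cases r0 : r = 0
    · have c0 : c = 0 := by simpa [r0] using e
      refine x0 (Prod.ext (Subtype.ext r0) (Prod.ext (Subtype.ext (k 0 1 s (fun e => ?_) ?_)) c0))
      · simp [show b = 0 by simpa using e] at h4
      · ext; simp [mt4_apply, r0, c0, mul_smul]
    have hμ : σ (-σ c / r) = c / r := by rw [map_div₀, map_neg, G.bar.bar_bar, hr', neg_div_neg_eq]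
    refine r0 (k 1 (-σ c / r) r (fun e => ?_) (LinearMap.ext fun v => ?_))
    · simpa [G.h₂.flip_one h1, G.h₂.flip_zero h2] using congrArg (β a') e
    · simp only [mt4_apply, rk_apply, LinearMap.add_apply, LinearMap.smul_apply, smul_eq_mul, map_add, map_smulₛₗ,
        map_one, hμ]
      match_scalars
      · field_simp
      · field_simp
        linear_combination β b v * e
  by_contra hne
  have k1 := key x x0 hx
  have k2 := key x' x0' hx'
  have k3 := key (x + x') (fun e => hne (by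
    rw [eq_neg_of_add_eq_zero_left e, neg_eq_iff_add_eq_zero, ← two_nsmul]
    exact Prod.ext (Subtype.ext (by simp [two])) (Prod.ext (Subtype.ext (by simp [two])) (by simp [two]))))
    (by rw [hadd, ρ4, map_mul, End.mul_apply, hx', hx])
  simp only [Prod.fst_add, Prod.snd_add, AddSubgroup.coe_add, map_add] at k3
  obtain ⟨ω, hω⟩ := G.bar.exists_ne
  have h5 : ω + ω ^ 2 = 1 := G.bar.apply ω ▸ G.bar.fixed_two (G.bar.trace_fixed ω) fun e => hω (by
    linear_combination e - ω * two)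
  obtain ⟨s, t, α, h6, h7, h8⟩ := mt4_rank h1 h2 h3 h4 (G.h₂.flip_zero h2) (G.h₂.flip_one h1)
    (x := x.1 + ω * x'.1) (y := x.2.2 + ω * x'.2.2) (z := -σ x.2.2 - ω * σ x'.2.2) (w := x.2.1 + ω * x'.2.1)
    (by linear_combination (1 - ω) * k1 + (ω ^ 2 - ω) * k2 + ω * k3 + h5 + (1 - ω) * two) fun ⟨f1, f2, f3, f4⟩ => by
      rw [eq_neg_of_add_eq_zero_left f1, eq_neg_of_add_eq_zero_left f4, eq_neg_of_add_eq_zero_left f2,
        show σ (-(ω * x'.2.2)) = -(ω * σ x'.2.2) by rw [← eq_neg_of_add_eq_zero_left f2]; linear_combination -f3] at k1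
      exact one_ne_zero (α := F) (by linear_combination ω * h5 - (ω + 1) * (k1 - ω ^ 2 * k2))
  refine Φ.not_two ((hO φ).1 h) (hE' _) (hE' _) hx hx' (fun v => by rw [e6, e6]) h6 (iso s t) (ω := ω) ?_
  rw [← map_smul, ← map_add, show n x + ω • n x' = rk (s • a + t • b) α from h8 ▸ LinearMap.ext fun v => by
    simp only [n, mt4_apply, LinearMap.add_apply, LinearMap.smul_apply]
    module, ← (T i).κ_eq]
  exact (T i).swap.range_τ _ h7

theorem sum_bad (O : Finset (M4 F V)) (hO : ∀ φ, φ ∈ O ↔ BadU T H i φ) : ∑ φ ∈ O, φ = 0 := by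
  have G := Φ.gd i
  obtain ⟨w, w0, hw⟩ := G.h₂.exists_isotropic (by have := G.three; omega)
  obtain ⟨w', hw', hww⟩ := G.h₂.exists_hyperbolic w0 hw
  by_cases hq : 3 ≤ q
  · suffices H : ∀ u ≠ 0, β u u = 0 → ∑ φ ∈ O, φ ∈ mfil (Fin 4) ((T i).dfl u) 4 from
      eq_zero_of_mfil ((T i).span_dfl hw hw' hww) (by simp) (H w w0 hw) (H w' (fun e => by simp [e] at hww) hw')
    intro u u0 hu
    obtain ⟨p, f, hp, hF, hf, e⟩ := G.bar.exists_prime_pow
    have := Fact.mk hp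
    obtain ⟨z, hz, hzz⟩ := G.h₂.exists_perp_self_ne_zero G.three u
    obtain ⟨ω, hω⟩ := G.bar.exists_ne
    have hz' : β u (ω • z) = 0 := by simp [hz]
    obtain ⟨c, hc⟩ := G.bar.exists_trace_eq (G.h₂.self_fixed z)
    obtain ⟨c', hc'⟩ := G.bar.exists_trace_eq (G.h₂.self_fixed (ω • z))
    obtain ⟨t, ht, e₁⟩ := G.h₂.exists_eich hu hz hc
    obtain ⟨t', ht', e₂⟩ := G.h₂.exists_eich hu hz' hc'
    have hd : σ ((σ ω - ω) * β z z) = -((σ ω - ω) * β z z) := by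
      rw [map_mul, map_sub, G.bar.bar_bar, G.h₂.self_fixed]; ring
    obtain ⟨s, -, e₃⟩ := G.h₂.exists_tv hu hd
    obtain ⟨u', hu'⟩ := (T i).r₂.exists_one u0
    have R : ∀ {z c t}, β u z = 0 → IsEich β u z c t → (T i).Rad u ((T i).kron 1 t) := fun {z c t} hz ht =>
      (TF.rad_kron (z := -z) hu' (ht.fix hu (G.h₂.flip_zero hz)) fun y hy => by simp [ht y, hy, sub_eq_add_neg]).1
    obtain ⟨a, ha⟩ := exists_ne (0 : W)
    have : Nontrivial V := ⟨_, _, (T i).tm_ne_zero ha u0⟩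
    refine sum_mem_heisU hu p (skw σ) (c := f) (by rw [← e]; exact G.bar.card_trace_zero.ge) ?_ (G.le (G.su t ht))
      (G.le (G.su t' ht')) (R hz e₁) (R hz' e₂) (d := ⟨_, hd⟩)
      (fun e => mul_ne_zero (sub_ne_zero.2 hω) hzz (congrArg Subtype.val e)) ?_ O
      (fun a φ h => (hO _).2 (((hO _).1 h).map (G.tu_mem hu a.2) ((T i).unip_κ'_mem_KS hu _)))
      (fun φ h => (hO _).2 (((hO _).1 h).map (G.su t ht) ((T i).kron_mem_KS _ _)))
      (fun φ h => (hO _).2 (((hO _).1 h).map (G.su t' ht') ((T i).kron_mem_KS _ _)))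
      fun φ h a e => Subtype.ext (Φ.free ((hO φ).1 h) u0 hu a e)
    · by_contra hc
      have h2 := hp.two_le
      obtain ⟨rfl, h3⟩ : f = 1 ∧ p - 1 = 1 := mul_eq_one.1 (le_antisymm (by omega) (Nat.mul_pos hf (by omega)))
      rw [pow_one] at e
      omega
    · rw [TF.tu_eq hu e₃, (T i).kron_mul, (T i).kron_mul, (T i).kron_mul]
      congr 1
      ext y
      simp only [LinearEquiv.mul_apply, e₁ _, e₂ _, e₃ _, map_add, map_sub, map_smul, map_smulₛₗ, hu, hz,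
        G.h₂.flip_zero hz, smul_eq_mul, LinearMap.smul_apply]
      module
  have h2 : q = 2 := by have := G.bar.two_le; omega
  obtain ⟨v, v0, hv, e⟩ := (polar_of_isHerm G.h₂).exists_sing_perp (m := 2) (G.ex.resolve_left hq) ![w, w']
  have e1 : β w v = 0 := e 0
  have e2 : β w' v = 0 := e 1
  have e3 := G.h₂.flip_zero e1
  have e4 := G.h₂.flip_zero e2
  have e5 := G.h₂.flip_one hww
  obtain ⟨v', hv', e6, e7, e8⟩ : ∃ v', β v' v' = 0 ∧ β v v' = 1 ∧ β w v' = 0 ∧ β w' v' = 0 := by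
    obtain ⟨y, hy⟩ := G.h₂.exists_eq_one v0
    obtain ⟨c, hc⟩ := G.h₂.exists_add_smul_self_eq (w := y - β w y • w' - β w' y • w) hv (by simp [hy, e3, e4])
      (map_zero σ)
    exact ⟨_, hc, by simp [hy, e3, e4, hv], by simp [hww, hw, e1], by simp [hw', e5, e2]⟩
  have e9 := G.h₂.flip_one e6
  have e10 := G.h₂.flip_zero e7
  have e11 := G.h₂.flip_zero e8
  let π : End F U := rk w' (β w) + rk v' (β v)
  have hπ : ∀ y, π (π y) = π y := fun y => by simp [π, hww, e4, e6, e7]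
  refine eq_zero_of_mfil (b' := 2) (span_pfl (P := (T i).tp.A π) fun x => by
    rw [← End.mul_apply, ← map_mul, show π * π = π from LinearMap.ext hπ]) (by simp)
    (Φ.depth_two h2 hw e1 hv hww e4 e7 e6 (by simp [π, hw, e3]) (by simp [π, hv, e1]) (fun y => by simp [π, hww, e7])
      (fun y => by simp [π, e4, e6]) O hO) ?_
  rw [← map_one (T i).tp.A, ← map_sub]
  exact Φ.depth_two h2 hw' e8 hv' e5 e10 e2 e9 (by simp [π, hww, e4]) (by simp [π, e7, e6])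
    (fun y => by simp [π, hw', e8]) (fun y => by simp [π, hv', e11]) O hO

theorem sum_orb (O : Finset (M4 F V)) (hO : ∀ φ, φ ∈ O ↔ FOrbU T H φ) (i : J) : ∃ O' : Finset (M4 F V),
    (∀ φ ∈ O', ∃ T' : TL F W U V, φ = T'.swap.four ∧ TL.Comm T' (T i).toTL) ∧
      ∑ φ ∈ O, φ = (T i).swap.four + ∑ φ ∈ O', φ := by
  classical
  have h1 : (T i).swap.four ∈ O.filter fun φ => ¬ BadU T H i φ :=
    Finset.mem_filter.2 ⟨(hO _).2 ⟨i, 1, one_mem _, rfl⟩, fun ⟨j, g, _, e, hn⟩ => hn (Or.inl (TL.same_of_four e.symm))⟩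
  refine ⟨(O.filter fun φ => ¬ BadU T H i φ).erase (T i).swap.four, fun φ h => ?_, by
    rw [← Finset.sum_filter_add_sum_filter_not O (BadU T H i), Φ.sum_bad _ fun φ => Finset.mem_filter.trans
      ⟨And.right, fun h => ⟨(hO φ).2 (h.imp fun _ h => h.imp fun _ h => ⟨h.1, h.2.1⟩), h⟩⟩, zero_add,
      ← Finset.add_sum_erase _ _ h1]⟩
  rw [Finset.mem_erase, Finset.mem_filter, hO] at h
  obtain ⟨h2, ⟨j, g, hg, rfl⟩, h3⟩ := h
  exact ⟨_, rfl, (by_contra fun hn => h3 ⟨j, g, hg, rfl, hn⟩ : TL.Rel _ _).resolve_left fun h => h2 h.four⟩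

theorem exists_add {g : V ≃ₗ[F] V} (hg : g ∈ H) (i j : J) {u : U} (hu : β u u = 0) :
    ∃ a c, ((T j).toTL.mv g).tp.A (rk u (β u)) = (T i).tp.A a + (T i).tp.C c := by
  classical
  have : Finite V := Module.finite_of_finite F
  have : Finite (Dual F V) := Module.finite_of_finite F
  have : Finite (M4 F V) := Finite.of_injective _ DFunLike.coe_injective
  have := Fintype.ofFinite (M4 F V)
  obtain ⟨O₁, h1, e1⟩ := Φ.sum_orb (Finset.univ.filter (FOrbU T H)) (by simp) i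
  obtain ⟨O₀, h0, e0⟩ := (Φ.mu hg ((Φ.gd j).le hg)).sum_orb (Finset.univ.filter (FOrbU T H)) (fun φ => by
    rw [Finset.mem_filter]
    exact ⟨fun ⟨_, l, k, hk, e⟩ => ⟨l, k * g⁻¹, mul_mem hk (inv_mem hg), by
      rw [e]; conv_lhs => rw [← inv_mul_cancel_right k g]
      rfl⟩, fun ⟨l, k, hk, e⟩ => ⟨Finset.mem_univ _, l, k * g, mul_mem hk hg, e⟩⟩) j
  set T₀ := (T j).toTL.mv g
  obtain ⟨b, hb⟩ := exists_ne (0 : W)
  obtain ⟨η, hη⟩ := exists_dual_eq_one (F := F) hb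
  let ev : V → Dual F V → M4 F V → F := fun w f φ => φ ![(T₀.tm b u, 0), (w, 0), (0, β u ∘ₗ T₀.φ η), (0, f)]
  obtain ⟨c, hc, e2⟩ : ∃ c, (T i).tp.Cm c ∧ ∀ w f, ev w f (∑ φ ∈ O₁, φ) = f (c w) :=
    Finset.sum_induction _ (fun φ => ∃ c, (T i).tp.Cm c ∧ ∀ w f, ev w f φ = f (c w))
      (fun _ _ ⟨c, hc, e⟩ ⟨c', hc', e'⟩ => ⟨c + c', fun a => (hc a).add_right (hc' a), fun w f => by
        rw [LinearMap.add_apply, map_add, ← e, ← e']; rfl⟩) ⟨0, fun a => Commute.zero_right _, fun w f => by simp [ev]⟩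
      fun φ h => by
        obtain ⟨T', rfl, h'⟩ := h1 φ h
        exact ⟨_, h' _, fun w f => T'.four_eq _ _ _ _⟩
  obtain ⟨c, rfl⟩ := (T i).tp.exists_C hc
  refine ⟨(T i).swap.ptr (β u ∘ₗ T₀.φ η) (T₀.tm b u), c, LinearMap.ext fun w => eq_of_dual (F := F) fun f => ?_⟩
  have h3 : ev w f (∑ φ ∈ O₀, φ) = 0 := by
    rw [show ev w f (∑ φ ∈ O₀, φ) = ∑ φ ∈ O₀, ev w f φ from sum_apply _ _ _]
    refine Finset.sum_eq_zero fun φ h => ?_
    obtain ⟨T', rfl, h'⟩ := h0 φ h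
    obtain ⟨c, hc⟩ := T₀.tp.exists_C (h' (T'.swap.ptr f w))
    rw [show ev w f T'.swap.four = _ from T'.four_eq' _ _ _ _, hc, T₀.C_tm]
    simp [T₀.φ_tm, hu]
  have h4 := congrArg (ev w f) (e0.symm.trans e1)
  rw [show ∀ φ ψ, ev w f (φ + ψ) = ev w f φ + ev w f ψ from fun _ _ => rfl,
    show ∀ φ ψ, ev w f (φ + ψ) = ev w f φ + ev w f ψ from fun _ _ => rfl, h3, e2, add_zero] at h4
  rw [LinearMap.add_apply, map_add, ← (T i).four_eq, ← T₀.ptr_tm hη, ← T₀.four_eq]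
  exact h4

/-- The group permutes the factors. -/
theorem exists_same {g : V ≃ₗ[F] V} (hg : g ∈ H) (j : J) : ∃ i, TL.Same ((T j).toTL.mv g) (T i).toTL := by
  have G := (Φ.gd j).mu hg
  set T₀ := (T j).mu g ((Φ.gd j).le hg)
  have h3 := G.three
  obtain ⟨u, u0, hu⟩ := G.h₂.exists_isotropic (by omega)
  have key : ∀ i, T₀.tu hu 1 ∈ (T i).KS := fun i => by
    obtain ⟨a, c, e⟩ := Φ.exists_add hg i j hu
    exact (T i).unip_mem_KS (Or.inr h3) _ ((T₀.κ_eq _ _).trans e)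
      (by rw [T₀.range_κ' u0]; exact (T₀.swap.finrank_M u0).le)
  by_contra hn
  push Not at hn
  have h1 : ∀ i, TL.Comm T₀.toTL (T i).toTL := fun i =>
    ((Φ.mu hg _).rel (Φ.gd i) (i := j) u0 hu one_ne_zero (key i)).symm.resolve_left (hn i)
  refine TL.Same.not_comm (T := T₀.toTL) (T' := T₀.toTL) (by omega) (fun a => ⟨a, rfl⟩) fun a => ?_
  obtain ⟨c, hc⟩ := Φ.fr.centre _ fun i => h1 i a
  exact hc ▸ fun b => (Commute.one_right _).smul_right c

end GFU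

end CL.Sp
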