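import Cfsg.Agent.Cls.WU3
import Cfsg.Agent.Cls.WS7

set_option autoImplicit false
set_option linter.unusedSectionVars false

/-!
Frames of unitary tensor factors, part 4: a new element in a unipotent radical yields the special unitary group.
-/

namespace CL.Sp

open Module CL.SLn CL.TW CL.Uni
open LinearMap.GeneralLinearGroup (ofLinearEquiv)

variable {F U W V : Type*} [Field F] [AddCommGroup U] [Module F U] [AddCommGroup W] [Module F W]
  [AddCommGroup V] [Module F V] {σ : F →+* F} {q : ℕ} {β : U →ₛₗ[σ] U →ₗ[F] F} {γ : W →ₛₗ[σ] W →ₗ[F] F}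
  {B : V →ₛₗ[σ] V →ₗ[F] F} {T : TF σ 1 1 1 γ β B} {H : Subgroup (V ≃ₗ[F] V)}

namespace OvU

variable (O : OvU q T H)

/-- The maps `s` with `1 + s ⊗ ι_u ∈ H`. -/
def ZU (_ : OvU q T H) : AddSubgroup (End F W) where
  carrier := {s | ∀ u (hu : β u u = 0), s ∈ T.ZA H hu}
  zero_mem' _ _ := zero_mem _
  add_mem' h h' u hu := add_mem (h u hu) (h' u hu)
  neg_mem' h u hu := neg_mem (h u hu)

/-- The maps induced by the elements of the radicals. -/
def AU : Submodule F (End F W) where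
  carrier := {s | ∀ u w, β u u = 0 → β u w = 0 → s ∘ₗ T.ψ' w ∈ T.RD H u}
  zero_mem' u w _ _ := by rw [LinearMap.zero_comp]; exact zero_mem _
  add_mem' h h' u w hu e := by rw [LinearMap.add_comp]; exact add_mem (h u w hu e) (h' u w hu e)
  smul_mem' a s h u w hu e := by
    convert h u (σ a • w) hu (by simp [e]) using 1
    ext; simp [T.ψ'_smul, O.bar.bar_bar]

/-- The span of `ZU`. -/
def SZ : Submodule F (End F W) where
  carrier := {s | ∃ s' : End F W, (∀ a b, γ (s a) b = γ a (s' b)) ∧ ∀ l : F, l • s - σ l • s' ∈ O.ZU}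
  zero_mem' := ⟨0, by simp, fun l => by simp⟩
  add_mem' := by
    rintro s t ⟨s', h1, h2⟩ ⟨t', h3, h4⟩
    exact ⟨s' + t', fun a b => by simp [h1, h3], fun l => by convert add_mem (h2 l) (h4 l) using 1; module⟩
  smul_mem' := by
    rintro c s ⟨s', h1, h2⟩
    exact ⟨σ c • s', fun a b => by simp [h1], fun l => by simpa only [smul_smul, map_mul] using h2 (l * c)⟩

/-- The left multipliers of `AU`. -/
def MU : Subalgebra F (End F W) where
  carrier := {c | ∀ s ∈ O.AU, c * s ∈ O.AU}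
  mul_mem' h h' s hs := by rw [mul_assoc]; exact h _ (h' s hs)
  add_mem' h h' s hs := by rw [add_mul]; exact add_mem (h s hs) (h' s hs)
  algebraMap_mem' c s hs := by rw [← Algebra.smul_def]; exact O.AU.smul_mem c hs

theorem ZU_conj {a : W ≃ₗ[F] W} (ha : T.kron a 1 ∈ H) {s : End F W} (h : s ∈ O.ZU) : cnj a s ∈ O.ZU := fun u hu => by
  simpa using TF.ZA_conj (h u hu) ha (one_mem _) hu (one_smul F u).symm

theorem AU_conj {a : W ≃ₗ[F] W} (ha : T.kron a 1 ∈ H) {s : End F W} (h : s ∈ O.AU) : cnj a s ∈ O.AU :=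
  fun u w hu e => by
  convert TF.RD_conj O.le (h u w hu e) (inv_mem ha) (α := a⁻¹) fun b => by simp [T.kron_inv, T.kron_tm] using 1
  ext x
  simp [cnj_apply, T.kron_inv, T.ψ'_kron _ (one_mem _)]

theorem MU_conj {a : W ≃ₗ[F] W} (ha : T.kron a 1 ∈ H) {c : End F W} (h : c ∈ O.MU) : cnj a c ∈ O.MU := fun s hs => by
  have h1 : T.kron a⁻¹ 1 ∈ H := by simpa [T.kron_inv] using inv_mem ha
  convert O.AU_conj ha (h _ (O.AU_conj h1 hs)) using 1
  ext; simp [cnj_apply]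

variable [FiniteDimensional F U]

include O in
theorem exists_pair : ∃ u v, β u u = 0 ∧ β v v = 0 ∧ β u v = 1 := by
  obtain ⟨u, u0, hu⟩ := O.h₂.exists_isotropic (by have := O.three; omega)
  obtain ⟨v, hv⟩ := O.h₂.exists_hyperbolic u0 hu
  exact ⟨u, v, hu, hv⟩

theorem SZ_conj {a : W ≃ₗ[F] W} (ha : T.kron a 1 ∈ H) {s : End F W} (h : s ∈ O.SZ) : cnj a s ∈ O.SZ := by
  obtain ⟨s', h1, h2⟩ := h
  obtain ⟨u, v, -, -, e⟩ := O.exists_pair
  have h3 : a ∈ UG γ := fun x y => by simpa [T.kron_tm, T.B_tm, e] using O.le ha (T.tm x u) (T.tm y v)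
  refine ⟨cnj a s', fun x y => by simp [cnj_apply, UG_apply_left h3, UG_apply_right h3, h1], fun l => ?_⟩
  convert O.ZU_conj ha (h2 l) using 1
  ext; simp [cnj_apply]

theorem mem_ZU {u : U} (u0 : u ≠ 0) (hu : β u u = 0) {A : End F W} (hA : A ∈ T.ZA H hu) {c : F} (hc : σ c = c) :
    c • A ∈ O.ZU := fun v hv => by
  obtain ⟨l, rfl⟩ := O.bar.exists_norm_eq hc
  by_cases h0 : l • v = 0
  · rcases smul_eq_zero.1 h0 with rfl | rfl
    · simp
    · exact ⟨1, one_mem _, by simp⟩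
  obtain ⟨t, ht, e⟩ := O.exists_move u0 h0 hu (by simp [hv])
  exact TF.ZA_conj hA (O.su t ht) ht.1 hv e

theorem mem_SZ {z : End F W} (hz : z ∈ O.ZU) : z ∈ O.SZ := by
  obtain ⟨u, v, hu, -, e⟩ := O.exists_pair
  refine ⟨-z, fun a b => by simpa using TF.ZA_skew O.le e (hz u hu) a b, fun l => ?_⟩
  convert O.mem_ZU (fun h => by simp [h] at e) hu (hz u hu) (O.bar.trace_fixed l) using 1
  module

theorem one_mem_AU : 1 ∈ O.AU := fun u w hu h => by
  by_cases u0 : u = 0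
  · exact u0 ▸ ⟨1, one_mem _, ⟨fun _ => rfl, fun x _ => by simp⟩, by simp⟩
  obtain ⟨t, ht, R⟩ := O.exists_rad u0 hu h
  exact ⟨_, O.su t ht, R⟩

theorem mem_MU {z : End F W} (hz : z ∈ O.ZU) (h2 : ∀ a, z (z a) = 0) : z ∈ O.MU := fun s hs => by
  obtain ⟨μ, μ0, hμ⟩ := O.bar.exists_trace_zero
  refine (O.AU.smul_mem_iff (neg_ne_zero.2 μ0)).1 fun u w hu e => ?_
  by_cases u0 : u = 0
  · exact u0 ▸ ⟨1, one_mem _, ⟨fun _ => rfl, fun x _ => by simp⟩, by simp⟩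
  obtain ⟨v, hv, huv⟩ := O.h₂.exists_hyperbolic u0 hu
  obtain ⟨k₁, h₁, e₁⟩ := hz (v + μ • u) (by simp [hu, hv, huv, T.flip_one huv, hμ])
  obtain ⟨k₂, h₂, e₂⟩ := neg_mem hz v hv
  obtain ⟨k₃, h₃, e₃⟩ := neg_mem hz (μ • u) (by simp [hu])
  have e1 : ∀ x, (k₁ * (k₂ * k₃)) x = x + μ • (T.tm (z (T.ψ' v x)) u - T.tm (z (T.ψ' u x)) v) := fun x => by
    simp only [LinearEquiv.mul_apply, e₁, e₂, e₃, T.ψ'_add, T.ψ'_smul, map_add, T.ψ_tm, LinearMap.smul_apply, map_smul,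
      h2, smul_zero, map_zero, LinearMap.zero_apply, LinearMap.add_apply, LinearMap.neg_apply, map_neg, hμ, neg_zero]
    module
  have hk := mul_mem h₁ (mul_mem h₂ h₃)
  generalize k₁ * (k₂ * k₃) = k at e1 hk
  refine TF.RD_congr (sub_mem (TF.RD_conj O.le (hs u w hu e) hk (α := unip z h2 μ) fun a => by
    simp [e1, T.ψ_tm, hu, T.flip_one huv, unip_apply]) (hs u w hu e)) fun x hx => ?_
  simp [unip_inv, unip_apply, e1, hx, T.ψ_tm, T.r₂.flip0 e]

variable [FiniteDimensional F W] [Nontrivial W]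

theorem gd_or : GdU q T H ∨ ∃ z ∈ O.ZU, ∀ c : F, z ≠ c • 1 := by
  refine or_iff_not_imp_right.2 fun hc => ⟨O, fun u u0 hu h hh R => ?_⟩
  push Not at hc
  have hZ : ∀ A ∈ T.ZA H hu, ∃ c : F, ∀ a, A a = c • a := fun A hA => by
    obtain ⟨c, e⟩ := hc _ (O.mem_ZU u0 hu hA (map_one σ))
    exact ⟨c, fun a => by simpa using LinearMap.congr_fun e a⟩
  obtain ⟨t, ht, A, hA⟩ := O.exists_central u0 hu hZ (O.le hh) R fun t ht =>
    mul_mem (mul_mem (inv_mem hh) (O.su t ht)) hh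
  obtain ⟨s, hs⟩ := hZ A ⟨_, mul_mem (inv_mem (O.su t ht)) hh, hA⟩
  have := mul_mem (T.kron_mem_KS 1 t) (TF.mem_KS_of_smul hu (s := s) fun x => by rw [hA, hs])
  rwa [mul_inv_cancel_left] at this

variable (hA : ∀ s, s ∈ O.AU)
include hA

theorem mem_ZU_of_skew {z : End F W} (hz : ∀ a b, γ (z a) b = -γ a (z b)) : z ∈ O.ZU := by
  obtain ⟨u, v, hu, -, e⟩ := O.exists_pair
  obtain ⟨w, w', h1, h2, h3⟩ := T.r₂.exists_pair_perp O.three hu e
  obtain ⟨l, hl⟩ := O.bar.exists_trace_one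
  obtain ⟨A, h4, h5⟩ := TF.exists_comm_ψ O.le hu e (hA (-l • z) u w hu h1) h2 (hA 1 u w' hu h2)
  rw [show z = (1 : F) • A from LinearMap.ext fun a => O.h₁.ext_right fun b => by
    simp only [one_smul, h5, LinearMap.comp_apply, T.ψ_tm, h3, LinearMap.smul_apply, map_smulₛₗ, hz, smul_eq_mul,
      map_neg, map_one, RingHom.id_apply]
    linear_combination -γ b (z a) * hl]
  exact O.mem_ZU (fun h => by simp [h] at e) hu h4 (map_one σ)

theorem SUG_le [FiniteDimensional F V] : SUG B ≤ H := by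
  have hc : ∀ c u, β u u = 0 → T.tm c u ∈ UCen B H := fun c u hu => ⟨by simp [T.B_tm, hu], fun μ g hμ hg => by
    obtain ⟨k, hk, e⟩ := O.mem_ZU_of_skew hA (z := μ • (γ c).smulRight c) (fun a b => by
      simp only [LinearMap.smul_apply, LinearMap.smulRight_apply, map_smulₛₗ, smul_eq_mul, hμ, O.h₁.symm,
        RingHom.id_apply]
      ring) u hu
    rwa [show g = k from LinearEquiv.ext fun x => by simp [hg x, e, T.B_ψ, mul_smul]]⟩
  obtain ⟨u, v, hu, hv, e⟩ := O.exists_pair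
  obtain ⟨c, c0⟩ := exists_ne (0 : W)
  obtain ⟨c', hcc⟩ := T.r₁.exists_one c0
  have h1 : ∀ b y, β u y = 0 → EichIn B H (T.tm c u) (T.tm b y) := fun b y hy =>
    O.h.eichIn_of (hc c u hu).1 (by simp [T.B_tm, hy]) fun κ g hg hg' => by
      obtain ⟨k, hk, -, e'⟩ := hA (-(γ b).smulRight c) u y hu hy
      obtain ⟨A, h2⟩ := TF.exists_A (T := T) e (mul_mem (inv_mem (O.le hk)) hg'.1) fun x hx => k.injective (by
        rw [LinearEquiv.mul_apply, apply_inv_apply, e' x hx, hg x]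
        simp [T.B_ψ, hx, sub_eq_add_neg])
      obtain ⟨k', hk', h3⟩ := O.mem_ZU_of_skew hA (fun a b => by
        simpa using TF.ZA_skew (hw := hu) le_rfl e ⟨_, mul_mem (inv_mem (O.le hk)) hg'.1, h2⟩ a b) u hu
      simpa [show k' = k⁻¹ * g from LinearEquiv.ext fun x => (h3 x).trans (h2 x).symm] using mul_mem hk hk'
  have h2 : ∀ b y, β u y = 0 → T.tm b y ∈ O.h.eichSub (hc c u hu) := fun b y hy =>
    ⟨by simp [T.B_tm, hy], fun a => by simpa using h1 (a • b) y hy⟩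
  refine O.h.SUG_le_of_eich (fun h => ?_) O.le (hc c u hu) (fun x hx => ?_) (hc c' v hv) (by simp [T.B_tm, hcc, e])
  · have h3 := Nat.mul_le_mul (finrank_pos (R := F) (M := W)) (O.ex.resolve_left (by omega))
    rw [← T.finrank_eq] at h3
    omega
  have h3 : T.tm (T.ψ' u x) v ∈ O.h.eichSub (hc c u hu) := by
    by_cases h0 : T.ψ' u x = 0
    · simp [h0]
    obtain ⟨b, hb⟩ := T.r₁.exists_one h0
    rw [T.B_ψ] at hx
    exact tv_step O.h O.le _ (hc _ v hv) (h2 b u hu) (by simp [T.B_tm, T.r₁.flip0 hx])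
      (by simp [T.B_tm, hb, T.flip_one e])
  simpa using (add_mem (T.mem_of_perp e h2 (x := x - T.tm (T.ψ' u x) v) (by simp [T.ψ_tm, e])) h3).2 1

end OvU

/-- `H` contains the special unitary groups of the factors and permutes the factors. -/
structure OFU (q : ℕ) {J : Type*} (T : J → TF σ 1 1 1 γ β B) (H : Subgroup (V ≃ₗ[F] V)) : Prop where
  fr : Fr fun j => (T j).tp
  ov : ∀ j, OvU q (T j) H
  pm : ∀ i l l', l ≠ i → l' ≠ i → ∃ τ ∈ H, (T i).tp.Cm (τ : End F V) ∧ ∀ a,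
    (ofLinearEquiv τ).1 * (T l).tp.A a * ((ofLinearEquiv τ)⁻¹).1 = (T l').tp.A a

namespace OFU

variable [FiniteDimensional F U] [FiniteDimensional F W] [Nontrivial U] [Nontrivial W] {J : Type*} [Fintype J]
  {T : J → TF σ 1 1 1 γ β B} (Φ : OFU q T H) {i : J}
include Φ

theorem inv {𝒮 : Submodule F (End F W)} (h𝒮 : ∀ a, (T i).kron a 1 ∈ H → ∀ s ∈ 𝒮, cnj a s ∈ 𝒮) (j : J) (hj : j ≠ i) :
    (T j).tp.Inv (SUs β) (𝒮.map (T i).tp.C.toLinearMap) := by
  rintro _ ⟨t, ht, rfl⟩ s hs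
  have e : ∀ t : U ≃ₗ[F] U, (((T j).kron 1 t : V ≃ₗ[F] V) : End F V) = (T j).tp.A t := fun t =>
    LinearMap.ext ((T j).kron_one_apply _)
  have := TL.conj_map h𝒮 ((Φ.ov j).su t ht) (e t ▸ Φ.fr.comm i j hj.symm _) hs
  rwa [show (ofLinearEquiv ((T j).kron 1 t)).1 = _ from e t,
    show ((ofLinearEquiv ((T j).kron 1 t))⁻¹).1 = (T j).tp.A (t⁻¹ : U ≃ₗ[F] U) from
      (congrArg LinearEquiv.toLinearMap ((T j).kron_inv _ _)).trans (e t⁻¹)] at this

theorem exists_not_cm {z : End F W} (h : ∀ c : F, (T i).tp.C z ≠ c • 1) : ∃ j, j ≠ i ∧ ¬ (T j).tp.Cm ((T i).tp.C z) := by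
  by_contra hc
  push Not at hc
  obtain ⟨c, e⟩ := Φ.fr.centre ((T i).tp.C z) fun j => by
    by_cases e : j = i
    exacts [e ▸ (T j).tp.cm_C z, hc j e]
  exact h c e

theorem all_mem_AU {z : End F W} (hz : z ∈ (Φ.ov i).ZU) (hn : ∀ c : F, z ≠ c • 1) (s₀ : End F W) :
    s₀ ∈ (Φ.ov i).AU := by
  classical
  have O := Φ.ov i
  have inj := (T i).tp.C_injective
  obtain ⟨j, hj, h2⟩ := Φ.exists_not_cm (i := i) (z := z) fun c e => hn c (inj (by simpa using e))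
  obtain ⟨_, rfl, h4⟩ := red_su O.h₂ O.three O.ex _ (Φ.inv (fun a ha _ => O.SZ_conj ha) j hj) _ ⟨z, O.mem_SZ hz, rfl⟩ h2
  obtain ⟨d, hd, d0⟩ := Submodule.exists_mem_ne_zero_of_ne_bot h4
  obtain ⟨x, y, hx, -, hxy⟩ := O.exists_pair
  obtain ⟨s, ⟨s', h5, h6⟩, e⟩ := hd.2 _ (sio_mem hx)
  have e1 : (T i).tp.C s = (T j).tp.A (rk x (β x)) * d := e
  have e2 : ∀ v, (T i).tp.C s v = (T j).κ' x (d v) := fun v => by rw [e1, TF.κ', (T j).κ_eq]; rfl
  have e3 : ∀ v, (T i).tp.C s v = d ((T j).κ' x v) := fun v => by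
    rw [e1, (hd.1 _).eq, TF.κ', (T j).κ_eq]; rfl
  have a1 : ∀ v w, B ((T j).κ' x v) w = B v ((T j).κ' x w) := fun v w => by
    rw [(T j).κ_apply, (T j).κ_apply, (T j).B_ψ, (T j).B_ψ', one_mul]
  have a2 : ∀ v w, B ((T i).tp.C s v) w = B v ((T i).tp.C s' w) := fun v w =>
    (T i).ind (P := fun v => B ((T i).tp.C s v) w = B v ((T i).tp.C s' w)) (by simp) (fun a y => by
      rw [(T i).C_tm, (T i).B_ψ, (T i).B_ψ, (T i).ψ_C, h5]) (fun v v' h h' => by simp [h, h']) v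
  have h7 : ∀ l : F, l • s - σ l • s' ∈ O.MU := fun l => O.mem_MU (h6 l) (LinearMap.congr_fun (inj
    (a₁ := (l • s - σ l • s') * (l • s - σ l • s')) (a₂ := 0) (LinearMap.ext fun w => by
      have k1 : ∀ w, (T j).κ' x w = 0 → (T i).tp.C (l • s - σ l • s') w = 0 := fun w hw => by
        simp [e3, hw, (T i).r.nondeg' ((T i).tp.C s' w) fun v => by rw [← a2, e2, a1, hw, map_zero]]
      rw [map_mul, map_zero]
      refine k1 _ ?_
      simp [e2, (T j).κ'_κ' hx, (T i).r.nondeg' ((T j).κ' x ((T i).tp.C s' w)) fun v => by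
        rw [← a1, ← a2, e3, (T j).κ'_κ' hx]; simp])))
  obtain ⟨ω, hω⟩ := O.bar.exists_ne
  have h8 : s ∈ O.MU := by
    convert O.MU.smul_mem (sub_mem (O.MU.smul_mem (h7 1) (σ ω)) (h7 ω)) (σ ω - ω)⁻¹ using 1
    rw [eq_inv_smul_iff₀ (sub_ne_zero.2 hω), map_one]
    module
  obtain ⟨l, hl, h9⟩ := Φ.exists_not_cm (i := i) (z := s) (St.ne_smul_one (fun e' => d0 ((T j).tp.eq_zero_of_A_mul
    (fun e => by simpa [hxy, show x ≠ 0 from fun h => by simp [h] at hxy] using LinearMap.congr_fun e y) hd.1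
    (e1 ▸ e'))) (LinearMap.ext fun v => by rw [End.mul_apply, e3, e2, (T j).κ'_κ' hx, map_zero]; rfl))
  have h10 := Φ.fr.A_mem (fun j => red_su_gen (T := (T j).tp) O.h₂ O.three O.ex) (Finset.univ.erase i)
    (O.MU.map (T i).tp.C) (fun m hm => by
      obtain rfl : m = i := by simpa using hm
      rintro _ ⟨c, -, rfl⟩
      exact (T m).tp.cm_C c) (fun m hm => Φ.inv (𝒮 := O.MU.toSubmodule) (fun a ha _ => O.MU_conj ha) m (by simpa using hm))
    (j := l) (by simpa using hl) ⟨s, h8, rfl⟩ h9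
  obtain ⟨c, hc, e⟩ := Φ.fr.mem_of_cm (O.MU.map (T i).tp.C) (Finset.univ.erase i) (fun m hm a => by
    obtain ⟨τ, hτ, c1, e⟩ := Φ.pm i l m hl (by simpa using hm)
    exact e a ▸ TL.conj_map (𝒮 := O.MU.toSubmodule) (fun a ha _ => O.MU_conj ha) hτ c1 (h10 a)) ((T i).tp.C s₀)
    fun m hm => by
      obtain rfl : m = i := by simpa using hm
      exact (T m).tp.cm_C _
  simpa [inj e] using hc 1 O.one_mem_AU

theorem same_or [Finite F] [FiniteDimensional F V] :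
    (∀ g ∈ H, ∀ j, ∃ i, TL.Same ((T j).toTL.mv g) (T i).toTL) ∨ SUG B ≤ H := by
  by_cases h : ∀ j, GdU q (T j) H
  · exact Or.inl fun g hg j => GFU.exists_same ⟨Φ.fr, h⟩ hg j
  obtain ⟨i, h⟩ := not_forall.1 h
  obtain ⟨z, hz, hn⟩ := (Φ.ov i).gd_or.resolve_left h
  exact Or.inr ((Φ.ov i).SUG_le (Φ.all_mem_AU hz hn))

end OFU

end CL.Sp
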