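import Cfsg.Agent.Cls.WU4
import Cfsg.Agent.Cls.TWL6
import Cfsg.Agent.Cls.UniQ2
import Cfsg.Agent.Cls.UniMax

set_option autoImplicit false
set_option linter.unusedSectionVars false

/-!
Maximality of the stabilisers of tensor powers of unitary spaces in special unitary groups.
-/

namespace CL.Sp

open Module CL.SLn CL.TW CL.Uni Cfsg Cfsg.Geo Matrix
open LinearMap.GeneralLinearGroup (ofLinearEquiv toLinearEquiv)

theorem exists_not_same {F U W V : Type*} [Field F] [AddCommGroup U] [Module F U] [AddCommGroup W] [Module F W]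
    [AddCommGroup V] [Module F V] {σ : F →+* F} {q : ℕ} {β : U →ₛₗ[σ] U →ₗ[F] F} {γ : W →ₛₗ[σ] W →ₗ[F] F}
    {B : V →ₛₗ[σ] V →ₗ[F] F} [FiniteDimensional F U] [FiniteDimensional F W] [FiniteDimensional F V] {J : Type*}
    {T : J → TF σ 1 1 1 γ β B} (fr : Fr fun j => (T j).tp) (hβ : IsHerm β q) (hB : IsHerm B q) (h2 : 2 ≤ finrank F U)
    (h3 : 2 ≤ finrank F W) (i : J) : ∃ g ∈ SUG B, ∀ j, ¬ TL.Same ((T i).toTL.mv g) (T j).toTL := by
  obtain ⟨u, u0, hu⟩ := hβ.exists_isotropic h2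
  obtain ⟨v, hv, e⟩ := hβ.exists_hyperbolic u0 hu
  have := nontrivial_of_finrank_pos (R := F) (M := W) (by omega)
  obtain ⟨c, c0⟩ := exists_ne (0 : W)
  obtain ⟨c', hc⟩ := (T i).r₁.exists_one c0
  obtain ⟨y, hy, y0⟩ := Submodule.exists_mem_ne_zero_of_ne_bot (p := LinearMap.ker (γ c)) fun h => by
    have := LinearMap.finrank_le_finrank_of_injective (LinearMap.ker_eq_bot.1 h)
    rw [finrank_self] at this
    omega
  obtain ⟨μ, μ0, hμ⟩ := hβ.bar.exists_trace_zero
  obtain ⟨g, hg, t⟩ := hB.exists_tv (v := (T i).tm c u) (by simp [(T i).B_tm, hu]) hμ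
  have v0 : v ≠ 0 := fun h => by simp [h] at e
  refine ⟨g, hg, fun j h => ?_⟩
  have h4 : ∀ a, ∃ a', ∀ w, g ((T i).tp.A a w) = (T j).tp.A a' (g w) := fun a => (h a).imp fun a' h w => by
    simpa [TL.mv_A] using LinearMap.congr_fun h (g w)
  by_cases hj : j = i
  · subst hj
    obtain ⟨a, ha⟩ := h4 (rk v (β v))
    have h5 : ∀ x, a x = β v x • v := fun x => (T j).tm_injective y0 (by
      simpa [t _, TL.A_tm, (T j).B_tm, LinearMap.mem_ker.1 hy] using (ha ((T j).tm y x)).symm)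
    have := ha ((T j).tm c' v)
    simp [t _, TL.A_tm, (T j).B_tm, h5, hv, hc, e, (T j).flip_one e] at this
    exact ((T j).tm_eq_zero ((smul_eq_zero.1 this.symm).resolve_left μ0)).elim c0 v0
  obtain ⟨a, ha⟩ := h4 (rk u (β u))
  have h5 : (T i).tp.A (rk u (β u)) = (T j).tp.A a := LinearMap.ext fun w => by
    obtain ⟨w, rfl⟩ := g.surjective w
    rw [← ha]
    simp [t _, TL.A_rk, (T i).B_tm, (T i).ψ_tm, hu]
  have := LinearMap.congr_fun (h5 ▸ fr.comm i j (Ne.symm hj) a (rk v (β v))).eq ((T i).tm c u)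
  simp [TL.A_tm, hu, e, (T i).flip_one e] at this
  exact ((T i).tm_eq_zero this.symm).elim c0 u0

variable {F : Type*} [Field F] {n q k t : ℕ} {σ : F →+* F}

theorem exists_frameU [Nontrivial (Fin k)] (h : IsBar σ q) {e : Fin n ≃ (Fin (t + 1) → Fin k)} {P : GL (Fin n) F}
    {f₁ : (Fin k → F) → (Fin k → F) → F} (hf₁ : IsUnitaryFormPow q f₁)
    (hT : IsTensorPowerFormStructure (fun x : F => x ^ q) (hermForm n F q) f₁ e P) :
    ∃ β γ, IsHerm β q ∧ ∃ T : Fin (t + 1) → TF σ 1 1 1 γ β (stdB σ (Fin n)),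
      (∀ j, (T j).tp = wT e P j) ∧ ∀ π, toLinearEquiv (pmU e P π) ∈ UG (stdB σ (Fin n)) := by
  obtain ⟨c, -, hc⟩ := hT
  have h0 := isSesq_of_isUnitaryFormPow h hf₁
  have r₂ := rf_of_herm (h0.isHerm h)
  have r := rf_of_herm (isHerm_stdB h (Fin n))
  obtain ⟨u, hu⟩ := exists_ne (0 : Fin k → F)
  obtain ⟨v, hv⟩ := r₂.exists_one hu
  let γ := ((stdB σ (Fin n)).comp ((wT e P 0).tm u)).compl₂ ((wT e P 0).tm v)
  have h2 := fun j a y a' y' => (hermForm_eq h _ _).symm.trans
    (form_wT (f := hermForm n F q) (σ := fun x => x ^ q) hc (fun a b => mul_pow a b q) j y' y a' a)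
  have h3 : ∀ y y', ∑ a, ∑ b, y' a * gramMatrix f₁ a b * y b ^ q = h0.isSL.toSesq y y' := fun y y' => by
    rw [CL.Asch.IsSL.toSesq_apply, h0.isSL.eq_formOfGram]
    simp [formOfGram, h.apply]
  have h1 : ∀ j a y a' y', stdB σ (Fin n) ((wT e P j).tm y a) ((wT e P j).tm y' a') =
      γ a a' * h0.isSL.toSesq y y' := fun j a y a' y' => by
    rw [h2, h3, mul_comm]
    exact congrArg (· * _) ((h2 0 a u a' v).trans (by rw [h3, hv, one_mul])).symm
  have r₁ : RF σ 1 γ := ⟨h.bar_bar, by simp, fun x y => by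
    have := r.symm ((wT e P 0).tm v x) ((wT e P 0).tm u y)
    rw [h1, h1, r₂.symm u v, hv] at this
    simpa using this, fun x hx => ((wT e P 0).tm_eq_zero (r.nondeg _ (LinearMap.congr_fun
      ((wT e P 0).ext_tm (g := 0) fun y a => by rw [h1, hx, zero_mul]; rfl)))).resolve_left hu⟩
  exact ⟨_, γ, h0.isHerm h, fun j => { E := (wT e P j).flip.E, r₁ := r₁, r₂ := r₂, r := r, form := h1 j }, fun j =>
    congrArg TP.mk (LinearEquiv.toLinearMap_injective (TensorProduct.ext' fun _ _ => rfl)), fun π x y =>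
      (hermForm_eq h _ _).symm.trans ((form_pmU (f := hermForm n F q) hc π y x).trans (hermForm_eq h _ _))⟩

/-- The stabiliser of a unitary tensor power is maximal in the special unitary group. -/
theorem isMaximalIn_SU_wreath [Fintype F] (hF : Fintype.card F = q ^ 2) (hk : 3 ≤ k) (ht : 2 ≤ t)
    (hex : ¬ (q = 2 ∧ k = 3)) (e : Fin n ≃ (Fin t → Fin k)) (P : GL (Fin n) F)
    {f₁ : (Fin k → F) → (Fin k → F) → F} (hf₁ : IsUnitaryFormPow q f₁)
    (hT : IsTensorPowerFormStructure (fun x : F => x ^ q) (hermForm n F q) f₁ e P) :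
    IsMaximalIn (GU n F q ⊓ specialLinear (Fin n) F)
      (tensorWreathSubgroup k t e P ⊓ (GU n F q ⊓ specialLinear (Fin n) F)) := by
  obtain ⟨t, rfl⟩ : ∃ s, t = s + 1 := ⟨t - 1, by omega⟩
  have := Fin.nontrivial_iff_two_le.2 (show 2 ≤ k by omega)
  have h := isBar_bar hF
  have hB := isHerm_stdB h (Fin n)
  obtain ⟨β, γ, hβ, T, hT, hp⟩ := exists_frameU h hf₁ hT
  have h2 : 3 ≤ finrank F (Fin k → F) := by simpa using hk
  have fr : Fr fun j => (T j).tp := funext hT ▸ wT_fr e P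
  have e1 : ∀ g, g ∈ (tensorWreathSubgroup k (t + 1) e P).comap (glEquiv (Fin n) F).symm.toMonoidHom ↔
      ofLinearEquiv g ∈ PermG (wT e P) := fun g => by
    rw [← show GeneralLinearGroup.toLin ((glEquiv _ F).symm g) = ofLinearEquiv g from MulEquiv.apply_symm_apply _ _,
      ← mem_tensorWreath_iff]
    rfl
  refine isMaximalIn_SU_of h (H' := (tensorWreathSubgroup k (t + 1) e P).comap (glEquiv (Fin n) F).symm.toMonoidHom)
    (fun A _ => Iff.of_eq (congrArg (· ∈ tensorWreathSubgroup k (t + 1) e P) ((glEquiv (Fin n) F).symm_apply_apply A)))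
    ?_ fun M h1 hM g hg hg' => ?_
  · obtain ⟨g, hg, h3⟩ := exists_not_same fr hβ hB (by omega) (by
      simpa using (show 2 ≤ k by omega).trans (Nat.le_self_pow (by omega) k)) 0
    refine ⟨g, hg, fun h4 => ?_⟩
    obtain ⟨π, h5⟩ := (e1 g).1 h4
    simp only [← hT] at h5
    exact h3 _ (h5 0)
  have Φ : OFU q T M := ⟨fr, fun j => ⟨h, hM.trans SUG_le_UG, fun s hs => h1 ⟨(e1 _).2 (by
      rw [show ofLinearEquiv ((T j).kron 1 s) = (wT e P j).Au (ofLinearEquiv s) from
        Units.ext (LinearMap.ext fun x => hT j ▸ (T j).kron_one_apply s x)]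
      exact (wT_fr e P).Au_mem_permG _ _), mem_SUG.2 ⟨(T j).kron_mem_UG' (one_mem _) hs.1, by
        rw [dt_apply, TL.det_kron, ← dt_apply, ← dt_apply, (mem_SUG.1 hs).2, map_one, one_pow, one_pow, one_mul]⟩⟩,
      h2, by have := h.two_le; simp only [finrank_fin_fun]; omega⟩, fun i l l' hl hl' => by
    have c1 := fun j a => (Units.mul_inv_eq_iff_eq_mul _).1 (pmU_conj e P (Equiv.swap l l') j a)
    have c2 := Equiv.swap_apply_of_ne_of_ne hl.symm hl'.symm
    obtain ⟨c, hc⟩ := TL.mem_KS_of_cm (T := (T i).toTL) (g := toLinearEquiv (pmU e P (Equiv.swap l l'))) fun a => by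
      have := c1 i a
      rw [c2] at this
      exact hT i ▸ this.symm
    have c3 : toLinearEquiv (pmU e P (Equiv.swap l l')) * toLinearEquiv (pmU e P (Equiv.swap l l')) = 1 := by
      have := CL.TWL.pmU_mul e P 1 1
      rw [mul_one, left_eq_mul] at this
      rw [← LinearMap.GeneralLinearGroup.toLinearEquiv_mul, ← CL.TWL.pmU_mul, Equiv.swap_mul_self, this]
      rfl
    obtain ⟨y, y0⟩ := exists_ne (0 : Fin k → F)
    have c4 : dt c * dt c = 1 := by
      rw [← map_mul, show c * c = 1 from LinearEquiv.ext fun a => (T i).tm_left_injective y0 (by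
        simpa [hc, (T i).kron_tm] using LinearEquiv.congr_fun c3 ((T i).tm a y)), map_one]
    obtain ⟨s, hs, c5, c6⟩ := hB.exists_scalar (a := dt c) (by rcases mul_self_eq_one_iff.1 c4 with h | h <;> simp [h])
    have c7 : ∀ j a, (ofLinearEquiv (s * toLinearEquiv (pmU e P (Equiv.swap l l')))).1 * (wT e P j).A a *
        ((ofLinearEquiv (s * toLinearEquiv (pmU e P (Equiv.swap l l'))))⁻¹).1 = (wT e P (Equiv.swap l l' j)).A a :=
      fun j a => by
      rw [Units.mul_inv_eq_iff_eq_mul, show (ofLinearEquiv (s * toLinearEquiv (pmU e P (Equiv.swap l l')))).1 =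
        dt c • (pmU e P (Equiv.swap l l')).1 from LinearMap.ext fun x => c5 _, smul_mul_assoc, c1, mul_smul_comm]
    refine ⟨_, h1 ⟨(e1 _).2 (mem_permG _ fun j a => ⟨a, c7 j a⟩), mem_SUG.2 ⟨mul_mem hs (hp _), ?_⟩⟩, fun a => ?_,
      fun a => by rw [hT, hT, c7, Equiv.swap_apply_left]⟩
    · have e2 := Fintype.card_congr e
      simp only [Fintype.card_pi, Fintype.card_fin, Finset.prod_const, Finset.card_univ] at e2
      obtain ⟨m, hm⟩ : Even (k ^ (t + 1) + k) := Nat.even_add.2 (Nat.even_pow' t.succ_ne_zero)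
      rw [map_mul, c6, hc, dt_apply (TL.kron ..), TL.det_kron, ← dt_apply, ← dt_apply, map_one, one_pow, mul_one,
        finrank_fin_fun, finrank_fin_fun, ← pow_add, e2, hm, pow_add, ← mul_pow, c4, one_pow]
    · have := c7 i a
      rw [c2, Units.mul_inv_eq_iff_eq_mul] at this
      exact hT i ▸ this.symm⟩
  refine Φ.same_or.resolve_left fun h3 => hg' ((e1 g).2 ((wT_fr e P).mem_permG (by omega) fun j => ?_))
  simp only [← hT]
  exact h3 g hg j

end CL.Sp
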